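import Cfsg.Agent.S3377
import Cfsg.Agent.Lib.H16.SL25Rec

/-! Subgroups isomorphic to `A₅`: generating pairs with `x³ = y⁵ = (xy)² = 1`. -/

set_option autoImplicit false

namespace Cfsg.Agent.H11.A5Pairs

open Cfsg.Agent.S3377 Cfsg.Agent.H16.Enum

variable {P : Type*} [Group P]

/-- the relators -/
def RR : Set (FreeGroup (Fin 2)) := {FreeGroup.of (0 : Fin 2) ^ 3, FreeGroup.of (1 : Fin 2) ^ 5,
        (FreeGroup.of (0 : Fin 2) * FreeGroup.of 1) ^ 2}

theorem rr_alt : ∀ r ∈ RR, FreeGroup.lift (![xA, yA] : Fin 2 → alternatingGroup (Fin 5)) r = 1 := by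
  intro r hr
  rcases hr with rfl | rfl | rfl
  · simp only [map_pow, FreeGroup.lift_apply_of]
    decide +kernel
  · simp only [map_pow, FreeGroup.lift_apply_of]
    decide +kernel
  · simp only [map_pow, map_mul, FreeGroup.lift_apply_of]
    decide +kernel

/-- the hom from the presented group to `A₅` -/
noncomputable def FF : PresentedGroup RR →* alternatingGroup (Fin 5) := PresentedGroup.toGroup rr_alt

theorem FF_bij : Function.Bijective FF := by
  classical
  have hF : ∀ a : ℕ, FF (gOf RR a) = qq a := by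
    intro a
    exact PresentedGroup.toGroup.of rr_alt
  have hrel : ∀ r ∈ rls, ev (gOf RR) r = 1 := by
    intro r hr
    have mk1 : ∀ x ∈ RR, PresentedGroup.mk RR x = 1 := fun x hx =>
      PresentedGroup.mk_eq_one_iff.2 (Subgroup.subset_normalClosure hx)
    have e0 : gOf RR 0 = PresentedGroup.mk RR (FreeGroup.of (0 : Fin 2)) := rfl
    have e1 : gOf RR 1 = PresentedGroup.mk RR (FreeGroup.of (1 : Fin 2)) := rfl
    have r1 : gOf RR 0 ^ 3 = 1 := by
      rw [e0, ← map_pow]
      exact mk1 _ (Or.inl rfl)
    have r2 : gOf RR 1 ^ 5 = 1 := by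
      rw [e1, ← map_pow]
      exact mk1 _ (Or.inr (Or.inl rfl))
    have r3 : (gOf RR 0 * gOf RR 1) ^ 2 = 1 := by
      rw [e0, e1, ← map_mul, ← map_pow]
      exact mk1 _ (Or.inr (Or.inr rfl))
    simp only [rls, List.mem_cons, List.not_mem_nil, or_false] at hr
    rcases hr with rfl | rfl | rfl
    · simp only [ev, mul_one]
      calc _ = gOf RR 0 ^ 3 := by simp only [pow_succ, pow_zero, one_mul, mul_assoc]
        _ = 1 := r1
    · simp only [ev, mul_one]
      calc _ = gOf RR 1 ^ 5 := by simp only [pow_succ, pow_zero, one_mul, mul_assoc]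
        _ = 1 := r2
    · simp only [ev, mul_one]
      calc _ = (gOf RR 0 * gOf RR 1) ^ 2 := by simp only [pow_succ, pow_zero, one_mul, mul_assoc]
        _ = 1 := r3
  have hlet : ∀ r ∈ rls, ∀ a ∈ r, a < 2 := by decide +kernel
  have hcard : Nat.card (alternatingGroup (Fin 5)) = 60 := by
    rw [nat_card_alternatingGroup]
    simp [Nat.factorial]
  exact bijective_of_check (t := tt) (word := wd) (tree := treeL) (ded := dedL) (N := 60) hrel hlet hcheck
    (by decide +kernel) (by norm_num) (closure_gOf RR) FF hcard (by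
      simp only [hF]
      exact hsep)

/-- the equivalence -/
noncomputable def FE : PresentedGroup RR ≃* alternatingGroup (Fin 5) := MulEquiv.ofBijective FF FF_bij

theorem FE_symm_x : FE.symm xA = PresentedGroup.of (0 : Fin 2) := by
  rw [MulEquiv.symm_apply_eq]
  exact (PresentedGroup.toGroup.of rr_alt (x := (0 : Fin 2))).symm

theorem FE_symm_y : FE.symm yA = PresentedGroup.of (1 : Fin 2) := by
  rw [MulEquiv.symm_apply_eq]
  exact (PresentedGroup.toGroup.of rr_alt (x := (1 : Fin 2))).symm

/-- homomorphisms from `A₅` are given by pairs. -/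
theorem exists_hom (x y : P) (hx : x ^ 3 = 1) (hy : y ^ 5 = 1) (hxy : (x * y) ^ 2 = 1) :
    ∃ ψ : alternatingGroup (Fin 5) →* P, ψ xA = x ∧ ψ yA = y := by
  have hf : ∀ r ∈ RR, FreeGroup.lift (![x, y] : Fin 2 → P) r = 1 := by
    intro r hr
    rcases hr with rfl | rfl | rfl
    · simp only [map_pow, FreeGroup.lift_apply_of]
      exact hx
    · simp only [map_pow, FreeGroup.lift_apply_of]
      exact hy
    · simp only [map_pow, map_mul, FreeGroup.lift_apply_of]
      exact hxy
  refine ⟨(PresentedGroup.toGroup hf).comp FE.symm.toMonoidHom, ?_, ?_⟩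
  · show PresentedGroup.toGroup hf (FE.symm xA) = x
    rw [FE_symm_x]
    exact PresentedGroup.toGroup.of hf (x := (0 : Fin 2))
  · show PresentedGroup.toGroup hf (FE.symm yA) = y
    rw [FE_symm_y]
    exact PresentedGroup.toGroup.of hf (x := (1 : Fin 2))

/-- a pair gives a subgroup isomorphic to `A₅`. -/
theorem closure_iso (x y : P) (hx : x ^ 3 = 1) (hy : y ^ 5 = 1) (hxy : (x * y) ^ 2 = 1) (hne : x ≠ 1) :
    Nonempty (Subgroup.closure ({x, y} : Set P) ≃* alternatingGroup (Fin 5)) := by
  obtain ⟨ψ, h1, h2⟩ := exists_hom x y hx hy hxy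
  have hs : IsSimpleGroup (alternatingGroup (Fin 5)) := alternatingGroup.isSimpleGroup (by simp)
  have hinj : Function.Injective ψ := by
    rw [injective_iff_map_eq_one]
    have hk := hs.eq_bot_or_eq_top_of_normal ψ.ker (MonoidHom.normal_ker ψ)
    rcases hk with hk | hk
    · intro a ha
      have : a ∈ ψ.ker := ha
      rw [hk] at this
      exact this
    · exfalso
      apply hne
      rw [← h1]
      have : xA ∈ ψ.ker := by
        rw [hk]
        trivial
      exact this
  have hr : ψ.range = Subgroup.closure ({x, y} : Set P) := by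
    rw [MonoidHom.range_eq_map, ← Cfsg.Agent.H16.alt5_gen, MonoidHom.map_closure]
    congr 1
    rw [Set.image_pair, h1, h2]
  exact ⟨(MulEquiv.subgroupCongr hr.symm).trans (MonoidHom.ofInjective hinj).symm⟩

/-- subgroups isomorphic to `A₅` are generated by such a pair. -/
theorem exists_pair (L : Subgroup P) (h : Nonempty (L ≃* alternatingGroup (Fin 5))) :
    ∃ x y : P, x ^ 3 = 1 ∧ y ^ 5 = 1 ∧ (x * y) ^ 2 = 1 ∧ x ≠ 1 ∧ L = Subgroup.closure ({x, y} : Set P) := by
  obtain ⟨e⟩ := h
  have h3 : xA ^ 3 = 1 := by decide +kernel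
  have h5 : yA ^ 5 = 1 := by decide +kernel
  have h2 : (xA * yA) ^ 2 = 1 := by decide +kernel
  have hne : xA ≠ 1 := by decide +kernel
  refine ⟨(e.symm xA : L), (e.symm yA : L), ?_, ?_, ?_, ?_, ?_⟩
  · rw [← Subgroup.coe_pow, ← map_pow, h3, map_one, Subgroup.coe_one]
  · rw [← Subgroup.coe_pow, ← map_pow, h5, map_one, Subgroup.coe_one]
  · rw [← Subgroup.coe_mul, ← Subgroup.coe_pow, ← map_mul, ← map_pow, h2, map_one, Subgroup.coe_one]
  · intro h0
    apply hne
    have : e.symm xA = 1 := Subtype.ext h0
    simpa using this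
  · apply le_antisymm
    · intro a ha
      have h4 : e ⟨a, ha⟩ ∈ Subgroup.closure ({xA, yA} : Set (alternatingGroup (Fin 5))) := by
        rw [Cfsg.Agent.H16.alt5_gen]
        trivial
      have h6 : ∀ z : alternatingGroup (Fin 5), z ∈ Subgroup.closure ({xA, yA} : Set (alternatingGroup (Fin 5))) →
          ((e.symm z : L) : P) ∈ Subgroup.closure ({((e.symm xA : L) : P), ((e.symm yA : L) : P)} : Set P) := by
        intro z hz
        induction hz using Subgroup.closure_induction with
        | mem w hw =>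
          rcases hw with rfl | rfl
          · exact Subgroup.subset_closure (Or.inl rfl)
          · exact Subgroup.subset_closure (Or.inr rfl)
        | one => simp
        | mul a b _ _ ha hb =>
          rw [map_mul, Subgroup.coe_mul]
          exact Subgroup.mul_mem _ ha hb
        | inv a _ ha =>
          rw [map_inv, Subgroup.coe_inv]
          exact Subgroup.inv_mem _ ha
      have h7 := h6 _ h4
      simpa using h7
    · rw [Subgroup.closure_le]
      rintro _ (rfl | rfl)
      · exact (e.symm xA).2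
      · exact (e.symm yA).2

end Cfsg.Agent.H11.A5Pairs
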