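import Mathlib

set_option autoImplicit false

namespace Cfsg.Agent.H11

/-- in a finite cyclic group, `z` is an `N`-th power iff `z ^ (m / gcd(N, m)) = 1` where `m` is the order. -/
lemma exists_pow_eq_iff {G : Type*} [Group G] [Finite G] [IsCyclic G] (N : ℕ) (z : G) :
    (∃ c : G, c ^ N = z) ↔ z ^ (Nat.card G / Nat.gcd N (Nat.card G)) = 1 := by
  set m := Nat.card G with hm
  have hmpos : 0 < m := Nat.card_pos
  set g := Nat.gcd N m with hg
  have hgpos : 0 < g := Nat.gcd_pos_of_pos_right _ hmpos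
  have hgm : g ∣ m := Nat.gcd_dvd_right _ _
  have hgN : g ∣ N := Nat.gcd_dvd_left _ _
  constructor
  · rintro ⟨c, rfl⟩
    obtain ⟨N', hN'⟩ := hgN
    rw [← pow_mul]
    have : N * (m / g) = m * N' := by
      rw [hN', mul_comm g N', mul_assoc, Nat.mul_div_cancel' hgm, mul_comm]
    rw [this, pow_mul, hm, pow_card_eq_one', one_pow]
  · intro hz
    obtain ⟨γ, hγ⟩ := IsCyclic.exists_generator (α := G)
    have hord : orderOf γ = m := orderOf_eq_card_of_forall_mem_zpowers hγ
    obtain ⟨s, rfl⟩ : ∃ s : ℕ, γ ^ s = z := by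
      have hz' : z ∈ Submonoid.powers γ := (mem_powers_iff_mem_zpowers).2 (hγ z)
      exact hz'
    rw [← pow_mul] at hz
    have h1 : m ∣ s * (m / g) := by
      have := orderOf_dvd_of_pow_eq_one hz
      rwa [hord] at this
    have h2 : g ∣ s := by
      have hmg : 0 < m / g := Nat.div_pos (Nat.le_of_dvd hmpos hgm) hgpos
      have h3 : (m / g) * g ∣ s * (m / g) := by rwa [Nat.div_mul_cancel hgm]
      rw [mul_comm s] at h3
      exact Nat.dvd_of_mul_dvd_mul_left hmg h3
    obtain ⟨s', rfl⟩ := h2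
    refine ⟨γ ^ ((s' : ℤ) * Nat.gcdA N m), ?_⟩
    have hbez : (g : ℤ) = N * Nat.gcdA N m + m * Nat.gcdB N m := Nat.gcd_eq_gcd_ab N m
    rw [← zpow_natCast, ← zpow_natCast (γ) (g * s'), ← zpow_mul]
    have hone : γ ^ ((m : ℤ) * ((s' : ℤ) * Nat.gcdB N m)) = 1 := by
      rw [zpow_mul, zpow_natCast, ← hord, pow_orderOf_eq_one, one_zpow]
    have : ((g * s' : ℕ) : ℤ) = (s' : ℤ) * Nat.gcdA N m * N + m * (s' * Nat.gcdB N m) := by
      push_cast
      rw [hbez]
      ring
    rw [this, zpow_add, hone, mul_one]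

/-- `2`-adic criterion: `m / gcd(n, m)` is even iff the `2`-part of `n` is smaller than that of `m`. -/
lemma even_div_gcd_iff {n m : ℕ} (hn : n ≠ 0) (hm : m ≠ 0) :
    Even (m / Nat.gcd n m) ↔ padicValNat 2 n < padicValNat 2 m := by
  have : Fact (Nat.Prime 2) := ⟨Nat.prime_two⟩
  set g := Nat.gcd n m with hg
  have hg0 : g ≠ 0 := Nat.gcd_ne_zero_right hm
  have hgm : g ∣ m := Nat.gcd_dvd_right _ _
  have hgn : g ∣ n := Nat.gcd_dvd_left _ _
  obtain ⟨k, hk⟩ := hgm
  have hk0 : k ≠ 0 := by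
    rintro rfl
    exact hm (by simpa using hk)
  have hdiv : m / g = k := by
    rw [hk]; exact Nat.mul_div_cancel_left _ (Nat.pos_of_ne_zero hg0)
  rw [hdiv]
  have hvm : padicValNat 2 m = padicValNat 2 g + padicValNat 2 k := by
    rw [hk, padicValNat.mul hg0 hk0]
  have hvg : padicValNat 2 g = min (padicValNat 2 n) (padicValNat 2 m) := by
    have h := Nat.factorization_gcd hn hm
    have h2 := congrArg (fun f => f 2) h
    simp only [Finsupp.inf_apply, Nat.factorization_def _ Nat.prime_two] at h2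
    exact h2
  have hk_even : Even k ↔ 0 < padicValNat 2 k := by
    rw [even_iff_two_dvd]
    constructor
    · intro h
      exact Nat.pos_of_ne_zero (fun h0 => by
        have := (padicValNat_dvd_iff_le (p := 2) hk0 (n := 1)).1 (by simpa using h)
        omega)
    · intro h
      have := (padicValNat_dvd_iff_le (p := 2) hk0 (n := 1)).2 (by omega)
      simpa using this
  rw [hk_even]
  omega

end Cfsg.Agent.H11
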