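import Mathlib

set_option autoImplicit false
set_option linter.unusedSectionVars false

namespace Cfsg.Agent.H11.CentAlt

open Equiv Equiv.Perm

variable {G X : Type*} [Group G] [Finite G] [MulAction G X] [Finite X]

lemma card_orbit_le (x : X) : Nat.card (MulAction.orbit G x) ≤ Nat.card G := by
  apply Nat.card_le_card_of_surjective (fun g : G => (⟨g • x, MulAction.mem_orbit x g⟩ : MulAction.orbit G x))
  rintro ⟨y, hy⟩
  obtain ⟨g, rfl⟩ := MulAction.mem_orbit_iff.1 hy
  exact ⟨g, rfl⟩

lemma card_le_orbits : Nat.card X ≤ Nat.card (MulAction.orbitRel.Quotient G X) * Nat.card G := by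
  classical
  have : Fintype (MulAction.orbitRel.Quotient G X) := Fintype.ofFinite _
  rw [Nat.card_congr (MulAction.selfEquivSigmaOrbits G X), Nat.card_sigma,
    Nat.card_eq_fintype_card (α := MulAction.orbitRel.Quotient G X), ← smul_eq_mul,
    ← Finset.card_univ, ← Finset.sum_const]
  exact Finset.sum_le_sum (fun a _ => card_orbit_le _)

/-- many orbits with the same stabilizer yield a commuting symmetric group -/
theorem exists_perm_action (r : ℕ) (hX : Nat.card G * (r * 2 ^ Nat.card G) ≤ Nat.card X) :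
    ∃ ρ : Perm (Fin r) →* Perm X, Function.Injective ρ ∧
      ∀ (τ : Perm (Fin r)) (g : G) (x : X), ρ τ (g • x) = g • ρ τ x := by
  classical
  have : Fintype G := Fintype.ofFinite G
  have : Fintype (MulAction.orbitRel.Quotient G X) := Fintype.ofFinite _
  -- number of orbits
  have hΩ : r * 2 ^ Nat.card G ≤ Nat.card (MulAction.orbitRel.Quotient G X) := by
    have h1 := card_le_orbits (G := G) (X := X)
    have hpos : 0 < Nat.card G := Nat.card_pos
    have h2 : Nat.card G * (r * 2 ^ Nat.card G) ≤
        Nat.card G * Nat.card (MulAction.orbitRel.Quotient G X) := by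
      rw [mul_comm (Nat.card G) (Nat.card (MulAction.orbitRel.Quotient G X))]
      exact le_trans hX h1
    exact Nat.le_of_mul_le_mul_left h2 hpos
  -- pigeonhole
  let lab : MulAction.orbitRel.Quotient G X → Set G :=
    fun ω => (MulAction.stabilizer G (Quotient.out ω : X) : Set G)
  obtain ⟨L, hL⟩ := Fintype.exists_le_card_fiber_of_mul_le_card (f := lab) (n := r) (by
    rw [Fintype.card_set, ← Nat.card_eq_fintype_card, ← Nat.card_eq_fintype_card, mul_comm]
    exact hΩ)
  let fib := Finset.univ.filter (fun ω => lab ω = L)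
  let ι : Fin r → MulAction.orbitRel.Quotient G X :=
    fun i => (fib.equivFin.symm (Fin.castLE hL i)).1
  have hι : Function.Injective ι := by
    intro i j h
    have h1 := Subtype.ext h
    have h2 := fib.equivFin.symm.injective h1
    exact Fin.castLE_injective hL h2
  have hlab : ∀ i, lab (ι i) = L := fun i =>
    (Finset.mem_filter.1 (fib.equivFin.symm (Fin.castLE hL i)).2).2
  let x : Fin r → X := fun i => Quotient.out (ι i)
  have hxι : ∀ i, (Quotient.mk'' (x i) : MulAction.orbitRel.Quotient G X) = ι i :=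
    fun i => Quotient.out_eq' _
  obtain ⟨K, hK⟩ : ∃ K : Subgroup G, ∀ i, MulAction.stabilizer G (x i) = K := by
    rcases r with _ | r
    · exact ⟨⊥, fun i => i.elim0⟩
    · refine ⟨MulAction.stabilizer G (x 0), fun i => ?_⟩
      apply SetLike.coe_injective
      change lab (ι i) = lab (ι 0)
      rw [hlab, hlab]
  -- the embedding
  let gg : (G ⧸ K) × Fin r → X := fun p =>
    Quotient.liftOn' p.1 (fun h => h • x p.2) (by
      intro a b hab
      have h1 : a⁻¹ * b ∈ K := QuotientGroup.leftRel_apply.1 hab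
      rw [← hK p.2, MulAction.mem_stabilizer_iff, mul_smul, inv_smul_eq_iff] at h1
      exact h1.symm)
  have hgg : ∀ (h : G) (i : Fin r), gg ((h : G ⧸ K), i) = h • x i := fun _ _ => rfl
  have hinj : Function.Injective gg := by
    rintro ⟨q, i⟩ ⟨q', j⟩ h
    obtain ⟨a, rfl⟩ := QuotientGroup.mk_surjective q
    obtain ⟨b, rfl⟩ := QuotientGroup.mk_surjective q'
    rw [hgg, hgg] at h
    have hij : i = j := by
      apply hι
      rw [← hxι, ← hxι]
      apply Quotient.sound'
      rw [MulAction.orbitRel_apply, MulAction.mem_orbit_iff]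
      refine ⟨a⁻¹ * b, ?_⟩
      rw [mul_smul, ← h, inv_smul_smul]
    subst hij
    have h2 : a⁻¹ * b ∈ K := by
      rw [← hK i, MulAction.mem_stabilizer_iff, mul_smul, inv_smul_eq_iff]
      exact h.symm
    rw [Prod.mk.injEq]
    exact ⟨QuotientGroup.eq.2 h2, rfl⟩
  have hsmul : ∀ (g : G) (p : (G ⧸ K) × Fin r), g • gg p = gg (g • p.1, p.2) := by
    rintro g ⟨q, i⟩
    obtain ⟨a, rfl⟩ := QuotientGroup.mk_surjective q
    change g • (a • x i) = (g * a) • x i
    rw [mul_smul]
  let e : (G ⧸ K) × Fin r ↪ X := ⟨gg, hinj⟩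
  let inner : Perm (Fin r) →* Perm ((G ⧸ K) × Fin r) :=
    { toFun := fun τ => (Equiv.refl _).prodCongr τ
      map_one' := by ext p <;> rfl
      map_mul' := fun a b => by ext p <;> rfl }
  refine ⟨(viaEmbeddingHom e).comp inner, ?_, ?_⟩
  · apply (viaEmbeddingHom_injective e).comp
    intro τ τ' h
    ext i
    have h1 := congrArg (fun u : Perm ((G ⧸ K) × Fin r) => (u ((1 : G) , i)).2) h
    exact congrArg Fin.val h1
  · intro τ g y
    change viaEmbedding (inner τ) e (g • y) = g • viaEmbedding (inner τ) e y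
    by_cases hy : y ∈ Set.range e
    · obtain ⟨p, rfl⟩ := hy
      have h1 : g • e p = e (g • p.1, p.2) := hsmul g p
      rw [h1, viaEmbedding_apply, viaEmbedding_apply]
      have h2 : g • e (inner τ p) = e (g • (inner τ p).1, (inner τ p).2) := hsmul g _
      rw [h2]
      rfl
    · rw [viaEmbedding_apply_of_notMem _ _ y hy, viaEmbedding_apply_of_notMem]
      rintro ⟨p, hp⟩
      apply hy
      refine ⟨(g⁻¹ • p.1, p.2), ?_⟩
      have h1 : e (g⁻¹ • p.1, p.2) = g⁻¹ • e p := (hsmul g⁻¹ p).symm
      rw [h1, hp, inv_smul_smul]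

/-- the statement about alternating groups -/
theorem main_thm (m r : ℕ) (H : Subgroup (alternatingGroup (Fin m)))
    (hm : Nat.card H * (r * 2 ^ Nat.card H) ≤ m) :
    ∃ K : Subgroup (alternatingGroup (Fin m)), Nonempty (K ≃* alternatingGroup (Fin r)) ∧
      K ≤ Subgroup.centralizer (H : Set (alternatingGroup (Fin m))) := by
  classical
  obtain ⟨ρ, hρ, hc⟩ := exists_perm_action (G := H) (X := Fin m) r (by simpa using hm)
  have hsign : ∀ τ ∈ alternatingGroup (Fin r), ρ τ ∈ alternatingGroup (Fin m) := by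
    intro τ hτ
    rw [mem_alternatingGroup] at hτ ⊢
    by_cases hs : Function.Surjective (sign.comp ρ)
    · have h1 := eq_sign_of_surjective_hom hs
      have h2 := DFunLike.congr_fun h1 τ
      rw [MonoidHom.comp_apply] at h2
      rw [h2, hτ]
    · by_contra hne
      apply hs
      have h3 : sign (ρ τ) = -1 := (Int.units_eq_one_or _).resolve_left hne
      intro u
      rcases Int.units_eq_one_or u with rfl | rfl
      · exact ⟨1, by simp⟩
      · exact ⟨τ, h3⟩
  let ψ : alternatingGroup (Fin r) →* alternatingGroup (Fin m) :=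
    (ρ.comp (alternatingGroup (Fin r)).subtype).codRestrict _ (fun τ => hsign τ τ.2)
  have hψ : Function.Injective ψ := by
    intro a b h
    have h1 : ρ a = ρ b := congrArg Subtype.val h
    exact Subtype.ext (hρ h1)
  refine ⟨ψ.range, ⟨(MonoidHom.ofInjective hψ).symm⟩, ?_⟩
  rintro _ ⟨τ, rfl⟩
  rw [Subgroup.mem_centralizer_iff]
  intro h hh
  apply Subtype.ext
  ext x
  have h1 := hc τ ⟨h, hh⟩ x
  exact congrArg Fin.val h1.symm

end Cfsg.Agent.H11.CentAlt
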