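import Mathlib
import Cfsg.Prelude.Def_ChevStructure

/-! Word certificates in Coxeter groups: generation by the Coxeter element and reflections. -/

set_option autoImplicit false

namespace Cfsg.Agent.H11.CoxCert

variable {n : ℕ} (M : CoxeterMatrix (Fin n))

/-- evaluation of a word -/
def ev (w : List (Fin n)) : M.Group := (w.map M.simple).prod

theorem ev_nil : ev M [] = 1 := rfl

theorem ev_cons (a : Fin n) (w : List (Fin n)) : ev M (a :: w) = M.simple a * ev M w := by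
  simp [ev]

theorem ev_append (u v : List (Fin n)) : ev M (u ++ v) = ev M u * ev M v := by
  simp [ev]

theorem s_sq (a : Fin n) : M.simple a * M.simple a = 1 :=
  M.toCoxeterSystem.simple_mul_simple_self a

theorem s_rel (a b : Fin n) : (M.simple a * M.simple b) ^ M.M a b = 1 :=
  M.toCoxeterSystem.simple_mul_simple_pow a b

theorem s_inv (a : Fin n) : (M.simple a)⁻¹ = M.simple a :=
  inv_eq_of_mul_eq_one_left (s_sq M a)

theorem ev_reverse (w : List (Fin n)) : ev M w.reverse = (ev M w)⁻¹ := by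
  induction w with
  | nil => simp [ev]
  | cons a w ih =>
    rw [List.reverse_cons, ev_append, ih, ev_cons, ev_cons, ev_nil, mul_one, mul_inv_rev, s_inv]

/-- one rewriting move at the head of a word -/
def mv0 (a b : Fin n) (r : List (Fin n)) : List (Fin n) :=
  if a = b then r else
  if M.M a b = 2 then b :: a :: r else
  match r with
  | [] => [a, b]
  | c :: r' =>
    if M.M a b = 3 ∧ c = a then b :: a :: b :: r' else
    match r' with
    | [] => [a, b, c]
    | d :: r'' =>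
      if M.M a b = 4 ∧ c = a ∧ d = b then b :: a :: b :: a :: r'' else a :: b :: c :: d :: r''

/-- one rewriting move -/
def mv : ℕ → List (Fin n) → List (Fin n)
  | 0, a :: b :: r => mv0 M a b r
  | p + 1, a :: r => a :: mv p r
  | _, w => w

theorem ev_mv0 (a b : Fin n) (r : List (Fin n)) : ev M (mv0 M a b r) = ev M (a :: b :: r) := by
  have h1 : M.simple a * M.simple a = 1 := s_sq M a
  have h2 : M.simple b * M.simple b = 1 := s_sq M b
  have hinva : (M.simple a)⁻¹ = M.simple a := s_inv M a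
  have hinvb : (M.simple b)⁻¹ = M.simple b := s_inv M b
  have hrel := s_rel M a b
  unfold mv0
  split_ifs with h3 h4
  · subst h3
    rw [ev_cons, ev_cons, ← mul_assoc, h1, one_mul]
  · rw [h4] at hrel
    have h5 : M.simple b * M.simple a = M.simple a * M.simple b := by
      have : M.simple a * M.simple b * (M.simple a * M.simple b) = 1 := by rw [← sq]; exact hrel
      have h6 := eq_inv_of_mul_eq_one_left this
      rw [mul_inv_rev, hinva, hinvb] at h6
      exact h6.symm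
    rw [ev_cons, ev_cons, ev_cons, ev_cons, ← mul_assoc, ← mul_assoc, h5]
  · cases r with
    | nil => rfl
    | cons c r' =>
      simp only
      split_ifs with h7
      · obtain ⟨h8, hca⟩ := h7
        have hca' : a = c := hca.symm
        subst hca'
        rw [h8] at hrel
        have h5 : M.simple b * M.simple a * M.simple b = M.simple a * M.simple b * M.simple a := by
          have : M.simple a * M.simple b * M.simple a * (M.simple b * M.simple a * M.simple b) = 1 := by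
            rw [← hrel]
            simp only [pow_succ, pow_zero, one_mul, mul_assoc]
          have h6 := eq_inv_of_mul_eq_one_left this
          rw [mul_inv_rev, mul_inv_rev, hinva, hinvb] at h6
          rw [h6]
          simp only [mul_assoc]
        simp only [ev_cons]
        simp only [← mul_assoc]
        rw [h5]
      · cases r' with
        | nil => rfl
        | cons d r'' =>
          simp only
          split_ifs with h9
          · obtain ⟨h8, hca, hdb⟩ := h9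
            have hca' : a = c := hca.symm
            have hdb' : b = d := hdb.symm
            subst hca'
            subst hdb'
            rw [h8] at hrel
            have h5 : M.simple b * M.simple a * M.simple b * M.simple a = M.simple a * M.simple b * M.simple a * M.simple b := by
              have : M.simple a * M.simple b * M.simple a * M.simple b * (M.simple a * M.simple b * M.simple a * M.simple b) = 1 := by
                rw [← hrel]
                simp only [pow_succ, pow_zero, one_mul, mul_assoc]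
              have h6 := eq_inv_of_mul_eq_one_left this
              rw [mul_inv_rev, mul_inv_rev, mul_inv_rev, hinva, hinvb] at h6
              rw [h6]
              simp only [mul_assoc]
            simp only [ev_cons]
            simp only [← mul_assoc]
            rw [h5]
          · rfl

theorem ev_mv (p : ℕ) (w : List (Fin n)) : ev M (mv M p w) = ev M w := by
  induction p generalizing w with
  | zero =>
    match w with
    | [] => rfl
    | [a] => rfl
    | a :: b :: r => exact ev_mv0 M a b r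
  | succ p ih =>
    match w with
    | [] => rfl
    | a :: r =>
      show ev M (a :: mv M p r) = _
      rw [ev_cons, ev_cons, ih]

/-- a chain of moves -/
def chain (w : List (Fin n)) (ps : List ℕ) : List (Fin n) := ps.foldl (fun u p => mv M p u) w

theorem ev_chain (ps : List ℕ) (w : List (Fin n)) : ev M (chain M w ps) = ev M w := by
  induction ps generalizing w with
  | nil => rfl
  | cons p ps ih =>
    show ev M (chain M (mv M p w) ps) = _
    rw [ih, ev_mv]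

/-- one derivation step -/
def stepK (K : List (List (Fin n))) (s : ℕ × ℕ × List ℕ) : List (List (Fin n)) :=
  match K[s.1]?, K[s.2.1]? with
  | some u, some v => K ++ [chain M (u ++ v ++ u.reverse) s.2.2]
  | _, _ => K

/-- a derivation -/
def run (K : List (List (Fin n))) (steps : List (ℕ × ℕ × List ℕ)) : List (List (Fin n)) :=
  steps.foldl (stepK M) K

theorem run_mem (H : Subgroup M.Group) (steps : List (ℕ × ℕ × List ℕ)) (K : List (List (Fin n)))
    (hK : ∀ w ∈ K, ev M w ∈ H) : ∀ w ∈ run M K steps, ev M w ∈ H := by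
  induction steps generalizing K with
  | nil => exact hK
  | cons s steps ih =>
    apply ih
    intro w hw
    unfold stepK at hw
    split at hw
    · rename_i u v hu hv
      rw [List.mem_append, List.mem_singleton] at hw
      rcases hw with hw | rfl
      · exact hK w hw
      · rw [ev_chain, ev_append, ev_append, ev_reverse]
        have hu' := hK u (List.mem_of_getElem? hu)
        have hv' := hK v (List.mem_of_getElem? hv)
        exact H.mul_mem (H.mul_mem hu' hv') (H.inv_mem hu')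
    · exact hK w hw

theorem top_of_run (H : Subgroup M.Group) (steps : List (ℕ × ℕ × List ℕ)) (K : List (List (Fin n)))
    (hK : ∀ w ∈ K, ev M w ∈ H) (hall : ∀ i : Fin n, [i] ∈ run M K steps) : H = ⊤ := by
  rw [eq_top_iff, ← M.toCoxeterSystem.subgroup_closure_range_simple, Subgroup.closure_le]
  rintro _ ⟨i, rfl⟩
  have h := run_mem M H steps K hK _ (hall i)
  rw [ev_cons, ev_nil, mul_one] at h
  exact h

/-- the general form of the statement -/
theorem closure_eq_top (T : Finset M.Group) (ts : List (Fin n)) (hts : ∀ t ∈ ts, M.simple t ∈ T)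
    (steps : List (ℕ × ℕ × List ℕ)) (hall : ∀ i : Fin n, [i] ∈ run M (List.finRange n :: ts.map (fun t => [t])) steps) :
    Subgroup.closure (({((List.finRange n).map M.simple).prod} : Set M.Group) ∪ ↑T) = ⊤ := by
  apply top_of_run M _ steps _ _ hall
  intro w hw
  rw [List.mem_cons, List.mem_map] at hw
  rcases hw with rfl | ⟨t, ht, rfl⟩
  · exact Subgroup.subset_closure (Or.inl rfl)
  · rw [ev_cons, ev_nil, mul_one]
    exact Subgroup.subset_closure (Or.inr (hts t ht))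

def stepsE6 : List (ℕ × ℕ × List ℕ) := [(0, 1, [5,6,3,5,4,2,3,1,2,0,1]), (1, 2, []), (0, 2, [4,6,5,3,4,2,3,1,2,0,1]), (0, 3, [5,3,5,7,8,4,5,7,6,2,3,4,5,1,2,3,4,0,1,2,3]), (0, 4, [5]), (0, 5, [4,6,5,4]), (1, 7, [9,0]), (0, 6, [5,6,7,8,9,11,4,5,6,7,9,10,3,1,2,3,5,7,8,9,4,0,2,4,6,7,8,7,8,6,7,5,6,3,1,2,3,5,2,3,4,3]), (0, 8, [15,16,10,12,13,14,5,6,7,8,4,3,4,6,7,8,10,11,12,13,14,16,18,12,13,14,7,8,9,11,1,2,3,4,6,7,9,10,11,13,14,16,17,18,10,11,12,13,14,15,8,10,11,12,7,8,10,5,6,4,0,2,3,4,6,8,9,10,12,14,15,17,11,3,4,5,6,7,4]), (1, 9, [0,2,1]), (0, 10, [5,6,4,5,6,8,9,10,11,12,14,2,4,5,6,8,9,10,12,13,8,0,1,2,4,5,6,8,10,11,12,13,11,12,10,7,8,10,12,14,15,16,13,14,15,11,12,9,10,3,4,5,6,7,8,9,10,12,14,13,5,7,8,9,10,4,5,7,2,3,1,0,1,3,5,6,7,9,10,12,9,10,11,0,1,2,3,4]), (0, 11, [5,6,4,5,2,4,3,0,1,2,3]), (1, 12, [0,9]), (1, 13, [0,2,1]), (6, 14, [9,10,4,6,7,8,9,10,3,4,6,7,8,2,3,4,6,0,1,2,3,4,6,8,10,12,11,9,10,7,8,9,5,6,7,8,9,8,3,5,6,7,2,3,5,6,1,2,3,5,4,3,2,1,0])]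

def stepsE7 : List (ℕ × ℕ × List ℕ) := [(0, 1, [6,7,5,6,3,5,4,2,3,1,2,0,1]), (1, 2, []), (0, 2, [6,7,4,6,5,3,4,2,3,1,2,0,1]), (0, 3, [6,7,8,9,5,3,5,7,8,4,5,7,6,2,3,4,5,1,2,3,4,0,1,2,3]), (0, 4, [5,7,6,4,5,3,4,2,3,1,2,0,1]), (0, 5, [6,4,6,8,9,5,6,8,7,3,4,5,6,2,3,4,5,1,2,3,4,0,1,2,3]), (0, 6, [6]), (0, 7, [5,7,6,5]), (1, 9, [11,0]), (2, 10, [13,0]), (0, 8, [6,7,8,9,10,11,13,5,6,7,8,9,11,12,4,5,6,7,9,10,11,3,1,2,3,5,7,8,9,10,4,0,2,4,6,7,8,9,8,9,7,8,6,7,5,6,3,1,2,3,5,2,3,4,3]), (0, 11, [20,21,13,15,16,17,18,19,6,7,8,9,10,11,5,4,5,7,8,9,10,11,13,14,15,16,17,18,19,21,23,17,18,19,10,11,12,14,15,16,3,4,5,7,8,9,10,12,13,14,15,16,18,19,21,22,14,15,16,17,8,9,10,11,13,1,2,3,4,5,7,8,9,11,12,13,15,16,17,19,20,21,22,12,13,14,15,16,17,18,19,10,12,13,14,15,9,10,12,13,6,7,8,5,6,0,2,3,4,5,6,8,10,11,12,13,15,17,18,19,21,14,5,6,7,8,9,11,4,5,6,7,8,9,5]), (1, 12, [0,2,1]), (0, 13, [6,7,5,6,7,9,10,11,12,13,14,15,17,4,5,6,7,9,10,11,12,13,15,16,2,4,5,6,7,9,10,11,13,14,15,9,0,1,2,4,5,6,7,9,11,12,13,14,15,13,14,15,12,13,11,8,9,11,13,15,17,18,19,16,17,18,14,15,16,17,12,13,14,10,11,12,3,4,5,6,7,8,9,10,11,12,14,16,15,6,8,9,10,11,12,5,6,8,9,2,3,4,1,2,0,1,2,4,6,7,8,9,11,12,14,11,12,13,1,2,3,4,5,7,0,1,2,3,4,5]),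 (0, 14, [6,7,5,6,4,5,2,4,3,0,1,2,3]), (1, 15, [0,11]), (1, 16, [0,2,1]), (8, 17, [11,12,5,7,8,9,10,11,12,13,4,5,7,8,9,10,11,3,4,5,7,8,9,2,3,4,5,7,0,1,2,3,4,5,7,9,11,13,15,14,12,13,10,11,12,8,9,10,11,6,7,8,9,10,11,10,4,6,7,8,9,3,4,6,7,8,2,3,4,6,7,1,2,3,4,6,5,4,3,2,1,0])]

def stepsE8 : List (ℕ × ℕ × List ℕ) := [(0, 1, [7,8,6,7,5,6,3,5,4,2,3,1,2,0,1]), (1, 2, []), (0, 2, [7,8,6,7,4,6,5,3,4,2,3,1,2,0,1]), (0, 3, [7,8,9,10,6,7,8,9,5,3,5,7,8,4,5,7,6,2,3,4,5,1,2,3,4,0,1,2,3]), (0, 4, [7,8,5,7,6,4,5,3,4,2,3,1,2,0,1]), (0, 5, [7,8,9,10,6,4,6,8,9,5,6,8,7,3,4,5,6,2,3,4,5,1,2,3,4,0,1,2,3]), (0, 6, [6,8,7,5,6,4,5,3,4,2,3,1,2,0,1]), (0, 7, [7,5,7,9,10,6,7,9,8,4,5,6,7,3,4,5,6,2,3,4,5,1,2,3,4,0,1,2,3]), (0, 8, [7]), (0, 9, [6,8,7,6]), (1, 11, [13,0]), (2, 12, [15,0]), (4, 13, [17,0]), (0, 10, [7,8,9,10,11,12,13,15,6,7,8,9,10,11,13,14,5,6,7,8,9,11,12,13,4,5,6,7,9,10,11,12,3,1,2,3,5,7,8,9,10,11,4,0,2,4,6,7,8,9,10,9,10,8,9,7,8,6,7,5,6,3,1,2,3,5,2,3,4,3]),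 (0, 14, [25,26,16,18,19,20,21,22,23,24,7,8,9,10,11,12,13,14,6,5,6,8,9,10,11,12,13,14,16,17,18,19,20,21,22,23,24,26,28,22,23,24,13,14,15,17,18,19,20,21,4,5,6,8,9,10,11,12,13,15,16,17,18,19,20,21,23,24,26,27,19,20,21,22,11,12,13,14,16,17,18,3,4,5,6,8,9,10,11,12,14,15,16,17,18,20,21,22,24,25,26,16,17,18,19,20,9,10,11,12,13,15,1,2,3,4,5,6,8,9,10,11,13,14,15,17,18,19,20,22,23,24,25,26,14,15,16,17,18,19,20,21,22,23,12,14,15,16,17,18,11,12,14,15,16,7,8,9,10,6,7,8,0,2,3,4,5,6,7,8,10,12,13,14,15,16,18,20,21,22,23,25,17,7,8,9,10,11,13,14,6,7,8,9,10,11,13,5,6,7,8,9,10,11,6]), (1, 15, [0,2,1]), (0, 16, [7,8,6,7,8,10,11,12,13,14,15,16,17,18,20,5,6,7,8,10,11,12,13,14,15,16,18,19,4,5,6,7,8,10,11,12,13,14,16,17,18,2,4,5,6,7,8,10,11,12,14,15,16,17,10,0,1,2,4,5,6,7,8,10,12,13,14,15,16,17,15,16,17,18,14,15,16,13,14,12,9,10,12,14,16,18,20,21,22,19,20,21,17,18,19,20,15,16,17,18,19,13,14,15,16,11,12,13,14,3,4,5,6,7,8,9,10,11,12,13,14,16,18,17,7,9,10,11,12,13,14,6,7,9,10,11,2,3,4,5,1,2,3,0,1,2,3,5,7,8,9,10,11,13,14,16,13,14,15,2,3,4,5,6,8,9,1,2,3,4,5,6,8,0,1,2,3,4,5,6]),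 (0, 17, [7,8,6,7,5,6,4,5,2,4,3,0,1,2,3]), (1, 18, [0,13]), (1, 19, [0,2,1]), (10, 20, [13,14,6,8,9,10,11,12,13,14,15,16,5,6,8,9,10,11,12,13,14,4,5,6,8,9,10,11,12,3,4,5,6,8,9,10,2,3,4,5,6,8,0,1,2,3,4,5,6,8,10,12,14,16,18,17,15,16,13,14,15,11,12,13,14,9,10,11,12,13,7,8,9,10,11,12,13,12,5,7,8,9,10,11,4,5,7,8,9,10,3,4,5,7,8,9,2,3,4,5,7,8,1,2,3,4,5,7,6,5,4,3,2,1,0])]

def stepsD4 : List (ℕ × ℕ × List ℕ) := [(0, 1, [3,4,2,3,0,2,1]), (0, 2, [3,2,3]), (1, 4, [0,3]), (0, 5, [3,5,4,1,3,2,0,1])]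

def stepsF4 : List (ℕ × ℕ × List ℕ) := [(0, 1, [3,4,2,3,0,2,1]), (0, 2, [2,4,3,1,2,0,1])]

theorem hallE6 : ∀ i : Fin 6, [i] ∈ run CoxeterMatrix.E₆ (List.finRange 6 :: [3].map (fun t => [t])) stepsE6 := by
  decide +kernel

theorem hallE7 : ∀ i : Fin 7, [i] ∈ run CoxeterMatrix.E₇ (List.finRange 7 :: [3].map (fun t => [t])) stepsE7 := by
  decide +kernel

theorem hallE8 : ∀ i : Fin 8, [i] ∈ run CoxeterMatrix.E₈ (List.finRange 8 :: [3].map (fun t => [t])) stepsE8 := by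
  decide +kernel

theorem hallD4 : ∀ i : Fin 4, [i] ∈ run Cfsg.Lie.coxeterD4 (List.finRange 4 :: [0, 3].map (fun t => [t])) stepsD4 := by
  decide +kernel

theorem hallF4 : ∀ i : Fin 4, [i] ∈ run CoxeterMatrix.F₄ (List.finRange 4 :: [0, 2].map (fun t => [t])) stepsF4 := by
  decide +kernel

theorem one_case (t : Fin n) (steps : List (ℕ × ℕ × List ℕ))
    (hall : ∀ i : Fin n, [i] ∈ run M (List.finRange n :: [t].map (fun t => [t])) steps) :
    ∃ T : Finset M.Group, T.card = 1 ∧ (∀ x ∈ T, ∃ (g : M.Group) (i : Fin n), x = g * M.simple i * g⁻¹) ∧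
      Subgroup.closure (({((List.finRange n).map M.simple).prod} : Set M.Group) ∪ ↑T) = ⊤ := by
  refine ⟨{M.simple t}, Finset.card_singleton _, ?_, ?_⟩
  · intro x hx
    rw [Finset.mem_singleton] at hx
    exact ⟨1, t, by simp [hx]⟩
  · apply closure_eq_top M _ [t] _ steps hall
    intro a ha
    rw [List.mem_singleton] at ha
    rw [ha]
    exact Finset.mem_singleton_self _

theorem two_case (a b : Fin n) (hne : M.simple a ≠ M.simple b) (steps : List (ℕ × ℕ × List ℕ))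
    (hall : ∀ i : Fin n, [i] ∈ run M (List.finRange n :: [a, b].map (fun t => [t])) steps) :
    ∃ T : Finset M.Group, T.card = 2 ∧ (∀ x ∈ T, ∃ (g : M.Group) (i : Fin n), x = g * M.simple i * g⁻¹) ∧
      Subgroup.closure (({((List.finRange n).map M.simple).prod} : Set M.Group) ∪ ↑T) = ⊤ := by
  classical
  refine ⟨{M.simple a, M.simple b}, Finset.card_pair hne, ?_, ?_⟩
  · intro x hx
    rw [Finset.mem_insert, Finset.mem_singleton] at hx
    rcases hx with rfl | rfl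
    · exact ⟨1, a, by simp⟩
    · exact ⟨1, b, by simp⟩
  · apply closure_eq_top M _ [a, b] _ steps hall
    intro x hx
    simp only [List.mem_cons, List.not_mem_nil, or_false] at hx
    rcases hx with rfl | rfl
    · simp
    · simp

theorem rank_two (M : CoxeterMatrix (Fin 2)) :
    ∃ T : Finset M.Group, T.card = 1 ∧ (∀ x ∈ T, ∃ (g : M.Group) (i : Fin 2), x = g * M.simple i * g⁻¹) ∧
      Subgroup.closure (({((List.finRange 2).map M.simple).prod} : Set M.Group) ∪ ↑T) = ⊤ := by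
  refine ⟨{M.simple 0}, Finset.card_singleton _, ?_, ?_⟩
  · intro x hx
    rw [Finset.mem_singleton] at hx
    exact ⟨1, 0, by simp [hx]⟩
  · rw [eq_top_iff, ← M.toCoxeterSystem.subgroup_closure_range_simple, Subgroup.closure_le]
    set H := Subgroup.closure (({((List.finRange 2).map M.simple).prod} : Set M.Group) ∪ ↑({M.simple 0} : Finset M.Group)) with hH
    have h0 : M.simple 0 ∈ H := Subgroup.subset_closure (Or.inr (by simp))
    have hc : M.simple 0 * M.simple 1 ∈ H := by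
      have : ((List.finRange 2).map M.simple).prod ∈ H := Subgroup.subset_closure (Or.inl rfl)
      have h2 : List.finRange 2 = [0, 1] := by decide
      rw [h2] at this
      simpa using this
    have h1 : M.simple 1 ∈ H := by
      have := H.mul_mem (H.inv_mem h0) hc
      simpa using this
    rintro _ ⟨i, rfl⟩
    fin_cases i
    · exact h0
    · exact h1

/-- a hom to separate simple reflections in type `D₄` -/
def fD4 : Fin 4 → Equiv.Perm (Fin 4) := ![Equiv.swap 0 1, Equiv.swap 1 2, Equiv.swap 2 3, Equiv.swap 2 3]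

theorem ne_D4 : Cfsg.Lie.coxeterD4.simple 0 ≠ Cfsg.Lie.coxeterD4.simple 3 := by
  intro h
  have hf : CoxeterMatrix.IsLiftable Cfsg.Lie.coxeterD4 fD4 := by
    intro i j
    revert i j
    decide +kernel
  have h1 := Cfsg.Lie.coxeterD4.toCoxeterSystem.lift_apply_simple hf 0
  have h2 := Cfsg.Lie.coxeterD4.toCoxeterSystem.lift_apply_simple hf 3
  have h3 : Cfsg.Lie.coxeterD4.toCoxeterSystem.simple 0 = Cfsg.Lie.coxeterD4.toCoxeterSystem.simple 3 := h
  rw [h3, h2] at h1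
  revert h1
  decide +kernel

/-- a hom to separate simple reflections in type `F₄` -/
def fF4 : Fin 4 → Equiv.Perm (Fin 4) := ![Equiv.swap 0 1, Equiv.swap 0 1, 1, 1]

theorem ne_F4 : CoxeterMatrix.F₄.simple 0 ≠ CoxeterMatrix.F₄.simple 2 := by
  intro h
  have hf : CoxeterMatrix.IsLiftable CoxeterMatrix.F₄ fF4 := by
    intro i j
    revert i j
    decide +kernel
  have h1 := CoxeterMatrix.F₄.toCoxeterSystem.lift_apply_simple hf 0
  have h2 := CoxeterMatrix.F₄.toCoxeterSystem.lift_apply_simple hf 2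
  have h3 : CoxeterMatrix.F₄.toCoxeterSystem.simple 0 = CoxeterMatrix.F₄.toCoxeterSystem.simple 2 := h
  rw [h3, h2] at h1
  revert h1
  decide +kernel

theorem main (c : (Σ n : ℕ, CoxeterMatrix (Fin n)) × ℕ)
    (hc : c ∈ [(⟨2, CoxeterMatrix.B 2⟩, 1), (⟨2, CoxeterMatrix.G₂⟩, 1), (⟨4, Cfsg.Lie.coxeterD4⟩, 2), (⟨4, CoxeterMatrix.F₄⟩, 2),
      (⟨6, CoxeterMatrix.E₆⟩, 1), (⟨7, CoxeterMatrix.E₇⟩, 1), (⟨8, CoxeterMatrix.E₈⟩, 1)]) :
    ∃ T : Finset c.1.2.Group, T.card = c.2 ∧ (∀ t ∈ T, ∃ (g : c.1.2.Group) (i : Fin c.1.1), t = g * c.1.2.simple i * g⁻¹) ∧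
      Subgroup.closure (({((List.finRange c.1.1).map c.1.2.simple).prod} : Set c.1.2.Group) ∪ ↑T) = ⊤ := by
  simp only [List.mem_cons, List.not_mem_nil, or_false] at hc
  rcases hc with rfl | rfl | rfl | rfl | rfl | rfl | rfl
  · exact rank_two _
  · exact rank_two _
  · exact two_case _ 0 3 ne_D4 _ hallD4
  · exact two_case _ 0 2 ne_F4 _ hallF4
  · exact one_case _ 3 _ hallE6
  · exact one_case _ 3 _ hallE7
  · exact one_case _ 3 _ hallE8

end Cfsg.Agent.H11.CoxCert
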