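import Mathlib
import Cfsg.Prelude.Def_Classical

set_option autoImplicit false

namespace Cfsg.Agent.H11

open Cfsg Module

/-- the space -/
abbrev V2 (m : ℕ) := Fin m ⊕ Fin m → ZMod 2

variable {m : ℕ}

/-- the polar form of the plus form over the field with two elements -/
def fP (u v : V2 m) : ZMod 2 := ∑ i, (u (Sum.inl i) * v (Sum.inr i) + v (Sum.inl i) * u (Sum.inr i))

lemma fP_spec (u v : V2 m) : Cfsg.quadFormPlus m (ZMod 2) (u + v) - Cfsg.quadFormPlus m (ZMod 2) u - Cfsg.quadFormPlus m (ZMod 2) v = fP u v := by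
  simp only [Cfsg.quadFormPlus, fP, Pi.add_apply]
  rw [← Finset.sum_sub_distrib, ← Finset.sum_sub_distrib]
  apply Finset.sum_congr rfl
  intro i _
  ring

lemma fP_add_left (u u' v : V2 m) : fP (u + u') v = fP u v + fP u' v := by
  simp only [fP, Pi.add_apply]
  rw [← Finset.sum_add_distrib]
  apply Finset.sum_congr rfl
  intro i _
  ring

lemma fP_comm (u v : V2 m) : fP u v = fP v u := by
  simp only [fP]
  apply Finset.sum_congr rfl
  intro i _
  ring

lemma fP_add_right (u v v' : V2 m) : fP u (v + v') = fP u v + fP u v' := by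
  rw [fP_comm, fP_add_left, fP_comm v, fP_comm v']

lemma fP_self (u : V2 m) : fP u u = 0 := by
  simp only [fP]
  apply Finset.sum_eq_zero
  intro i _
  rw [← two_mul]
  have : (2 : ZMod 2) = 0 := by decide
  rw [this, zero_mul]

lemma fP_zero_left (v : V2 m) : fP 0 v = 0 := by
  simp [fP]

lemma fP_nondeg {x : V2 m} (hx : x ≠ 0) : ∃ v, fP v x = 1 := by
  classical
  obtain ⟨j, hj⟩ : ∃ j, x j ≠ 0 := by
    by_contra hcon
    push Not at hcon
    exact hx (funext hcon)
  have hj1 : x j = 1 := by
    generalize x j = a at hj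
    revert a
    decide
  rcases j with j | j
  · refine ⟨Pi.single (Sum.inr j) 1, ?_⟩
    simp only [fP]
    rw [Finset.sum_eq_single j]
    · simp [hj1]
    · intro i _ hi
      simp [Pi.single_apply, hi]
    · simp
  · refine ⟨Pi.single (Sum.inl j) 1, ?_⟩
    simp only [fP]
    rw [Finset.sum_eq_single j]
    · simp [hj1]
    · intro i _ hi
      simp [Pi.single_apply, hi]
    · simp

/-- the sign character -/
def chi (x : ZMod 2) : ℤ := if x = 0 then 1 else -1

lemma chi_add (a b : ZMod 2) : chi (a + b) = chi a * chi b := by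
  revert a b
  decide

lemma chi_zero : chi 0 = 1 := rfl

lemma chi_one : chi 1 = -1 := rfl

/-- the quadratic functions polarizing to `fP` -/
def PolF (q : V2 m → ZMod 2) : Prop := ∀ u v, q (u + v) = q u + q v + fP u v

lemma polF_iff (q : V2 m → ZMod 2) : (∀ u v : V2 m, q (u + v) = q u + q v + (Cfsg.quadFormPlus m (ZMod 2) (u + v) - Cfsg.quadFormPlus m (ZMod 2) u - Cfsg.quadFormPlus m (ZMod 2) v)) ↔ PolF q := by
  simp only [fP_spec, PolF]

lemma PolF.map_zero {q : V2 m → ZMod 2} (hq : PolF q) : q 0 = 0 := by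
  have h := hq 0 0
  rw [add_zero, fP_self] at h
  have h2 : ∀ a : ZMod 2, a = a + a + 0 → a = 0 := by decide
  exact h2 _ h

/-- sum of the character over a nonzero linear function -/
lemma sum_chi_eq_zero {ι : Type*} [Fintype ι] [AddGroup ι] (l : ι → ZMod 2) (hl : ∀ a b, l (a + b) = l a + l b) (v₀ : ι) (h0 : l v₀ = 1) :
    ∑ v, chi (l v) = 0 := by
  have h1 : ∑ v, chi (l (v + v₀)) = ∑ v, chi (l v) :=
    Fintype.sum_equiv (Equiv.addRight v₀) _ _ (fun _ => rfl)
  have h2 : ∑ v, chi (l (v + v₀)) = - ∑ v, chi (l v) := by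
    rw [← Finset.sum_neg_distrib]
    apply Finset.sum_congr rfl
    intro v _
    rw [hl, h0, chi_add, chi_one]
    ring
  omega

/-- the Gauss sum -/
def gaussS (q : V2 m → ZMod 2) : ℤ := ∑ v, chi (q v)

lemma gaussS_sq {q : V2 m → ZMod 2} (hq : PolF q) : (gaussS q) ^ 2 = 4 ^ m := by
  classical
  have h1 : (gaussS q) ^ 2 = ∑ x : V2 m, ∑ v : V2 m, chi (q x) * chi (fP v x) := by
    rw [sq, gaussS, Finset.sum_mul_sum]
    -- change of variables `u = v + x`
    have : ∀ v : V2 m, ∑ u : V2 m, chi (q u) * chi (q v) = ∑ x : V2 m, chi (q x) * chi (fP v x) := by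
      intro v
      rw [← Fintype.sum_equiv (Equiv.addLeft v) (fun x : V2 m => chi (q (v + x)) * chi (q v)) (fun u => chi (q u) * chi (q v)) (fun _ => rfl)]
      apply Finset.sum_congr rfl
      intro x _
      rw [hq, chi_add, chi_add]
      have hv : chi (q v) * chi (q v) = 1 := by
        have : ∀ a : ZMod 2, chi a * chi a = 1 := by decide
        exact this _
      calc chi (q v) * chi (q x) * chi (fP v x) * chi (q v) = (chi (q v) * chi (q v)) * (chi (q x) * chi (fP v x)) := by ring
        _ = _ := by rw [hv, one_mul]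
    rw [Finset.sum_comm]
    simp only [this]
    rw [Finset.sum_comm]
  rw [h1, Finset.sum_eq_single (0 : V2 m)]
  · simp only [hq.map_zero, chi_zero, one_mul]
    have : ∀ v : V2 m, fP v (0 : V2 m) = 0 := fun v => by
      rw [fP_comm, fP_zero_left]
    simp only [this, chi_zero, Finset.sum_const, Finset.card_univ]
    simp only [Fintype.card_pi, Fintype.card_sum, Fintype.card_fin, ZMod.card, Finset.prod_const,
      Finset.card_univ, smul_eq_mul, mul_one, nsmul_eq_mul]
    push_cast
    rw [pow_add]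
    rw [← mul_pow]
    norm_num
  · intro x _ hx
    obtain ⟨v₀, hv₀⟩ := fP_nondeg hx
    rw [← Finset.mul_sum, sum_chi_eq_zero (fun v => fP v x) (fun a b => fP_add_left a b x) v₀ hv₀, mul_zero]
  · simp

lemma gaussS_ne_zero {q : V2 m → ZMod 2} (hq : PolF q) : gaussS q ≠ 0 := by
  intro h
  have := gaussS_sq hq
  rw [h] at this
  have h4 : (0 : ℤ) < 4 ^ m := by positivity
  simp only [ne_eq, OfNat.ofNat_ne_zero, not_false_eq_true, zero_pow] at this
  omega

end Cfsg.Agent.H11
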