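import Mathlib
import Cfsg.Prelude.Def_Classical
import Cfsg.Agent.S2561

/-! The quadratic space of even subsets modulo complementation. -/

set_option linter.unusedSectionVars false

namespace Cfsg.Agent.H11.EvenSub

open Module

variable {N : ℕ}

abbrev A (N : ℕ) := Fin N → ZMod 2

def wt (v : A N) : ℕ := ∑ i, (v i).val

def ov (u v : A N) : ℕ := ∑ i, (u i * v i).val

def dotp (u v : A N) : ZMod 2 := ∑ i, u i * v i

theorem val_id : ∀ a b : ZMod 2, (a + b).val + 2 * (a * b).val = a.val + b.val := by decide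

theorem wt_add (u v : A N) : wt (u + v) + 2 * ov u v = wt u + wt v := by
  unfold wt ov
  rw [Finset.mul_sum, ← Finset.sum_add_distrib, ← Finset.sum_add_distrib]
  exact Finset.sum_congr rfl (fun i _ => val_id (u i) (v i))

theorem cast_wt (v : A N) : ((wt v : ℕ) : ZMod 2) = ∑ i, v i := by
  unfold wt
  push_cast
  exact Finset.sum_congr rfl (fun i _ => ZMod.natCast_zmod_val (v i))

theorem cast_ov (u v : A N) : ((ov u v : ℕ) : ZMod 2) = dotp u v := by
  unfold ov dotp
  push_cast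
  exact Finset.sum_congr rfl (fun i _ => ZMod.natCast_zmod_val (u i * v i))

/-- the even vectors -/
def sumL (N : ℕ) : A N →ₗ[ZMod 2] ZMod 2 where
  toFun v := ∑ i, v i
  map_add' u v := by simp [Finset.sum_add_distrib]
  map_smul' c v := by simp [Finset.mul_sum]

def E (N : ℕ) : Submodule (ZMod 2) (A N) := LinearMap.ker (sumL N)

theorem mem_E {v : A N} : v ∈ E N ↔ ∑ i, v i = 0 := LinearMap.mem_ker

theorem two_dvd_wt {v : A N} (h : v ∈ E N) : 2 ∣ wt v := by
  rw [← ZMod.natCast_eq_zero_iff, cast_wt]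
  exact mem_E.1 h

def Qt (v : A N) : ZMod 2 := ((wt v / 2 : ℕ) : ZMod 2)

theorem sub2 : ∀ a b c : ZMod 2, a + b = c → a = c + b := by decide

theorem Qt_add {u v : A N} (hu : u ∈ E N) (hv : v ∈ E N) : Qt (u + v) = Qt u + Qt v + dotp u v := by
  obtain ⟨a, ha⟩ := two_dvd_wt hu
  obtain ⟨b, hb⟩ := two_dvd_wt hv
  obtain ⟨c, hc⟩ := two_dvd_wt ((E N).add_mem hu hv)
  have h1 := wt_add u v
  have h2 : c + ov u v = a + b := by omega
  unfold Qt
  rw [ha, hb, hc, Nat.mul_div_cancel_left _ (by norm_num), Nat.mul_div_cancel_left _ (by norm_num),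
    Nat.mul_div_cancel_left _ (by norm_num), ← cast_ov]
  have h3 := congrArg (fun n : ℕ => (n : ZMod 2)) h2
  simp only [Nat.cast_add] at h3
  exact sub2 _ _ _ h3

theorem dotp_add_left (u u' v : A N) : dotp (u + u') v = dotp u v + dotp u' v := by
  unfold dotp
  rw [← Finset.sum_add_distrib]
  exact Finset.sum_congr rfl (fun i _ => add_mul _ _ _)

theorem dotp_comm (u v : A N) : dotp u v = dotp v u := by
  unfold dotp
  exact Finset.sum_congr rfl (fun i _ => mul_comm _ _)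

theorem dotp_add_right (u v v' : A N) : dotp u (v + v') = dotp u v + dotp u v' := by
  rw [dotp_comm, dotp_add_left, dotp_comm v, dotp_comm v']

/-- the all-ones vector -/
def one1 (N : ℕ) : A N := fun _ => 1

theorem one1_mem (hN : 2 ∣ N) : one1 N ∈ E N := by
  rw [mem_E]
  simp only [one1, Finset.sum_const, Finset.card_univ, Fintype.card_fin, nsmul_eq_mul, mul_one]
  exact (ZMod.natCast_eq_zero_iff _ 2).2 hN

theorem wt_one1 : wt (one1 N) = N := by
  simp [wt, one1, ZMod.val_one]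

theorem Qt_one1 (hN : 4 ∣ N) : Qt (one1 N) = 0 := by
  unfold Qt
  rw [wt_one1]
  obtain ⟨c, rfl⟩ := hN
  rw [show 4 * c / 2 = 2 * c by omega]
  exact (ZMod.natCast_eq_zero_iff _ 2).2 (Dvd.intro _ rfl)

theorem dotp_one1 (v : A N) : dotp v (one1 N) = ∑ i, v i := by
  simp [dotp, one1]

theorem Qt_add_one {v : A N} (hN : 4 ∣ N) (hv : v ∈ E N) : Qt (v + one1 N) = Qt v := by
  rw [Qt_add hv (one1_mem (dvd_trans (by norm_num) hN)), Qt_one1 hN, dotp_one1, mem_E.1 hv]
  simp

/-- the action -/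
def perm (σ : Equiv.Perm (Fin N)) : A N →ₗ[ZMod 2] A N where
  toFun v := fun i => v (σ⁻¹ i)
  map_add' _ _ := rfl
  map_smul' _ _ := rfl

theorem perm_apply (σ : Equiv.Perm (Fin N)) (v : A N) (i : Fin N) : perm σ v i = v (σ⁻¹ i) := rfl

theorem perm_mem (σ : Equiv.Perm (Fin N)) {v : A N} (h : v ∈ E N) : perm σ v ∈ E N := by
  rw [mem_E] at h ⊢
  rw [← h]
  exact Equiv.sum_comp σ⁻¹ v

theorem perm_one1 (σ : Equiv.Perm (Fin N)) : perm σ (one1 N) = one1 N := rfl

theorem wt_perm (σ : Equiv.Perm (Fin N)) (v : A N) : wt (perm σ v) = wt v :=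
  Equiv.sum_comp σ⁻¹ (fun i => (v i).val)

theorem Qt_perm (σ : Equiv.Perm (Fin N)) (v : A N) : Qt (perm σ v) = Qt v := by
  unfold Qt
  rw [wt_perm]

theorem perm_mul (σ τ : Equiv.Perm (Fin N)) (v : A N) : perm (σ * τ) v = perm σ (perm τ v) := by
  funext i
  simp [perm_apply]

theorem perm_one (v : A N) : perm 1 v = v := by
  funext i
  simp [perm_apply]

/-- the quotient space -/
def oneE (hN : 4 ∣ N) : E N := ⟨one1 N, one1_mem (dvd_trans (by norm_num) hN)⟩

abbrev UU (hN : 4 ∣ N) : Submodule (ZMod 2) (E N) := Submodule.span (ZMod 2) {oneE hN}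

abbrev VV (hN : 4 ∣ N) : Type := E N ⧸ UU hN

theorem zmod2_cases : ∀ a : ZMod 2, a = 0 ∨ a = 1 := by decide

theorem mem_UU (hN : 4 ∣ N) (x : E N) : x ∈ UU hN ↔ x = 0 ∨ x = oneE hN := by
  rw [Submodule.mem_span_singleton]
  constructor
  · rintro ⟨a, rfl⟩
    rcases zmod2_cases a with rfl | rfl
    · simp
    · simp
  · rintro (rfl | rfl)
    · exact ⟨0, by simp⟩
    · exact ⟨1, by simp⟩

theorem add_self_E (x : A N) : x + x = 0 := by
  funext i
  exact CharTwo.add_self_eq_zero (x i)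

theorem mk_eq_iff (hN : 4 ∣ N) (x y : E N) :
    (Submodule.Quotient.mk x : VV hN) = Submodule.Quotient.mk y ↔ x = y ∨ x.1 = y.1 + one1 N := by
  rw [Submodule.Quotient.eq, mem_UU]
  constructor
  · rintro (h | h)
    · left
      exact sub_eq_zero.1 h
    · right
      have h1 : x.1 - y.1 = one1 N := congrArg Subtype.val h
      rw [← h1]
      abel
  · rintro (h | h)
    · left
      rw [h, sub_self]
    · right
      apply Subtype.ext
      change x.1 - y.1 = one1 N
      rw [h]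
      abel

/-- the quadratic form on the quotient -/
def QV (hN : 4 ∣ N) : VV hN → ZMod 2 :=
  Quotient.lift (fun x : E N => Qt x.1) (by
    intro x y h
    have h1 : (Submodule.Quotient.mk x : VV hN) = Submodule.Quotient.mk y := Quotient.sound h
    rcases (mk_eq_iff hN x y).1 h1 with h2 | h2
    · rw [h2]
    · change Qt x.1 = Qt y.1
      rw [h2]
      exact Qt_add_one hN y.2)

theorem QV_mk (hN : 4 ∣ N) (x : E N) : QV hN (Submodule.Quotient.mk x) = Qt x.1 := rfl

/-- the polar form on the quotient -/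
def BV (hN : 4 ∣ N) (x y : VV hN) : ZMod 2 := QV hN (x + y) + QV hN x + QV hN y

theorem BV_mk (hN : 4 ∣ N) (x y : E N) :
    BV hN (Submodule.Quotient.mk x) (Submodule.Quotient.mk y) = dotp x.1 y.1 := by
  unfold BV
  rw [← Submodule.Quotient.mk_add, QV_mk, QV_mk, QV_mk]
  change Qt (x.1 + y.1) + _ + _ = _
  rw [Qt_add x.2 y.2]
  have : ∀ a b c : ZMod 2, a + b + c + a + b = c := by decide
  exact this _ _ _

instance (hN : 4 ∣ N) : Finite (VV hN) := Module.finite_of_finite (ZMod 2)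

noncomputable instance (hN : 4 ∣ N) : Fintype (VV hN) := Fintype.ofFinite _

noncomputable instance : Fintype (E N) := Fintype.ofFinite _

theorem mk_surj (hN : 4 ∣ N) (x : VV hN) : ∃ y : E N, x = Submodule.Quotient.mk y := by
  obtain ⟨y, rfl⟩ := Submodule.Quotient.mk_surjective _ x
  exact ⟨y, rfl⟩

/-- the quadratic form structure. -/
noncomputable def QF (hN : 4 ∣ N) : QuadraticForm (ZMod 2) (VV hN) where
  toFun := QV hN
  toFun_smul a x := by
    obtain ⟨y, rfl⟩ := mk_surj hN x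
    rcases zmod2_cases a with rfl | rfl
    · rw [zero_smul, smul_eq_mul, mul_zero, zero_mul]
      have : (0 : VV hN) = Submodule.Quotient.mk 0 := rfl
      rw [this, QV_mk]
      simp [Qt, wt]
    · simp
  exists_companion' := by
    refine ⟨LinearMap.mk₂ (ZMod 2) (BV hN) ?_ ?_ ?_ ?_, ?_⟩
    · intro x x' y
      obtain ⟨x, rfl⟩ := mk_surj hN x
      obtain ⟨x', rfl⟩ := mk_surj hN x'
      obtain ⟨y, rfl⟩ := mk_surj hN y
      rw [← Submodule.Quotient.mk_add, BV_mk, BV_mk, BV_mk]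
      exact dotp_add_left _ _ _
    · intro c x y
      obtain ⟨x, rfl⟩ := mk_surj hN x
      obtain ⟨y, rfl⟩ := mk_surj hN y
      rcases zmod2_cases c with rfl | rfl
      · rw [zero_smul, smul_eq_mul, zero_mul]
        have : (0 : VV hN) = Submodule.Quotient.mk 0 := rfl
        rw [this, BV_mk]
        simp [dotp]
      · simp
    · intro x y y'
      obtain ⟨x, rfl⟩ := mk_surj hN x
      obtain ⟨y, rfl⟩ := mk_surj hN y
      obtain ⟨y', rfl⟩ := mk_surj hN y'
      rw [← Submodule.Quotient.mk_add, BV_mk, BV_mk, BV_mk]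
      exact dotp_add_right _ _ _
    · intro c x y
      obtain ⟨x, rfl⟩ := mk_surj hN x
      obtain ⟨y, rfl⟩ := mk_surj hN y
      rcases zmod2_cases c with rfl | rfl
      · rw [zero_smul, smul_eq_mul, zero_mul]
        have : (0 : VV hN) = Submodule.Quotient.mk 0 := rfl
        rw [this, BV_mk]
        simp [dotp]
      · simp
    · intro x y
      change QV hN (x + y) = QV hN x + QV hN y + BV hN x y
      unfold BV
      have : ∀ a b c : ZMod 2, a = b + c + (a + b + c) := by decide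
      exact this _ _ _

theorem QF_apply (hN : 4 ∣ N) (x : VV hN) : QF hN x = QV hN x := rfl

/-- polar form nondegeneracy. -/
theorem exists_not_perp (hN : 4 ∣ N) (x : E N) (h0 : x ≠ 0) (h1 : x ≠ oneE hN) :
    ∃ y : E N, dotp x.1 y.1 = 1 := by
  classical
  -- `x` has two different coordinates
  have hx : ∃ i j, x.1 i ≠ x.1 j := by
    by_contra hcon
    push Not at hcon
    by_cases hN0 : N = 0
    · subst hN0
      apply h0
      apply Subtype.ext
      funext i
      exact i.elim0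
    obtain ⟨i₀⟩ : Nonempty (Fin N) := ⟨⟨0, by omega⟩⟩
    rcases zmod2_cases (x.1 i₀) with h | h
    · apply h0
      apply Subtype.ext
      funext i
      rw [hcon i i₀, h]
      rfl
    · apply h1
      apply Subtype.ext
      funext i
      rw [hcon i i₀, h]
      rfl
  obtain ⟨i, j, hij⟩ := hx
  have hne : i ≠ j := fun e => hij (by rw [e])
  let y : A N := Pi.single i 1 + Pi.single j 1
  have hy : y ∈ E N := by
    rw [mem_E]
    simp only [y, Pi.add_apply, Finset.sum_add_distrib]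
    simp
    exact CharTwo.add_self_eq_zero 1
  refine ⟨⟨y, hy⟩, ?_⟩
  have h2 : dotp x.1 y = x.1 i + x.1 j := by
    simp only [dotp, y, Pi.add_apply, mul_add, Finset.sum_add_distrib]
    simp [Pi.single_apply]
  simp only
  rw [h2]
  revert hij
  generalize x.1 i = a
  generalize x.1 j = b
  revert a b
  decide

theorem polar_QF (hN : 4 ∣ N) (x y : VV hN) : QuadraticMap.polar (QF hN) x y = BV hN x y := by
  change QV hN (x + y) - QV hN x - QV hN y = QV hN (x + y) + QV hN x + QV hN y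
  have : ∀ a b c : ZMod 2, a - b - c = a + b + c := by decide
  exact this _ _ _

theorem QF_nondeg (hN : 4 ∣ N) : (QuadraticMap.polarBilin (QF hN)).Nondegenerate := by
  apply Cfsg.Agent.H11.nondeg_of_left
  intro x hx
  obtain ⟨y, rfl⟩ := mk_surj hN x
  by_cases h0 : y = 0
  · rw [h0]
    rfl
  by_cases h1 : y = oneE hN
  · rw [Submodule.Quotient.mk_eq_zero, mem_UU]
    exact Or.inr h1
  · exfalso
    obtain ⟨z, hz⟩ := exists_not_perp hN y h0 h1
    have := hx (Submodule.Quotient.mk z)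
    rw [polar_QF, BV_mk, hz] at this
    exact one_ne_zero this

theorem sumL_surj (hN : 0 < N) : Function.Surjective (sumL N) := by
  intro a
  refine ⟨Pi.single ⟨0, hN⟩ a, ?_⟩
  change ∑ i, (Pi.single (⟨0, hN⟩ : Fin N) a : A N) i = a
  simp

theorem finrank_E (hN : 0 < N) : finrank (ZMod 2) (E N) + 1 = N := by
  have h := LinearMap.finrank_range_add_finrank_ker (sumL N)
  rw [LinearMap.range_eq_top.2 (sumL_surj hN), finrank_top, finrank_self] at h
  rw [Module.finrank_fin_fun] at h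
  change 1 + finrank (ZMod 2) (LinearMap.ker (sumL N)) = N at h
  change finrank (ZMod 2) (LinearMap.ker (sumL N)) + 1 = N
  omega

theorem oneE_ne (hN : 4 ∣ N) (hN0 : 0 < N) : oneE hN ≠ 0 := by
  intro h
  have h1 : one1 N ⟨0, hN0⟩ = 0 := congrFun (congrArg Subtype.val h) ⟨0, hN0⟩
  exact one_ne_zero h1

theorem finrank_VV (hN : 4 ∣ N) (hN0 : 0 < N) : finrank (ZMod 2) (VV hN) + 2 = N := by
  have h1 : finrank (ZMod 2) (VV hN) + finrank (ZMod 2) (UU hN) = finrank (ZMod 2) (E N) :=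
    Submodule.finrank_quotient_add_finrank (UU hN)
  have h2 : finrank (ZMod 2) (UU hN) = 1 := finrank_span_singleton (oneE_ne hN hN0)
  have h3 := finrank_E hN0
  omega

/-! the Gauss sum -/

open Cfsg.Agent.H11 in
theorem chi_cast (a : ℕ) : chi ((a : ℕ) : ZMod 2) = (-1) ^ a := by
  induction a with
  | zero => rfl
  | succ a ih =>
    rw [Nat.cast_succ, chi_add, ih, pow_succ]
    rfl

theorem sum_I_pow (N : ℕ) : ∑ v : A N, (Complex.I) ^ (wt v) = (1 + Complex.I) ^ N := by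
  classical
  have h1 : ∀ v : A N, Complex.I ^ (wt v) = ∏ i, Complex.I ^ (v i).val := by
    intro v
    rw [Finset.prod_pow_eq_pow_sum]
    rfl
  simp_rw [h1]
  have h2 := Finset.prod_univ_sum (fun _ : Fin N => (Finset.univ : Finset (ZMod 2)))
    (fun _ x => Complex.I ^ x.val)
  rw [Fintype.piFinset_univ] at h2
  rw [← h2]
  have h3 : ∑ x : ZMod 2, Complex.I ^ x.val = 1 + Complex.I := by
    have : (Finset.univ : Finset (ZMod 2)) = {0, 1} := by decide
    rw [this, Finset.sum_pair (by decide)]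
    simp [ZMod.val_one]
  simp [h3]

theorem re_I_odd (a : ℕ) : (Complex.I ^ (2 * a + 1)).re = 0 := by
  rw [pow_succ, pow_mul, Complex.I_sq]
  rcases neg_one_pow_eq_or ℂ a with h | h <;> simp [h]

theorem I_even (a : ℕ) : Complex.I ^ (2 * a) = ((-1 : ℤ) ^ a : ℤ) := by
  rw [pow_mul, Complex.I_sq]
  push_cast
  rfl

theorem sum_E (c : ℕ) (hN : N = 4 * c) : ∑ v : E N, Cfsg.Agent.H11.chi (Qt v.1) = (-4) ^ c := by
  classical
  have h1 := sum_I_pow N
  have h2 : (1 + Complex.I) ^ N = (((-4 : ℤ) ^ c : ℤ) : ℂ) := by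
    rw [hN, pow_mul]
    have : (1 + Complex.I) ^ 4 = -4 := by
      have h : (1 + Complex.I) ^ 2 = 2 * Complex.I := by
        rw [add_sq, Complex.I_sq]
        ring
      rw [show (4 : ℕ) = 2 * 2 by norm_num, pow_mul, h, mul_pow, Complex.I_sq]
      norm_num
    rw [this]
    push_cast
    rfl
  rw [h2] at h1
  have h3 := congrArg Complex.re h1
  rw [Complex.re_sum, Complex.intCast_re] at h3
  have h4 : ∀ v : A N, (Complex.I ^ wt v).re = (if v ∈ E N then (Cfsg.Agent.H11.chi (Qt v) : ℝ) else 0) := by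
    intro v
    split_ifs with hv
    · obtain ⟨a, ha⟩ := two_dvd_wt hv
      have hQ : Qt v = ((a : ℕ) : ZMod 2) := by
        unfold Qt
        rw [ha, Nat.mul_div_cancel_left _ (by norm_num)]
      rw [ha, I_even, hQ, chi_cast, Complex.intCast_re]
    · have hodd : ¬ 2 ∣ wt v := by
        intro hd
        apply hv
        rw [mem_E, ← cast_wt]
        exact (ZMod.natCast_eq_zero_iff _ 2).2 hd
      obtain ⟨a, ha⟩ : ∃ a, wt v = 2 * a + 1 := ⟨wt v / 2, by omega⟩
      rw [ha, re_I_odd]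
  simp_rw [h4] at h3
  rw [Finset.sum_ite, Finset.sum_const_zero, add_zero] at h3
  have h5 : ∑ v : E N, Cfsg.Agent.H11.chi (Qt v.1) =
      ∑ v ∈ Finset.univ.filter (fun v : A N => v ∈ E N), Cfsg.Agent.H11.chi (Qt v) := by
    rw [Finset.sum_subtype (p := fun v : A N => v ∈ E N) (s := Finset.univ.filter (fun v : A N => v ∈ E N)) (f := fun v => Cfsg.Agent.H11.chi (Qt v)) (by simp)]
  rw [h5]
  have h6 : ((∑ v ∈ Finset.univ.filter (fun v : A N => v ∈ E N), Cfsg.Agent.H11.chi (Qt v) : ℤ) : ℝ) = (((-4 : ℤ) ^ c : ℤ) : ℝ) := by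
    push_cast at h3 ⊢
    exact h3
  exact_mod_cast h6

theorem sum_mk (hN : 4 ∣ N) (hN0 : 0 < N) (h : VV hN → ℤ) :
    ∑ v : E N, h (Submodule.Quotient.mk v) = 2 * ∑ x : VV hN, h x := by
  classical
  rw [← Finset.sum_fiberwise (Finset.univ : Finset (E N)) (fun v => (Submodule.Quotient.mk v : VV hN))
    (fun v => h (Submodule.Quotient.mk v)), Finset.mul_sum]
  apply Finset.sum_congr rfl
  intro x _
  obtain ⟨y, rfl⟩ := mk_surj hN x
  have h1 : Finset.univ.filter (fun v : E N => (Submodule.Quotient.mk v : VV hN) = Submodule.Quotient.mk y) =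
      {y, y + oneE hN} := by
    ext v
    simp only [Finset.mem_filter, Finset.mem_univ, true_and, Finset.mem_insert, Finset.mem_singleton]
    rw [mk_eq_iff]
    constructor
    · rintro (h | h)
      · exact Or.inl h
      · exact Or.inr (Subtype.ext h)
    · rintro (h | h)
      · exact Or.inl h
      · exact Or.inr (congrArg Subtype.val h)
  rw [h1, Finset.sum_pair]
  · have h2 : (Submodule.Quotient.mk (y + oneE hN) : VV hN) = Submodule.Quotient.mk y := by
      rw [mk_eq_iff]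
      exact Or.inr rfl
    rw [h2]
    ring
  · intro e
    have : oneE hN = 0 := by
      have h3 : y + 0 = y + oneE hN := by rw [add_zero]; exact e
      exact (add_left_cancel h3).symm
    exact oneE_ne hN hN0 this

theorem gauss_VV (c : ℕ) (hN : 4 ∣ N) (hN0 : 0 < N) (hc : N = 4 * c) :
    2 * ∑ x : VV hN, Cfsg.Agent.H11.chi (QV hN x) = (-4) ^ c := by
  rw [← sum_mk hN hN0, ← sum_E c hc]
  rfl

/-! the Gauss sum of the minus form -/

theorem gauss_minus (k : ℕ) :
    ∑ v : (Fin k ⊕ Fin k) ⊕ Fin 2 → ZMod 2, Cfsg.Agent.H11.chi (Cfsg.quadFormMinus k (ZMod 2) 1 1 v) = -(2 * 2 ^ k) := by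
  classical
  have h1 : ∑ v : (Fin k ⊕ Fin k) ⊕ Fin 2 → ZMod 2, Cfsg.Agent.H11.chi (Cfsg.quadFormMinus k (ZMod 2) 1 1 v) =
      ∑ x : Fin k ⊕ Fin k → ZMod 2, ∑ z : Fin 2 → ZMod 2,
        Cfsg.Agent.H11.chi (Cfsg.quadFormPlus k (ZMod 2) x) * Cfsg.Agent.H11.chi (z 0 ^ 2 + 1 * z 0 * z 1 + 1 * z 1 ^ 2) := by
    rw [← Fintype.sum_prod_type']
    apply Fintype.sum_equiv (Equiv.sumArrowEquivProdArrow (Fin k ⊕ Fin k) (Fin 2) (ZMod 2))
    intro v
    rw [← Cfsg.Agent.H11.chi_add]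
    simp [Cfsg.quadFormMinus, Cfsg.quadFormPlus, Equiv.sumArrowEquivProdArrow]
  rw [h1]
  simp_rw [← Finset.mul_sum]
  rw [← Finset.sum_mul]
  have h2 : ∑ x : Fin k ⊕ Fin k → ZMod 2, Cfsg.Agent.H11.chi (Cfsg.quadFormPlus k (ZMod 2) x) = 2 ^ k :=
    Cfsg.Agent.S2561.gaussS_plus
  rw [h2]
  have h3 : ∑ z : Fin 2 → ZMod 2, Cfsg.Agent.H11.chi (z 0 ^ 2 + 1 * z 0 * z 1 + 1 * z 1 ^ 2) = -2 := by
    decide +kernel
  rw [h3]
  ring

/-! the type of the form -/

theorem type_plus (k : ℕ) (hk : Odd k) (hN : 4 ∣ 4 * k + 4) :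
    ∃ g : VV hN ≃ₗ[ZMod 2] (Fin (2 * k + 1) ⊕ Fin (2 * k + 1) → ZMod 2),
      ∀ v, QV hN v = Cfsg.quadFormPlus (2 * k + 1) (ZMod 2) (g v) := by
  classical
  have hfin := finrank_VV hN (by omega)
  have hG := gauss_VV (N := 4 * k + 4) (k + 1) hN (by omega) (by ring)
  rcases Cfsg.Agent.H11.exists_isometry_standard (m := 2 * k + 1) (by omega) (by omega) (QF hN) (QF_nondeg hN) with
    ⟨g, hg⟩ | ⟨g, ζ, hζ, hg⟩
  · exact ⟨g, hg⟩
  · exfalso
    have hζ1 : ζ = 1 := Cfsg.Agent.S2561.zmod2_no_root ζ hζ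
    subst hζ1
    have h1 : ∑ x : VV hN, Cfsg.Agent.H11.chi (QV hN x) =
        ∑ v : (Fin (2 * k) ⊕ Fin (2 * k)) ⊕ Fin 2 → ZMod 2, Cfsg.Agent.H11.chi (Cfsg.quadFormMinus (2 * k) (ZMod 2) 1 1 v) :=
      Fintype.sum_equiv g.toEquiv _ _ (fun x => congrArg _ (hg x))
    rw [h1, gauss_minus] at hG
    obtain ⟨j, rfl⟩ := hk
    have h2 : Even (2 * j + 1 + 1) := ⟨j + 1, by ring⟩
    rw [h2.neg_pow] at hG
    have h3 : (0 : ℤ) < 4 ^ (2 * j + 1 + 1) := by positivity
    have h4 : (0 : ℤ) < 2 ^ (2 * (2 * j + 1)) := by positivity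
    nlinarith

theorem type_minus (k : ℕ) (hk : Even k) (hN : 4 ∣ 4 * k + 4) :
    ∃ g : VV hN ≃ₗ[ZMod 2] ((Fin (2 * k) ⊕ Fin (2 * k)) ⊕ Fin 2 → ZMod 2),
      ∀ v, QV hN v = Cfsg.quadFormMinus (2 * k) (ZMod 2) 1 1 (g v) := by
  classical
  have hfin := finrank_VV hN (by omega)
  have hG := gauss_VV (N := 4 * k + 4) (k + 1) hN (by omega) (by ring)
  rcases Cfsg.Agent.H11.exists_isometry_standard (m := 2 * k + 1) (by omega) (by omega) (QF hN) (QF_nondeg hN) with
    ⟨g, hg⟩ | ⟨g, ζ, hζ, hg⟩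
  · exfalso
    have h1 : ∑ x : VV hN, Cfsg.Agent.H11.chi (QV hN x) =
        ∑ v : Fin (2 * k + 1) ⊕ Fin (2 * k + 1) → ZMod 2, Cfsg.Agent.H11.chi (Cfsg.quadFormPlus (2 * k + 1) (ZMod 2) v) :=
      Fintype.sum_equiv g.toEquiv _ _ (fun x => congrArg _ (hg x))
    have h2 : ∑ v : Fin (2 * k + 1) ⊕ Fin (2 * k + 1) → ZMod 2, Cfsg.Agent.H11.chi (Cfsg.quadFormPlus (2 * k + 1) (ZMod 2) v) = 2 ^ (2 * k + 1) :=
      Cfsg.Agent.S2561.gaussS_plus
    rw [h1, h2] at hG
    obtain ⟨j, rfl⟩ := hk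
    have h3 : Odd (j + j + 1) := ⟨j, by ring⟩
    rw [h3.neg_pow] at hG
    have h4 : (0 : ℤ) < 4 ^ (j + j + 1) := by positivity
    have h5 : (0 : ℤ) < 2 ^ (2 * (j + j) + 1) := by positivity
    nlinarith
  · have hζ1 : ζ = 1 := Cfsg.Agent.S2561.zmod2_no_root ζ hζ
    subst hζ1
    exact ⟨g, hg⟩

/-! the action -/

def permE (σ : Equiv.Perm (Fin N)) : E N →ₗ[ZMod 2] E N :=
  (perm σ).restrict (fun _ hv => perm_mem σ hv)

theorem permE_val (σ : Equiv.Perm (Fin N)) (v : E N) : (permE σ v).1 = perm σ v.1 := rfl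

theorem permE_oneE (hN : 4 ∣ N) (σ : Equiv.Perm (Fin N)) : permE σ (oneE hN) = oneE hN := rfl

noncomputable def act (hN : 4 ∣ N) (σ : Equiv.Perm (Fin N)) : VV hN →ₗ[ZMod 2] VV hN :=
  Submodule.mapQ (UU hN) (UU hN) (permE σ) (by
    intro x hx
    rw [Submodule.mem_comap]
    rcases (mem_UU hN x).1 hx with rfl | rfl
    · rw [map_zero]
      exact Submodule.zero_mem _
    · rw [permE_oneE]
      exact Submodule.subset_span rfl)

theorem act_mk (hN : 4 ∣ N) (σ : Equiv.Perm (Fin N)) (x : E N) :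
    act hN σ (Submodule.Quotient.mk x) = Submodule.Quotient.mk (permE σ x) := rfl

theorem QV_act (hN : 4 ∣ N) (σ : Equiv.Perm (Fin N)) (x : VV hN) : QV hN (act hN σ x) = QV hN x := by
  obtain ⟨y, rfl⟩ := mk_surj hN x
  rw [act_mk, QV_mk, QV_mk, permE_val, Qt_perm]

theorem act_mul (hN : 4 ∣ N) (σ τ : Equiv.Perm (Fin N)) : act hN (σ * τ) = act hN σ ∘ₗ act hN τ := by
  apply LinearMap.ext
  intro x
  obtain ⟨y, rfl⟩ := mk_surj hN x
  simp only [LinearMap.comp_apply, act_mk]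
  congr 1

theorem act_one (hN : 4 ∣ N) : act hN (1 : Equiv.Perm (Fin N)) = LinearMap.id := by
  apply LinearMap.ext
  intro x
  obtain ⟨y, rfl⟩ := mk_surj hN x
  simp only [act_mk, LinearMap.id_apply]
  congr 1

theorem act_inj (hN : 4 ∣ N) (hN8 : 8 ≤ N) (σ : Equiv.Perm (Fin N)) (h : act hN σ = LinearMap.id) : σ = 1 := by
  classical
  by_contra hne
  obtain ⟨i, hi⟩ : ∃ i, σ i ≠ i := by
    by_contra hcon
    push Not at hcon
    exact hne (Equiv.ext hcon)
  -- a point outside `i, σ i, σ⁻¹ i`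
  obtain ⟨j, hj⟩ : ∃ j, j ∉ ({i, σ i, σ⁻¹ i} : Finset (Fin N)) := by
    by_contra hcon
    push Not at hcon
    have h1 : (Finset.univ : Finset (Fin N)) ⊆ {i, σ i, σ⁻¹ i} := fun x _ => hcon x
    have h2 := Finset.card_le_card h1
    have h3 : ({i, σ i, σ⁻¹ i} : Finset (Fin N)).card ≤ 3 := Finset.card_le_three
    rw [Finset.card_univ, Fintype.card_fin] at h2
    omega
  simp only [Finset.mem_insert, Finset.mem_singleton, not_or] at hj
  obtain ⟨hj1, hj2, hj3⟩ := hj
  let y : A N := Pi.single i 1 + Pi.single j 1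
  have hy : y ∈ E N := by
    rw [mem_E]
    simp only [y, Pi.add_apply, Finset.sum_add_distrib]
    simp
    exact CharTwo.add_self_eq_zero 1
  have hyv : ∀ l, y l = (if l = i then 1 else 0) + (if l = j then 1 else 0) := by
    intro l
    simp [y, Pi.single_apply]
  have hmk := LinearMap.congr_fun h (Submodule.Quotient.mk ⟨y, hy⟩)
  rw [act_mk, LinearMap.id_apply, mk_eq_iff] at hmk
  have hσi : (σ⁻¹ (σ i)) = i := by simp
  rcases hmk with h1 | h1
  · have h2 : perm σ y (σ i) = y (σ i) := by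
      have := congrArg Subtype.val h1
      exact congrFun this (σ i)
    rw [perm_apply, hσi, hyv, hyv] at h2
    have hij : i ≠ j := fun e => hj1 e.symm
    simp [hi, hij, Ne.symm hj2] at h2
  · -- a coordinate outside the supports
    obtain ⟨l, hl⟩ : ∃ l, l ∉ ({i, j, σ i, σ j} : Finset (Fin N)) := by
      by_contra hcon
      push Not at hcon
      have h3 : (Finset.univ : Finset (Fin N)) ⊆ {i, j, σ i, σ j} := fun x _ => hcon x
      have h4 := Finset.card_le_card h3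
      have h5 : ({i, j, σ i, σ j} : Finset (Fin N)).card ≤ 4 := Finset.card_le_four
      rw [Finset.card_univ, Fintype.card_fin] at h4
      omega
    simp only [Finset.mem_insert, Finset.mem_singleton, not_or] at hl
    obtain ⟨hl1, hl2, hl3, hl4⟩ := hl
    have h2 : perm σ y l = y l + 1 := congrFun h1 l
    have hl5 : σ⁻¹ l ≠ i := by
      intro e
      apply hl3
      rw [← e]
      simp
    have hl6 : σ⁻¹ l ≠ j := by
      intro e
      apply hl4
      rw [← e]
      simp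
    have hl5' : σ.symm l ≠ i := hl5
    have hl6' : σ.symm l ≠ j := hl6
    rw [perm_apply, hyv, hyv] at h2
    simp [hl1, hl2, hl5', hl6'] at h2

/-- The representation on a standard space. -/
theorem exists_hom {ι : Type} [Fintype ι] [DecidableEq ι] (q : (ι → ZMod 2) → ZMod 2) (hN : 4 ∣ N) (hN8 : 8 ≤ N)
    (g : VV hN ≃ₗ[ZMod 2] (ι → ZMod 2)) (hg : ∀ v, QV hN v = q (g v)) :
    ∃ φ : Equiv.Perm (Fin N) →* ↥(Cfsg.isometryGroup (ZMod 2) q), Function.Injective φ := by
  let M : Equiv.Perm (Fin N) → Matrix ι ι (ZMod 2) := fun σ =>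
    LinearMap.toMatrix' ((g : VV hN →ₗ[ZMod 2] (ι → ZMod 2)) ∘ₗ act hN σ ∘ₗ (g.symm : (ι → ZMod 2) →ₗ[ZMod 2] VV hN))
  have hM1 : M 1 = 1 := by
    simp only [M]
    rw [act_one, ← LinearMap.toMatrix'_id]
    congr 1
    ext x
    simp
  have hMm : ∀ σ τ, M (σ * τ) = M σ * M τ := by
    intro σ τ
    simp only [M]
    rw [← LinearMap.toMatrix'_comp, act_mul]
    congr 1
    ext x
    simp
  let H : Equiv.Perm (Fin N) →* Matrix ι ι (ZMod 2) := ⟨⟨M, hM1⟩, hMm⟩
  let U : Equiv.Perm (Fin N) →* GL ι (ZMod 2) := H.toHomUnits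
  have hU : ∀ σ, ((U σ : GL ι (ZMod 2)) : Matrix ι ι (ZMod 2)) = M σ := fun σ => MonoidHom.coe_toHomUnits H σ
  have hmem : ∀ σ, U σ ∈ Cfsg.isometryGroup (ZMod 2) q := by
    intro σ u _
    change q (((U σ : GL ι (ZMod 2)) : Matrix ι ι (ZMod 2)).mulVec u) = q u
    rw [hU]
    simp only [M]
    rw [LinearMap.toMatrix'_mulVec]
    simp only [LinearMap.comp_apply, LinearEquiv.coe_coe]
    rw [← hg, QV_act, hg, LinearEquiv.apply_symm_apply]
  refine ⟨U.codRestrict _ hmem, ?_⟩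
  rw [injective_iff_map_eq_one]
  intro σ hσ
  have h1 : U σ = 1 := congrArg Subtype.val hσ
  have h2 : M σ = 1 := by
    rw [← hU, h1, Units.val_one]
  apply act_inj hN hN8
  apply LinearMap.ext
  intro x
  have h3 : (g : VV hN →ₗ[ZMod 2] (ι → ZMod 2)) ∘ₗ act hN σ ∘ₗ (g.symm : (ι → ZMod 2) →ₗ[ZMod 2] VV hN) = LinearMap.id := by
    apply LinearMap.toMatrix'.injective
    rw [LinearMap.toMatrix'_id]
    exact h2
  have h4 := LinearMap.congr_fun h3 (g x)
  simp only [LinearMap.comp_apply, LinearEquiv.coe_coe, LinearEquiv.symm_apply_apply, LinearMap.id_apply] at h4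
  exact g.injective h4

theorem main_plus (k : ℕ) (hk1 : 1 ≤ k) (hk : Odd k) :
    ∃ φ : Equiv.Perm (Fin (4 * k + 4)) →* ↥(Cfsg.isometryGroup (ZMod 2) (Cfsg.quadFormPlus (2 * k + 1) (ZMod 2))), Function.Injective φ := by
  have hN : 4 ∣ 4 * k + 4 := ⟨k + 1, by ring⟩
  obtain ⟨g, hg⟩ := type_plus k hk hN
  exact exists_hom _ hN (by omega) g hg

theorem main_minus (k : ℕ) (hk1 : 1 ≤ k) (hk : Even k) :
    ∃ φ : Equiv.Perm (Fin (4 * k + 4)) →* ↥(Cfsg.isometryGroup (ZMod 2) (Cfsg.quadFormMinus (2 * k) (ZMod 2) 1 1)), Function.Injective φ := by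
  have hN : 4 ∣ 4 * k + 4 := ⟨k + 1, by ring⟩
  obtain ⟨g, hg⟩ := type_minus k hk hN
  exact exists_hom _ hN (by omega) g hg

end Cfsg.Agent.H11.EvenSub
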