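/-
Hall subgroups of alternating groups: the full Sylow analogue, small groups.
-/
import Cfsg.Agent.Lib.H11.HallX9

set_option autoImplicit false

namespace Cfsg.Agent.H11.HallS

open Equiv Equiv.Perm MulAction
open scoped Nat Pointwise

/-- elements in degree 7 -/
def tau7 : Perm (Fin 7) := swap 0 1 * swap 2 3 * swap 4 5
def v27 : Perm (Fin 7) := swap 0 1 * swap 4 5
def c7 : Perm (Fin 7) := swap 0 2 * swap 2 4 * swap 1 3 * swap 3 5

lemma c7_comm : c7 * tau7 = tau7 * c7 := by decide +kernel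
lemma v27_comm : v27 * tau7 = tau7 * v27 := by decide +kernel
lemma c7_s : sign c7 = 1 := by decide +kernel
lemma v27_s : sign v27 = 1 := by decide +kernel
lemma tau7_t : tau7.cycleType = {2, 2, 2} := by decide +kernel

/-- the even part of a centralizer in degree 7 -/
def X7 : Subgroup (Perm (Fin 7)) := Subgroup.centralizer {tau7} ⊓ alternatingGroup (Fin 7)

lemma X7_mem {x : Perm (Fin 7)} (h1 : x * tau7 = tau7 * x) (h2 : sign x = 1) : x ∈ X7 := by
  refine ⟨?_, Equiv.Perm.mem_alternatingGroup.2 h2⟩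
  show x ∈ Subgroup.centralizer _
  rw [Subgroup.mem_centralizer_singleton_iff]
  exact h1

lemma X7_primes : ∀ p : ℕ, p.Prime → p ∣ Nat.card X7 → p = 2 ∨ p = 3 := by
  intro p hp hd
  have h1 : Nat.card (Subgroup.centralizer {tau7}) = 48 := by
    rw [nat_card_centralizer, tau7_t]
    decide +kernel
  have h2 : p ∣ Nat.card (Subgroup.centralizer {tau7}) :=
    hd.trans (Subgroup.card_dvd_of_le inf_le_left)
  rw [h1, show (48 : ℕ) = 2 ^ 4 * 3 by norm_num] at h2
  rcases hp.dvd_mul.1 h2 with h | h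
  · exact Or.inl ((Nat.prime_dvd_prime_iff_eq hp Nat.prime_two).1 (hp.dvd_of_dvd_pow h))
  · exact Or.inr ((Nat.prime_dvd_prime_iff_eq hp Nat.prime_three).1 h)

lemma X7_no : ∀ T : Finset (Fin 7), T.card = 4 →
    ¬ ((∀ y, c7 y ∈ T ↔ y ∈ T) ∧ (∀ y, v27 y ∈ T ↔ y ∈ T)) := by decide +kernel

/-- elements in degree 8 -/
def tau8 : Perm (Fin 8) := swap 0 1 * swap 2 3 * swap 4 5
def v28 : Perm (Fin 8) := swap 0 1 * swap 4 5
def c8 : Perm (Fin 8) := swap 0 2 * swap 2 4 * swap 1 3 * swap 3 5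

lemma c8_comm : c8 * tau8 = tau8 * c8 := by decide +kernel
lemma v28_comm : v28 * tau8 = tau8 * v28 := by decide +kernel
lemma c8_s : sign c8 = 1 := by decide +kernel
lemma v28_s : sign v28 = 1 := by decide +kernel
lemma tau8_t : tau8.cycleType = {2, 2, 2} := by decide +kernel

/-- the even part of a centralizer in degree 8 -/
def X8 : Subgroup (Perm (Fin 8)) := Subgroup.centralizer {tau8} ⊓ alternatingGroup (Fin 8)

lemma X8_mem {x : Perm (Fin 8)} (h1 : x * tau8 = tau8 * x) (h2 : sign x = 1) : x ∈ X8 := by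
  refine ⟨?_, Equiv.Perm.mem_alternatingGroup.2 h2⟩
  show x ∈ Subgroup.centralizer _
  rw [Subgroup.mem_centralizer_singleton_iff]
  exact h1

lemma X8_primes : ∀ p : ℕ, p.Prime → p ∣ Nat.card X8 → p = 2 ∨ p = 3 := by
  intro p hp hd
  have h1 : Nat.card (Subgroup.centralizer {tau8}) = 96 := by
    rw [nat_card_centralizer, tau8_t]
    decide +kernel
  have h2 : p ∣ Nat.card (Subgroup.centralizer {tau8}) :=
    hd.trans (Subgroup.card_dvd_of_le inf_le_left)
  rw [h1, show (96 : ℕ) = 2 ^ 5 * 3 by norm_num] at h2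
  rcases hp.dvd_mul.1 h2 with h | h
  · exact Or.inl ((Nat.prime_dvd_prime_iff_eq hp Nat.prime_two).1 (hp.dvd_of_dvd_pow h))
  · exact Or.inr ((Nat.prime_dvd_prime_iff_eq hp Nat.prime_three).1 h)

lemma X8_no : ∀ T : Finset (Fin 8), T.card = 4 →
    ¬ (((∀ y, c8 y ∈ T ↔ y ∈ T) ∨ (∀ y, c8 y ∈ T ↔ y ∉ T)) ∧
       ((∀ y, v28 y ∈ T ↔ y ∈ T) ∨ (∀ y, v28 y ∈ T ↔ y ∉ T))) := by decide +kernel

end Cfsg.Agent.H11.HallS
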