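/-
Hall subgroups of alternating groups: the full Sylow analogue.
-/
import Cfsg.Agent.Lib.H11.HallY1

set_option autoImplicit false

namespace Cfsg.Agent.H11.HallS

open Equiv Equiv.Perm MulAction
open scoped Nat Pointwise

section general
variable {G : Type*} [Group G] [Finite G]

lemma exists_le_max {π : Set ℕ} {L : Subgroup G} (hL : Cfsg.IsPiSubgroup π L) :
    ∃ M : Subgroup G, L ≤ M ∧ Maximal (Cfsg.IsPiSubgroup π) M := by
  have hfin : ({M : Subgroup G | Cfsg.IsPiSubgroup π M}).Finite := Set.toFinite _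
  obtain ⟨b, h1, h2⟩ := hfin.exists_le_maximal hL
  exact ⟨b, h1, h2⟩

theorem D_of_single {π : Set ℕ}
    (hπ : ∀ p q : ℕ, p.Prime → q.Prime → p ∈ π → q ∈ π → p ∣ Nat.card G → q ∣ Nat.card G → p = q) :
    Cfsg.IsDPiGroup π G := by
  classical
  intro H K hH hK
  by_cases hex : ∃ p : ℕ, p.Prime ∧ p ∈ π ∧ p ∣ Nat.card G
  · obtain ⟨p, hp, hpπ, hpd⟩ := hex
    haveI : Fact p.Prime := ⟨hp⟩
    have hsyl : ∀ L : Subgroup G, Maximal (Cfsg.IsPiSubgroup π) L → ∃ Q : Sylow p G, (Q : Subgroup G) = L := by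
      intro L hL
      have hpg : IsPGroup p L := by
        apply IsPGroup.of_card (n := (Nat.card L).primeFactorsList.length)
        apply Nat.eq_prime_pow_of_unique_prime_dvd Nat.card_pos.ne'
        intro d hd hdd
        exact hπ d p hd hp (hL.prop d hd hdd) hpπ (hdd.trans (Subgroup.card_subgroup_dvd_card L)) hpd
      obtain ⟨Q, hQ⟩ := hpg.exists_le_sylow
      refine ⟨Q, (le_antisymm hQ (hL.le_of_ge ?_ hQ)).symm⟩
      intro d hd hdd
      obtain ⟨n, hn⟩ := IsPGroup.iff_card.1 Q.isPGroup'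
      rw [hn] at hdd
      rw [(Nat.prime_dvd_prime_iff_eq hd hp).1 (hd.dvd_of_dvd_pow hdd)]
      exact hpπ
    obtain ⟨P, rfl⟩ := hsyl H hH
    obtain ⟨Q, rfl⟩ := hsyl K hK
    obtain ⟨g, hg⟩ := MulAction.exists_smul_eq G P Q
    refine ⟨g, ?_⟩
    rw [← hg]
    rfl
  · have htriv : ∀ L : Subgroup G, Maximal (Cfsg.IsPiSubgroup π) L → L = ⊥ := by
      intro L hL
      apply Subgroup.eq_bot_of_card_eq
      by_contra hne
      obtain ⟨d, hd, hdd⟩ := Nat.exists_prime_and_dvd hne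
      exact hex ⟨d, hd, hL.prop d hd hdd, hdd.trans (Subgroup.card_subgroup_dvd_card L)⟩
    refine ⟨1, ?_⟩
    rw [htriv K hK, htriv H hH, Subgroup.map_bot]

theorem D_of_all {π : Set ℕ} (hπ : ∀ r : ℕ, r.Prime → r ∣ Nat.card G → r ∈ π) :
    Cfsg.IsDPiGroup π G := by
  intro H K hH hK
  have htop : ∀ L : Subgroup G, Maximal (Cfsg.IsPiSubgroup π) L → L = ⊤ := by
    intro L hL
    apply le_antisymm le_top
    apply hL.le_of_ge _ le_top
    intro p hp hd
    exact hπ p hp (hd.trans (Subgroup.card_subgroup_dvd_card _))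
  refine ⟨1, ?_⟩
  rw [htop K hK, htop H hH]
  ext w
  rw [Subgroup.mem_map_equiv, MulAut.conj_symm_apply]
  simp

lemma D_hall {π : Set ℕ} (hD : Cfsg.IsDPiGroup π G) {K : Subgroup G}
    (hK : Maximal (Cfsg.IsPiSubgroup π) K) : Cfsg.IsPiHall π K := by
  refine ⟨hK.prop, ?_⟩
  intro p hp hπ hd
  haveI : Fact p.Prime := ⟨hp⟩
  obtain ⟨P⟩ : Nonempty (Sylow p G) := inferInstance
  have hP : Cfsg.IsPiSubgroup π (P : Subgroup G) := by
    intro d hd' hdd
    obtain ⟨n, hn⟩ := IsPGroup.iff_card.1 P.isPGroup'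
    rw [hn] at hdd
    rw [(Nat.prime_dvd_prime_iff_eq hd' hp).1 (hd'.dvd_of_dvd_pow hdd)]
    exact hπ
  obtain ⟨K', hPK', hK'⟩ := exists_le_max hP
  obtain ⟨g, hg⟩ := hD K' K hK' hK
  have hle : ((g • P : Sylow p G) : Subgroup G) ≤ K := by
    rw [hg]
    exact Subgroup.map_mono hPK'
  exact (g • P).not_dvd_index (hd.trans (Subgroup.index_dvd_of_le hle))

end general

variable {Ω : Type*} [Fintype Ω] [DecidableEq Ω]

/-- the key property -/
theorem D_key {π : Set ℕ} (hD : Cfsg.IsDPiGroup π (alternatingGroup Ω)) :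
    ∃ W : Subgroup (Perm Ω), Cfsg.IsPiHall π W ∧ ∀ X : Subgroup (Perm Ω), X ≤ alternatingGroup Ω →
      (∀ p : ℕ, p.Prime → p ∣ Nat.card X → p ∈ π) → ∃ g : Perm Ω, ∀ x ∈ X, g⁻¹ * x * g ∈ W := by
  obtain ⟨K, -, hK⟩ := exists_le_max (π := π) (L := (⊥ : Subgroup (alternatingGroup Ω))) (by
    intro p hp hd
    rw [Subgroup.card_bot] at hd
    exact absurd (Nat.dvd_one.1 hd) hp.one_lt.ne')
  obtain ⟨W, hW, hKW⟩ := (hall_alt_iff K).1 (D_hall hD hK)
  refine ⟨W, hW, fun X hXA hX => ?_⟩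
  have hX' : Cfsg.IsPiSubgroup π (X.subgroupOf (alternatingGroup Ω)) := by
    intro p hp hd
    apply hX p hp
    refine hd.trans ?_
    have : Nat.card (X.subgroupOf (alternatingGroup Ω)) = Nat.card X :=
      Nat.card_congr (Subgroup.subgroupOfEquivOfLe hXA).toEquiv
    rw [this]
  obtain ⟨K', hXK', hK'⟩ := exists_le_max hX'
  obtain ⟨g, hg⟩ := hD K K' hK hK'
  refine ⟨g.1, fun x hx => ?_⟩
  have h1 : (⟨x, hXA hx⟩ : alternatingGroup Ω) ∈ K' := hXK' hx
  rw [hg, Subgroup.mem_map_equiv, MulAut.conj_symm_apply, hKW, Subgroup.mem_subgroupOf] at h1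
  exact h1

/-- the even part of the stabilizer of a pair has no common fixed point -/
lemma pair_no_fixed {a b : Ω} (hab : a ≠ b) (h5 : 5 ≤ Fintype.card Ω) (u : Ω) :
    ∃ x ∈ stabilizer (Perm Ω) (({a, b} : Finset Ω) : Set Ω) ⊓ alternatingGroup Ω, x u ≠ u := by
  classical
  let S : Finset Ω := {a, b}
  have hS : S.card = 2 := Finset.card_pair hab
  have hT : 3 ≤ (Sᶜ).card := by
    rw [Finset.card_compl, hS]; omega
  have hmk : ∀ v w : Ω, v ∉ S → w ∉ S → v ≠ w →
      swap a b * swap v w ∈ stabilizer (Perm Ω) ((S : Finset Ω) : Set Ω) ⊓ alternatingGroup Ω := by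
    intro v w hv hw hvw
    constructor
    · show swap a b * swap v w ∈ stabilizer (Perm Ω) ((S : Finset Ω) : Set Ω)
      rw [mem_stab]
      intro y
      simp only [Finset.mem_coe, Perm.mul_apply]
      rw [swap_mem_iff (iff_of_true (by simp [S]) (by simp [S])), swap_mem_iff (iff_of_false hv hw)]
    · show swap a b * swap v w ∈ alternatingGroup Ω
      rw [Equiv.Perm.mem_alternatingGroup, map_mul, sign_swap hab, sign_swap hvw]
      decide
  by_cases hu : u ∈ S
  · obtain ⟨v, hv, w, hw, hvw⟩ := Finset.one_lt_card.1 (show 1 < (Sᶜ).card by omega)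
    rw [Finset.mem_compl] at hv hw
    refine ⟨_, hmk v w hv hw hvw, ?_⟩
    have h1 : swap v w u = u :=
      swap_apply_of_ne_of_ne (fun h => hv (h ▸ hu)) (fun h => hw (h ▸ hu))
    rw [Perm.mul_apply, h1]
    have hu' : u = a ∨ u = b := by simpa [S] using hu
    rcases hu' with rfl | rfl
    · rw [swap_apply_left]; exact hab.symm
    · rw [swap_apply_right]; exact hab
  · obtain ⟨w, hw⟩ : ((Sᶜ).erase u).Nonempty := by
      rw [← Finset.card_pos, Finset.card_erase_of_mem (Finset.mem_compl.2 hu)]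
      omega
    rw [Finset.mem_erase, Finset.mem_compl] at hw
    refine ⟨_, hmk u w hu hw.2 hw.1.symm, ?_⟩
    rw [Perm.mul_apply, swap_apply_left]
    have h1 : swap a b w = w :=
      swap_apply_of_ne_of_ne (fun h => hw.2 (by simp [S, h])) (fun h => hw.2 (by simp [S, h]))
    rw [h1]
    exact hw.1

lemma not_sq_fact {p : ℕ} (hp : p.Prime) : ¬ p * p ∣ p ! := by
  intro h1
  obtain ⟨t, ht⟩ : ∃ t, p = t + 1 := ⟨p - 1, by have := hp.two_le; omega⟩
  subst ht
  rw [Nat.factorial_succ] at h1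
  have h2 : t + 1 ∣ t ! := Nat.dvd_of_mul_dvd_mul_left (Nat.succ_pos t) h1
  have := (hp.dvd_factorial).1 h2
  omega

theorem D_forward (n : ℕ) (hn : 5 ≤ n) (π : Set ℕ) (hD : Cfsg.IsDPiGroup π (alternatingGroup (Fin n)))
    (r s : ℕ) (hr : r.Prime) (hs : s.Prime) (hsr : s < r) (hrπ : r ∈ π) (hsπ : s ∈ π) (hrn : r ≤ n)
    (q₀ : ℕ) (hq₀ : q₀.Prime) (hq₀n : q₀ ≤ n) (hq₀π : q₀ ∉ π) : False := by
  classical
  have hcard : Fintype.card (Fin n) = n := Fintype.card_fin n
  obtain ⟨W, hW, hkey⟩ := D_key hD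
  rcases hall_forward W π hW r s hr hs hsr hrπ hsπ (by rwa [hcard]) q₀ hq₀ (by rwa [hcard]) hq₀π with
    ⟨h1, h2, z, hz⟩ | ⟨h1, h2, D, hD4, hDs⟩ | ⟨h1, h2, x, hx, B, hB4, hB⟩
  · -- prime degree
    rw [hcard] at h1 h2
    let a : Fin n := ⟨0, by omega⟩
    let b : Fin n := ⟨1, by omega⟩
    have hab : a ≠ b := by
      intro h
      have := congrArg Fin.val h
      simp [a, b] at this
    let S : Finset (Fin n) := {a, b}
    have hS : S.card = 2 := Finset.card_pair hab
    have hprimes : ∀ p : ℕ, p.Prime → p ∣ Nat.card (stabilizer (Perm (Fin n)) ((S : Finset (Fin n)) : Set (Fin n)) ⊓ alternatingGroup (Fin n) : Subgroup (Perm (Fin n))) → p ∈ π := by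
      intro p hp hd
      have h3 : p ∣ Nat.card (stabilizer (Perm (Fin n)) ((S : Finset (Fin n)) : Set (Fin n))) :=
        hd.trans (Subgroup.card_dvd_of_le inf_le_left)
      have hple : p ≤ n := by
        have := prime_le_of_dvd _ hp h3
        rwa [hcard] at this
      refine (h2 p hp hple).2 (lt_of_le_of_ne hple ?_)
      rintro rfl
      -- `n²` divides `n!`
      have hc := card_stab S
      rw [hS, hcard] at hc
      have hd2 : p ∣ p.choose 2 := hp.dvd_choose_self (by norm_num) (by omega)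
      have hdd : p * p ∣ (p)! := by
        rw [← hc]
        exact Nat.mul_dvd_mul h3 hd2
      exact not_sq_fact hp hdd
    obtain ⟨g, hg⟩ := hkey _ inf_le_right hprimes
    obtain ⟨x, hx, hxu⟩ := pair_no_fixed hab (by rwa [hcard]) (g z)
    apply hxu
    have h4 := hz _ (hg x hx)
    simp only [Perm.mul_apply] at h4
    have h5 := congrArg g h4
    simpa using h5
  · -- degree 7
    rw [hcard] at h1
    subst h1
    obtain ⟨g, hg⟩ := hkey X7 inf_le_right (fun p hp hd => by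
      have := X7_primes p hp hd
      exact (h2 p hp (by omega)).2 this)
    let T : Finset (Fin 7) := D.map g.toEmbedding
    have hTg : ∀ y, g y ∈ T ↔ y ∈ D := by
      intro y
      simp [T]
    have hst : ∀ x ∈ X7, ∀ y, x y ∈ T ↔ y ∈ T := by
      intro x hx
      have h3 := hDs (hg x hx)
      have h4 : x ∈ stabilizer (Perm (Fin 7)) (T : Set (Fin 7)) := by
        rw [stab_conj hTg, mem_map_conj]
        exact h3
      rw [mem_stab] at h4
      simpa using h4
    apply X7_no T (by rw [Finset.card_map, hD4])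
    exact ⟨hst _ (X7_mem c7_comm c7_s), hst _ (X7_mem v27_comm v27_s)⟩
  · -- degree 8
    rw [hcard] at h1
    subst h1
    obtain ⟨g, hg⟩ := hkey X8 inf_le_right (fun p hp hd => by
      have := X8_primes p hp hd
      exact (h2 p hp (by omega)).2 this)
    let B' : Finset (Fin 8) := B.map (Function.Embedding.subtype _)
    have hB'4 : B'.card = 4 := by rw [Finset.card_map, hB4]
    have hb1 : Bl W B' := block_of_res hB
    let T : Finset (Fin 8) := B'.map g.toEmbedding
    have hTg : ∀ y, g y ∈ T ↔ y ∈ B' := by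
      intro y
      simp [T]
    have hst : ∀ x ∈ X8, (∀ y, x y ∈ T ↔ y ∈ T) ∨ (∀ y, x y ∈ T ↔ y ∉ T) := by
      intro x hx
      have h3 : g⁻¹ * x * g ∈ K2 B' := by
        rcases two_block_square hb1 (by rw [hcard, hB'4]) (hg x hx) with h | h
        · exact stab_le_K2 B' h
        · exact Or.inr h
      have h4 : x ∈ K2 T := by
        rw [K2_conj hTg, mem_map_conj]
        exact h3
      exact h4
    apply X8_no T (by rw [Finset.card_map, hB'4])
    exact ⟨hst _ (X8_mem c8_comm c8_s), hst _ (X8_mem v28_comm v28_s)⟩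

theorem main_D (n : ℕ) (hn : 5 ≤ n) (π : Set ℕ) :
    Cfsg.IsDPiGroup π (alternatingGroup (Fin n)) ↔
      ((∀ r s : ℕ, r.Prime → s.Prime → r ∈ π → s ∈ π → r ∣ Nat.card (alternatingGroup (Fin n)) →
          s ∣ Nat.card (alternatingGroup (Fin n)) → r = s) ∨
        ∀ r : ℕ, r.Prime → r ∣ Nat.card (alternatingGroup (Fin n)) → r ∈ π) := by
  have hcard : Fintype.card (Fin n) = n := Fintype.card_fin n
  have hdv : ∀ p : ℕ, p.Prime → p ≤ n → p ∣ Nat.card (alternatingGroup (Fin n)) := by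
    intro p hp hpn
    exact prime_dvd_card_alt hp (by rwa [hcard]) (by rwa [hcard])
  have hle : ∀ p : ℕ, p.Prime → p ∣ Nat.card (alternatingGroup (Fin n)) → p ≤ n := by
    intro p hp hd
    have := prime_le_of_dvd _ hp hd
    rwa [hcard] at this
  constructor
  · intro hD
    by_contra hcon
    push_neg at hcon
    obtain ⟨⟨r', s', hr', hs', hrπ', hsπ', hrd', hsd', hne⟩, q₀, hq₀, hq₀d, hq₀π⟩ := hcon
    rcases lt_or_gt_of_ne hne with h | h
    · exact D_forward n hn π hD s' r' hs' hr' h hsπ' hrπ' (hle _ hs' hsd') q₀ hq₀ (hle _ hq₀ hq₀d) hq₀π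
    · exact D_forward n hn π hD r' s' hr' hs' h hrπ' hsπ' (hle _ hr' hrd') q₀ hq₀ (hle _ hq₀ hq₀d) hq₀π
  · rintro (h | h)
    · exact D_of_single h
    · exact D_of_all h

end Cfsg.Agent.H11.HallS
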