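import Cfsg.Agent.Lib.H09.SpInv
import Cfsg.Agent.Lib.H09.OInv2
import Cfsg.Agent.Lib.H11.Symp2
import Cfsg.Agent.Lib.H11.SpReg
import Cfsg.Agent.S0749

/-! Counting classes of involutions in characteristic two: generalities and the symplectic group. -/

set_option autoImplicit false
set_option linter.unusedSectionVars false
set_option linter.unusedVariables false

namespace Cfsg.Agent.H11.InvCl

open Module Matrix

/-- classes of a conjugation-invariant family are counted by a complete invariant -/
theorem card_classes_of_inv {G α : Type*} [Group G] [DecidableEq α] (T : G → Prop) (inv : G → α)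
    (hc : ∀ a b, T a → T b → (IsConj a b ↔ inv a = inv b)) (S : Finset α) (hS1 : ∀ g, T g → inv g ∈ S)
    (hS2 : ∀ x ∈ S, ∃ g, T g ∧ inv g = x) :
    Nat.card {C : ConjClasses G // ∃ g, ConjClasses.mk g = C ∧ T g} = S.card := by
  classical
  have h : Nat.card S = S.card := by
    rw [Nat.card_eq_fintype_card, Fintype.card_coe]
  rw [← h]
  symm
  choose R hR1 hR2 using hS2
  apply Nat.card_congr
  refine Equiv.ofBijective (fun x : S => ⟨ConjClasses.mk (R x.1 x.2), R x.1 x.2, rfl, hR1 x.1 x.2⟩) ⟨?_, ?_⟩
  · rintro ⟨x, hx⟩ ⟨y, hy⟩ hxy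
    have h1 : ConjClasses.mk (R x hx) = ConjClasses.mk (R y hy) := congrArg Subtype.val hxy
    rw [ConjClasses.mk_eq_mk_iff_isConj] at h1
    have h2 := (hc _ _ (hR1 x hx) (hR1 y hy)).1 h1
    rw [hR2, hR2] at h2
    exact Subtype.ext h2
  · rintro ⟨C, g, rfl, hg⟩
    refine ⟨⟨inv g, hS1 g hg⟩, ?_⟩
    apply Subtype.ext
    simp only
    rw [ConjClasses.mk_eq_mk_iff_isConj, hc _ _ (hR1 _ _) hg, hR2]

theorem card_even_Icc (m : ℕ) : ((Finset.Icc 1 m).filter Even).card = m / 2 := by
  induction m with
  | zero => simp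
  | succ m ih =>
    rw [← Finset.insert_Icc_right_eq_Icc_add_one (by omega), Finset.filter_insert]
    by_cases h : Even (m + 1)
    · rw [if_pos h, Finset.card_insert_of_notMem (by simp), ih]
      obtain ⟨c, hc⟩ := h
      omega
    · rw [if_neg h, ih]
      rw [Nat.even_iff] at h
      omega

variable {F : Type*} [Field F]

/-- the rank of a map factoring through an injection and a surjection -/
theorem finrank_range_factor {V W X Y : Type*} [AddCommGroup V] [Module F V] [AddCommGroup W] [Module F W] [AddCommGroup X] [Module F X]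
    [AddCommGroup Y] [Module F Y] (ι : X →ₗ[F] V) (hι : Function.Injective ι) (L : Y →ₗ[F] X) (π : W →ₗ[F] Y)
    (hπ : Function.Surjective π) (N : W →ₗ[F] V) (hN : ∀ v, N v = ι (L (π v))) :
    finrank F (LinearMap.range N) = finrank F (LinearMap.range L) := by
  have h1 : N = ι ∘ₗ L ∘ₗ π := LinearMap.ext hN
  have h2 : LinearMap.range (L ∘ₗ π) = LinearMap.range L :=
    LinearMap.range_comp_of_range_eq_top L (LinearMap.range_eq_top.2 hπ)
  rw [h1, LinearMap.range_comp, h2]
  exact (LinearEquiv.finrank_eq (Submodule.equivMapOfInjective ι hι _)).symm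

/-- a square zero map has rank at most half the dimension -/
theorem rank_le_half {ι : Type*} [Fintype ι] [DecidableEq ι] (N : (ι → F) →ₗ[F] (ι → F)) (hNN : ∀ v, N (N v) = 0) :
    2 * finrank F (LinearMap.range N) ≤ Fintype.card ι := by
  have h1 : LinearMap.range N ≤ LinearMap.ker N := by
    rintro _ ⟨v, rfl⟩
    exact hNN v
  have h2 := Submodule.finrank_mono h1
  have h3 := LinearMap.finrank_range_add_finrank_ker N
  rw [finrank_fintype_fun_eq_card] at h3
  omega

/-- the weight vector with `s` leading ones -/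
noncomputable def wt (F : Type*) [Field F] (m s : ℕ) : Fin m → F := fun i => if (i : ℕ) < s then 1 else 0

theorem wt_of_lt {m s : ℕ} (i : Fin m) (h : (i : ℕ) < s) : wt F m s i = 1 := if_pos h

theorem wt_of_ge {m s : ℕ} (i : Fin m) (h : ¬ (i : ℕ) < s) : wt F m s i = 0 := if_neg h

theorem card_wt [DecidableEq F] {m s : ℕ} (hs : s ≤ m) : Fintype.card {i // wt F m s i ≠ 0} = s := by
  classical
  have e : {i // wt F m s i ≠ 0} ≃ Fin s :=
    { toFun := fun i => ⟨i.1, by
        by_contra h
        exact i.2 (wt_of_ge _ h)⟩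
      invFun := fun i => ⟨⟨i.1, by omega⟩, by
        rw [wt_of_lt (⟨i.1, by omega⟩ : Fin m) i.2]
        exact one_ne_zero⟩
      left_inv := fun i => rfl
      right_inv := fun i => rfl }
  rw [Fintype.card_congr e, Fintype.card_fin]

/-- rank of the weight map composed with a permutation -/
theorem finrank_wt {m s : ℕ} (hs : s ≤ m) :
    finrank F (LinearMap.range (Matrix.diagonal (wt F m s)).mulVecLin) = s := by
  classical
  have h := Matrix.rank_diagonal (wt F m s)
  rw [card_wt hs] at h
  exact h

/-- a fixed point free involution on the first `2 r` points -/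
def prFun (m r : ℕ) (h : 2 * r ≤ m) : Fin m → Fin m := fun i =>
  if h1 : (i : ℕ) < r then ⟨(i : ℕ) + r, by omega⟩ else
    if h2 : (i : ℕ) < 2 * r then ⟨(i : ℕ) - r, by omega⟩ else i

theorem prFun_invol (m r : ℕ) (h : 2 * r ≤ m) : Function.Involutive (prFun m r h) := by
  intro i
  apply Fin.ext
  have hi := i.2
  unfold prFun
  by_cases h1 : (i : ℕ) < r
  · rw [dif_pos h1]
    rw [dif_neg (by simp only; omega), dif_pos (by simp only; omega)]
    simp only
    omega
  · rw [dif_neg h1]
    by_cases h2 : (i : ℕ) < 2 * r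
    · rw [dif_pos h2, dif_pos (by simp only; omega)]
      simp only
      omega
    · rw [dif_neg h2, dif_neg h1, dif_neg h2]

/-- the permutation -/
def prPerm (m r : ℕ) (h : 2 * r ≤ m) : Equiv.Perm (Fin m) := (prFun_invol m r h).toPerm

theorem prPerm_invol (m r : ℕ) (h : 2 * r ≤ m) (i : Fin m) : prPerm m r h (prPerm m r h i) = i := prFun_invol m r h i

theorem prPerm_wt (m r : ℕ) (h : 2 * r ≤ m) (i : Fin m) : wt F m (2 * r) (prPerm m r h i) = wt F m (2 * r) i := by
  have hi := i.2
  by_cases h1 : (i : ℕ) < 2 * r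
  · rw [wt_of_lt _ h1, wt_of_lt]
    change ((prFun m r h i : Fin m) : ℕ) < 2 * r
    unfold prFun
    by_cases h2 : (i : ℕ) < r
    · rw [dif_pos h2]
      simp only
      omega
    · rw [dif_neg h2, dif_pos h1]
      simp only
      omega
  · rw [wt_of_ge _ h1, wt_of_ge]
    change ¬ ((prFun m r h i : Fin m) : ℕ) < 2 * r
    unfold prFun
    rw [dif_neg (by omega), dif_neg h1]
    exact h1

theorem prPerm_ne (m r : ℕ) (h : 2 * r ≤ m) (i : Fin m) (hi : (i : ℕ) < 2 * r) : prPerm m r h i ≠ i := by
  intro he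
  have h1 : ((prFun m r h i : Fin m) : ℕ) = i := congrArg Fin.val he
  unfold prFun at h1
  by_cases h2 : (i : ℕ) < r
  · rw [dif_pos h2] at h1
    simp only at h1
    omega
  · rw [dif_neg h2, dif_pos hi] at h1
    simp only at h1
    omega

variable [CharP F 2]

/-- sum of the quadratic expression vanishes for a fixed point free involution -/
theorem sum_pairs_zero {m s : ℕ} (σ : Equiv.Perm (Fin m)) (hσ : ∀ i, σ (σ i) = i) (hw : ∀ i, wt F m s (σ i) = wt F m s i)
    (hne : ∀ i : Fin m, (i : ℕ) < s → σ i ≠ i) (y : Fin m → F) : ∑ i, wt F m s i * (y i * y (σ i)) = 0 := by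
  apply Finset.sum_involution (fun i _ => σ i)
  · intro i _
    rw [hσ, hw]
    have : wt F m s i * (y i * y (σ i)) + wt F m s i * (y (σ i) * y i) = wt F m s i * (y i * y (σ i)) + wt F m s i * (y i * y (σ i)) := by
      rw [mul_comm (y (σ i))]
    rw [this]
    exact CharTwo.add_self_eq_zero _
  · intro i _ h0
    apply hne
    by_contra h1
    rw [wt_of_ge _ h1, zero_mul] at h0
    exact h0 rfl
  · intro i _
    exact Finset.mem_univ _
  · intro i _
    exact hσ i

end Cfsg.Agent.H11.InvCl
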