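import Cfsg.Agent.Lib.H11.InvCl1

/-! Classes of involutions in `Sp_{2m}(F)` in characteristic two. -/

set_option autoImplicit false
set_option linter.unusedSectionVars false
set_option linter.unusedVariables false

namespace Cfsg.Agent.H11.InvCl

open Module Matrix

variable {F : Type*} [Field F] [Fintype F] [CharP F 2] {m : ℕ}

/-- the classification of involutions in the symplectic group -/
theorem sp_inv_iff (a b : symplecticGroup (Fin m) F) (ha : orderOf a = 2) (hb : orderOf b = 2) :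
    IsConj a b ↔ (a.1 - 1).rank = (b.1 - 1).rank ∧
      ((∀ v, Cfsg.sympForm m F v (a.1 *ᵥ v) = 0) ↔ (∀ v, Cfsg.sympForm m F v (b.1 *ᵥ v) = 0)) := by
  classical
  let B := Cfsg.Agent.H11.sympBilin m F
  have hBa : ∀ u v, B u v = Cfsg.sympForm m F u v := fun _ _ => rfl
  have hAlt : B.IsAlt := fun u => Cfsg.Agent.H11.sympForm_self u
  have hnd : B.Nondegenerate := Cfsg.Agent.H11.sympBilin_nondegenerate
  have hnl : ∀ x, (∀ y, B x y = 0) → x = 0 := fun x hx => Cfsg.Agent.H11.sympForm_left_eq_zero x hx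
  have hWitt : ∀ (X Y : Submodule F (Fin m ⊕ Fin m → F)) (φ : X ≃ₗ[F] Y),
      (∀ x x' : X, B (φ x : _) (φ x' : _) = B (x : _) (x' : _)) →
        ∃ g : (Fin m ⊕ Fin m → F) ≃ₗ[F] (Fin m ⊕ Fin m → F), (∀ u v, B (g u) (g v) = B u v) ∧
          ∀ x : X, g (x : _) = (φ x : _) :=
    fun X Y φ hφ => Cfsg.Agent.S0749.result B hnd hAlt X Y φ hφ
  have hNv : ∀ (t : ↥(Matrix.symplecticGroup (Fin m) F)) v, (t.1 - 1).mulVecLin v = t.1 *ᵥ v - v := by
    intro t v
    rw [Matrix.mulVecLin_apply, Matrix.sub_mulVec, Matrix.one_mulVec]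
  have hinv : ∀ t : ↥(Matrix.symplecticGroup (Fin m) F), orderOf t = 2 → t.1 * t.1 = 1 := by
    intro t ht
    have h1 : t * t = 1 := by rw [← pow_two, ← ht, pow_orderOf_eq_one]
    exact congrArg Subtype.val h1
  have hadj : ∀ t : ↥(Matrix.symplecticGroup (Fin m) F), orderOf t = 2 → ∀ u v,
      B ((t.1 - 1).mulVecLin u) v = B u ((t.1 - 1).mulVecLin v) := by
    intro t ht u v
    have htt := hinv t ht
    have hi := Cfsg.Agent.H11.sympForm_mulVec t.2
    have h1 : B (t.1 *ᵥ u) v = B u (t.1 *ᵥ v) := by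
      rw [hBa, hBa, ← hi u (t.1 *ᵥ v), Matrix.mulVec_mulVec, htt, Matrix.one_mulVec]
    rw [hNv, hNv, map_sub, map_sub, LinearMap.sub_apply, h1]
  have hNN : ∀ t : ↥(Matrix.symplecticGroup (Fin m) F), orderOf t = 2 → ∀ v,
      (t.1 - 1).mulVecLin ((t.1 - 1).mulVecLin v) = 0 := by
    intro t ht v
    have htt := hinv t ht
    simp only [Matrix.mulVecLin_apply, Matrix.mulVec_mulVec]
    have h1 : (t.1 - 1) * (t.1 - 1) = 0 := by
      rw [sub_mul, mul_sub, htt, mul_one, one_mul]
      have h2 : ∀ A : Matrix (Fin m ⊕ Fin m) (Fin m ⊕ Fin m) F, A + A = 0 := by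
        intro A
        ext i j
        simp only [Matrix.add_apply, Matrix.zero_apply]
        exact CharTwo.add_self_eq_zero _
      have h3 : (1 - t.1 - (t.1 - 1)) = (1 + 1) - (t.1 + t.1) := by
        abel
      rw [h3, h2, h2, sub_zero]
    rw [h1, Matrix.zero_mulVec]
  have hdiag : ∀ t : ↥(Matrix.symplecticGroup (Fin m) F), ∀ v,
      Cfsg.sympForm m F v (t.1 *ᵥ v) = B v ((t.1 - 1).mulVecLin v) := by
    intro t v
    rw [hNv, map_sub, hBa, hBa, Cfsg.Agent.H11.sympForm_self, sub_zero]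
  constructor
  · intro hc
    obtain ⟨c, hc⟩ := isConj_iff.1 hc
    have hcm : c.1 * a.1 * (c⁻¹).1 = b.1 :=
      congrArg Subtype.val hc
    have hcc : c.1 * (c⁻¹).1 = 1 :=
      congrArg Subtype.val (mul_inv_cancel c)
    have hcc' : (c⁻¹).1 * c.1 = 1 :=
      congrArg Subtype.val (inv_mul_cancel c)
    have hbm : b.1 - 1 = c.1 * (a.1 - 1) * (c⁻¹).1 := by
      rw [mul_sub, sub_mul, hcm, mul_one, hcc]
    have hu1 : IsUnit c.1.det := (Matrix.isUnit_iff_isUnit_det _).1 (IsUnit.of_mul_eq_one _ hcc)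
    have hu2 : IsUnit (c⁻¹).1.det :=
      (Matrix.isUnit_iff_isUnit_det _).1 (IsUnit.of_mul_eq_one _ hcc')
    have hrk : (a.1 - 1).rank = (b.1 - 1).rank := by
      rw [hbm, Matrix.rank_mul_eq_left_of_isUnit_det _ _ hu2, Matrix.rank_mul_eq_right_of_isUnit_det _ _ hu1]
    refine ⟨hrk, ?_⟩
    have h1 : ∀ v, b.1 *ᵥ (c.1 *ᵥ v) = c.1 *ᵥ (a.1 *ᵥ v) := by
      intro v
      rw [Matrix.mulVec_mulVec, Matrix.mulVec_mulVec, ← hcm, mul_assoc, hcc', mul_one]
    have h2 : ∀ v, Cfsg.sympForm m F (c.1 *ᵥ v) (b.1 *ᵥ (c.1 *ᵥ v)) = Cfsg.sympForm m F v (a.1 *ᵥ v) := by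
      intro v
      rw [h1, Cfsg.Agent.H11.sympForm_mulVec c.2]
    constructor
    · intro h v
      have h3 := h2 ((c⁻¹).1 *ᵥ v)
      rw [Matrix.mulVec_mulVec, hcc, Matrix.one_mulVec, h] at h3
      exact h3
    · intro h v
      rw [← h2, h]
  · rintro ⟨hrk, htype0⟩
    have hrkF : Module.finrank F (LinearMap.range (a.1 - 1).mulVecLin) =
        Module.finrank F (LinearMap.range (b.1 - 1).mulVecLin) := hrk
    have htype : (∀ v, B v ((a.1 - 1).mulVecLin v) = 0) ↔
        (∀ v, B v ((b.1 - 1).mulVecLin v) = 0) := by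
      simp only [← hdiag]
      exact htype0
    obtain ⟨g, hg, hgN⟩ := Cfsg.Agent.H09.SPI.exists_isometry Cfsg.Agent.H09.OI.exists_sq_eq hAlt hnl
      (hadj a ha) (hadj b hb) (hNN a ha) (hNN b hb) hrkF htype hWitt
    let M : Matrix (Fin m ⊕ Fin m) (Fin m ⊕ Fin m) F := LinearMap.toMatrix' g.toLinearMap
    have hM : ∀ v, M *ᵥ v = g v := by
      intro v
      exact LinearMap.toMatrix'_mulVec g.toLinearMap v
    have hMS : M ∈ Matrix.symplecticGroup (Fin m) F := by
      apply Cfsg.Agent.H11.mem_symplectic_of_preserves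
      intro x y
      rw [hM, hM]
      exact hg x y
    have hMab : M * a.1 = b.1 * M := by
      apply Matrix.ext_of_mulVec_single
      intro i
      have h1 := hgN (Pi.single i 1)
      rw [hNv, hNv, map_sub, sub_left_inj] at h1
      rw [← Matrix.mulVec_mulVec, ← Matrix.mulVec_mulVec, hM, hM]
      exact h1
    refine isConj_iff.2 ⟨⟨M, hMS⟩, ?_⟩
    have h3 : (⟨M, hMS⟩ : ↥(Matrix.symplecticGroup (Fin m) F)) * a = b * ⟨M, hMS⟩ := Subtype.ext hMab
    rw [h3]
    group

/-- rank and type of an involution -/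
theorem sp_rank_bounds (t : symplecticGroup (Fin m) F) (ht : orderOf t = 2) : 1 ≤ (t.1 - 1).rank ∧ (t.1 - 1).rank ≤ m := by
  classical
  have htt : t.1 * t.1 = 1 := by
    have h1 : t * t = 1 := by rw [← pow_two, ← ht, pow_orderOf_eq_one]
    exact congrArg Subtype.val h1
  have hNN : ∀ v, (t.1 - 1).mulVecLin ((t.1 - 1).mulVecLin v) = 0 := by
    intro v
    simp only [Matrix.mulVecLin_apply, Matrix.mulVec_mulVec]
    have h1 : (t.1 - 1) * (t.1 - 1) = 0 := by
      rw [sub_mul, mul_sub, htt, mul_one, one_mul]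
      have h2 : ∀ A : Matrix (Fin m ⊕ Fin m) (Fin m ⊕ Fin m) F, A + A = 0 := by
        intro A
        ext i j
        simp only [Matrix.add_apply, Matrix.zero_apply]
        exact CharTwo.add_self_eq_zero _
      have h3 : (1 - t.1 - (t.1 - 1)) = (1 + 1) - (t.1 + t.1) := by
        abel
      rw [h3, h2, h2, sub_zero]
    rw [h1, Matrix.zero_mulVec]
  have h1 := rank_le_half _ hNN
  have h2 : Module.finrank F (LinearMap.range (t.1 - 1).mulVecLin) = (t.1 - 1).rank := rfl
  rw [h2] at h1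
  simp only [Fintype.card_sum, Fintype.card_fin] at h1
  refine ⟨?_, by omega⟩
  by_contra h0
  have h3 : (t.1 - 1).rank = 0 := by omega
  have h4 : LinearMap.range (t.1 - 1).mulVecLin = ⊥ := Submodule.finrank_eq_zero.1 h3
  have h5 : t.1 = 1 := by
    apply Matrix.ext_of_mulVec_single
    intro i
    have h6 : (t.1 - 1).mulVecLin (Pi.single i 1) ∈ LinearMap.range (t.1 - 1).mulVecLin := ⟨_, rfl⟩
    rw [h4, Submodule.mem_bot, Matrix.mulVecLin_apply, Matrix.sub_mulVec, Matrix.one_mulVec, sub_eq_zero] at h6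
    rw [h6, Matrix.one_mulVec]
  have h6 : t = 1 := Subtype.ext h5
  rw [h6, orderOf_one] at ht
  omega

theorem sp_even_of_alt (t : symplecticGroup (Fin m) F) (ht : orderOf t = 2) (hal : ∀ v, Cfsg.sympForm m F v (t.1 *ᵥ v) = 0) :
    Even (t.1 - 1).rank := by
  classical
  let B := Cfsg.Agent.H11.sympBilin m F
  have hBa : ∀ u v, B u v = Cfsg.sympForm m F u v := fun _ _ => rfl
  have hAlt : B.IsAlt := fun u => Cfsg.Agent.H11.sympForm_self u
  have hnl : ∀ x, (∀ y, B x y = 0) → x = 0 := fun x hx => Cfsg.Agent.H11.sympForm_left_eq_zero x hx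
  have hNv : ∀ v, (t.1 - 1).mulVecLin v = t.1 *ᵥ v - v := by
    intro v
    rw [Matrix.mulVecLin_apply, Matrix.sub_mulVec, Matrix.one_mulVec]
  have htt : t.1 * t.1 = 1 := by
    have h1 : t * t = 1 := by rw [← pow_two, ← ht, pow_orderOf_eq_one]
    exact congrArg Subtype.val h1
  have hadj : ∀ u v, B ((t.1 - 1).mulVecLin u) v = B u ((t.1 - 1).mulVecLin v) := by
    intro u v
    have hi := Cfsg.Agent.H11.sympForm_mulVec t.2
    have h1 : B (t.1 *ᵥ u) v = B u (t.1 *ᵥ v) := by
      rw [hBa, hBa, ← hi u (t.1 *ᵥ v), Matrix.mulVec_mulVec, htt, Matrix.one_mulVec]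
    rw [hNv, hNv, map_sub, map_sub, LinearMap.sub_apply, h1]
  have hNN : ∀ v, (t.1 - 1).mulVecLin ((t.1 - 1).mulVecLin v) = 0 := by
    intro v
    simp only [Matrix.mulVecLin_apply, Matrix.mulVec_mulVec]
    have h1 : (t.1 - 1) * (t.1 - 1) = 0 := by
      rw [sub_mul, mul_sub, htt, mul_one, one_mul]
      have h2 : ∀ A : Matrix (Fin m ⊕ Fin m) (Fin m ⊕ Fin m) F, A + A = 0 := by
        intro A
        ext i j
        simp only [Matrix.add_apply, Matrix.zero_apply]
        exact CharTwo.add_self_eq_zero _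
      have h3 : (1 - t.1 - (t.1 - 1)) = (1 + 1) - (t.1 + t.1) := by
        abel
      rw [h3, h2, h2, sub_zero]
    rw [h1, Matrix.zero_mulVec]
  have hal' : ∀ v, B v ((t.1 - 1).mulVecLin v) = 0 := by
    intro v
    rw [hNv, map_sub, hBa, hBa, Cfsg.Agent.H11.sympForm_self, sub_zero]
    exact hal v
  obtain ⟨k, hk, _⟩ := Cfsg.Agent.H09.SPI.gram_alt hAlt hnl hadj hNN hal'
  refine ⟨k, ?_⟩
  have : (t.1 - 1).rank = Fintype.card (Fin k ⊕ Fin k) := hk
  simpa only [Fintype.card_sum, Fintype.card_fin] using this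

/-- the model involutions -/
noncomputable def spL (σ : Equiv.Perm (Fin m)) (s : ℕ) : (Fin m ⊕ Fin m → F) →ₗ[F] (Fin m ⊕ Fin m → F) where
  toFun v := Sum.elim (fun i => v (Sum.inl i) + wt F m s i * v (Sum.inr (σ i))) (fun i => v (Sum.inr i))
  map_add' x y := by
    funext i
    rcases i with i | i
    · simp only [Sum.elim_inl, Pi.add_apply]
      ring
    · simp only [Sum.elim_inr, Pi.add_apply]
  map_smul' c x := by
    funext i
    rcases i with i | i
    · simp only [Sum.elim_inl, Pi.smul_apply, smul_eq_mul, RingHom.id_apply]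
      ring
    · simp only [Sum.elim_inr, Pi.smul_apply, smul_eq_mul, RingHom.id_apply]

theorem spL_inl (σ : Equiv.Perm (Fin m)) (s : ℕ) (v : Fin m ⊕ Fin m → F) (i : Fin m) :
    spL σ s v (Sum.inl i) = v (Sum.inl i) + wt F m s i * v (Sum.inr (σ i)) := rfl

theorem spL_inr (σ : Equiv.Perm (Fin m)) (s : ℕ) (v : Fin m ⊕ Fin m → F) (i : Fin m) :
    spL σ s v (Sum.inr i) = v (Sum.inr i) := rfl

theorem spL_real (σ : Equiv.Perm (Fin m)) (hσ : ∀ i, σ (σ i) = i) (s : ℕ) (hs0 : 1 ≤ s) (hs : s ≤ m)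
    (hw : ∀ i, wt F m s (σ i) = wt F m s i) :
    ∃ t : symplecticGroup (Fin m) F, orderOf t = 2 ∧ (t.1 - 1).rank = s ∧
      ∀ v, Cfsg.sympForm m F v (t.1 *ᵥ v) = ∑ i, wt F m s i * (v (Sum.inr i) * v (Sum.inr (σ i))) := by
  classical
  let L := spL (F := F) σ s
  let M : Matrix (Fin m ⊕ Fin m) (Fin m ⊕ Fin m) F := LinearMap.toMatrix' L
  have hM : ∀ v, M *ᵥ v = L v := by
    intro v
    exact LinearMap.toMatrix'_mulVec L v
  have hLL : ∀ v, L (L v) = v := by
    intro v
    funext i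
    rcases i with i | i
    · change L v (Sum.inl i) + wt F m s i * L v (Sum.inr (σ i)) = _
      change (v (Sum.inl i) + wt F m s i * v (Sum.inr (σ i))) + wt F m s i * v (Sum.inr (σ i)) = _
      rw [add_assoc, CharTwo.add_self_eq_zero, add_zero]
    · rfl
  have hpres : ∀ x y, Cfsg.sympForm m F (L x) (L y) = Cfsg.sympForm m F x y := by
    intro x y
    rw [Cfsg.Agent.H11.sympForm_eq_sum, Cfsg.Agent.H11.sympForm_eq_sum]
    have e : ∀ i, L x (Sum.inr i) * L y (Sum.inl i) - L x (Sum.inl i) * L y (Sum.inr i) =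
        (x (Sum.inr i) * y (Sum.inl i) - x (Sum.inl i) * y (Sum.inr i)) +
          (wt F m s i * (x (Sum.inr i) * y (Sum.inr (σ i))) - wt F m s i * (x (Sum.inr (σ i)) * y (Sum.inr i))) := by
      intro i
      change x (Sum.inr i) * (y (Sum.inl i) + wt F m s i * y (Sum.inr (σ i))) -
        (x (Sum.inl i) + wt F m s i * x (Sum.inr (σ i))) * y (Sum.inr i) = _
      ring
    simp_rw [e]
    rw [Finset.sum_add_distrib]
    have e2 : ∑ i, wt F m s i * (x (Sum.inr i) * y (Sum.inr (σ i))) = ∑ i, wt F m s i * (x (Sum.inr (σ i)) * y (Sum.inr i)) := by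
      rw [← Equiv.sum_comp σ (fun i => wt F m s i * (x (Sum.inr i) * y (Sum.inr (σ i))))]
      apply Finset.sum_congr rfl
      intro i _
      rw [hw, hσ]
    have e3 : ∑ i, (wt F m s i * (x (Sum.inr i) * y (Sum.inr (σ i))) - wt F m s i * (x (Sum.inr (σ i)) * y (Sum.inr i))) = 0 := by
      rw [Finset.sum_sub_distrib, e2, sub_self]
    rw [e3, add_zero]
  have hmem : M ∈ symplecticGroup (Fin m) F := by
    apply Cfsg.Agent.H11.mem_symplectic_of_preserves
    intro x y
    rw [hM, hM]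
    exact hpres x y
  have hMM : M * M = 1 := by
    apply Matrix.ext_of_mulVec_single
    intro i
    rw [← Matrix.mulVec_mulVec, hM, hM, hLL, Matrix.one_mulVec]
  let t : symplecticGroup (Fin m) F := ⟨M, hmem⟩
  have htt : t ^ 2 = 1 := by
    rw [pow_two]
    exact Subtype.ext hMM
  have hN : ∀ v, (M - 1).mulVecLin v = Sum.elim (fun i => wt F m s i * v (Sum.inr (σ i))) 0 := by
    intro v
    rw [Matrix.mulVecLin_apply, Matrix.sub_mulVec, Matrix.one_mulVec, hM]
    funext i
    rcases i with i | i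
    · change (v (Sum.inl i) + wt F m s i * v (Sum.inr (σ i))) - v (Sum.inl i) = _
      simp
    · change v (Sum.inr i) - v (Sum.inr i) = _
      simp
  have hrank : (M - 1).rank = s := by
    change finrank F (LinearMap.range (M - 1).mulVecLin) = s
    let ι : (Fin m → F) →ₗ[F] (Fin m ⊕ Fin m → F) :=
      { toFun := fun w => Sum.elim w 0
        map_add' := fun a b => by
          funext i
          rcases i with i | i <;> simp
        map_smul' := fun c a => by
          funext i
          rcases i with i | i <;> simp }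
    let π : (Fin m ⊕ Fin m → F) →ₗ[F] (Fin m → F) :=
      { toFun := fun v i => v (Sum.inr (σ i))
        map_add' := fun a b => rfl
        map_smul' := fun c a => rfl }
    rw [finrank_range_factor ι (fun a b h => funext fun i => congrFun h (Sum.inl i))
      (Matrix.diagonal (wt F m s)).mulVecLin π (fun y => ⟨Sum.elim 0 (fun i => y (σ i)), by
        funext i
        change y (σ (σ i)) = y i
        rw [hσ]⟩) _ (fun v => by
        rw [hN]
        change _ = Sum.elim ((Matrix.diagonal (wt F m s)) *ᵥ (fun i => v (Sum.inr (σ i)))) 0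
        congr 1
        funext i
        rw [Matrix.mulVec_diagonal]), finrank_wt hs]
  have hne : t ≠ 1 := by
    intro h
    have h1 : M = 1 := congrArg Subtype.val h
    rw [h1, sub_self, Matrix.rank_zero] at hrank
    omega
  refine ⟨t, ?_, hrank, ?_⟩
  · haveI : Fact (Nat.Prime 2) := ⟨Nat.prime_two⟩
    exact orderOf_eq_prime htt hne
  · intro v
    change Cfsg.sympForm m F v (M *ᵥ v) = _
    rw [hM, Cfsg.Agent.H11.sympForm_eq_sum]
    apply Finset.sum_congr rfl
    intro i _
    change v (Sum.inr i) * (v (Sum.inl i) + wt F m s i * v (Sum.inr (σ i))) - v (Sum.inl i) * v (Sum.inr i) = _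
    ring

/-- the number of classes of involutions -/
theorem card_inv_Sp (hm : 1 ≤ m) :
    Nat.card {C : ConjClasses ↥(Matrix.symplecticGroup (Fin m) F) // ∃ g : Matrix.symplecticGroup (Fin m) F, ConjClasses.mk g = C ∧ orderOf g = 2} = m + m / 2 := by
  classical
  let inv : symplecticGroup (Fin m) F → ℕ × Bool := fun t => ((t.1 - 1).rank, decide (∀ v, Cfsg.sympForm m F v (t.1 *ᵥ v) = 0))
  let S : Finset (ℕ × Bool) := (Finset.Icc 1 m).image (fun s => (s, false)) ∪ ((Finset.Icc 1 m).filter Even).image (fun s => (s, true))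
  have hcard : S.card = m + m / 2 := by
    rw [Finset.card_union_of_disjoint, Finset.card_image_of_injective, Finset.card_image_of_injective, card_even_Icc]
    · simp
    · intro a b h
      exact congrArg Prod.fst h
    · intro a b h
      exact congrArg Prod.fst h
    · rw [Finset.disjoint_left]
      intro x hx hy
      obtain ⟨a, _, rfl⟩ := Finset.mem_image.1 hx
      obtain ⟨b, _, hb⟩ := Finset.mem_image.1 hy
      have := congrArg Prod.snd hb
      simp at this
  rw [← hcard]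
  apply card_classes_of_inv (fun g : symplecticGroup (Fin m) F => orderOf g = 2) inv
  · intro a b ha hb
    rw [sp_inv_iff a b ha hb]
    simp only [inv, Prod.mk.injEq, decide_eq_decide]
  · intro g hg
    obtain ⟨h1, h2⟩ := sp_rank_bounds g hg
    by_cases hal : ∀ v, Cfsg.sympForm m F v (g.1 *ᵥ v) = 0
    · apply Finset.mem_union_right
      refine Finset.mem_image.2 ⟨(g.1 - 1).rank, Finset.mem_filter.2 ⟨Finset.mem_Icc.2 ⟨h1, h2⟩, sp_even_of_alt g hg hal⟩, ?_⟩
      simp only [inv]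
      rw [decide_eq_true hal]
    · apply Finset.mem_union_left
      refine Finset.mem_image.2 ⟨(g.1 - 1).rank, Finset.mem_Icc.2 ⟨h1, h2⟩, ?_⟩
      simp only [inv]
      rw [decide_eq_false hal]
  · intro x hx
    rcases Finset.mem_union.1 hx with hx | hx
    · obtain ⟨s, hs, rfl⟩ := Finset.mem_image.1 hx
      obtain ⟨h1, h2⟩ := Finset.mem_Icc.1 hs
      obtain ⟨t, ht, hr, hform⟩ := spL_real (F := F) (m := m) (1 : Equiv.Perm (Fin m)) (fun i => rfl) s h1 h2 (fun i => rfl)
      refine ⟨t, ht, ?_⟩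
      simp only [inv]
      rw [hr]
      have hnal : ¬ ∀ v, Cfsg.sympForm m F v (t.1 *ᵥ v) = 0 := by
        intro hall
        let i₀ : Fin m := ⟨0, by omega⟩
        have h3 := hall (Pi.single (Sum.inr i₀) 1)
        rw [hform, Finset.sum_eq_single i₀] at h3
        · rw [wt_of_lt i₀ (by change 0 < s; omega)] at h3
          simp at h3
        · intro b _ hb
          have : (Sum.inr b : Fin m ⊕ Fin m) ≠ Sum.inr i₀ := fun h => hb (Sum.inr.inj h)
          rw [Pi.single_eq_of_ne this]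
          simp
        · intro h
          exact absurd (Finset.mem_univ _) h
      rw [decide_eq_false hnal]
    · obtain ⟨s, hs, rfl⟩ := Finset.mem_image.1 hx
      obtain ⟨hs1, hev⟩ := Finset.mem_filter.1 hs
      obtain ⟨h1, h2⟩ := Finset.mem_Icc.1 hs1
      obtain ⟨r, hr⟩ := hev
      have h2r : 2 * r ≤ m := by omega
      have e : s = 2 * r := by omega
      subst e
      obtain ⟨t, ht, hrk, hform⟩ := spL_real (F := F) (m := m) (prPerm m r h2r) (prPerm_invol m r h2r) (2 * r) h1 h2 (prPerm_wt m r h2r)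
      refine ⟨t, ht, ?_⟩
      simp only [inv]
      rw [hrk]
      have hal : ∀ v, Cfsg.sympForm m F v (t.1 *ᵥ v) = 0 := by
        intro v
        rw [hform]
        exact sum_pairs_zero (prPerm m r h2r) (prPerm_invol m r h2r) (prPerm_wt m r h2r) (prPerm_ne m r h2r) (fun i => v (Sum.inr i))
      rw [decide_eq_true hal]

end Cfsg.Agent.H11.InvCl
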