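import Cfsg.Agent.Lib.H11.InvCl2

/-! Classes of involutions in orthogonal groups in characteristic two: classification and the plus type. -/

set_option autoImplicit false
set_option linter.unusedSectionVars false
set_option linter.unusedVariables false

namespace Cfsg.Agent.H11.InvCl

open Module Matrix QuadraticMap Cfsg

variable {F : Type*} [Field F] [Fintype F] [CharP F 2]

section general

variable {ι : Type} [Fintype ι] [DecidableEq ι] {Q : QuadraticForm F (ι → F)}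

/-- abbreviation: the matrix of an element of the isometry group -/
abbrev mO {q : (ι → F) → F} (t : ↥(isometryGroup F q)) : Matrix ι ι F := ((t : GL ι F) : Matrix ι ι F)

theorem mO_sq {q : (ι → F) → F} (t : ↥(isometryGroup F q)) (ht : orderOf t = 2) : mO t * mO t = 1 := by
  have h1 : t * t = 1 := by rw [← pow_two, ← ht, pow_orderOf_eq_one]
  exact congrArg (fun x : ↥(isometryGroup F q) => ((x : GL ι F) : Matrix ι ι F)) h1

theorem NN_O {t : Matrix ι ι F} (htt : t * t = 1) (v : ι → F) :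
    (t - 1).mulVecLin ((t - 1).mulVecLin v) = 0 := Cfsg.Agent.H09.OI.N_N htt v

theorem al_eq {T : Matrix ι ι F} (hT : ∀ x, Q (T *ᵥ x) = Q x) (v : ι → F) :
    polar Q v ((T - 1).mulVecLin v) = Q (v + T *ᵥ v) := by
  rw [Matrix.mulVecLin_apply, ← Cfsg.Agent.H09.OI.Q_N hT]
  congr 1
  rw [Matrix.sub_mulVec, Matrix.one_mulVec, Cfsg.Agent.H09.OI.sub_eq_add_vec, add_comm]

/-- invertible matrices from linear equivalences -/
theorem gl_of_equiv (g : (ι → F) ≃ₗ[F] (ι → F)) :
    ∃ G : GL ι F, (∀ v, (G : Matrix ι ι F) *ᵥ v = g v) ∧ (∀ v, ((G⁻¹ : GL ι F) : Matrix ι ι F) *ᵥ v = g.symm v) := by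
  classical
  let K : Matrix ι ι F := LinearMap.toMatrix' (g : (ι → F) →ₗ[F] (ι → F))
  let K' : Matrix ι ι F := LinearMap.toMatrix' (g.symm : (ι → F) →ₗ[F] (ι → F))
  have hK : ∀ v, K *ᵥ v = g v := fun v => by
    simp [K, LinearMap.toMatrix'_mulVec]
  have hK' : ∀ v, K' *ᵥ v = g.symm v := fun v => by
    simp [K', LinearMap.toMatrix'_mulVec]
  have hKK' : K * K' = 1 := by
    apply Matrix.ext_of_mulVec_single
    intro i
    rw [← Matrix.mulVec_mulVec, hK', hK, Matrix.one_mulVec]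
    simp
  have hK'K : K' * K = 1 := by
    apply Matrix.ext_of_mulVec_single
    intro i
    rw [← Matrix.mulVec_mulVec, hK, hK', Matrix.one_mulVec]
    simp
  exact ⟨⟨K, K', hKK', hK'K⟩, hK, hK'⟩

variable (hQ : (polarBilin Q).Nondegenerate)

include hQ

/-- the classification of involutions -/
theorem o_inv_iff {q : (ι → F) → F} (hq : ⇑Q = q) (t s : ↥(isometryGroup F q)) (ht : orderOf t = 2) (hs : orderOf s = 2) :
    IsConj t s ↔ (mO t - 1).rank = (mO s - 1).rank ∧ ((∀ v, q (v + mO t *ᵥ v) = 0) ↔ (∀ v, q (v + mO s *ᵥ v) = 0)) := by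
  classical
  subst hq
  have hti : ∀ (r : ↥(isometryGroup F (⇑Q))) x, Q (mO r *ᵥ x) = Q x := fun r x => Cfsg.Agent.H11.mem_isometryGroup_iff.1 r.2 x
  constructor
  · intro hc
    obtain ⟨c, hc⟩ := isConj_iff.1 hc
    set C : Matrix ι ι F := mO c with hC
    set C' : Matrix ι ι F := mO c⁻¹ with hC'
    have hcc : C * C' = 1 := congrArg (fun x : ↥(isometryGroup F (⇑Q)) => ((x : GL ι F) : Matrix ι ι F)) (mul_inv_cancel c)
    have hcc' : C' * C = 1 := congrArg (fun x : ↥(isometryGroup F (⇑Q)) => ((x : GL ι F) : Matrix ι ι F)) (inv_mul_cancel c)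
    have hcm : C * mO t * C' = mO s := congrArg (fun x : ↥(isometryGroup F (⇑Q)) => ((x : GL ι F) : Matrix ι ι F)) hc
    have hbm : mO s - 1 = C * (mO t - 1) * C' := by
      rw [mul_sub, sub_mul, hcm, mul_one, hcc]
    have hu1 : IsUnit C.det := (Matrix.isUnit_iff_isUnit_det _).1 (IsUnit.of_mul_eq_one _ hcc)
    have hu2 : IsUnit C'.det := (Matrix.isUnit_iff_isUnit_det _).1 (IsUnit.of_mul_eq_one _ hcc')
    refine ⟨?_, ?_⟩
    · rw [hbm, Matrix.rank_mul_eq_left_of_isUnit_det _ _ hu2, Matrix.rank_mul_eq_right_of_isUnit_det _ _ hu1]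
    · have h1 : ∀ v, mO s *ᵥ (C *ᵥ v) = C *ᵥ (mO t *ᵥ v) := by
        intro v
        rw [Matrix.mulVec_mulVec, Matrix.mulVec_mulVec, ← hcm, mul_assoc, hcc', mul_one]
      have h2 : ∀ v, Q (C *ᵥ v + mO s *ᵥ (C *ᵥ v)) = Q (v + mO t *ᵥ v) := by
        intro v
        rw [h1, ← Matrix.mulVec_add]
        exact hti c _
      constructor
      · intro h v
        have h3 := h2 (C' *ᵥ v)
        rw [Matrix.mulVec_mulVec, hcc, Matrix.one_mulVec, h] at h3
        exact h3
      · intro h v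
        rw [← h2, h]
  · rintro ⟨hrk, htype0⟩
    rw [Cfsg.Agent.H09.OI.O_conj_iff hQ rfl t s ht hs]
    let B := polarBilin Q
    have hBa : ∀ u v, B u v = polar Q u v := fun _ _ => rfl
    have hAlt : B.IsAlt := fun u => by
      rw [hBa, QuadraticMap.polar_self, two_smul]
      exact CharTwo.add_self_eq_zero _
    have hnl : ∀ x, (∀ y, B x y = 0) → x = 0 := fun x hx => hQ.1 x hx
    have hWitt : ∀ (X Y : Submodule F (ι → F)) (φ : X ≃ₗ[F] Y),
        (∀ x x' : X, B (φ x : _) (φ x' : _) = B (x : _) (x' : _)) →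
          ∃ g : (ι → F) ≃ₗ[F] (ι → F), (∀ u v, B (g u) (g v) = B u v) ∧
            ∀ x : X, g (x : _) = (φ x : _) :=
      fun X Y φ hφ => Cfsg.Agent.S0749.result B hQ hAlt X Y φ hφ
    have hadj : ∀ r : ↥(isometryGroup F (⇑Q)), orderOf r = 2 → ∀ u v,
        B ((mO r - 1).mulVecLin u) v = B u ((mO r - 1).mulVecLin v) := fun r hr u v =>
      Cfsg.Agent.H09.OI.N_adj (mO_sq r hr) (hti r) u v
    have hrkF : Module.finrank F (LinearMap.range (mO t - 1).mulVecLin) =
        Module.finrank F (LinearMap.range (mO s - 1).mulVecLin) := hrk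
    have htype : (∀ v, B v ((mO t - 1).mulVecLin v) = 0) ↔ (∀ v, B v ((mO s - 1).mulVecLin v) = 0) := by
      simp only [hBa, al_eq (hti _)]
      exact htype0
    obtain ⟨g, hg, hgN⟩ := Cfsg.Agent.H09.SPI.exists_isometry Cfsg.Agent.H09.OI.exists_sq_eq hAlt hnl
      (hadj t ht) (hadj s hs) (NN_O (mO_sq t ht)) (NN_O (mO_sq s hs)) hrkF htype hWitt
    obtain ⟨G, hG, hG'⟩ := gl_of_equiv g
    refine ⟨G, ?_, ?_⟩
    · intro u v
      change Q ((G : Matrix ι ι F) *ᵥ u + (G : Matrix ι ι F) *ᵥ v) - Q ((G : Matrix ι ι F) *ᵥ u) - Q ((G : Matrix ι ι F) *ᵥ v) = Q (u + v) - Q u - Q v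
      rw [hG, hG]
      exact hg u v
    · rw [mul_inv_eq_iff_eq_mul]
      apply Units.ext
      change (G : Matrix ι ι F) * mO t = mO s * (G : Matrix ι ι F)
      apply Matrix.ext_of_mulVec_single
      intro i
      have h1 := hgN (Pi.single i 1)
      have hNv : ∀ (M : Matrix ι ι F) v, (M - 1).mulVecLin v = M *ᵥ v - v := by
        intro M v
        rw [Matrix.mulVecLin_apply, Matrix.sub_mulVec, Matrix.one_mulVec]
      rw [hNv, hNv, map_sub, sub_left_inj] at h1
      rw [← Matrix.mulVec_mulVec, ← Matrix.mulVec_mulVec, hG, hG]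
      exact h1

omit hQ in
theorem o_rank_bounds {m : ℕ} (hdim : Fintype.card ι = 2 * m) {q : (ι → F) → F} (t : ↥(isometryGroup F q)) (ht : orderOf t = 2) :
    1 ≤ (mO t - 1).rank ∧ (mO t - 1).rank ≤ m := by
  classical
  have h1 := rank_le_half _ (NN_O (mO_sq t ht))
  have h2 : Module.finrank F (LinearMap.range (mO t - 1).mulVecLin) = (mO t - 1).rank := rfl
  rw [h2, hdim] at h1
  refine ⟨?_, by omega⟩
  by_contra h0
  have h3 : (mO t - 1).rank = 0 := by omega
  have h4 : LinearMap.range (mO t - 1).mulVecLin = ⊥ := Submodule.finrank_eq_zero.1 h3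
  have h5 : mO t = 1 := by
    apply Matrix.ext_of_mulVec_single
    intro i
    have h6 : (mO t - 1).mulVecLin (Pi.single i 1) ∈ LinearMap.range (mO t - 1).mulVecLin := ⟨_, rfl⟩
    rw [h4, Submodule.mem_bot, Matrix.mulVecLin_apply, Matrix.sub_mulVec, Matrix.one_mulVec, sub_eq_zero] at h6
    rw [h6, Matrix.one_mulVec]
  have h6 : t = 1 := Subtype.ext (Units.ext h5)
  rw [h6, orderOf_one] at ht
  omega

theorem o_even_of_alt {q : (ι → F) → F} (hq : ⇑Q = q) (t : ↥(isometryGroup F q)) (ht : orderOf t = 2) (hal : ∀ v, q (v + mO t *ᵥ v) = 0) :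
    Even (mO t - 1).rank := by
  classical
  subst hq
  have hti : ∀ (r : ↥(isometryGroup F (⇑Q))) x, Q (mO r *ᵥ x) = Q x := fun r x => Cfsg.Agent.H11.mem_isometryGroup_iff.1 r.2 x
  let B := polarBilin Q
  have hBa : ∀ u v, B u v = polar Q u v := fun _ _ => rfl
  have hAlt : B.IsAlt := fun u => by
    rw [hBa, QuadraticMap.polar_self, two_smul]
    exact CharTwo.add_self_eq_zero _
  have hnl : ∀ x, (∀ y, B x y = 0) → x = 0 := fun x hx => hQ.1 x hx
  have hal' : ∀ v, B v ((mO t - 1).mulVecLin v) = 0 := fun v => by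
    rw [hBa, al_eq (hti _)]
    exact hal v
  obtain ⟨k, hk, _⟩ := Cfsg.Agent.H09.SPI.gram_alt hAlt hnl (fun u v => Cfsg.Agent.H09.OI.N_adj (mO_sq t ht) (hti t) u v)
    (NN_O (mO_sq t ht)) hal'
  refine ⟨k, ?_⟩
  have : (mO t - 1).rank = Fintype.card (Fin k ⊕ Fin k) := hk
  simpa only [Fintype.card_sum, Fintype.card_fin] using this

omit hQ in
theorem o_mts {q : (ι → F) → F} (hq : ⇑Q = q) (t : ↥(isometryGroup F q)) (hal : ∀ v, q (v + mO t *ᵥ v) = 0) :
    Cfsg.Agent.H11.IsMTS Q (mO t - 1).rank (LinearMap.range (mO t - 1).mulVecLin) := by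
  subst hq
  have hti : ∀ x, Q (mO t *ᵥ x) = Q x := fun x => Cfsg.Agent.H11.mem_isometryGroup_iff.1 t.2 x
  refine ⟨rfl, ?_⟩
  rintro _ ⟨v, rfl⟩
  rw [Matrix.mulVecLin_apply, Matrix.sub_mulVec, Matrix.one_mulVec, Cfsg.Agent.H09.OI.sub_eq_add_vec, add_comm]
  exact hal v

omit hQ in
/-- involutions from linear maps -/
theorem o_real {q : (ι → F) → F} (L : (ι → F) →ₗ[F] (ι → F)) (hLL : ∀ v, L (L v) = v) (hLq : ∀ v, q (L v) = q v)
    (hne : ∃ v, L v ≠ v) : ∃ t : ↥(isometryGroup F q), orderOf t = 2 ∧ ∀ v, mO t *ᵥ v = L v := by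
  classical
  let e : (ι → F) ≃ₗ[F] (ι → F) :=
    { L with
      invFun := L
      left_inv := hLL
      right_inv := hLL }
  obtain ⟨G, hG, hG'⟩ := gl_of_equiv e
  have hG1 : ∀ v, (G : Matrix ι ι F) *ᵥ v = L v := hG
  have hmem : G ∈ isometryGroup F q := Cfsg.Agent.H11.mem_isometryGroup_iff.2 (fun v => by
    change q ((G : Matrix ι ι F) *ᵥ v) = q v
    rw [hG1, hLq])
  let t : ↥(isometryGroup F q) := ⟨G, hmem⟩
  have ht : ∀ v, mO t *ᵥ v = L v := hG1
  refine ⟨t, ?_, ht⟩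
  have htt : t ^ 2 = 1 := by
    rw [pow_two]
    apply Subtype.ext
    apply Units.ext
    change mO t * mO t = 1
    apply Matrix.ext_of_mulVec_single
    intro i
    rw [← Matrix.mulVec_mulVec, ht, ht, hLL, Matrix.one_mulVec]
  have hne1 : t ≠ 1 := by
    rintro h
    obtain ⟨v, hv⟩ := hne
    apply hv
    rw [← ht, h]
    change (1 : Matrix ι ι F) *ᵥ v = v
    rw [Matrix.one_mulVec]
  haveI : Fact (Nat.Prime 2) := ⟨Nat.prime_two⟩
  exact orderOf_eq_prime htt hne1

omit hQ in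
theorem rank_of_lin {T : Matrix ι ι F} (L : (ι → F) →ₗ[F] (ι → F)) (hT : ∀ v, T *ᵥ v = L v) (N : (ι → F) →ₗ[F] (ι → F))
    (hN : ∀ v, L v = v + N v) : (T - 1).rank = finrank F (LinearMap.range N) := by
  have : (T - 1).mulVecLin = N := by
    apply LinearMap.ext
    intro v
    rw [Matrix.mulVecLin_apply, Matrix.sub_mulVec, Matrix.one_mulVec, hT, hN, add_sub_cancel_left]
  change finrank F (LinearMap.range (T - 1).mulVecLin) = _
  rw [this]

end general

end Cfsg.Agent.H11.InvCl
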