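import Cfsg.Agent.Lib.H11.InvCl3

/-! Classes of involutions in `O⁺_{2m}(F)` in characteristic two. -/

set_option autoImplicit false
set_option linter.unusedSectionVars false
set_option linter.unusedVariables false

namespace Cfsg.Agent.H11.InvCl

open Module Matrix QuadraticMap Cfsg

variable {F : Type*} [Field F] [Fintype F] [CharP F 2] {m : ℕ}

theorem wt_sq (s : ℕ) (i : Fin m) : wt F m s i * wt F m s i = wt F m s i := by
  by_cases h : (i : ℕ) < s
  · rw [wt_of_lt _ h, one_mul]
  · rw [wt_of_ge _ h, zero_mul]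

/-- alternating model in the plus type -/
theorem plus_alt_real (r : ℕ) (h1 : 1 ≤ r) (h2 : 2 * r ≤ m) :
    ∃ t : ↥(isometryGroup F (quadFormPlus m F)), orderOf t = 2 ∧ (mO t - 1).rank = 2 * r ∧
      ∀ v, quadFormPlus m F (v + mO t *ᵥ v) = 0 := by
  classical
  let σ := prPerm m r h2
  have hσ : ∀ i, σ (σ i) = i := prPerm_invol m r h2
  have hw : ∀ i, wt F m (2 * r) (σ i) = wt F m (2 * r) i := prPerm_wt m r h2
  let L := spL (F := F) σ (2 * r)
  have hL1 : ∀ v i, L v (Sum.inl i) = v (Sum.inl i) + wt F m (2 * r) i * v (Sum.inr (σ i)) := fun _ _ => rfl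
  have hL2 : ∀ v i, L v (Sum.inr i) = v (Sum.inr i) := fun _ _ => rfl
  have hLL : ∀ v, L (L v) = v := by
    intro v
    funext i
    rcases i with i | i
    · rw [hL1, hL2, hL1, add_assoc, CharTwo.add_self_eq_zero, add_zero]
    · rfl
  have hq : ∀ v, quadFormPlus m F (L v) = quadFormPlus m F v := by
    intro v
    unfold quadFormPlus
    have e : ∀ i, L v (Sum.inl i) * L v (Sum.inr i) = v (Sum.inl i) * v (Sum.inr i) + wt F m (2 * r) i * (v (Sum.inr i) * v (Sum.inr (σ i))) := by
      intro i
      rw [hL1, hL2]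
      ring
    simp_rw [e]
    rw [Finset.sum_add_distrib, sum_pairs_zero σ hσ hw (prPerm_ne m r h2) (fun i => v (Sum.inr i)), add_zero]
  have hne : ∃ v, L v ≠ v := by
    let i₀ : Fin m := ⟨0, by omega⟩
    refine ⟨Pi.single (Sum.inr (σ i₀)) 1, fun h => ?_⟩
    have h3 := congrFun h (Sum.inl i₀)
    rw [hL1, wt_of_lt i₀ (by change 0 < 2 * r; omega)] at h3
    simp at h3
  obtain ⟨t, ht, hT⟩ := o_real (q := quadFormPlus m F) L hLL hq hne
  refine ⟨t, ht, ?_, ?_⟩
  · let N : (Fin m ⊕ Fin m → F) →ₗ[F] (Fin m ⊕ Fin m → F) :=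
      { toFun := fun v => Sum.elim (fun i => wt F m (2 * r) i * v (Sum.inr (σ i))) 0
        map_add' := fun a b => by
          funext i
          rcases i with i | i
          · simp [mul_add]
          · simp
        map_smul' := fun c a => by
          funext i
          rcases i with i | i
          · simp only [Sum.elim_inl, Pi.smul_apply, smul_eq_mul, RingHom.id_apply]
            ring
          · simp }
    have hNa : ∀ v, N v = Sum.elim (fun i => wt F m (2 * r) i * v (Sum.inr (σ i))) 0 := fun _ => rfl
    rw [rank_of_lin L hT N (fun v => by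
      funext i
      rcases i with i | i
      · rw [hL1, Pi.add_apply, hNa]
        rfl
      · rw [hL2, Pi.add_apply, hNa]
        simp)]
    let ι : (Fin m → F) →ₗ[F] (Fin m ⊕ Fin m → F) :=
      { toFun := fun w => Sum.elim w 0
        map_add' := fun a b => by
          funext i
          rcases i with i | i <;> simp
        map_smul' := fun c a => by
          funext i
          rcases i with i | i <;> simp }
    let π : (Fin m ⊕ Fin m → F) →ₗ[F] (Fin m → F) :=
      { toFun := fun v i => v (Sum.inr (σ i))
        map_add' := fun a b => rfl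
        map_smul' := fun c a => rfl }
    rw [finrank_range_factor ι (fun a b h => funext fun i => congrFun h (Sum.inl i))
      (Matrix.diagonal (wt F m (2 * r))).mulVecLin π (fun y => ⟨Sum.elim 0 (fun i => y (σ i)), by
        funext i
        change y (σ (σ i)) = y i
        rw [hσ]⟩) _ (fun v => by
        rw [hNa]
        change _ = Sum.elim ((Matrix.diagonal (wt F m (2 * r))) *ᵥ (fun i => v (Sum.inr (σ i)))) 0
        congr 1
        funext i
        rw [Matrix.mulVec_diagonal]), finrank_wt h2]
  · intro v
    rw [hT]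
    unfold quadFormPlus
    apply Finset.sum_eq_zero
    intro i _
    have : (v + L v) (Sum.inr i) = 0 := by
      rw [Pi.add_apply, hL2]
      exact CharTwo.add_self_eq_zero _
    rw [this, mul_zero]

/-- the model with non-alternating form in the plus type -/
noncomputable def swL (m s : ℕ) : (Fin m ⊕ Fin m → F) →ₗ[F] (Fin m ⊕ Fin m → F) where
  toFun v := Sum.elim (fun i => v (Sum.inl i) + wt F m s i * (v (Sum.inl i) + v (Sum.inr i)))
    (fun i => v (Sum.inr i) + wt F m s i * (v (Sum.inl i) + v (Sum.inr i)))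
  map_add' x y := by
    funext i
    rcases i with i | i
    · simp only [Sum.elim_inl, Pi.add_apply]
      ring
    · simp only [Sum.elim_inr, Pi.add_apply]
      ring
  map_smul' c x := by
    funext i
    rcases i with i | i
    · simp only [Sum.elim_inl, Pi.smul_apply, smul_eq_mul, RingHom.id_apply]
      ring
    · simp only [Sum.elim_inr, Pi.smul_apply, smul_eq_mul, RingHom.id_apply]
      ring

theorem plus_swap_real (s : ℕ) (h1 : 1 ≤ s) (h2 : s ≤ m) :
    ∃ t : ↥(isometryGroup F (quadFormPlus m F)), orderOf t = 2 ∧ (mO t - 1).rank = s ∧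
      ¬ ∀ v, quadFormPlus m F (v + mO t *ᵥ v) = 0 := by
  classical
  let L := swL (F := F) m s
  have hL1 : ∀ v i, L v (Sum.inl i) = v (Sum.inl i) + wt F m s i * (v (Sum.inl i) + v (Sum.inr i)) := fun _ _ => rfl
  have hL2 : ∀ v i, L v (Sum.inr i) = v (Sum.inr i) + wt F m s i * (v (Sum.inl i) + v (Sum.inr i)) := fun _ _ => rfl
  have h2z : ∀ c : F, c + c = 0 := fun c => CharTwo.add_self_eq_zero c
  have hc : ∀ v i, L v (Sum.inl i) + L v (Sum.inr i) = v (Sum.inl i) + v (Sum.inr i) := by
    intro v i
    rw [hL1, hL2]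
    linear_combination h2z (wt F m s i * (v (Sum.inl i) + v (Sum.inr i)))
  have hLL : ∀ v, L (L v) = v := by
    intro v
    funext i
    rcases i with i | i
    · rw [hL1, hc, hL1]
      linear_combination h2z (wt F m s i * (v (Sum.inl i) + v (Sum.inr i)))
    · rw [hL2, hc, hL2]
      linear_combination h2z (wt F m s i * (v (Sum.inl i) + v (Sum.inr i)))
  have hq : ∀ v, quadFormPlus m F (L v) = quadFormPlus m F v := by
    intro v
    unfold quadFormPlus
    apply Finset.sum_congr rfl
    intro i _
    rw [hL1, hL2]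
    have hw := wt_sq (F := F) s i
    linear_combination (v (Sum.inl i) + v (Sum.inr i)) ^ 2 * hw + (wt F m s i) * (v (Sum.inl i) + v (Sum.inr i)) ^ 2 * 0 + wt F m s i * (v (Sum.inl i) + v (Sum.inr i)) ^ 2 * (0 : F) + h2z (wt F m s i * (v (Sum.inl i) + v (Sum.inr i)) ^ 2) * (1 : F) - (h2z (wt F m s i * (v (Sum.inl i) + v (Sum.inr i)) ^ 2)) * (1 : F) + h2z (wt F m s i * (v (Sum.inl i) + v (Sum.inr i)) ^ 2)
  have hne : ∃ v, L v ≠ v := by
    let i₀ : Fin m := ⟨0, by omega⟩
    refine ⟨Pi.single (Sum.inl i₀) 1, fun h => ?_⟩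
    have h3 := congrFun h (Sum.inr i₀)
    rw [hL2, wt_of_lt i₀ (by change 0 < s; omega)] at h3
    simp at h3
  obtain ⟨t, ht, hT⟩ := o_real (q := quadFormPlus m F) L hLL hq hne
  refine ⟨t, ht, ?_, ?_⟩
  · let N : (Fin m ⊕ Fin m → F) →ₗ[F] (Fin m ⊕ Fin m → F) :=
      { toFun := fun v => Sum.elim (fun i => wt F m s i * (v (Sum.inl i) + v (Sum.inr i))) (fun i => wt F m s i * (v (Sum.inl i) + v (Sum.inr i)))
        map_add' := fun a b => by
          funext i
          rcases i with i | i
          · simp only [Sum.elim_inl, Pi.add_apply]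
            ring
          · simp only [Sum.elim_inr, Pi.add_apply]
            ring
        map_smul' := fun c a => by
          funext i
          rcases i with i | i
          · simp only [Sum.elim_inl, Pi.smul_apply, smul_eq_mul, RingHom.id_apply]
            ring
          · simp only [Sum.elim_inr, Pi.smul_apply, smul_eq_mul, RingHom.id_apply]
            ring }
    have hNa : ∀ v, N v = Sum.elim (fun i => wt F m s i * (v (Sum.inl i) + v (Sum.inr i))) (fun i => wt F m s i * (v (Sum.inl i) + v (Sum.inr i))) := fun _ => rfl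
    rw [rank_of_lin L hT N (fun v => by
      funext i
      rcases i with i | i
      · rw [hL1, Pi.add_apply, hNa]
        rfl
      · rw [hL2, Pi.add_apply, hNa]
        rfl)]
    let ι : (Fin m → F) →ₗ[F] (Fin m ⊕ Fin m → F) :=
      { toFun := fun w => Sum.elim w w
        map_add' := fun a b => by
          funext i
          rcases i with i | i <;> simp
        map_smul' := fun c a => by
          funext i
          rcases i with i | i <;> simp }
    let π : (Fin m ⊕ Fin m → F) →ₗ[F] (Fin m → F) :=
      { toFun := fun v i => v (Sum.inl i) + v (Sum.inr i)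
        map_add' := fun a b => by
          funext i
          simp only [Pi.add_apply]
          ring
        map_smul' := fun c a => by
          funext i
          simp only [Pi.smul_apply, smul_eq_mul, RingHom.id_apply]
          ring }
    rw [finrank_range_factor ι (fun a b h => funext fun i => congrFun h (Sum.inl i))
      (Matrix.diagonal (wt F m s)).mulVecLin π (fun y => ⟨Sum.elim y 0, by
        funext i
        change y i + 0 = y i
        rw [add_zero]⟩) _ (fun v => by
        rw [hNa]
        change _ = Sum.elim ((Matrix.diagonal (wt F m s)) *ᵥ (fun i => v (Sum.inl i) + v (Sum.inr i))) ((Matrix.diagonal (wt F m s)) *ᵥ (fun i => v (Sum.inl i) + v (Sum.inr i)))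
        congr 1 <;>
        · funext i
          rw [Matrix.mulVec_diagonal]), finrank_wt h2]
  · intro hall
    let i₀ : Fin m := ⟨0, by omega⟩
    have h3 := hall (Pi.single (Sum.inl i₀) 1)
    rw [hT] at h3
    unfold quadFormPlus at h3
    rw [Finset.sum_eq_single i₀] at h3
    · rw [Pi.add_apply, Pi.add_apply, hL1, hL2, wt_of_lt i₀ (by change 0 < s; omega)] at h3
      simp only [Pi.single_eq_same] at h3
      have hne2 : (Sum.inr i₀ : Fin m ⊕ Fin m) ≠ Sum.inl i₀ := by simp
      rw [Pi.single_eq_of_ne hne2] at h3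
      simp only [add_zero, zero_add, one_mul, mul_one] at h3
      rw [h2z] at h3
      simp at h3
    · intro b _ hb
      have hne1 : (Sum.inl b : Fin m ⊕ Fin m) ≠ Sum.inl i₀ := fun h => hb (Sum.inl.inj h)
      have hne2 : (Sum.inr b : Fin m ⊕ Fin m) ≠ Sum.inl i₀ := by simp
      rw [Pi.add_apply, Pi.add_apply, hL1, hL2, Pi.single_eq_of_ne hne1, Pi.single_eq_of_ne hne2]
      simp
    · intro h
      exact absurd (Finset.mem_univ _) h

/-- the number of classes of involutions in `O⁺` -/
theorem card_inv_Op (hm : 1 ≤ m) :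
    Nat.card {C : ConjClasses ↥(isometryGroup F (quadFormPlus m F)) // ∃ g : ↥(isometryGroup F (quadFormPlus m F)), ConjClasses.mk g = C ∧ orderOf g = 2} = m + m / 2 := by
  classical
  have hQ := Cfsg.Agent.H11.plus_nondeg (F := F) m
  have hq : ⇑(Cfsg.Agent.H11.plusForm m F) = quadFormPlus m F := rfl
  have hdim : Fintype.card (Fin m ⊕ Fin m) = 2 * m := by
    simp [Fintype.card_sum]
    omega
  let inv : ↥(isometryGroup F (quadFormPlus m F)) → ℕ × Bool := fun t => ((mO t - 1).rank, decide (∀ v, quadFormPlus m F (v + mO t *ᵥ v) = 0))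
  let S : Finset (ℕ × Bool) := (Finset.Icc 1 m).image (fun s => (s, false)) ∪ ((Finset.Icc 1 m).filter Even).image (fun s => (s, true))
  have hcard : S.card = m + m / 2 := by
    rw [Finset.card_union_of_disjoint, Finset.card_image_of_injective, Finset.card_image_of_injective, card_even_Icc]
    · simp
    · intro a b h
      exact congrArg Prod.fst h
    · intro a b h
      exact congrArg Prod.fst h
    · rw [Finset.disjoint_left]
      intro x hx hy
      obtain ⟨a, _, rfl⟩ := Finset.mem_image.1 hx
      obtain ⟨b, _, hb⟩ := Finset.mem_image.1 hy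
      have := congrArg Prod.snd hb
      simp at this
  rw [← hcard]
  apply card_classes_of_inv (fun g : ↥(isometryGroup F (quadFormPlus m F)) => orderOf g = 2) inv
  · intro a b ha hb
    rw [o_inv_iff hQ hq a b ha hb]
    simp only [inv, Prod.mk.injEq, decide_eq_decide]
  · intro g hg
    obtain ⟨h1, h2⟩ := o_rank_bounds hdim g hg
    by_cases hal : ∀ v, quadFormPlus m F (v + mO g *ᵥ v) = 0
    · apply Finset.mem_union_right
      refine Finset.mem_image.2 ⟨(mO g - 1).rank, Finset.mem_filter.2 ⟨Finset.mem_Icc.2 ⟨h1, h2⟩, o_even_of_alt hQ hq g hg hal⟩, ?_⟩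
      simp only [inv]
      rw [decide_eq_true hal]
    · apply Finset.mem_union_left
      refine Finset.mem_image.2 ⟨(mO g - 1).rank, Finset.mem_Icc.2 ⟨h1, h2⟩, ?_⟩
      simp only [inv]
      rw [decide_eq_false hal]
  · intro x hx
    rcases Finset.mem_union.1 hx with hx | hx
    · obtain ⟨s, hs, rfl⟩ := Finset.mem_image.1 hx
      obtain ⟨h1, h2⟩ := Finset.mem_Icc.1 hs
      obtain ⟨t, ht, hr, hform⟩ := plus_swap_real (F := F) (m := m) s h1 h2
      refine ⟨t, ht, ?_⟩
      simp only [inv]
      rw [hr, decide_eq_false hform]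
    · obtain ⟨s, hs, rfl⟩ := Finset.mem_image.1 hx
      obtain ⟨hs1, hev⟩ := Finset.mem_filter.1 hs
      obtain ⟨h1, h2⟩ := Finset.mem_Icc.1 hs1
      obtain ⟨r, hr⟩ := hev
      have e : s = 2 * r := by omega
      subst e
      obtain ⟨t, ht, hrk, hform⟩ := plus_alt_real (F := F) (m := m) r (by omega) h2
      refine ⟨t, ht, ?_⟩
      simp only [inv]
      rw [hrk, decide_eq_true hform]

end Cfsg.Agent.H11.InvCl
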