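import Cfsg.Agent.Lib.H11.InvCl4

/-! Classes of involutions in `O⁻_{2m}(F)` in characteristic two. -/

set_option autoImplicit false
set_option linter.unusedSectionVars false
set_option linter.unusedVariables false

namespace Cfsg.Agent.H11.InvCl

open Module Matrix QuadraticMap Cfsg

variable {F : Type*} [Field F] [Fintype F] [CharP F 2] {k : ℕ}

/-- the model for the alternating classes -/
noncomputable def amL (σ : Equiv.Perm (Fin k)) (s : ℕ) : ((Fin k ⊕ Fin k) ⊕ Fin 2 → F) →ₗ[F] ((Fin k ⊕ Fin k) ⊕ Fin 2 → F) where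
  toFun v := Sum.elim (Sum.elim (fun i => v (Sum.inl (Sum.inl i)) + wt F k s i * v (Sum.inl (Sum.inr (σ i)))) (fun i => v (Sum.inl (Sum.inr i))))
    (fun i => v (Sum.inr i))
  map_add' x y := by
    funext i
    rcases i with (i | i) | i
    · simp only [Sum.elim_inl, Pi.add_apply]
      ring
    · simp only [Sum.elim_inl, Sum.elim_inr, Pi.add_apply]
    · simp only [Sum.elim_inr, Pi.add_apply]
  map_smul' c x := by
    funext i
    rcases i with (i | i) | i
    · simp only [Sum.elim_inl, Pi.smul_apply, smul_eq_mul, RingHom.id_apply]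
      ring
    · simp only [Sum.elim_inl, Sum.elim_inr, Pi.smul_apply, smul_eq_mul, RingHom.id_apply]
    · simp only [Sum.elim_inr, Pi.smul_apply, smul_eq_mul, RingHom.id_apply]

theorem minus_alt_real (a b : F) (r : ℕ) (h1 : 1 ≤ r) (h2 : 2 * r ≤ k) :
    ∃ t : ↥(isometryGroup F (quadFormMinus k F a b)), orderOf t = 2 ∧ (mO t - 1).rank = 2 * r ∧
      ∀ v, quadFormMinus k F a b (v + mO t *ᵥ v) = 0 := by
  classical
  let σ := prPerm k r h2
  have hσ : ∀ i, σ (σ i) = i := prPerm_invol k r h2
  have hw : ∀ i, wt F k (2 * r) (σ i) = wt F k (2 * r) i := prPerm_wt k r h2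
  let L := amL (F := F) σ (2 * r)
  have hL1 : ∀ v i, L v (Sum.inl (Sum.inl i)) = v (Sum.inl (Sum.inl i)) + wt F k (2 * r) i * v (Sum.inl (Sum.inr (σ i))) := fun _ _ => rfl
  have hL2 : ∀ v i, L v (Sum.inl (Sum.inr i)) = v (Sum.inl (Sum.inr i)) := fun _ _ => rfl
  have hL3 : ∀ v i, L v (Sum.inr i) = v (Sum.inr i) := fun _ _ => rfl
  have hLL : ∀ v, L (L v) = v := by
    intro v
    funext i
    rcases i with (i | i) | i
    · rw [hL1, hL2, hL1, add_assoc, CharTwo.add_self_eq_zero, add_zero]
    · rfl
    · rfl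
  have hq : ∀ v, quadFormMinus k F a b (L v) = quadFormMinus k F a b v := by
    intro v
    unfold quadFormMinus
    have e : ∀ i, L v (Sum.inl (Sum.inl i)) * L v (Sum.inl (Sum.inr i)) = v (Sum.inl (Sum.inl i)) * v (Sum.inl (Sum.inr i)) + wt F k (2 * r) i * (v (Sum.inl (Sum.inr i)) * v (Sum.inl (Sum.inr (σ i)))) := by
      intro i
      rw [hL1, hL2]
      ring
    simp_rw [e, hL3]
    rw [Finset.sum_add_distrib, sum_pairs_zero σ hσ hw (prPerm_ne k r h2) (fun i => v (Sum.inl (Sum.inr i))), add_zero]
  have hne : ∃ v, L v ≠ v := by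
    let i₀ : Fin k := ⟨0, by omega⟩
    refine ⟨Pi.single (Sum.inl (Sum.inr (σ i₀))) 1, fun h => ?_⟩
    have h3 := congrFun h (Sum.inl (Sum.inl i₀))
    rw [hL1, wt_of_lt i₀ (by change 0 < 2 * r; omega)] at h3
    simp at h3
  obtain ⟨t, ht, hT⟩ := o_real (q := quadFormMinus k F a b) L hLL hq hne
  refine ⟨t, ht, ?_, ?_⟩
  · let N : ((Fin k ⊕ Fin k) ⊕ Fin 2 → F) →ₗ[F] ((Fin k ⊕ Fin k) ⊕ Fin 2 → F) :=
      { toFun := fun v => Sum.elim (Sum.elim (fun i => wt F k (2 * r) i * v (Sum.inl (Sum.inr (σ i)))) 0) 0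
        map_add' := fun a b => by
          funext i
          rcases i with (i | i) | i
          · simp [mul_add]
          · simp
          · simp
        map_smul' := fun c a => by
          funext i
          rcases i with (i | i) | i
          · simp only [Sum.elim_inl, Pi.smul_apply, smul_eq_mul, RingHom.id_apply]
            ring
          · simp
          · simp }
    have hNa : ∀ v, N v = Sum.elim (Sum.elim (fun i => wt F k (2 * r) i * v (Sum.inl (Sum.inr (σ i)))) 0) 0 := fun _ => rfl
    rw [rank_of_lin L hT N (fun v => by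
      funext i
      rcases i with (i | i) | i
      · rw [hL1, Pi.add_apply, hNa]
        rfl
      · rw [hL2, Pi.add_apply, hNa]
        simp
      · rw [hL3, Pi.add_apply, hNa]
        simp)]
    let ι : (Fin k → F) →ₗ[F] ((Fin k ⊕ Fin k) ⊕ Fin 2 → F) :=
      { toFun := fun w => Sum.elim (Sum.elim w 0) 0
        map_add' := fun a b => by
          funext i
          rcases i with (i | i) | i <;> simp
        map_smul' := fun c a => by
          funext i
          rcases i with (i | i) | i <;> simp }
    let π : ((Fin k ⊕ Fin k) ⊕ Fin 2 → F) →ₗ[F] (Fin k → F) :=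
      { toFun := fun v i => v (Sum.inl (Sum.inr (σ i)))
        map_add' := fun a b => rfl
        map_smul' := fun c a => rfl }
    rw [finrank_range_factor ι (fun a b h => funext fun i => congrFun h (Sum.inl (Sum.inl i)))
      (Matrix.diagonal (wt F k (2 * r))).mulVecLin π (fun y => ⟨Sum.elim (Sum.elim 0 (fun i => y (σ i))) 0, by
        funext i
        change y (σ (σ i)) = y i
        rw [hσ]⟩) _ (fun v => by
        rw [hNa]
        change _ = Sum.elim (Sum.elim ((Matrix.diagonal (wt F k (2 * r))) *ᵥ (fun i => v (Sum.inl (Sum.inr (σ i))))) 0) 0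
        congr 2
        funext i
        rw [Matrix.mulVec_diagonal]), finrank_wt h2]
  · intro v
    rw [hT]
    unfold quadFormMinus
    have e1 : ∀ i, (v + L v) (Sum.inl (Sum.inr i)) = 0 := by
      intro i
      rw [Pi.add_apply, hL2]
      exact CharTwo.add_self_eq_zero _
    have e2 : ∀ i, (v + L v) (Sum.inr i) = 0 := by
      intro i
      rw [Pi.add_apply, hL3]
      exact CharTwo.add_self_eq_zero _
    simp only [e1, e2, mul_zero, Finset.sum_const_zero]
    ring

/-- the weights for the reflection model -/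
noncomputable def rfW (F : Type*) [Field F] (k s : ℕ) : Fin k → F := fun i => wt F (k + 1) s i.succ

/-- the reflection model -/
noncomputable def rfL (a : F) (s : ℕ) : ((Fin k ⊕ Fin k) ⊕ Fin 2 → F) →ₗ[F] ((Fin k ⊕ Fin k) ⊕ Fin 2 → F) where
  toFun v := Sum.elim (Sum.elim (fun i => v (Sum.inl (Sum.inl i)) + rfW F k s i * (v (Sum.inl (Sum.inl i)) + v (Sum.inl (Sum.inr i))))
      (fun i => v (Sum.inl (Sum.inr i)) + rfW F k s i * (v (Sum.inl (Sum.inl i)) + v (Sum.inl (Sum.inr i)))))
    (fun j => if j = 0 then v (Sum.inr 0) + a * v (Sum.inr 1) else v (Sum.inr j))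
  map_add' x y := by
    funext i
    rcases i with (i | i) | i
    · simp only [Sum.elim_inl, Pi.add_apply]
      ring
    · simp only [Sum.elim_inl, Sum.elim_inr, Pi.add_apply]
      ring
    · simp only [Sum.elim_inr, Pi.add_apply]
      split_ifs
      · ring
      · rfl
  map_smul' c x := by
    funext i
    rcases i with (i | i) | i
    · simp only [Sum.elim_inl, Pi.smul_apply, smul_eq_mul, RingHom.id_apply]
      ring
    · simp only [Sum.elim_inl, Sum.elim_inr, Pi.smul_apply, smul_eq_mul, RingHom.id_apply]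
      ring
    · simp only [Sum.elim_inr, Pi.smul_apply, smul_eq_mul, RingHom.id_apply]
      split_ifs
      · ring
      · rfl

theorem minus_refl_real (a b : F) (ha : a ≠ 0) (s : ℕ) (h1 : 1 ≤ s) (h2 : s ≤ k + 1) :
    ∃ t : ↥(isometryGroup F (quadFormMinus k F a b)), orderOf t = 2 ∧ (mO t - 1).rank = s ∧
      ¬ ∀ v, quadFormMinus k F a b (v + mO t *ᵥ v) = 0 := by
  classical
  let L := rfL (F := F) (k := k) a s
  have hL1 : ∀ v i, L v (Sum.inl (Sum.inl i)) = v (Sum.inl (Sum.inl i)) + rfW F k s i * (v (Sum.inl (Sum.inl i)) + v (Sum.inl (Sum.inr i))) := fun _ _ => rfl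
  have hL2 : ∀ v i, L v (Sum.inl (Sum.inr i)) = v (Sum.inl (Sum.inr i)) + rfW F k s i * (v (Sum.inl (Sum.inl i)) + v (Sum.inl (Sum.inr i))) := fun _ _ => rfl
  have hL3 : ∀ v, L v (Sum.inr 0) = v (Sum.inr 0) + a * v (Sum.inr 1) := fun v => by
    change (if (0 : Fin 2) = 0 then v (Sum.inr 0) + a * v (Sum.inr 1) else v (Sum.inr 0)) = _
    rw [if_pos rfl]
  have hL4 : ∀ v, L v (Sum.inr 1) = v (Sum.inr 1) := fun v => by
    change (if (1 : Fin 2) = 0 then v (Sum.inr 0) + a * v (Sum.inr 1) else v (Sum.inr 1)) = _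
    rw [if_neg (by decide)]
  have h2z : ∀ c : F, c + c = 0 := fun c => CharTwo.add_self_eq_zero c
  have hc : ∀ v i, L v (Sum.inl (Sum.inl i)) + L v (Sum.inl (Sum.inr i)) = v (Sum.inl (Sum.inl i)) + v (Sum.inl (Sum.inr i)) := by
    intro v i
    rw [hL1, hL2]
    linear_combination h2z (rfW F k s i * (v (Sum.inl (Sum.inl i)) + v (Sum.inl (Sum.inr i))))
  have hLL : ∀ v, L (L v) = v := by
    intro v
    funext i
    rcases i with (i | i) | i
    · rw [hL1, hc, hL1]
      linear_combination h2z (rfW F k s i * (v (Sum.inl (Sum.inl i)) + v (Sum.inl (Sum.inr i))))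
    · rw [hL2, hc, hL2]
      linear_combination h2z (rfW F k s i * (v (Sum.inl (Sum.inl i)) + v (Sum.inl (Sum.inr i))))
    · fin_cases i
      · change L (L v) (Sum.inr 0) = v (Sum.inr 0)
        rw [hL3, hL3, hL4]
        linear_combination h2z (a * v (Sum.inr 1))
      · change L (L v) (Sum.inr 1) = v (Sum.inr 1)
        rw [hL4, hL4]
  have hq : ∀ v, quadFormMinus k F a b (L v) = quadFormMinus k F a b v := by
    intro v
    unfold quadFormMinus
    have e1 : ∑ i, L v (Sum.inl (Sum.inl i)) * L v (Sum.inl (Sum.inr i)) = ∑ i, v (Sum.inl (Sum.inl i)) * v (Sum.inl (Sum.inr i)) := by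
      apply Finset.sum_congr rfl
      intro i _
      rw [hL1, hL2]
      have hw : rfW F k s i * rfW F k s i = rfW F k s i := wt_sq (F := F) (m := k + 1) s i.succ
      linear_combination (v (Sum.inl (Sum.inl i)) + v (Sum.inl (Sum.inr i))) ^ 2 * hw + h2z (rfW F k s i * (v (Sum.inl (Sum.inl i)) + v (Sum.inl (Sum.inr i))) ^ 2)
    rw [e1, hL3, hL4]
    linear_combination (a * v (Sum.inr 1)) * h2z (v (Sum.inr 0)) + (a ^ 2 * v (Sum.inr 1) ^ 2) * (h2z 1)
  have hne : ∃ v, L v ≠ v := by
    refine ⟨Pi.single (Sum.inr 1) 1, fun h => ?_⟩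
    have h3 := congrFun h (Sum.inr 0)
    rw [hL3] at h3
    simp at h3
    exact ha h3
  obtain ⟨t, ht, hT⟩ := o_real (q := quadFormMinus k F a b) L hLL hq hne
  refine ⟨t, ht, ?_, ?_⟩
  · let N : ((Fin k ⊕ Fin k) ⊕ Fin 2 → F) →ₗ[F] ((Fin k ⊕ Fin k) ⊕ Fin 2 → F) :=
      { toFun := fun v => Sum.elim (Sum.elim (fun i => rfW F k s i * (v (Sum.inl (Sum.inl i)) + v (Sum.inl (Sum.inr i))))
            (fun i => rfW F k s i * (v (Sum.inl (Sum.inl i)) + v (Sum.inl (Sum.inr i)))))
          (fun j => if j = 0 then a * v (Sum.inr 1) else 0)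
        map_add' := fun x y => by
          funext i
          rcases i with (i | i) | i
          · simp only [Sum.elim_inl, Pi.add_apply]
            ring
          · simp only [Sum.elim_inl, Sum.elim_inr, Pi.add_apply]
            ring
          · simp only [Sum.elim_inr, Pi.add_apply]
            split_ifs
            · ring
            · simp
        map_smul' := fun c x => by
          funext i
          rcases i with (i | i) | i
          · simp only [Sum.elim_inl, Pi.smul_apply, smul_eq_mul, RingHom.id_apply]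
            ring
          · simp only [Sum.elim_inl, Sum.elim_inr, Pi.smul_apply, smul_eq_mul, RingHom.id_apply]
            ring
          · simp only [Sum.elim_inr, Pi.smul_apply, smul_eq_mul, RingHom.id_apply]
            split_ifs
            · ring
            · simp }
    have hNa1 : ∀ v i, N v (Sum.inl (Sum.inl i)) = rfW F k s i * (v (Sum.inl (Sum.inl i)) + v (Sum.inl (Sum.inr i))) := fun _ _ => rfl
    have hNa2 : ∀ v i, N v (Sum.inl (Sum.inr i)) = rfW F k s i * (v (Sum.inl (Sum.inl i)) + v (Sum.inl (Sum.inr i))) := fun _ _ => rfl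
    have hNa3 : ∀ v, N v (Sum.inr 0) = a * v (Sum.inr 1) := fun v => by
      change (if (0 : Fin 2) = 0 then a * v (Sum.inr 1) else 0) = _
      rw [if_pos rfl]
    have hNa4 : ∀ v, N v (Sum.inr 1) = 0 := fun v => by
      change (if (1 : Fin 2) = 0 then a * v (Sum.inr 1) else 0) = _
      rw [if_neg (by decide)]
    rw [rank_of_lin L hT N (fun v => by
      funext i
      rcases i with (i | i) | i
      · rw [hL1, Pi.add_apply, hNa1]
      · rw [hL2, Pi.add_apply, hNa2]
      · fin_cases i
        · change L v (Sum.inr 0) = v (Sum.inr 0) + N v (Sum.inr 0)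
          rw [hL3, hNa3]
        · change L v (Sum.inr 1) = v (Sum.inr 1) + N v (Sum.inr 1)
          rw [hL4, hNa4, add_zero])]
    let ι : (Fin (k + 1) → F) →ₗ[F] ((Fin k ⊕ Fin k) ⊕ Fin 2 → F) :=
      { toFun := fun w => Sum.elim (Sum.elim (fun i => w i.succ) (fun i => w i.succ)) (fun j => if j = 0 then w 0 else 0)
        map_add' := fun x y => by
          funext i
          rcases i with (i | i) | i
          · simp
          · simp
          · simp only [Sum.elim_inr, Pi.add_apply]
            split_ifs <;> simp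
        map_smul' := fun c x => by
          funext i
          rcases i with (i | i) | i
          · simp
          · simp
          · simp only [Sum.elim_inr, Pi.smul_apply, smul_eq_mul, RingHom.id_apply]
            split_ifs <;> simp }
    let π : ((Fin k ⊕ Fin k) ⊕ Fin 2 → F) →ₗ[F] (Fin (k + 1) → F) :=
      { toFun := fun v => Fin.cons (a * v (Sum.inr 1)) (fun i => v (Sum.inl (Sum.inl i)) + v (Sum.inl (Sum.inr i)))
        map_add' := fun x y => by
          funext i
          refine Fin.cases ?_ (fun i => ?_) i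
          · simp only [Fin.cons_zero, Pi.add_apply]
            ring
          · simp only [Fin.cons_succ, Pi.add_apply]
            ring
        map_smul' := fun c x => by
          funext i
          refine Fin.cases ?_ (fun i => ?_) i
          · simp only [Fin.cons_zero, Pi.smul_apply, smul_eq_mul, RingHom.id_apply]
            ring
          · simp only [Fin.cons_succ, Pi.smul_apply, smul_eq_mul, RingHom.id_apply]
            ring }
    have hπ1 : ∀ v, π v 0 = a * v (Sum.inr 1) := fun v => rfl
    have hπ2 : ∀ v i, π v (Fin.succ i) = v (Sum.inl (Sum.inl i)) + v (Sum.inl (Sum.inr i)) := fun v i => rfl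
    have hw0 : wt F (k + 1) s 0 = 1 := wt_of_lt _ (by change 0 < s; omega)
    rw [finrank_range_factor ι (fun x y h => funext fun i => by
        refine Fin.cases ?_ (fun i => ?_) i
        · exact congrFun h (Sum.inr 0)
        · exact congrFun h (Sum.inl (Sum.inl i)))
      (Matrix.diagonal (wt F (k + 1) s)).mulVecLin π (fun y => ⟨Sum.elim (Sum.elim (fun i => y i.succ) 0) (fun j => if j = 0 then 0 else a⁻¹ * y 0), by
        funext i
        refine Fin.cases ?_ (fun i => ?_) i
        · rw [hπ1]
          change a * (if (1 : Fin 2) = 0 then 0 else a⁻¹ * y 0) = y 0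
          rw [if_neg (by decide), mul_inv_cancel_left₀ ha]
        · rw [hπ2]
          change y i.succ + 0 = y i.succ
          rw [add_zero]⟩) _ (fun v => by
        have e : ∀ j, ((Matrix.diagonal (wt F (k + 1) s)).mulVecLin (π v)) j = wt F (k + 1) s j * π v j := fun j => by
          rw [Matrix.mulVecLin_apply, Matrix.mulVec_diagonal]
        funext i
        rcases i with (i | i) | i
        · rw [hNa1]
          change _ = ((Matrix.diagonal (wt F (k + 1) s)).mulVecLin (π v)) i.succ
          rw [e, hπ2]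
          rfl
        · rw [hNa2]
          change _ = ((Matrix.diagonal (wt F (k + 1) s)).mulVecLin (π v)) i.succ
          rw [e, hπ2]
          rfl
        · fin_cases i
          · change N v (Sum.inr 0) = ((Matrix.diagonal (wt F (k + 1) s)).mulVecLin (π v)) 0
            rw [hNa3, e, hπ1, hw0, one_mul]
          · change N v (Sum.inr 1) = 0
            rw [hNa4]), finrank_wt h2]
  · intro hall
    let e₀ : (Fin k ⊕ Fin k) ⊕ Fin 2 → F := Pi.single (Sum.inr 1) 1
    have h3 := hall e₀
    rw [hT] at h3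
    unfold quadFormMinus at h3
    have e1 : ∀ i, (e₀ + L e₀) (Sum.inl (Sum.inl i)) = (0 : F) := by
      intro i
      rw [Pi.add_apply, hL1]
      simp [e₀]
    have e1' : ∀ i, (e₀ + L e₀) (Sum.inl (Sum.inr i)) = (0 : F) := by
      intro i
      rw [Pi.add_apply, hL2]
      simp [e₀]
    have e2 : (e₀ + L e₀) (Sum.inr 0) = a := by
      rw [Pi.add_apply, hL3]
      simp [e₀]
    have e3 : (e₀ + L e₀) (Sum.inr 1) = (0 : F) := by
      rw [Pi.add_apply, hL4]
      exact h2z _
    simp only [e1, e1', e2, e3, zero_mul, Finset.sum_const_zero, mul_zero, zero_add] at h3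
    have h4 : a ^ 2 = 0 := by
      rw [← h3]
      ring
    exact ha (pow_eq_zero_iff (two_ne_zero) |>.1 h4)

/-- the number of classes of involutions in `O⁻` -/
theorem card_inv_Om (a b : F) (hab : ∀ z₁ z₂ : F, z₁ ^ 2 + a * z₁ * z₂ + b * z₂ ^ 2 = 0 → z₁ = 0 ∧ z₂ = 0) :
    Nat.card {C : ConjClasses ↥(isometryGroup F (quadFormMinus k F a b)) // ∃ g : ↥(isometryGroup F (quadFormMinus k F a b)), ConjClasses.mk g = C ∧ orderOf g = 2} = (k + 1) + k / 2 := by
  classical
  have hQ := Cfsg.Agent.H09.OI.minus_nondeg_two k a b hab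
  have hq : ⇑(Cfsg.Agent.H11.minusForm k F a b) = quadFormMinus k F a b := Cfsg.Agent.H11.minusForm_coe k a b
  have ha := Cfsg.Agent.H09.OI.minus_ne_zero hab
  have hdim : Fintype.card ((Fin k ⊕ Fin k) ⊕ Fin 2) = 2 * (k + 1) := by
    simp [Fintype.card_sum]
    ring
  let inv : ↥(isometryGroup F (quadFormMinus k F a b)) → ℕ × Bool := fun t => ((mO t - 1).rank, decide (∀ v, quadFormMinus k F a b (v + mO t *ᵥ v) = 0))
  let S : Finset (ℕ × Bool) := (Finset.Icc 1 (k + 1)).image (fun s => (s, false)) ∪ ((Finset.Icc 1 k).filter Even).image (fun s => (s, true))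
  have hcard : S.card = (k + 1) + k / 2 := by
    rw [Finset.card_union_of_disjoint, Finset.card_image_of_injective, Finset.card_image_of_injective, card_even_Icc]
    · simp
    · intro a b h
      exact congrArg Prod.fst h
    · intro a b h
      exact congrArg Prod.fst h
    · rw [Finset.disjoint_left]
      intro x hx hy
      obtain ⟨a, _, rfl⟩ := Finset.mem_image.1 hx
      obtain ⟨b, _, hb⟩ := Finset.mem_image.1 hy
      have := congrArg Prod.snd hb
      simp at this
  rw [← hcard]
  apply card_classes_of_inv (fun g : ↥(isometryGroup F (quadFormMinus k F a b)) => orderOf g = 2) inv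
  · intro x y ha hb
    rw [o_inv_iff hQ hq x y ha hb]
    simp only [inv, Prod.mk.injEq, decide_eq_decide]
  · intro g hg
    obtain ⟨h1, h2⟩ := o_rank_bounds hdim g hg
    by_cases hal : ∀ v, quadFormMinus k F a b (v + mO g *ᵥ v) = 0
    · apply Finset.mem_union_right
      have hne : (mO g - 1).rank ≠ k + 1 := by
        intro h
        have h3 := o_mts hq g hal
        rw [h] at h3
        exact Cfsg.Agent.H09.OI.no_mts_minus k a b hab h3
      refine Finset.mem_image.2 ⟨(mO g - 1).rank, Finset.mem_filter.2 ⟨Finset.mem_Icc.2 ⟨h1, by omega⟩, o_even_of_alt hQ hq g hg hal⟩, ?_⟩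
      simp only [inv]
      rw [decide_eq_true hal]
    · apply Finset.mem_union_left
      refine Finset.mem_image.2 ⟨(mO g - 1).rank, Finset.mem_Icc.2 ⟨h1, h2⟩, ?_⟩
      simp only [inv]
      rw [decide_eq_false hal]
  · intro x hx
    rcases Finset.mem_union.1 hx with hx | hx
    · obtain ⟨s, hs, rfl⟩ := Finset.mem_image.1 hx
      obtain ⟨h1, h2⟩ := Finset.mem_Icc.1 hs
      obtain ⟨t, ht, hr, hform⟩ := minus_refl_real a b ha s h1 h2
      refine ⟨t, ht, ?_⟩
      simp only [inv]
      rw [hr, decide_eq_false hform]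
    · obtain ⟨s, hs, rfl⟩ := Finset.mem_image.1 hx
      obtain ⟨hs1, hev⟩ := Finset.mem_filter.1 hs
      obtain ⟨h1, h2⟩ := Finset.mem_Icc.1 hs1
      obtain ⟨r, hr⟩ := hev
      have e : s = 2 * r := by omega
      subst e
      obtain ⟨t, ht, hrk, hform⟩ := minus_alt_real a b r (by omega) h2
      refine ⟨t, ht, ?_⟩
      simp only [inv]
      rw [hrk, decide_eq_true hform]

end Cfsg.Agent.H11.InvCl
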