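import Cfsg.Agent.Lib.H11.InvCl5

/-! Membership in Ω and conjugacy in Ω, in the generality of the generation theorem. -/

set_option autoImplicit false
set_option linter.unusedSectionVars false
set_option linter.unusedVariables false

namespace Cfsg.Agent.H11.InvCl

open Module Matrix QuadraticMap Cfsg
open Cfsg.Agent.H03.OGen Cfsg.Agent.H03.ODick Cfsg.Agent.H11
open scoped commutatorElement

variable {F : Type*} [Field F] [Fintype F] [CharP F 2] {ι : Type} [Fintype ι] [DecidableEq ι]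
  {Q : QuadraticForm F (ι → F)} (hQ : (polarBilin Q).Nondegenerate) (hG : Good Q)

include hQ hG

theorem exists_list_G (g : ↥(isometryGroup F (⇑Q))) :
    ∃ L : List (ι → F), (∀ v ∈ L, Q v ≠ 0) ∧
      ((g : GL ι F) : Matrix ι ι F) = (L.map (fun v => reflectionMatrix (⇑Q) v)).prod := by
  have hg : ∀ x, Q (((g : GL ι F) : Matrix ι ι F).mulVecLin x) = Q x := fun x => g.2 x x
  obtain ⟨L, hL, hLe⟩ := isometry_isP hQ hG _ hg
  refine ⟨L, hL, ?_⟩
  rw [prod_eq_mulVecLin] at hLe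
  apply mat_ext_mulVec
  intro x
  exact congrArg (fun f : Module.End F (ι → F) => f x) hLe

theorem refl_refl_G {u v : ι → F} (hu : Q u ≠ 0) (hv : Q v ≠ 0) :
    refl Q u hu * refl Q v hv ∈ Omega F (⇑Q) := by
  have h2 : (2 : F) = 0 := CharTwo.two_eq_zero
  have hrc : ringChar F = 2 := CharP.ringChar_of_prime_eq_zero Nat.prime_two (by exact_mod_cast h2)
  have hnorm : ∀ x : ι → F, Q x ≠ 0 → ∃ c : F, c ≠ 0 ∧ Q (c • x) = 1 := by
    intro x hx
    obtain ⟨s, hs⟩ := FiniteField.isSquare_of_char_two hrc (Q x)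
    have hs0 : s ≠ 0 := by
      rintro rfl
      rw [mul_zero] at hs
      exact hx hs
    refine ⟨s⁻¹, inv_ne_zero hs0, ?_⟩
    rw [QuadraticMap.map_smul, hs]
    simp only [smul_eq_mul]
    field_simp
  obtain ⟨c, hc, hcu⟩ := hnorm u hu
  obtain ⟨d, hd, hdv⟩ := hnorm v hv
  have hcu0 : Q (c • u) ≠ 0 := by rw [hcu]; exact one_ne_zero
  have hdv0 : Q (d • v) ≠ 0 := by rw [hdv]; exact one_ne_zero
  have e1 : refl Q u hu = refl Q (c • u) hcu0 :=
    refl_congr Q hu hcu0 (reflMat_smul Q c hc u hu).symm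
  have e2 : refl Q v hv = refl Q (d • v) hdv0 :=
    refl_congr Q hv hdv0 (reflMat_smul Q d hd v hv).symm
  obtain ⟨h₀, hh₀, hh₀v⟩ := trans_even h2 hQ hG hcu hdv
  obtain ⟨k, hk⟩ := exists_group_of_isP Q hh₀
  have hkv : ((k : GL ι F) : Matrix ι ι F) *ᵥ (d • v) = c • u := by rw [hk, hh₀v]
  have hne : Q (((k : GL ι F) : Matrix ι ι F) *ᵥ (d • v)) ≠ 0 := by rw [hkv]; exact hcu0
  have e3 := conj_refl Q k (d • v) hdv0 hne
  have e4 : refl Q (((k : GL ι F) : Matrix ι ι F) *ᵥ (d • v)) hne = refl Q (c • u) hcu0 :=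
    refl_congr Q hne hcu0 (by rw [hkv])
  rw [e1, e2, ← e4, ← e3]
  have : k * refl Q (d • v) hdv0 * k⁻¹ * refl Q (d • v) hdv0 = ⁅k, refl Q (d • v) hdv0⁆ := by
    rw [commutatorElement_def, refl_inv]
  rw [this]
  exact Subgroup.commutator_mem_commutator (Subgroup.mem_top _) (Subgroup.mem_top _)

/-- the Dickson homomorphism -/
noncomputable def dickG : ↥(isometryGroup F (⇑Q)) →* ℤˣ :=
  MonoidHom.mk' (Cfsg.Agent.H03.ODick.dick Q) (by
    intro a b
    have h2 : (2 : F) = 0 := CharTwo.two_eq_zero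
    obtain ⟨L, hL, ha⟩ := exists_list_G hQ hG a
    obtain ⟨M, hM, hb⟩ := exists_list_G hQ hG b
    have hab : ((a * b : ↥(isometryGroup F (⇑Q))) : GL ι F).val =
        ((L ++ M).map (fun v => reflectionMatrix (⇑Q) v)).prod := by
      rw [List.map_append, List.prod_append, ← ha, ← hb]
      rfl
    rw [Cfsg.Agent.H03.ODick.dick_of_list h2 Q hQ a L hL ha, Cfsg.Agent.H03.ODick.dick_of_list h2 Q hQ b M hM hb,
      Cfsg.Agent.H03.ODick.dick_of_list h2 Q hQ (a * b) (L ++ M) (fun v hv => by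
        rcases List.mem_append.1 hv with h' | h'
        · exact hL v h'
        · exact hM v h') hab, List.length_append, pow_add])

theorem dickG_refl (v : ι → F) (hv : Q v ≠ 0) : dickG hQ hG (refl Q v hv) = -1 := by
  have h2 : (2 : F) = 0 := CharTwo.two_eq_zero
  have := Cfsg.Agent.H03.ODick.dick_of_list h2 Q hQ (refl Q v hv) [v] (by simpa using hv) (by simp)
  show Cfsg.Agent.H03.ODick.dick Q (refl Q v hv) = -1
  simpa using this

theorem mem_omega_dickG (g : ↥(isometryGroup F (⇑Q))) : g ∈ Omega F (⇑Q) ↔ dickG hQ hG g = 1 := by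
  have h2 : (2 : F) = 0 := CharTwo.two_eq_zero
  constructor
  · intro hg
    have h3 : (commutator ↥(isometryGroup F (⇑Q))) ≤ (dickG hQ hG).ker :=
      Abelianization.commutator_subset_ker _
    exact h3 hg
  · intro hd
    obtain ⟨L, hL, hg⟩ := exists_list_G hQ hG g
    have h3 : Cfsg.Agent.H03.ODick.dick Q g = (-1) ^ L.length := Cfsg.Agent.H03.ODick.dick_of_list h2 Q hQ g L hL hg
    have h4 : Cfsg.Agent.H03.ODick.dick Q g = 1 := hd
    rw [h4] at h3
    have h5 : Even L.length := Cfsg.Agent.H09.OI.neg_one_pow_eq_one_iff.1 h3.symm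
    exact mem_of_even_list Q (Omega F (⇑Q))
      (fun u v hu hv => refl_refl_G hQ hG hu hv) L hL h5 g hg

/-- membership in `Ω` in terms of the rank -/
theorem mem_omega_rank {q : (ι → F) → F} (hq : ⇑Q = q) (g : ↥(isometryGroup F q)) :
    g ∈ Omega F q ↔ Even (mO g - 1).rank := by
  subst hq
  rw [mem_omega_dickG hQ hG]
  show Cfsg.Agent.H03.ODick.dick Q g = 1 ↔ _
  rw [Cfsg.Agent.H03.ODick.dick, Cfsg.Agent.H09.OI.rk_eq_rank, Cfsg.Agent.H09.OI.neg_one_pow_eq_one_iff]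

/-- products of two elements outside `Ω` lie in `Ω` -/
theorem omega_two {q : (ι → F) → F} (hq : ⇑Q = q) (g h : ↥(isometryGroup F q)) (hg : g ∉ Omega F q)
    (hh : h ∉ Omega F q) : h * g⁻¹ ∈ Omega F q := by
  subst hq
  rw [mem_omega_dickG hQ hG] at hg hh ⊢
  rcases Int.units_eq_one_or (dickG hQ hG g) with h5 | h5
  · exact absurd h5 hg
  · rcases Int.units_eq_one_or (dickG hQ hG h) with h6 | h6
    · exact absurd h6 hh
    · rw [map_mul, map_inv, h5, h6]
      decide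

/-- conjugacy in `Ω` outside the exceptional shape -/
theorem omega_conj_nonexc {m : ℕ} (hdim : Fintype.card ι = 2 * m) {q : (ι → F) → F} (hq : ⇑Q = q)
    (t s : ↥(isometryGroup F q)) (ht : orderOf t = 2) (hconj : IsConj t s)
    (hne : ¬ ((mO t - 1).rank = m ∧ ∀ v, q (v + mO t *ᵥ v) = 0)) :
    ∃ k ∈ Omega F q, k * t * k⁻¹ = s := by
  subst hq
  obtain ⟨g, hg⟩ := isConj_iff.1 hconj
  have htt : mO t * mO t = 1 := mO_sq t ht
  by_cases hex : ∀ v, mO t *ᵥ v = v → Q v = 0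
  · exact absurd (Cfsg.Agent.H09.OI.exceptional_of_singular hdim htt hQ hex) hne
  · push Not at hex
    obtain ⟨v, htv, hv⟩ := hex
    by_cases hgO : g ∈ Omega F (⇑Q)
    · exact ⟨g, hgO, hg⟩
    · have hcomm : t * refl Q v hv = refl Q v hv * t := by
        have hv' : Q (((t : GL ι F) : Matrix ι ι F) *ᵥ v) ≠ 0 := by rwa [htv]
        have h3 := conj_refl Q t v hv hv'
        have h4 : refl Q (((t : GL ι F) : Matrix ι ι F) *ᵥ v) hv' = refl Q v hv :=
          refl_congr Q hv' hv (by rw [htv])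
        rw [h4] at h3
        calc t * refl Q v hv = (t * refl Q v hv * t⁻¹) * t := by group
          _ = refl Q v hv * t := by rw [h3]
      refine ⟨g * refl Q v hv, ?_, ?_⟩
      · rw [mem_omega_dickG hQ hG, map_mul, dickG_refl hQ hG v hv]
        rw [mem_omega_dickG hQ hG] at hgO
        rcases Int.units_eq_one_or (dickG hQ hG g) with h5 | h5
        · exact absurd h5 hgO
        · rw [h5]
          decide
      · calc g * refl Q v hv * t * (g * refl Q v hv)⁻¹
            = g * (refl Q v hv * t * (refl Q v hv)⁻¹) * g⁻¹ := by group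
          _ = g * t * g⁻¹ := by
              rw [← hcomm]
              group
          _ = s := hg

/-- centralizers of exceptional involutions lie in `Ω` when `m` is even -/
theorem cent_omega {m : ℕ} (hdim : Fintype.card ι = 2 * m) {q : (ι → F) → F} (hq : ⇑Q = q)
    (t g : ↥(isometryGroup F q)) (hg : g * t * g⁻¹ = t) (hrank : (mO t - 1).rank = m)
    (hsing : ∀ v, q (v + mO t *ᵥ v) = 0) (hm : Even m) : g ∈ Omega F q := by
  classical
  subst hq
  have h2 : (2 : F) = 0 := CharTwo.two_eq_zero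
  set A : Matrix ι ι F := mO t with hA
  let U : Submodule F (ι → F) := LinearMap.range (A - 1).mulVecLin
  have hU : IsMTS Q m U := by
    refine ⟨?_, ?_⟩
    · rw [← hrank]
      rfl
    · rintro _ ⟨v, rfl⟩
      show Q ((A - 1) *ᵥ v) = 0
      rw [Matrix.sub_mulVec, Matrix.one_mulVec, Cfsg.Agent.H09.OI.sub_eq_add_vec, add_comm]
      exact hsing v
  obtain ⟨L, hL, hgL⟩ := exists_list_G hQ hG g
  set G : Matrix ι ι F := mO g with hGd
  have hGA : G * A = A * G := by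
    have h1 : g * t = t * g := by
      nth_rewrite 2 [← hg]
      group
    exact congrArg (fun x : ↥(isometryGroup F (⇑Q)) => ((x : GL ι F) : Matrix ι ι F)) h1
  obtain ⟨G', hGG', hG'G⟩ : ∃ G' : Matrix ι ι F, G * G' = 1 ∧ G' * G = 1 := by
    refine ⟨((g⁻¹ : ↥(isometryGroup F (⇑Q))) : GL ι F).val, ?_, ?_⟩
    · exact congrArg (fun x : ↥(isometryGroup F (⇑Q)) => ((x : GL ι F) : Matrix ι ι F)) (mul_inv_cancel g)
    · exact congrArg (fun x : ↥(isometryGroup F (⇑Q)) => ((x : GL ι F) : Matrix ι ι F)) (inv_mul_cancel g)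
  have hGN : ∀ w, G *ᵥ ((A - 1) *ᵥ w) = (A - 1) *ᵥ (G *ᵥ w) := by
    intro w
    rw [Matrix.mulVec_mulVec, Matrix.mulVec_mulVec, mul_sub, sub_mul, hGA, mul_one, one_mul]
  have hmap : U.map G.mulVecLin = U := by
    ext x
    constructor
    · rintro ⟨_, ⟨v, rfl⟩, rfl⟩
      refine ⟨G *ᵥ v, ?_⟩
      exact (hGN v).symm
    · rintro ⟨v, rfl⟩
      refine ⟨(A - 1) *ᵥ (G' *ᵥ v), ⟨G' *ᵥ v, rfl⟩, ?_⟩
      show G *ᵥ ((A - 1) *ᵥ (G' *ᵥ v)) = (A - 1) *ᵥ v
      have h1 : G *ᵥ (G' *ᵥ v) = v := by rw [Matrix.mulVec_mulVec, hGG', Matrix.one_mulVec]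
      rw [hGN, h1]
  have hpar := parity_list hdim hQ L hL hU hU
  have hprod : prodM Q L = G := hgL.symm
  rw [hprod, hmap, inf_idem, hU.card] at hpar
  have hd : Cfsg.Agent.H03.ODick.dick Q g = (-1) ^ L.length := Cfsg.Agent.H03.ODick.dick_of_list h2 Q hQ g L hL hgL
  rw [mem_omega_dickG hQ hG]
  show Cfsg.Agent.H03.ODick.dick Q g = 1
  rw [hd]
  apply Cfsg.Agent.H09.OI.neg_one_pow_eq_one_iff.2
  rw [Nat.even_iff]
  omega

omit hQ hG in
theorem isConj_omega_of {q : (ι → F) → F} (a b : ↥(Omega F q)) (k : ↥(isometryGroup F q)) (hk : k ∈ Omega F q)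
    (h : k * a.1 * k⁻¹ = b.1) : IsConj a b :=
  isConj_iff.2 ⟨⟨k, hk⟩, Subtype.ext h⟩

omit hQ hG in
theorem isConj_coe {q : (ι → F) → F} {a b : ↥(Omega F q)} (h : IsConj a b) : IsConj a.1 b.1 := by
  obtain ⟨c, hc⟩ := isConj_iff.1 h
  exact isConj_iff.2 ⟨c.1, congrArg Subtype.val hc⟩

end Cfsg.Agent.H11.InvCl
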