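import Cfsg.Agent.Lib.H11.InvCl6

/-! Classes of involutions in `Ω^±_{2m}(F)` in characteristic two. -/

set_option autoImplicit false
set_option linter.unusedSectionVars false
set_option linter.unusedVariables false

namespace Cfsg.Agent.H11.InvCl

open Module Matrix QuadraticMap Cfsg
open Cfsg.Agent.H03.OGen Cfsg.Agent.H11

variable {F : Type*} [Field F] [Fintype F] [CharP F 2]

theorem noTS_minus_one (a b : F) (hab : ∀ z₁ z₂ : F, z₁ ^ 2 + a * z₁ * z₂ + b * z₂ ^ 2 = 0 → z₁ = 0 ∧ z₂ = 0) :
    NoTS (minusForm 1 F a b) := by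
  classical
  intro d e hd hQd hQe hpol
  by_contra hne
  push Not at hne
  have li : LinearIndependent F ![d, e] := by
    refine LinearIndependent.pair_iff.2 (fun s t hst => ?_)
    by_cases ht : t = 0
    · subst ht
      rw [zero_smul, add_zero] at hst
      exact ⟨(smul_eq_zero.1 hst).resolve_right hd, rfl⟩
    · exfalso
      apply hne ((-(t⁻¹ * s)))
      have h1 : t • e = -(s • d) := eq_neg_of_add_eq_zero_right hst
      calc e = t⁻¹ • (t • e) := by rw [smul_smul, inv_mul_cancel₀ ht, one_smul]
        _ = _ := by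
          rw [h1, smul_neg, smul_smul, neg_smul]
  let W : Submodule F ((Fin 1 ⊕ Fin 1) ⊕ Fin 2 → F) := Submodule.span F {d, e}
  have hW : Cfsg.Agent.H11.IsMTS (minusForm 1 F a b) (1 + 1) W := by
    refine ⟨?_, ?_⟩
    · have h1 := finrank_span_eq_card li
      have h2 : Set.range ![d, e] = {d, e} := by
        ext x
        simp only [Set.mem_range, Set.mem_insert_iff, Set.mem_singleton_iff]
        constructor
        · rintro ⟨i, rfl⟩
          fin_cases i
          · exact Or.inl rfl
          · exact Or.inr rfl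
        · rintro (rfl | rfl)
          · exact ⟨0, rfl⟩
          · exact ⟨1, rfl⟩
      rw [h2] at h1
      simpa using h1
    · intro x hx
      obtain ⟨s, t, rfl⟩ := Submodule.mem_span_pair.1 hx
      have h3 : minusForm 1 F a b (s • d + t • e) = minusForm 1 F a b (s • d) + minusForm 1 F a b (t • e) + polar (minusForm 1 F a b) (s • d) (t • e) := by
        rw [QuadraticMap.polar]
        ring
      rw [h3, QuadraticMap.map_smul, QuadraticMap.map_smul, hQd, hQe]
      have h4 : polar (minusForm 1 F a b) (s • d) (t • e) = s * t * polar (minusForm 1 F a b) d e := by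
        rw [QuadraticMap.polar_smul_left, QuadraticMap.polar_smul_right]
        simp only [smul_eq_mul]
        ring
      rw [h4, hpol]
      simp
  exact Cfsg.Agent.H09.OI.no_mts_minus 1 a b hab hW

theorem good_minus (k : ℕ) (a b : F) (hab : ∀ z₁ z₂ : F, z₁ ^ 2 + a * z₁ * z₂ + b * z₂ ^ 2 = 0 → z₁ = 0 ∧ z₂ = 0) :
    Good (minusForm k F a b) := by
  by_cases hk : k = 1
  · subst hk
    exact Or.inr (Or.inr (noTS_minus_one a b hab))
  · refine Or.inr (Or.inl ?_)
    rw [finrank_fintype_fun_eq_card]
    simp [Fintype.card_sum]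
    omega

/-- classes of involutions in `Ω⁻` -/
theorem card_inv_OmegaM {k : ℕ} (a b : F) (hab : ∀ z₁ z₂ : F, z₁ ^ 2 + a * z₁ * z₂ + b * z₂ ^ 2 = 0 → z₁ = 0 ∧ z₂ = 0) :
    Nat.card {C : ConjClasses ↥(Omega F (quadFormMinus k F a b)) // ∃ g : ↥(Omega F (quadFormMinus k F a b)), ConjClasses.mk g = C ∧ orderOf g = 2} = (k + 1) / 2 + k / 2 := by
  classical
  have hQ := Cfsg.Agent.H09.OI.minus_nondeg_two k a b hab
  have hq : ⇑(Cfsg.Agent.H11.minusForm k F a b) = quadFormMinus k F a b := Cfsg.Agent.H11.minusForm_coe k a b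
  have ha := Cfsg.Agent.H09.OI.minus_ne_zero hab
  have hG := good_minus k a b hab
  have hdim : Fintype.card ((Fin k ⊕ Fin k) ⊕ Fin 2) = 2 * (k + 1) := by
    simp [Fintype.card_sum]
    ring
  have hno : ∀ t : ↥(isometryGroup F (quadFormMinus k F a b)), (∀ v, quadFormMinus k F a b (v + mO t *ᵥ v) = 0) → (mO t - 1).rank ≠ k + 1 := by
    intro g hal h
    have h3 := o_mts hq g hal
    rw [h] at h3
    exact Cfsg.Agent.H09.OI.no_mts_minus k a b hab h3
  let inv : ↥(Omega F (quadFormMinus k F a b)) → ℕ × Bool := fun t => ((mO t.1 - 1).rank, decide (∀ v, quadFormMinus k F a b (v + mO t.1 *ᵥ v) = 0))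
  let S : Finset (ℕ × Bool) := ((Finset.Icc 1 (k + 1)).filter Even).image (fun s => (s, false)) ∪ ((Finset.Icc 1 k).filter Even).image (fun s => (s, true))
  have hcard : S.card = (k + 1) / 2 + k / 2 := by
    rw [Finset.card_union_of_disjoint, Finset.card_image_of_injective, Finset.card_image_of_injective, card_even_Icc, card_even_Icc]
    · intro a b h
      exact congrArg Prod.fst h
    · intro a b h
      exact congrArg Prod.fst h
    · rw [Finset.disjoint_left]
      intro x hx hy
      obtain ⟨a, _, rfl⟩ := Finset.mem_image.1 hx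
      obtain ⟨b, _, hb⟩ := Finset.mem_image.1 hy
      have := congrArg Prod.snd hb
      simp at this
  rw [← hcard]
  apply card_classes_of_inv (fun g : ↥(Omega F (quadFormMinus k F a b)) => orderOf g = 2) inv
  · intro x y hx hy
    have hx' : orderOf x.1 = 2 := by rw [Subgroup.orderOf_coe]; exact hx
    have hy' : orderOf y.1 = 2 := by rw [Subgroup.orderOf_coe]; exact hy
    constructor
    · intro h
      have h1 := (o_inv_iff hQ hq x.1 y.1 hx' hy').1 (isConj_coe h)
      simp only [inv, Prod.mk.injEq, decide_eq_decide]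
      exact h1
    · intro h
      simp only [inv, Prod.mk.injEq, decide_eq_decide] at h
      have h1 := (o_inv_iff hQ hq x.1 y.1 hx' hy').2 h
      obtain ⟨c, hc, hcc⟩ := omega_conj_nonexc hQ hG hdim hq x.1 y.1 hx' h1 (fun hex => hno _ hex.2 hex.1)
      exact isConj_omega_of x y c hc hcc
  · intro g hg
    have hg' : orderOf g.1 = 2 := by rw [Subgroup.orderOf_coe]; exact hg
    obtain ⟨h1, h2⟩ := o_rank_bounds hdim g.1 hg'
    have hev := (mem_omega_rank hQ hG hq g.1).1 g.2
    by_cases hal : ∀ v, quadFormMinus k F a b (v + mO g.1 *ᵥ v) = 0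
    · apply Finset.mem_union_right
      have hne := hno g.1 hal
      refine Finset.mem_image.2 ⟨(mO g.1 - 1).rank, Finset.mem_filter.2 ⟨Finset.mem_Icc.2 ⟨h1, by omega⟩, hev⟩, ?_⟩
      simp only [inv]
      rw [decide_eq_true hal]
    · apply Finset.mem_union_left
      refine Finset.mem_image.2 ⟨(mO g.1 - 1).rank, Finset.mem_filter.2 ⟨Finset.mem_Icc.2 ⟨h1, h2⟩, hev⟩, ?_⟩
      simp only [inv]
      rw [decide_eq_false hal]
  · intro x hx
    rcases Finset.mem_union.1 hx with hx | hx
    · obtain ⟨s, hs, rfl⟩ := Finset.mem_image.1 hx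
      obtain ⟨hs1, hev⟩ := Finset.mem_filter.1 hs
      obtain ⟨h1, h2⟩ := Finset.mem_Icc.1 hs1
      obtain ⟨t, ht, hr, hform⟩ := minus_refl_real a b ha s h1 h2
      have hmem : t ∈ Omega F (quadFormMinus k F a b) := (mem_omega_rank hQ hG hq t).2 (by rw [hr]; exact hev)
      refine ⟨⟨t, hmem⟩, ?_, ?_⟩
      · rw [← Subgroup.orderOf_coe]
        exact ht
      · simp only [inv]
        rw [hr, decide_eq_false hform]
    · obtain ⟨s, hs, rfl⟩ := Finset.mem_image.1 hx
      obtain ⟨hs1, hev⟩ := Finset.mem_filter.1 hs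
      obtain ⟨h1, h2⟩ := Finset.mem_Icc.1 hs1
      obtain ⟨r, hr⟩ := hev
      have e : s = 2 * r := by omega
      subst e
      obtain ⟨t, ht, hrk, hform⟩ := minus_alt_real a b r (by omega) h2
      have hmem : t ∈ Omega F (quadFormMinus k F a b) := (mem_omega_rank hQ hG hq t).2 (by rw [hrk]; exact ⟨r, by omega⟩)
      refine ⟨⟨t, hmem⟩, ?_, ?_⟩
      · rw [← Subgroup.orderOf_coe]
        exact ht
      · simp only [inv]
        rw [hrk, decide_eq_true hform]

/-- classes of involutions in `Ω⁺` -/
theorem card_inv_OmegaP {m : ℕ} (hm : 1 ≤ m) (hG : Good (plusForm m F)) :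
    Nat.card {C : ConjClasses ↥(Omega F (quadFormPlus m F)) // ∃ g : ↥(Omega F (quadFormPlus m F)), ConjClasses.mk g = C ∧ orderOf g = 2} = 2 * (m / 2) + (if Even m then 1 else 0) := by
  classical
  have hQ := Cfsg.Agent.H11.plus_nondeg (F := F) m
  have hq : ⇑(Cfsg.Agent.H11.plusForm m F) = quadFormPlus m F := rfl
  have hdim : Fintype.card (Fin m ⊕ Fin m) = 2 * m := by
    simp [Fintype.card_sum]
    omega
  obtain ⟨t₀, ht₀⟩ : ∃ t₀ : ↥(isometryGroup F (quadFormPlus m F)), Even m → orderOf t₀ = 2 ∧ (mO t₀ - 1).rank = m ∧ ∀ v, quadFormPlus m F (v + mO t₀ *ᵥ v) = 0 := by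
    by_cases hev : Even m
    · obtain ⟨r, hr⟩ := hev
      obtain ⟨t, h1, h2, h3⟩ := plus_alt_real (F := F) (m := m) r (by omega) (by omega)
      exact ⟨t, fun _ => ⟨h1, by omega, h3⟩⟩
    · exact ⟨1, fun h => absurd h hev⟩
  let E : ↥(isometryGroup F (quadFormPlus m F)) → Prop := fun t => ∃ k ∈ Omega F (quadFormPlus m F), k * t₀ * k⁻¹ = t
  let alt : ↥(isometryGroup F (quadFormPlus m F)) → Prop := fun t => ∀ v, quadFormPlus m F (v + mO t *ᵥ v) = 0
  let inv : ↥(Omega F (quadFormPlus m F)) → ℕ × Bool × Bool := fun t => ((mO t.1 - 1).rank, decide (alt t.1), decide (alt t.1 ∧ (mO t.1 - 1).rank = m ∧ E t.1))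
  let Ev := (Finset.Icc 1 m).filter Even
  let S : Finset (ℕ × Bool × Bool) := (Ev.image (fun s => (s, false, false)) ∪ Ev.image (fun s => (s, true, false))) ∪ (if Even m then {(m, true, true)} else ∅)
  have hcard : S.card = 2 * (m / 2) + (if Even m then 1 else 0) := by
    have hEv : Ev.card = m / 2 := card_even_Icc m
    rw [Finset.card_union_of_disjoint, Finset.card_union_of_disjoint, Finset.card_image_of_injective, Finset.card_image_of_injective, hEv]
    · split_ifs
      · rw [Finset.card_singleton]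
        omega
      · rw [Finset.card_empty]
        omega
    · intro a b h
      exact congrArg Prod.fst h
    · intro a b h
      exact congrArg Prod.fst h
    · rw [Finset.disjoint_left]
      intro x hx hy
      obtain ⟨a, _, rfl⟩ := Finset.mem_image.1 hx
      obtain ⟨b, _, hb⟩ := Finset.mem_image.1 hy
      have := congrArg (fun y => y.2.1) hb
      simp at this
    · rw [Finset.disjoint_left]
      intro x hx hy
      split_ifs at hy with hev
      · rw [Finset.mem_singleton] at hy
        subst hy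
        rcases Finset.mem_union.1 hx with hx | hx
        · obtain ⟨a, _, hb⟩ := Finset.mem_image.1 hx
          have := congrArg (fun y => y.2.2) hb
          simp at this
        · obtain ⟨a, _, hb⟩ := Finset.mem_image.1 hx
          have := congrArg (fun y => y.2.2) hb
          simp at this
      · simp at hy
  rw [← hcard]
  apply card_classes_of_inv (fun g : ↥(Omega F (quadFormPlus m F)) => orderOf g = 2) inv
  · intro x y hx hy
    have hx' : orderOf x.1 = 2 := by rw [Subgroup.orderOf_coe]; exact hx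
    have hy' : orderOf y.1 = 2 := by rw [Subgroup.orderOf_coe]; exact hy
    constructor
    · intro h
      have h1 := (o_inv_iff hQ hq x.1 y.1 hx' hy').1 (isConj_coe h)
      obtain ⟨c, hc⟩ := isConj_iff.1 h
      have hc1 : c.1 * x.1 * c.1⁻¹ = y.1 := congrArg Subtype.val hc
      have hE : E x.1 ↔ E y.1 := by
        constructor
        · rintro ⟨k, hk, hkk⟩
          refine ⟨c.1 * k, Subgroup.mul_mem _ c.2 hk, ?_⟩
          rw [← hc1, ← hkk]
          group
        · rintro ⟨k, hk, hkk⟩
          refine ⟨c.1⁻¹ * k, Subgroup.mul_mem _ (Subgroup.inv_mem _ c.2) hk, ?_⟩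
          have : y.1 = k * t₀ * k⁻¹ := hkk.symm
          have h5 : x.1 = c.1⁻¹ * y.1 * c.1 := by
            rw [← hc1]
            group
          rw [h5, this]
          group
      have hg : (alt x.1 ∧ (mO x.1 - 1).rank = m ∧ E x.1) ↔ (alt y.1 ∧ (mO y.1 - 1).rank = m ∧ E y.1) := by
        rw [h1.1, hE]
        exact and_congr_left' h1.2
      simp only [inv, Prod.mk.injEq, decide_eq_decide]
      exact ⟨h1.1, h1.2, hg⟩
    · intro h
      simp only [inv, Prod.mk.injEq, decide_eq_decide] at h
      obtain ⟨h1, h2, h3⟩ := h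
      have hconj := (o_inv_iff hQ hq x.1 y.1 hx' hy').2 ⟨h1, h2⟩
      by_cases hex : (mO x.1 - 1).rank = m ∧ ∀ v, quadFormPlus m F (v + mO x.1 *ᵥ v) = 0
      · obtain ⟨hr, hal⟩ := hex
        have hmev : Even m := by
          rw [← hr]
          exact (mem_omega_rank hQ hG hq x.1).1 x.2
        obtain ⟨h01, h02, h03⟩ := ht₀ hmev
        have hE : E x.1 ↔ E y.1 := by
          have h4 := h3
          constructor
          · intro he
            exact (h4.1 ⟨hal, hr, he⟩).2.2
          · intro he
            exact (h4.2 ⟨h2.1 hal, h1 ▸ hr, he⟩).2.2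
        have hcx := (o_inv_iff hQ hq t₀ x.1 h01 hx').2 ⟨by omega, ⟨fun _ => hal, fun _ => h03⟩⟩
        have hcy := (o_inv_iff hQ hq t₀ y.1 h01 hy').2 ⟨by omega, ⟨fun _ => h2.1 hal, fun _ => h03⟩⟩
        obtain ⟨gx, hgx⟩ := isConj_iff.1 hcx
        obtain ⟨gy, hgy⟩ := isConj_iff.1 hcy
        by_cases he : E x.1
        · obtain ⟨k1, hk1, hk1e⟩ := he
          obtain ⟨k2, hk2, hk2e⟩ := hE.1 ⟨k1, hk1, hk1e⟩
          refine isConj_omega_of x y (k2 * k1⁻¹) (Subgroup.mul_mem _ hk2 (Subgroup.inv_mem _ hk1)) ?_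
          rw [← hk1e, ← hk2e]
          group
        · have hxg : gx ∉ Omega F (quadFormPlus m F) := fun h5 => he ⟨gx, h5, hgx⟩
          have hyg : gy ∉ Omega F (quadFormPlus m F) := fun h5 => (fun h6 => he (hE.2 h6)) ⟨gy, h5, hgy⟩
          refine isConj_omega_of x y (gy * gx⁻¹) (omega_two hQ hG hq gx gy hxg hyg) ?_
          rw [← hgx, ← hgy]
          group
      · obtain ⟨c, hc, hcc⟩ := omega_conj_nonexc hQ hG hdim hq x.1 y.1 hx' hconj hex
        exact isConj_omega_of x y c hc hcc
  · intro g hg
    have hg' : orderOf g.1 = 2 := by rw [Subgroup.orderOf_coe]; exact hg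
    obtain ⟨h1, h2⟩ := o_rank_bounds hdim g.1 hg'
    have hev := (mem_omega_rank hQ hG hq g.1).1 g.2
    have hmemE : (mO g.1 - 1).rank ∈ Ev := Finset.mem_filter.2 ⟨Finset.mem_Icc.2 ⟨h1, h2⟩, hev⟩
    by_cases h3 : alt g.1 ∧ (mO g.1 - 1).rank = m ∧ E g.1
    · apply Finset.mem_union_right
      have hmev : Even m := by
        rw [← h3.2.1]
        exact hev
      rw [if_pos hmev, Finset.mem_singleton]
      simp only [inv]
      rw [decide_eq_true h3, decide_eq_true h3.1, h3.2.1]
    · apply Finset.mem_union_left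
      by_cases hal : alt g.1
      · apply Finset.mem_union_right
        refine Finset.mem_image.2 ⟨_, hmemE, ?_⟩
        simp only [inv]
        rw [decide_eq_true hal, decide_eq_false h3]
      · apply Finset.mem_union_left
        refine Finset.mem_image.2 ⟨_, hmemE, ?_⟩
        simp only [inv]
        rw [decide_eq_false hal, decide_eq_false h3]
  · intro x hx
    rcases Finset.mem_union.1 hx with hx | hx
    · rcases Finset.mem_union.1 hx with hx | hx
      · obtain ⟨s, hs, rfl⟩ := Finset.mem_image.1 hx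
        obtain ⟨hs1, hev⟩ := Finset.mem_filter.1 hs
        obtain ⟨h1, h2⟩ := Finset.mem_Icc.1 hs1
        obtain ⟨t, ht, hr, hform⟩ := plus_swap_real (F := F) (m := m) s h1 h2
        have hmem : t ∈ Omega F (quadFormPlus m F) := (mem_omega_rank hQ hG hq t).2 (by rw [hr]; exact hev)
        refine ⟨⟨t, hmem⟩, ?_, ?_⟩
        · rw [← Subgroup.orderOf_coe]
          exact ht
        · simp only [inv]
          rw [hr, decide_eq_false hform, decide_eq_false (fun h => hform h.1)]
      · obtain ⟨s, hs, rfl⟩ := Finset.mem_image.1 hx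
        obtain ⟨hs1, hev⟩ := Finset.mem_filter.1 hs
        obtain ⟨h1, h2⟩ := Finset.mem_Icc.1 hs1
        by_cases hsm : s = m
        · subst hsm
          obtain ⟨h01, h02, h03⟩ := ht₀ hev
          obtain ⟨r₁, hr₁, hr₁r, -⟩ := plus_swap_real (F := F) (m := s) 1 (by omega) (by omega)
          have hr₁n : r₁ ∉ Omega F (quadFormPlus s F) := by
            rw [mem_omega_rank hQ hG hq, hr₁r]
            decide
          let s₀ := r₁ * t₀ * r₁⁻¹
          have hc0 : IsConj t₀ s₀ := isConj_iff.2 ⟨r₁, rfl⟩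
          have ho : orderOf s₀ = 2 := by
            have : s₀ = MulAut.conj r₁ t₀ := rfl
            rw [this, MulEquiv.orderOf_eq]
            exact h01
          obtain ⟨h11, h12⟩ := (o_inv_iff hQ hq t₀ s₀ h01 ho).1 hc0
          have hmem : s₀ ∈ Omega F (quadFormPlus s F) := (mem_omega_rank hQ hG hq s₀).2 (by rw [← h11, h02]; exact hev)
          refine ⟨⟨s₀, hmem⟩, ?_, ?_⟩
          · rw [← Subgroup.orderOf_coe]
            exact ho
          · have hal : alt s₀ := h12.1 h03
            have hnE : ¬ E s₀ := by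
              rintro ⟨k, hk, hkk⟩
              apply hr₁n
              have hc : (r₁⁻¹ * k) * t₀ * (r₁⁻¹ * k)⁻¹ = t₀ := by
                have h5 : k * t₀ * k⁻¹ = r₁ * t₀ * r₁⁻¹ := hkk
                calc (r₁⁻¹ * k) * t₀ * (r₁⁻¹ * k)⁻¹ = r₁⁻¹ * (k * t₀ * k⁻¹) * r₁ := by group
                  _ = t₀ := by
                    rw [h5]
                    group
              have h6 := cent_omega hQ hG hdim hq t₀ (r₁⁻¹ * k) hc h02 h03 hev
              have h7 : r₁⁻¹ = (r₁⁻¹ * k) * k⁻¹ := by group
              have h8 : r₁⁻¹ ∈ Omega F (quadFormPlus s F) := by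
                rw [h7]
                exact Subgroup.mul_mem _ h6 (Subgroup.inv_mem _ hk)
              exact (Subgroup.inv_mem_iff _).1 h8
            simp only [inv]
            rw [← h11, h02, decide_eq_true hal, decide_eq_false (fun h => hnE h.2.2)]
        · obtain ⟨r, hr⟩ := hev
          have e : s = 2 * r := by omega
          subst e
          obtain ⟨t, ht, hrk, hform⟩ := plus_alt_real (F := F) (m := m) r (by omega) h2
          have hmem : t ∈ Omega F (quadFormPlus m F) := (mem_omega_rank hQ hG hq t).2 (by rw [hrk]; exact ⟨r, by omega⟩)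
          refine ⟨⟨t, hmem⟩, ?_, ?_⟩
          · rw [← Subgroup.orderOf_coe]
            exact ht
          · simp only [inv]
            rw [hrk, decide_eq_true hform, decide_eq_false (fun h => hsm h.2.1)]
    · split_ifs at hx with hev
      · rw [Finset.mem_singleton] at hx
        subst hx
        obtain ⟨h01, h02, h03⟩ := ht₀ hev
        have hmem : t₀ ∈ Omega F (quadFormPlus m F) := (mem_omega_rank hQ hG hq t₀).2 (by rw [h02]; exact hev)
        refine ⟨⟨t₀, hmem⟩, ?_, ?_⟩
        · rw [← Subgroup.orderOf_coe]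
          exact h01
        · have hE : E t₀ := ⟨1, Subgroup.one_mem _, by group⟩
          simp only [inv]
          rw [h02, decide_eq_true h03, decide_eq_true ⟨h03, rfl, hE⟩]
      · simp at hx

end Cfsg.Agent.H11.InvCl
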