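import Mathlib
import Cfsg.Prelude.Def_JordanBlocks

set_option autoImplicit false
open Matrix Finset

namespace Cfsg.Agent.H11.JC

/-! Commutant of a unipotent Jordan matrix: Toeplitz parameters. -/

/-- Toeplitz pattern on `ℕ × ℕ`. -/
def tp {F : Type*} [Zero F] (dl dk : ℕ) (g : ℕ → F) (a b : ℕ) : F :=
  open Classical in if b ≤ a ∧ a < dl ∧ b < dk ∧ dl - 1 - a + b < dk then g (dl - 1 - a + b) else 0

variable {F : Type*} [Field F]

lemma tp_rel (dl dk : ℕ) (g : ℕ → F) (a b : ℕ) (ha : a + 1 < dl) (hb : b < dk) :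
    tp dl dk g (a + 1) (b + 1) = tp dl dk g a b := by
  unfold tp
  have h1 : dl - 1 - (a + 1) + (b + 1) = dl - 1 - a + b := by omega
  rw [h1]
  have h2 : (b + 1 ≤ a + 1 ∧ a + 1 < dl ∧ b + 1 < dk ∧ dl - 1 - a + b < dk) ↔
      (b ≤ a ∧ a < dl ∧ b < dk ∧ dl - 1 - a + b < dk) := by omega
  simp only [h2]

lemma tp_zero_succ (dl dk : ℕ) (g : ℕ → F) (b : ℕ) : tp dl dk g 0 (b + 1) = 0 := by
  unfold tp
  rw [if_neg (by omega)]

lemma tp_out (dl dk : ℕ) (g : ℕ → F) (a b : ℕ) (h : dl ≤ a ∨ dk ≤ b) : tp dl dk g a b = 0 := by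
  unfold tp
  rw [if_neg (by omega)]

/-- The relations determine a doubly indexed array from its first column. -/
lemma eq_tp (dl dk : ℕ) (x : ℕ → ℕ → F)
    (h0 : ∀ a b, (dl ≤ a ∨ dk ≤ b) → x a b = 0)
    (h1 : ∀ a b, a + 1 < dl → b < dk → x (a + 1) (b + 1) = x a b)
    (h2 : ∀ b, x 0 (b + 1) = 0) (a b : ℕ) :
    x a b = tp dl dk (fun r => x (dl - 1 - r) 0) a b := by
  -- shifting along diagonals
  have shift : ∀ s a b, a + s < dl → b + s ≤ dk → x (a + s) (b + s) = x a b := by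
    intro s
    induction s with
    | zero => intro a b _ _; rfl
    | succ s ih =>
      intro a b h3 h4
      have := h1 (a + s) (b + s) (by omega) (by omega)
      rw [show a + (s + 1) = a + s + 1 by omega, show b + (s + 1) = b + s + 1 by omega, this]
      exact ih a b (by omega) (by omega)
  by_cases hr : a < dl ∧ b < dk
  · obtain ⟨hadl, hbdk⟩ := hr
    by_cases hba : b ≤ a
    · -- reduce to first column
      have e1 : x a b = x (a - b) 0 := by
        have := shift b (a - b) 0 (by omega) (by omega)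
        rw [zero_add, Nat.sub_add_cancel hba] at this
        exact this
      by_cases hc : dl - 1 - a + b < dk
      · unfold tp
        rw [if_pos ⟨hba, hadl, hbdk, hc⟩, e1]
        congr 1
        omega
      · have e2 : x (a - b) 0 = 0 := by
          -- push out of range
          have := shift dk (a - b) 0 (by omega) (by omega)
          rw [zero_add] at this
          rw [← this]
          exact h0 _ _ (Or.inr le_rfl)
        unfold tp
        rw [if_neg (by omega), e1, e2]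
    · have e1 : x a b = x 0 (b - a) := by
        have := shift a 0 (b - a) (by omega) (by omega)
        rw [zero_add, Nat.sub_add_cancel (by omega)] at this
        exact this
      have e2 : x 0 (b - a) = 0 := by
        obtain ⟨c, hc⟩ : ∃ c, b - a = c + 1 := ⟨b - a - 1, by omega⟩
        rw [hc]; exact h2 c
      unfold tp
      rw [if_neg (by omega), e1, e2]
  · rw [h0 a b (by omega), tp_out _ _ _ _ _ (by omega)]

/-- Nilpotent part of the Jordan matrix. -/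
def Nm {t : ℕ} (d : Fin t → ℕ) (F : Type*) [Field F] :
    Matrix ((k : Fin t) × Fin (d k)) ((k : Fin t) × Fin (d k)) F :=
  Matrix.of fun x y => if x.1 = y.1 ∧ (x.2 : ℕ) = (y.2 : ℕ) + 1 then 1 else 0

lemma jordan_eq {t : ℕ} (d : Fin t → ℕ) :
    jordanTypeMatrix d F = 1 + Nm d F := by
  ext ⟨m, c⟩ ⟨k, b⟩
  by_cases h : m = k
  · subst h
    simp only [jordanTypeMatrix, Matrix.blockDiagonal'_apply_eq, jordanBlock, Matrix.of_apply,
      Matrix.add_apply, Nm, Matrix.one_apply]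
    by_cases h2 : (c : ℕ) = b
    · have : c = b := Fin.ext h2
      subst this
      simp
    · have : (⟨m, c⟩ : (k : Fin t) × Fin (d k)) ≠ ⟨m, b⟩ := by
        intro h3
        apply h2
        have := eq_of_heq (Sigma.mk.inj_iff.mp h3).2
        rw [this]
      simp [h2, this]
  · have : (⟨m, c⟩ : (k : Fin t) × Fin (d k)) ≠ ⟨k, b⟩ := by
      intro h3
      exact h (Sigma.mk.inj_iff.mp h3).1
    simp [jordanTypeMatrix, Matrix.blockDiagonal'_apply_ne _ _ _ h, Nm, Matrix.one_apply, h, this]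

/-- ℕ-indexed extension of a block of a matrix. -/
noncomputable def xt {t : ℕ} {d : Fin t → ℕ}
    (X : Matrix ((k : Fin t) × Fin (d k)) ((k : Fin t) × Fin (d k)) F) (l k : Fin t) (a b : ℕ) : F :=
  open Classical in if h : a < d l ∧ b < d k then X ⟨l, ⟨a, h.1⟩⟩ ⟨k, ⟨b, h.2⟩⟩ else 0

lemma mul_Nm_apply {t : ℕ} {d : Fin t → ℕ}
    (X : Matrix ((k : Fin t) × Fin (d k)) ((k : Fin t) × Fin (d k)) F)
    (l k : Fin t) (a : Fin (d l)) (b : Fin (d k)) :
    (X * Nm d F) ⟨l, a⟩ ⟨k, b⟩ = xt X l k a (b + 1) := by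
  rw [Matrix.mul_apply]
  by_cases hb : (b : ℕ) + 1 < d k
  · rw [Finset.sum_eq_single (⟨k, ⟨b + 1, hb⟩⟩ : (k : Fin t) × Fin (d k))]
    · simp [Nm, xt, hb, a.2]
    · rintro ⟨m, c⟩ - hne
      have : ¬ (m = k ∧ (c : ℕ) = (b : ℕ) + 1) := by
        rintro ⟨rfl, h2⟩
        exact hne (by congr 1; exact Fin.ext h2)
      simp [Nm, this]
    · simp
  · rw [Finset.sum_eq_zero]
    · simp [xt, hb]
    · rintro ⟨m, c⟩ -
      have : ¬ (m = k ∧ (c : ℕ) = (b : ℕ) + 1) := by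
        rintro ⟨rfl, h2⟩
        have := c.2
        omega
      simp [Nm, this]

lemma Nm_mul_apply_zero {t : ℕ} {d : Fin t → ℕ}
    (X : Matrix ((k : Fin t) × Fin (d k)) ((k : Fin t) × Fin (d k)) F)
    (l k : Fin t) (a : Fin (d l)) (b : Fin (d k)) (ha : (a : ℕ) = 0) :
    (Nm d F * X) ⟨l, a⟩ ⟨k, b⟩ = 0 := by
  rw [Matrix.mul_apply, Finset.sum_eq_zero]
  rintro ⟨m, c⟩ -
  simp [Nm, ha]

lemma Nm_mul_apply_succ {t : ℕ} {d : Fin t → ℕ}
    (X : Matrix ((k : Fin t) × Fin (d k)) ((k : Fin t) × Fin (d k)) F)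
    (l k : Fin t) (a : Fin (d l)) (b : Fin (d k)) (a' : ℕ) (ha : (a : ℕ) = a' + 1) :
    (Nm d F * X) ⟨l, a⟩ ⟨k, b⟩ = xt X l k a' b := by
  rw [Matrix.mul_apply]
  have h1 : a' < d l := by have := a.2; omega
  rw [Finset.sum_eq_single (⟨l, ⟨a', h1⟩⟩ : (k : Fin t) × Fin (d k))]
  · simp [Nm, xt, ha, h1]
  · rintro ⟨m, c⟩ - hne
    have : ¬ (l = m ∧ (a : ℕ) = (c : ℕ) + 1) := by
      rintro ⟨rfl, h2⟩
      exact hne (by congr 1; apply Fin.ext; simp; omega)
    simp [Nm, this]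
  · simp

lemma comm_iff {t : ℕ} {d : Fin t → ℕ}
    (X : Matrix ((k : Fin t) × Fin (d k)) ((k : Fin t) × Fin (d k)) F) :
    X * jordanTypeMatrix d F = jordanTypeMatrix d F * X ↔ X * Nm d F = Nm d F * X := by
  rw [jordan_eq, mul_add, add_mul, mul_one, one_mul, add_right_inj]

/-- Commutation gives the diagonal relations. -/
lemma xt_rels {t : ℕ} {d : Fin t → ℕ}
    (X : Matrix ((k : Fin t) × Fin (d k)) ((k : Fin t) × Fin (d k)) F)
    (hX : X * Nm d F = Nm d F * X) (l k : Fin t) :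
    (∀ a b, a + 1 < d l → b < d k → xt X l k (a + 1) (b + 1) = xt X l k a b) ∧
      (∀ b, xt X l k 0 (b + 1) = 0) := by
  constructor
  · intro a b ha hb
    have := congrFun (congrFun hX ⟨l, ⟨a + 1, ha⟩⟩) ⟨k, ⟨b, hb⟩⟩
    rw [mul_Nm_apply, Nm_mul_apply_succ X l k ⟨a + 1, ha⟩ ⟨b, hb⟩ a rfl] at this
    exact this
  · intro b
    by_cases hb : b < d k
    · by_cases hl : 0 < d l
      · have := congrFun (congrFun hX ⟨l, ⟨0, hl⟩⟩) ⟨k, ⟨b, hb⟩⟩
        rw [mul_Nm_apply, Nm_mul_apply_zero X l k ⟨0, hl⟩ ⟨b, hb⟩ rfl] at this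
        exact this
      · simp [xt, hl]
    · have : ¬ (0 < d l ∧ b + 1 < d k) := by omega
      simp [xt, this]

lemma xt_out {t : ℕ} {d : Fin t → ℕ}
    (X : Matrix ((k : Fin t) × Fin (d k)) ((k : Fin t) × Fin (d k)) F) (l k : Fin t) (a b : ℕ)
    (h : d l ≤ a ∨ d k ≤ b) : xt X l k a b = 0 := by
  have : ¬ (a < d l ∧ b < d k) := by omega
  simp [xt, this]

lemma xt_mk {t : ℕ} {d : Fin t → ℕ}
    (X : Matrix ((k : Fin t) × Fin (d k)) ((k : Fin t) × Fin (d k)) F) (l k : Fin t)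
    (a : Fin (d l)) (b : Fin (d k)) : xt X l k a b = X ⟨l, a⟩ ⟨k, b⟩ := by
  simp [xt]

/-- Parameter index set. -/
abbrev Par {t : ℕ} (d : Fin t → ℕ) := Σ p : Fin t × Fin t, Fin (min (d p.1) (d p.2))

/-- Matrix from parameters. -/
noncomputable def mkX {t : ℕ} {d : Fin t → ℕ} (c : Par d → F) :
    Matrix ((k : Fin t) × Fin (d k)) ((k : Fin t) × Fin (d k)) F :=
  Matrix.of fun x y =>
    tp (d x.1) (d y.1)
      (fun r => open Classical in
        if h : r < min (d x.1) (d y.1) then c ⟨(x.1, y.1), ⟨r, h⟩⟩ else 0) x.2 y.2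

lemma xt_mkX {t : ℕ} {d : Fin t → ℕ} (c : Par d → F) (l k : Fin t) (a b : ℕ) :
    xt (mkX c) l k a b = tp (d l) (d k)
      (fun r => open Classical in if h : r < min (d l) (d k) then c ⟨(l, k), ⟨r, h⟩⟩ else 0) a b := by
  by_cases h : a < d l ∧ b < d k
  · simp [xt, h, mkX]
  · rw [xt_out _ _ _ _ _ (by omega), tp_out _ _ _ _ _ (by omega)]

lemma mkX_comm {t : ℕ} {d : Fin t → ℕ} (c : Par d → F) :
    mkX c * Nm d F = Nm d F * mkX c := by
  ext ⟨l, a⟩ ⟨k, b⟩
  rw [mul_Nm_apply, xt_mkX]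
  rcases Nat.eq_zero_or_pos (a : ℕ) with ha | ha
  · rw [Nm_mul_apply_zero _ l k a b ha, ha, tp_zero_succ]
  · obtain ⟨a', ha'⟩ : ∃ a', (a : ℕ) = a' + 1 := ⟨a - 1, by omega⟩
    rw [Nm_mul_apply_succ _ l k a b a' ha', xt_mkX, ha', tp_rel _ _ _ _ _ (by have := a.2; omega) b.2]

/-- The parameter equivalence. -/
noncomputable def parEquiv {t : ℕ} (d : Fin t → ℕ) :
    (Par d → F) ≃ {X : Matrix ((k : Fin t) × Fin (d k)) ((k : Fin t) × Fin (d k)) F //
      X * Nm d F = Nm d F * X} where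
  toFun c := ⟨mkX c, mkX_comm c⟩
  invFun X := fun s => xt X.1 s.1.1 s.1.2 (d s.1.1 - 1 - s.2) 0
  left_inv c := by
    funext ⟨⟨l, k⟩, ⟨r, hr⟩⟩
    show xt (mkX c) l k (d l - 1 - r) 0 = c ⟨(l, k), ⟨r, hr⟩⟩
    rw [xt_mkX]
    have hr1 : r < d l := lt_of_lt_of_le hr (min_le_left _ _)
    have hr2 : r < d k := lt_of_lt_of_le hr (min_le_right _ _)
    unfold tp
    rw [if_pos (by omega)]
    have e : d l - 1 - (d l - 1 - r) + 0 = r := by omega
    simp only [e]
    rw [dif_pos hr]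
  right_inv X := by
    apply Subtype.ext
    ext ⟨l, a⟩ ⟨k, b⟩
    obtain ⟨h1, h2⟩ := xt_rels X.1 X.2 l k
    have key := eq_tp (d l) (d k) (xt X.1 l k) (xt_out X.1 l k) h1 h2 a b
    rw [xt_mk] at key
    rw [key]
    show (mkX (F := F) (d := d) (fun s => xt X.1 s.1.1 s.1.2 (d s.1.1 - 1 - s.2) 0)) ⟨l, a⟩ ⟨k, b⟩ = _
    simp only [mkX, Matrix.of_apply]
    unfold tp
    by_cases hc : (b : ℕ) ≤ a ∧ (a : ℕ) < d l ∧ (b : ℕ) < d k ∧ d l - 1 - (a : ℕ) + b < d k
    · rw [if_pos hc, if_pos hc]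
      have : d l - 1 - (a : ℕ) + b < min (d l) (d k) := by
        have := a.2
        omega
      simp only [dif_pos this]
    · rw [if_neg hc, if_neg hc]

end Cfsg.Agent.H11.JC
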