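import Cfsg.Agent.Lib.H11.JC1

set_option autoImplicit false
open Matrix Finset

namespace Cfsg.Agent.H11.JC

variable {F : Type*} [Field F]

/-- Block label. -/
def lab {t : ℕ} (d : Fin t → ℕ) (D : ℕ) (x : (k : Fin t) × Fin (d k)) : ℕ ×ₗ ℕ :=
  toLex (D - (x.2 : ℕ), d x.1)

lemma mkX_ne {t : ℕ} {d : Fin t → ℕ} (c : Par d → F) (l k : Fin t) (a : Fin (d l)) (b : Fin (d k))
    (h : mkX c ⟨l, a⟩ ⟨k, b⟩ ≠ 0) : (b : ℕ) ≤ a ∧ d l - 1 - (a : ℕ) + b < d k := by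
  by_contra hc
  apply h
  simp only [mkX, Matrix.of_apply]
  unfold tp
  rw [if_neg (by tauto)]

lemma mkX_tri {t : ℕ} {d : Fin t → ℕ} (D : ℕ) (hD : ∀ k, d k ≤ D) (c : Par d → F) :
    (mkX c).BlockTriangular (lab d D) := by
  rintro ⟨l, a⟩ ⟨k, b⟩ h
  by_contra hne
  obtain ⟨h1, h2⟩ := mkX_ne c l k a b hne
  have ha := a.2
  have hb := b.2
  have hl := hD l
  have hk := hD k
  simp only [lab] at h
  rw [Prod.Lex.toLex_lt_toLex] at h
  simp only at h
  rcases h with h | ⟨h3, h4⟩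
  · omega
  · omega

/-- Classes of fixed size. -/
abbrev Cl {t : ℕ} (d : Fin t → ℕ) (i : ℕ) := {l : Fin t // d l = i}

/-- The "top" matrix of size class `i`. -/
noncomputable def topM {t : ℕ} {d : Fin t → ℕ} (hd : ∀ k, 1 ≤ d k) (c : Par d → F) (i : ℕ) :
    Matrix (Cl d i) (Cl d i) F :=
  Matrix.of fun l k => c ⟨(l.1, k.1), ⟨d l.1 - 1, by
    have h1 := hd l.1
    have h2 := l.2
    have h3 := k.2
    show d l.1 - 1 < min (d l.1) (d k.1)
    rw [lt_min_iff]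
    omega⟩⟩

lemma mkX_diag {t : ℕ} {d : Fin t → ℕ} (c : Par d → F) (l k : Fin t) (a : ℕ) (h1 : a < d l)
    (h2 : a < d k) (h : d l = d k) (h3 : d l - 1 < min (d l) (d k)) :
    mkX c ⟨l, ⟨a, h1⟩⟩ ⟨k, ⟨a, h2⟩⟩ = c ⟨(l, k), ⟨d l - 1, h3⟩⟩ := by
  simp only [mkX, Matrix.of_apply]
  unfold tp
  rw [if_pos (by omega)]
  have e3 : d l - 1 - a + a = d l - 1 := by omega
  simp only [e3, dif_pos h3]

lemma block_det {t : ℕ} {d : Fin t → ℕ} (hd : ∀ k, 1 ≤ d k) (D : ℕ) (hD : ∀ k, d k ≤ D)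
    (c : Par d → F) (l₀ : Fin t) (a₀ : Fin (d l₀)) :
    ((mkX c).toSquareBlock (lab d D) (lab d D ⟨l₀, a₀⟩)).det = (topM hd c (d l₀)).det := by
  classical
  have hmem : ∀ x : (k : Fin t) × Fin (d k), lab d D x = lab d D ⟨l₀, a₀⟩ ↔
      d x.1 = d l₀ ∧ (x.2 : ℕ) = a₀ := by
    rintro ⟨m, c'⟩
    have h1 := hD m
    have h2 := hD l₀
    have h3 := c'.2
    have h4 := a₀.2
    simp only [lab, EmbeddingLike.apply_eq_iff_eq, Prod.mk.injEq]
    omega
  let e : Cl d (d l₀) ≃ {x : (k : Fin t) × Fin (d k) // lab d D x = lab d D ⟨l₀, a₀⟩} :=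
    { toFun := fun l => ⟨⟨l.1, ⟨a₀, by rw [l.2]; exact a₀.2⟩⟩, (hmem _).2 ⟨l.2, rfl⟩⟩
      invFun := fun x => ⟨x.1.1, ((hmem _).1 x.2).1⟩
      left_inv := fun l => rfl
      right_inv := by
        rintro ⟨⟨m, c'⟩, hx⟩
        apply Subtype.ext
        have := ((hmem _).1 hx).2
        exact Sigma.ext rfl (heq_of_eq (Fin.ext this.symm)) }
  have hsub : ((mkX c).toSquareBlock (lab d D) (lab d D ⟨l₀, a₀⟩)).submatrix e e = topM hd c (d l₀) := by
    ext l k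
    have h1 := hd l₀
    have h2 := a₀.2
    have hl := l.2
    have hk := k.2
    exact mkX_diag c l.1 k.1 (a₀ : ℕ) (by omega) (by omega) (by omega) _
  rw [← hsub, Matrix.det_submatrix_equiv_self]

lemma mkX_unit_iff {t : ℕ} {d : Fin t → ℕ} (hd : ∀ k, 1 ≤ d k) (D : ℕ) (hD : ∀ k, d k ≤ D)
    (c : Par d → F) :
    IsUnit (mkX c).det ↔ ∀ i : Fin (D + 1), IsUnit (topM hd c i).det := by
  classical
  rw [(mkX_tri D hD c).det]
  simp only [isUnit_iff_ne_zero]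
  rw [Finset.prod_ne_zero_iff]
  constructor
  · intro h i
    by_cases hne : Nonempty (Cl d i)
    · obtain ⟨⟨l₀, hl₀⟩⟩ := hne
      have hi : (i : ℕ) = d l₀ := hl₀.symm
      have := h (lab d D ⟨l₀, ⟨0, hd l₀⟩⟩) (Finset.mem_image_of_mem _ (Finset.mem_univ _))
      rw [block_det hd D hD] at this
      rw [hi]
      exact this
    · rw [not_nonempty_iff] at hne
      rw [Matrix.det_isEmpty]
      exact one_ne_zero
  · intro h v hv
    obtain ⟨⟨l₀, a₀⟩, -, rfl⟩ := Finset.mem_image.mp hv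
    rw [block_det hd D hD]
    exact h ⟨d l₀, Nat.lt_succ_of_le (hD l₀)⟩

/-- Counting subtypes depending only on part of the coordinates. -/
lemma count_pull {S T : Type*} [Fintype S] [Fintype T] [DecidableEq S] [Fintype F] (ψ : T → S)
    (hψ : Function.Injective ψ) (P : (T → F) → Prop) :
    Nat.card {c : S → F // P (c ∘ ψ)} =
      Nat.card {y : T → F // P y} * Fintype.card F ^ (Fintype.card S - Fintype.card T) := by
  classical
  let e₁ := Equiv.piEquivPiSubtypeProd (fun s : S => s ∈ Set.range ψ) (fun _ => F)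
  let e₂ : Set.range ψ ≃ T := (Equiv.ofInjective ψ hψ).symm
  let e₃ : (Set.range ψ → F) ≃ (T → F) := Equiv.arrowCongr e₂ (Equiv.refl F)
  let e₄ : (S → F) ≃ (T → F) × ({s // s ∉ Set.range ψ} → F) :=
    e₁.trans (Equiv.prodCongr e₃ (Equiv.refl _))
  have he₄ : ∀ c, (e₄ c).1 = c ∘ ψ := by
    intro c
    funext x
    show c (e₂.symm x).1 = c (ψ x)
    simp [e₂]
  let e₅ : {c : S → F // P (c ∘ ψ)} ≃ {p : (T → F) × ({s // s ∉ Set.range ψ} → F) // P p.1} :=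
    e₄.subtypeEquiv (fun c => by rw [he₄])
  rw [Nat.card_congr (e₅.trans Equiv.prodSubtypeFstEquivSubtypeProd), Nat.card_prod]
  congr 1
  rw [Nat.card_eq_fintype_card, Fintype.card_fun]
  congr 1
  rw [Fintype.card_subtype_compl, Fintype.card_congr (Equiv.ofInjective ψ hψ).symm]
  
end Cfsg.Agent.H11.JC
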