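import Cfsg.Agent.Lib.H11.JC2

set_option autoImplicit false
open Matrix Finset

namespace Cfsg.Agent.H11.JC

variable {F : Type*} [Field F]

/-- Index set of the "top" parameters. -/
abbrev Top {t : ℕ} (d : Fin t → ℕ) (D : ℕ) := Σ i : Fin (D + 1), Cl d i × Cl d i

/-- Embedding of top parameters. -/
def psi {t : ℕ} {d : Fin t → ℕ} (hd : ∀ k, 1 ≤ d k) (D : ℕ) : Top d D → Par d := fun s =>
  ⟨(s.2.1.1, s.2.2.1), ⟨d s.2.1.1 - 1, by
    have h1 := hd s.2.1.1
    have h2 := s.2.1.2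
    have h3 := s.2.2.2
    show d s.2.1.1 - 1 < min (d s.2.1.1) (d s.2.2.1)
    rw [lt_min_iff]
    omega⟩⟩

lemma psi_inj {t : ℕ} {d : Fin t → ℕ} (hd : ∀ k, 1 ≤ d k) (D : ℕ) :
    Function.Injective (psi hd D) := by
  rintro ⟨i, ⟨⟨l, hl⟩, ⟨k, hk⟩⟩⟩ ⟨i', ⟨⟨l', hl'⟩, ⟨k', hk'⟩⟩⟩ h
  have h1 := congrArg Sigma.fst h
  simp only [psi, Prod.mk.injEq] at h1
  obtain ⟨rfl, rfl⟩ := h1
  have : i = i' := Fin.ext (hl.symm.trans hl')
  subst this
  rfl

/-- Invertibility of top parameters. -/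
def PTop {t : ℕ} (d : Fin t → ℕ) (D : ℕ) (F : Type*) [Field F] (y : Top d D → F) : Prop :=
  ∀ i : Fin (D + 1), IsUnit (Matrix.det (Matrix.of fun l k : Cl d i => y ⟨i, (l, k)⟩))

lemma unit_iff_PTop {t : ℕ} {d : Fin t → ℕ} (hd : ∀ k, 1 ≤ d k) (D : ℕ) (hD : ∀ k, d k ≤ D)
    (c : Par d → F) : IsUnit (mkX c).det ↔ PTop d D F (c ∘ psi hd D) := by
  rw [mkX_unit_iff hd D hD]
  rfl

/-- Units of the commutant in terms of parameters. -/
noncomputable def glEquiv {ι : Type*} [Fintype ι] [DecidableEq ι] (J N : Matrix ι ι F)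
    (h : ∀ X : Matrix ι ι F, X * J = J * X ↔ X * N = N * X) :
    {g : GL ι F // (g : Matrix ι ι F) * J = J * (g : Matrix ι ι F)} ≃
      {X : {X : Matrix ι ι F // X * N = N * X} // IsUnit X.1.det} where
  toFun g := ⟨⟨g.1.1, (h _).1 g.2⟩, by
    exact (Matrix.isUnit_iff_isUnit_det _).1 g.1.isUnit⟩
  invFun X := ⟨((Matrix.isUnit_iff_isUnit_det _).2 X.2).unit, (h _).2 X.1.2⟩
  left_inv g := by
    apply Subtype.ext
    apply Units.ext
    rfl
  right_inv X := by
    apply Subtype.ext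
    apply Subtype.ext
    rfl

lemma card_units_det {n : Type*} [Fintype n] [DecidableEq n] [Fintype F] :
    Nat.card {m : Matrix n n F // IsUnit m.det} =
      ∏ j : Fin (Fintype.card n), (Fintype.card F ^ Fintype.card n - Fintype.card F ^ (j : ℕ)) := by
  let e1 : {m : Matrix n n F // IsUnit m.det} ≃ GL n F :=
    { toFun := fun m => ((Matrix.isUnit_iff_isUnit_det _).2 m.2).unit
      invFun := fun g => ⟨g.1, (Matrix.isUnit_iff_isUnit_det _).1 g.isUnit⟩
      left_inv := fun m => rfl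
      right_inv := fun g => Units.ext rfl }
  let e2 : GL n F ≃ GL (Fin (Fintype.card n)) F :=
    (Units.mapEquiv (Matrix.reindexAlgEquiv F F (Fintype.equivFin n)).toMulEquiv).toEquiv
  rw [Nat.card_congr (e1.trans e2), Matrix.card_GL_field]

lemma card_PTop {t : ℕ} (d : Fin t → ℕ) (D : ℕ) [Fintype F] :
    Nat.card {y : Top d D → F // PTop d D F y} =
      ∏ i : Fin (D + 1), ∏ j : Fin (Fintype.card (Cl d i)),
        (Fintype.card F ^ Fintype.card (Cl d i) - Fintype.card F ^ (j : ℕ)) := by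
  let e : {y : Top d D → F // PTop d D F y} ≃
      ∀ i : Fin (D + 1), {m : Matrix (Cl d i) (Cl d i) F // IsUnit m.det} :=
    { toFun := fun y i => ⟨Matrix.of fun l k => y.1 ⟨i, (l, k)⟩, y.2 i⟩
      invFun := fun M => ⟨fun s => (M s.1).1 s.2.1 s.2.2, fun i => by
        exact (M i).2⟩
      left_inv := fun y => by
        apply Subtype.ext
        funext ⟨i, ⟨l, k⟩⟩
        rfl
      right_inv := fun M => by
        funext i
        apply Subtype.ext
        ext l k
        rfl }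
  rw [Nat.card_congr e, Nat.card_pi]
  exact Finset.prod_congr rfl fun i _ => card_units_det

lemma card_eq_param {t : ℕ} (d : Fin t → ℕ) (hd : ∀ k, 1 ≤ d k) (D : ℕ) (hD : ∀ k, d k ≤ D) [Fintype F] :
    Nat.card {g : GL ((k : Fin t) × Fin (d k)) F // (g : Matrix ((k : Fin t) × Fin (d k)) ((k : Fin t) × Fin (d k)) F) * jordanTypeMatrix d F = jordanTypeMatrix d F * (g : Matrix ((k : Fin t) × Fin (d k)) ((k : Fin t) × Fin (d k)) F)} =
      Fintype.card F ^ (Fintype.card (Par d) - Fintype.card (Top d D)) *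
        ∏ i : Fin (D + 1), ∏ j : Fin (Fintype.card (Cl d i)),
          (Fintype.card F ^ Fintype.card (Cl d i) - Fintype.card F ^ (j : ℕ)) := by
  classical
  have e1 := glEquiv (jordanTypeMatrix d F) (Nm d F) (comm_iff (d := d))
  have e2 : {c : Par d → F // IsUnit (mkX c).det} ≃
      {X : {X : Matrix ((k : Fin t) × Fin (d k)) ((k : Fin t) × Fin (d k)) F // X * Nm d F = Nm d F * X} //
        IsUnit X.1.det} :=
    (parEquiv d).subtypeEquiv (fun c => Iff.rfl)
  have e3 : {c : Par d → F // IsUnit (mkX c).det} ≃ {c : Par d → F // PTop d D F (c ∘ psi hd D)} :=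
    Equiv.subtypeEquivRight (fun c => unit_iff_PTop hd D hD c)
  rw [Nat.card_congr (e1.trans (e2.symm.trans e3)), count_pull (psi hd D) (psi_inj hd D), card_PTop, mul_comm]

/-- Fiberwise sums over block sizes. -/
lemma sum_fiber {t : ℕ} (d : Fin t → ℕ) (D : ℕ) (hD : ∀ k, d k ≤ D) (f : ℕ → ℕ) :
    ∑ l, f (d l) = ∑ i ∈ Finset.range (D + 1), (Finset.univ.filter (fun k : Fin t => d k = i)).card * f i := by
  rw [← Finset.sum_fiberwise_of_maps_to (s := Finset.univ) (t := Finset.range (D + 1)) (g := d)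
    (fun x _ => Finset.mem_range.mpr (Nat.lt_succ_of_le (hD x))) (fun l => f (d l))]
  apply Finset.sum_congr rfl
  intro i _
  rw [Finset.sum_congr rfl (g := fun _ => f i) (fun x hx => by rw [(Finset.mem_filter.mp hx).2])]
  simp

lemma arith_gamma (R : Finset ℕ) (a : ℕ → ℕ) (h0 : a 0 = 0) :
    ∑ i ∈ R, ∑ j ∈ R, a i * (a j * min i j) =
      (2 * (∑ i ∈ R, ∑ j ∈ R, if i < j then i * a i * a j else 0) + ∑ i ∈ R, (i - 1) * a i ^ 2) +
        ∑ i ∈ R, a i ^ 2 := by
  have h1 : ∀ i j, a i * (a j * min i j) = (if i < j then i * a i * a j else 0) +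
      (if j < i then j * a j * a i else 0) + (if i = j then i * a i ^ 2 else 0) := by
    intro i j
    rcases lt_trichotomy i j with h | h | h
    · rw [if_pos h, if_neg (by omega), if_neg (by omega), min_eq_left h.le]; ring
    · subst h
      rw [if_neg (lt_irrefl i), if_pos rfl, min_self]; ring
    · rw [if_neg (by omega), if_pos h, if_neg (by omega), min_eq_right h.le]; ring
  simp_rw [h1, Finset.sum_add_distrib]
  have h2 : (∑ i ∈ R, ∑ j ∈ R, if j < i then j * a j * a i else 0) =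
      ∑ i ∈ R, ∑ j ∈ R, if i < j then i * a i * a j else 0 := Finset.sum_comm
  have h3 : (∑ i ∈ R, ∑ j ∈ R, if i = j then i * a i ^ 2 else 0) = ∑ i ∈ R, i * a i ^ 2 := by
    apply Finset.sum_congr rfl
    intro i hi
    rw [Finset.sum_ite_eq]
    simp [hi]
  have h4 : ∑ i ∈ R, i * a i ^ 2 = ∑ i ∈ R, (i - 1) * a i ^ 2 + ∑ i ∈ R, a i ^ 2 := by
    rw [← Finset.sum_add_distrib]
    apply Finset.sum_congr rfl
    intro i _
    rcases Nat.eq_zero_or_pos i with rfl | hi
    · simp [h0]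
    · obtain ⟨m, rfl⟩ : ∃ m, i = m + 1 := ⟨i - 1, by omega⟩
      simp only [Nat.add_sub_cancel]
      ring
  rw [h2, h3, h4]
  ring

lemma card_arith {t : ℕ} (d : Fin t → ℕ) (hd : ∀ k, 1 ≤ d k) (D : ℕ) (hD : ∀ k, d k ≤ D) :
    Fintype.card (Par d) - Fintype.card (Top d D) =
      2 * (∑ i ∈ Finset.range (D + 1), ∑ j ∈ Finset.range (D + 1), if i < j then i * (Finset.univ.filter (fun k : Fin t => d k = i)).card * (Finset.univ.filter (fun k : Fin t => d k = j)).card else 0) + ∑ i ∈ Finset.range (D + 1), (i - 1) * (Finset.univ.filter (fun k : Fin t => d k = i)).card ^ 2 := by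
  set a : ℕ → ℕ := fun i => (Finset.univ.filter (fun k : Fin t => d k = i)).card with ha
  have h0 : a 0 = 0 := by
    simp only [ha, Finset.card_eq_zero]
    apply Finset.filter_eq_empty_iff.mpr
    intro k _
    have := hd k
    omega
  have h1 : Fintype.card (Par d) = ∑ i ∈ Finset.range (D + 1), ∑ j ∈ Finset.range (D + 1), a i * (a j * min i j) := by
    rw [Fintype.card_sigma, Fintype.sum_prod_type]
    simp only [Fintype.card_fin]
    rw [sum_fiber d D hD (fun i => ∑ k, min i (d k))]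
    apply Finset.sum_congr rfl
    intro i _
    rw [sum_fiber d D hD (fun j => min i j), Finset.mul_sum]
  have h2 : Fintype.card (Top d D) = ∑ i ∈ Finset.range (D + 1), a i ^ 2 := by
    rw [Fintype.card_sigma, Finset.sum_range]
    apply Finset.sum_congr rfl
    intro i _
    rw [Fintype.card_prod, Fintype.card_subtype, sq]
  rw [h1, h2, arith_gamma _ a h0, Nat.add_sub_cancel]

end Cfsg.Agent.H11.JC
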