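import Mathlib
import Cfsg.Prelude.Def_JordanBlocks
import Cfsg.Agent.Lib.H29.SympRank

/-! Jordan types of isometries: forms invariant under a nilpotent-plus-one map. -/

set_option autoImplicit false
set_option linter.unusedSectionVars false
set_option linter.unusedVariables false

namespace Cfsg.Agent.H11.JT

open Matrix Module

variable {F : Type*} [Field F] {I : Type*} [Fintype I] [DecidableEq I]

/-- the pairing attached to a square matrix -/
def om (S : Matrix I I F) (x y : I → F) : F := x ⬝ᵥ S *ᵥ y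

theorem om_add_left (S : Matrix I I F) (x x' y : I → F) : om S (x + x') y = om S x y + om S x' y := by
  simp [om, add_dotProduct]

theorem om_add_right (S : Matrix I I F) (x y y' : I → F) : om S x (y + y') = om S x y + om S x y' := by
  simp [om, mulVec_add, dotProduct_add]

theorem om_zero_left (S : Matrix I I F) (y : I → F) : om S 0 y = 0 := by simp [om]

theorem om_zero_right (S : Matrix I I F) (x : I → F) : om S x 0 = 0 := by simp [om]

theorem mulVec_comm_pow (N : Matrix I I F) (p : ℕ) (x : I → F) : N *ᵥ (N ^ p *ᵥ x) = N ^ p *ᵥ (N *ᵥ x) := by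
  rw [mulVec_mulVec, mulVec_mulVec, ← pow_succ', ← pow_succ]

theorem pow_succ_mulVec (N : Matrix I I F) (p : ℕ) (x : I → F) : N ^ (p + 1) *ᵥ x = N *ᵥ (N ^ p *ᵥ x) := by
  rw [mulVec_mulVec, ← pow_succ']

theorem pow_succ_mulVec' (N : Matrix I I F) (p : ℕ) (x : I → F) : N ^ (p + 1) *ᵥ x = N ^ p *ᵥ (N *ᵥ x) := by
  rw [mulVec_mulVec, ← pow_succ]

theorem om_ker {S N : Matrix I I F}
    (hinv : ∀ x y, om S (N *ᵥ x) y + om S x (N *ᵥ y) + om S (N *ᵥ x) (N *ᵥ y) = 0) :
    ∀ (p : ℕ) (v : I → F), N ^ p *ᵥ v = 0 → ∀ w, om S v (N ^ p *ᵥ w) = 0 := by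
  intro p
  induction p with
  | zero =>
    intro v hv w
    rw [pow_zero, one_mulVec] at hv
    rw [hv, om_zero_left]
  | succ p ih =>
    intro v hv w
    have h1 : N ^ p *ᵥ (N *ᵥ v) = 0 := by rw [← pow_succ_mulVec']; exact hv
    have h2 := hinv v (N ^ p *ᵥ w)
    rw [ih _ h1 w, mulVec_comm_pow, ih _ h1 (N *ᵥ w), zero_add, add_zero, ← mulVec_comm_pow, ← pow_succ_mulVec] at h2
    exact h2

theorem om_level {S N : Matrix I I F}
    (hinv : ∀ x y, om S (N *ᵥ x) y + om S x (N *ᵥ y) + om S (N *ᵥ x) (N *ᵥ y) = 0)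
    (j : ℕ) (v : I → F) (hv : N ^ j *ᵥ v = 0) (w : I → F) :
    ∀ p q, p + q + 1 = j → om S (N ^ p *ᵥ v) (N ^ q *ᵥ w) = (-1) ^ p * om S v (N ^ (p + q) *ᵥ w) := by
  intro p
  induction p with
  | zero =>
    intro q _
    simp
  | succ p ih =>
    intro q hq
    have h1 := ih (q + 1) (by omega)
    have h2 := hinv (N ^ p *ᵥ v) (N ^ q *ᵥ w)
    have h3 : N ^ (q + 1) *ᵥ (N *ᵥ (N ^ p *ᵥ v)) = 0 := by
      rw [← pow_succ_mulVec, mulVec_mulVec, ← pow_add, show q + 1 + (p + 1) = j by omega]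
      exact hv
    have h4 := om_ker hinv (q + 1) _ h3 w
    rw [← pow_succ_mulVec] at h2 h4
    rw [← pow_succ_mulVec] at h2
    rw [h4, add_zero, h1] at h2
    rw [show p + (q + 1) = p + 1 + q by omega] at h2
    rw [pow_succ (-1 : F) p]
    linear_combination h2

theorem ker_of_orth {S N : Matrix I I F}
    (hinv : ∀ x y, om S (N *ᵥ x) y + om S x (N *ᵥ y) + om S (N *ᵥ x) (N *ᵥ y) = 0)
    (r : ℕ) (hnil : ∀ x, N ^ r *ᵥ x = 0) (hnd : ∀ v : I → F, (∀ y, om S v y = 0) → v = 0) :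
    ∀ (p : ℕ) (v : I → F), (∀ w, om S v (N ^ p *ᵥ w) = 0) → N ^ p *ᵥ v = 0 := by
  intro p
  induction p with
  | zero =>
    intro v hv
    rw [pow_zero, one_mulVec]
    exact hnd v (fun y => by simpa using hv y)
  | succ p ih =>
    intro v hv
    rw [pow_succ_mulVec']
    apply ih
    intro w
    have key : ∀ (s : ℕ) (w : I → F), om S (N *ᵥ v) (N ^ p *ᵥ w) = (-1) ^ s * om S (N *ᵥ v) (N ^ p *ᵥ (N ^ s *ᵥ w)) := by
      intro s
      induction s with
      | zero =>
        intro w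
        simp
      | succ s ihs =>
        intro w
        have h1 := hinv v (N ^ p *ᵥ (N ^ s *ᵥ w))
        rw [← pow_succ_mulVec, hv, add_zero] at h1
        have h2 : N ^ (p + 1) *ᵥ (N ^ s *ᵥ w) = N ^ p *ᵥ (N ^ (s + 1) *ᵥ w) := by
          rw [pow_succ_mulVec', pow_succ_mulVec N s w]
        rw [h2] at h1
        rw [ihs w, pow_succ (-1 : F) s]
        linear_combination (-1) ^ s * h1
    rw [key r w, hnil, mulVec_zero, om_zero_right, mul_zero]

/-- alternating matrices vanish on the diagonal of their quadratic form -/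
theorem quad_alt {K : Type*} [Fintype K] [DecidableEq K] (C : Matrix K K F) (h0 : ∀ k, C k k = 0)
    (h1 : ∀ k l, C k l = - C l k) (x : K → F) : x ⬝ᵥ C *ᵥ x = 0 := by
  have e : x ⬝ᵥ C *ᵥ x = ∑ p : K × K, x p.1 * (C p.1 p.2 * x p.2) := by
    simp only [dotProduct, mulVec, Finset.mul_sum]
    rw [Fintype.sum_prod_type]
  rw [e]
  refine Finset.sum_involution (fun p _ => p.swap) ?_ ?_ (fun _ _ => Finset.mem_univ _) (fun p _ => Prod.swap_swap p)
  · rintro ⟨a, b⟩ _
    simp only [Prod.fst_swap, Prod.snd_swap]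
    rw [h1 b a]
    ring
  · rintro ⟨a, b⟩ _ hne he
    have hab : a = b := by simpa using (congrArg Prod.snd he)
    subst hab
    simp [h0] at hne

/-- an alternating invertible matrix has even size -/
theorem even_of_alt {K : Type*} [Fintype K] [DecidableEq K] (C : Matrix K K F) (h0 : ∀ k, C k k = 0)
    (h1 : ∀ k l, C k l = - C l k) (hC : IsUnit C) : Even (Fintype.card K) := by
  have hdet : C.det ≠ 0 := ((Matrix.isUnit_iff_isUnit_det _).1 hC).ne_zero
  have := Cfsg.Agent.H29.even_finrank_of_nondegOn (ω := Matrix.toLinearMap₂' F C)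
    (fun v => by rw [Matrix.toLinearMap₂'_apply']; exact quad_alt C h0 h1 v) ⊤ (by
      intro u _ hu
      by_contra hcon
      push Not at hcon
      apply hu
      apply Matrix.eq_zero_of_vecMul_eq_zero hdet
      ext k
      have h2 := hcon (Pi.single k 1) Submodule.mem_top
      rw [Matrix.toLinearMap₂'_apply'] at h2
      rw [dotProduct_mulVec] at h2
      simpa using h2)
  rwa [finrank_top, Module.finrank_fintype_fun_eq_card] at this

/-! the Jordan matrix -/

variable {t : ℕ} (d : Fin t → ℕ)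

/-- the nilpotent part of the Jordan type matrix -/
noncomputable def NN (F : Type*) [Field F] : Matrix ((k : Fin t) × Fin (d k)) ((k : Fin t) × Fin (d k)) F :=
  Cfsg.jordanTypeMatrix d F - 1

theorem M_apply (k l : Fin t) (a : Fin (d k)) (b : Fin (d l)) :
    Cfsg.jordanTypeMatrix d F ⟨k, a⟩ ⟨l, b⟩ =
      if k = l then (if a.val = b.val then 1 else if a.val = b.val + 1 then 1 else 0) else 0 := by
  by_cases h : k = l
  · subst h
    simp [Cfsg.jordanTypeMatrix, Matrix.blockDiagonal'_apply, Cfsg.jordanBlock]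
  · simp [Cfsg.jordanTypeMatrix, Matrix.blockDiagonal'_apply, h]

theorem one_apply' (k l : Fin t) (a : Fin (d k)) (b : Fin (d l)) :
    (1 : Matrix ((k : Fin t) × Fin (d k)) ((k : Fin t) × Fin (d k)) F) ⟨k, a⟩ ⟨l, b⟩ =
      if k = l ∧ a.val = b.val then 1 else 0 := by
  rw [Matrix.one_apply]
  by_cases h : k = l
  · subst h
    simp [Fin.ext_iff]
  · simp [h]

theorem NN_apply (k l : Fin t) (a : Fin (d k)) (b : Fin (d l)) :
    NN d F ⟨k, a⟩ ⟨l, b⟩ = if k = l ∧ a.val = b.val + 1 then 1 else 0 := by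
  rw [NN, Matrix.sub_apply, M_apply, one_apply']
  by_cases h : k = l
  · subst h
    by_cases h1 : a.val = b.val
    · have : a.val ≠ b.val + 1 := by omega
      simp [h1]
    · by_cases h2 : a.val = b.val + 1 <;> simp [h1, h2]
  · simp [h]

theorem NN_mulVec (x : ((k : Fin t) × Fin (d k)) → F) (k : Fin t) (a : Fin (d k)) :
    (NN d F *ᵥ x) ⟨k, a⟩ = if h : 1 ≤ a.val then x ⟨k, ⟨a.val - 1, by have := a.2; omega⟩⟩ else 0 := by
  simp only [Matrix.mulVec, dotProduct]
  split_ifs with h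
  · rw [Finset.sum_eq_single (⟨k, ⟨a.val - 1, by have := a.2; omega⟩⟩ : (k : Fin t) × Fin (d k))]
    · rw [NN_apply, if_pos ⟨rfl, by simp only; omega⟩, one_mul]
    · rintro ⟨l, b⟩ _ hne
      rw [NN_apply, if_neg, zero_mul]
      rintro ⟨rfl, h2⟩
      apply hne
      congr 2
      apply Fin.ext
      simp only
      omega
    · simp
  · apply Finset.sum_eq_zero
    rintro ⟨l, b⟩ _
    rw [NN_apply, if_neg, zero_mul]
    rintro ⟨rfl, h2⟩
    omega

theorem NN_pow_mulVec (j : ℕ) (x : ((k : Fin t) × Fin (d k)) → F) (k : Fin t) (a : Fin (d k)) :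
    (NN d F ^ j *ᵥ x) ⟨k, a⟩ = if h : j ≤ a.val then x ⟨k, ⟨a.val - j, by have := a.2; omega⟩⟩ else 0 := by
  induction j generalizing x with
  | zero => simp
  | succ j ih =>
    rw [pow_succ_mulVec', ih, ]
    by_cases h1 : j ≤ a.val
    · rw [dif_pos h1, NN_mulVec]
      by_cases h2 : j + 1 ≤ a.val
      · rw [dif_pos h2, dif_pos (by simp only; omega)]
        congr 3
      · rw [dif_neg h2, dif_neg (by simp only; omega)]
    · rw [dif_neg h1, dif_neg (by omega)]

theorem NN_pow_card (x : ((k : Fin t) × Fin (d k)) → F) :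
    NN d F ^ (Fintype.card ((k : Fin t) × Fin (d k))) *ᵥ x = 0 := by
  ext ⟨k, a⟩
  rw [NN_pow_mulVec, dif_neg]
  · rfl
  have h1 : Fintype.card (Fin (d k)) ≤ Fintype.card ((k : Fin t) × Fin (d k)) :=
    Fintype.card_le_of_injective (fun b => (⟨k, b⟩ : (k : Fin t) × Fin (d k))) (fun b c h => by simpa using h)
  rw [Fintype.card_fin] at h1
  have := a.2
  omega

/-- standard vectors -/
noncomputable def ee (k : Fin t) (a : Fin (d k)) : ((k : Fin t) × Fin (d k)) → F := Pi.single ⟨k, a⟩ 1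

theorem ee_apply (k l : Fin t) (a : Fin (d k)) (b : Fin (d l)) :
    ee (F := F) d k a ⟨l, b⟩ = if k = l ∧ a.val = b.val then 1 else 0 := by
  rw [ee, Pi.single_apply]
  by_cases h : k = l
  · subst h
    simp [Fin.ext_iff, eq_comm]
  · have : (⟨l, b⟩ : (k : Fin t) × Fin (d k)) ≠ ⟨k, a⟩ := by
      intro e
      exact h (congrArg Sigma.fst e).symm
    simp [this, h]

theorem om_ee (S : Matrix ((k : Fin t) × Fin (d k)) ((k : Fin t) × Fin (d k)) F) (k : Fin t) (a : Fin (d k)) (y) :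
    om S (ee d k a) y = (S *ᵥ y) ⟨k, a⟩ := by
  simp [om, ee]

theorem om_ee_ee (S : Matrix ((k : Fin t) × Fin (d k)) ((k : Fin t) × Fin (d k)) F) (k l : Fin t) (a : Fin (d k)) (b : Fin (d l)) :
    om S (ee d k a) (ee d l b) = S ⟨k, a⟩ ⟨l, b⟩ := by
  rw [om_ee, ee]
  simp

theorem NN_pow_top (p : ℕ) (k : Fin t) (h0 : 0 < d k) (hp : p < d k) :
    NN d F ^ p *ᵥ ee d k ⟨0, h0⟩ = ee d k ⟨p, hp⟩ := by
  ext ⟨l, b⟩
  rw [NN_pow_mulVec]
  by_cases h1 : p ≤ b.val
  · rw [dif_pos h1, ee_apply, ee_apply]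
    have h2 : (0 = b.val - p) ↔ (p = b.val) := by omega
    simp [h2]
  · rw [dif_neg h1, ee_apply, if_neg]
    rintro ⟨_, h⟩
    simp only at h
    omega

theorem NN_pow_top_zero (k : Fin t) (h0 : 0 < d k) (p : ℕ) (hp : d k ≤ p) :
    NN d F ^ p *ᵥ ee d k ⟨0, h0⟩ = 0 := by
  ext ⟨l, b⟩
  rw [NN_pow_mulVec]
  by_cases h1 : p ≤ b.val
  · rw [dif_pos h1, ee_apply, if_neg]
    · rfl
    rintro ⟨rfl, h⟩
    have := b.2
    omega
  · rw [dif_neg h1]
    rfl

end Cfsg.Agent.H11.JT
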