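import Mathlib
import Cfsg.Agent.Lib.H11.JT1

/-! Jordan types of isometries: parity of multiplicities. -/

set_option autoImplicit false
set_option linter.unusedSectionVars false
set_option linter.unusedVariables false

namespace Cfsg.Agent.H11.JT

open Matrix Module

variable {F : Type*} [Field F] {t : ℕ} (d : Fin t → ℕ)

/-- The index type. -/
abbrev JI : Type := (k : Fin t) × Fin (d k)

/-- generators of blocks of size `j` -/
def topV {j : ℕ} (hj : 1 ≤ j) (k : {k // d k = j}) : JI d := ⟨k.1, ⟨0, by have := k.2; omega⟩⟩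

/-- last vectors of blocks of size `j` -/
def botV {j : ℕ} (hj : 1 ≤ j) (k : {k // d k = j}) : JI d := ⟨k.1, ⟨j - 1, by have := k.2; omega⟩⟩

theorem botV_inj {j : ℕ} (hj : 1 ≤ j) : Function.Injective (botV d hj) := by
  intro k l h
  apply Subtype.ext
  exact congrArg Sigma.fst h

theorem hinv_of (S : Matrix (JI d) (JI d) F)
    (hM : ∀ x y, om S (Cfsg.jordanTypeMatrix d F *ᵥ x) (Cfsg.jordanTypeMatrix d F *ᵥ y) = om S x y) :
    ∀ x y, om S (NN d F *ᵥ x) y + om S x (NN d F *ᵥ y) + om S (NN d F *ᵥ x) (NN d F *ᵥ y) = 0 := by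
  intro x y
  have h1 : ∀ z, Cfsg.jordanTypeMatrix d F *ᵥ z = z + NN d F *ᵥ z := by
    intro z
    rw [NN, Matrix.sub_mulVec, Matrix.one_mulVec]
    abel
  have h2 := hM x y
  rw [h1, h1, om_add_left, om_add_right, om_add_right] at h2
  linear_combination h2

theorem C_inj (S : Matrix (JI d) (JI d) F) (hS : IsUnit S)
    (hM : ∀ x y, om S (Cfsg.jordanTypeMatrix d F *ᵥ x) (Cfsg.jordanTypeMatrix d F *ᵥ y) = om S x y)
    (j : ℕ) (hj : 1 ≤ j) (c : {k // d k = j} → F)
    (hc : ∀ k : {k // d k = j}, ∑ l : {k // d k = j}, S (topV d hj k) (botV d hj l) * c l = 0) : c = 0 := by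
  classical
  have hinv := hinv_of d S hM
  have hdet : IsUnit S.det := (Matrix.isUnit_iff_isUnit_det _).1 hS
  haveI : Invertible S.det := hdet.invertible
  have hnd : ∀ v : JI d → F, (∀ y, om S v y = 0) → v = 0 := by
    intro v hv
    apply Matrix.eq_zero_of_vecMul_eq_zero hdet.ne_zero
    ext i
    have := hv (Pi.single i 1)
    rw [om, dotProduct_mulVec] at this
    simpa using this
  -- the vectors
  let w' : JI d → F := fun y => if h : d y.1 = j then (if y.2.val = 0 then c ⟨y.1, h⟩ else 0) else 0
  let w : JI d → F := fun y => if h : d y.1 = j then (if y.2.val = j - 1 then c ⟨y.1, h⟩ else 0) else 0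
  have hww : NN d F ^ (j - 1) *ᵥ w' = w := by
    ext ⟨k, a⟩
    rw [NN_pow_mulVec]
    by_cases hk : d k = j
    · have ha := a.2
      simp only [w, w', hk, dif_pos]
      by_cases h1 : j - 1 ≤ a.val
      · have h2 : a.val = j - 1 := by omega
        rw [dif_pos h1]
        simp [h2]
      · have h2 : a.val ≠ j - 1 := by omega
        rw [dif_neg h1, if_neg h2]
    · simp only [w, w', hk, dif_neg, not_false_iff]
      split_ifs <;> rfl
  have hNw : NN d F *ᵥ w = 0 := by
    ext ⟨k, a⟩
    rw [NN_mulVec]
    by_cases h1 : 1 ≤ a.val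
    · rw [dif_pos h1]
      simp only [w]
      by_cases hk : d k = j
      · rw [dif_pos hk, if_neg]
        · rfl
        have := a.2
        show ¬ (a.val - 1 = j - 1)
        omega
      · rw [dif_neg hk]
        rfl
    · rw [dif_neg h1]
      rfl
  have hsumw : ∀ x : JI d, (S *ᵥ w) x = ∑ l : {k // d k = j}, S x (botV d hj l) * c l := by
    intro x
    simp only [Matrix.mulVec, dotProduct]
    symm
    refine Fintype.sum_of_injective (botV d hj) (botV_inj d hj) _ _ ?_ ?_
    · rintro ⟨k, a⟩ hx
      simp only [w]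
      by_cases hk : d k = j
      · rw [dif_pos hk, if_neg, mul_zero]
        intro ha
        apply hx
        refine ⟨⟨k, hk⟩, ?_⟩
        simp only [botV]
        congr 1
        apply Fin.ext
        exact ha.symm
      · rw [dif_neg hk, mul_zero]
    · intro l
      simp only [w, botV]
      rw [dif_pos l.2]
      simp
  -- vanishing on the kernel of the power
  have htest : ∀ (k : Fin t) (a : Fin (d k)), d k ≤ a.val + j → (S *ᵥ w) ⟨k, a⟩ = 0 := by
    intro k a hka
    by_cases hlt : d k < a.val + j
    · have h1 : NN d F ^ (j - 1) *ᵥ ee d k a = 0 := by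
        ext ⟨l, b⟩
        rw [NN_pow_mulVec]
        by_cases h2 : j - 1 ≤ b.val
        · rw [dif_pos h2, ee_apply, if_neg]
          · rfl
          rintro ⟨rfl, h3⟩
          simp only at h3
          have := b.2
          omega
        · rw [dif_neg h2]
          rfl
      have := om_ker hinv (j - 1) _ h1 w'
      rw [hww, om_ee] at this
      exact this
    · by_cases ha : a.val = 0
      · have hk : d k = j := by omega
        have h2 := hc ⟨k, hk⟩
        rw [hsumw]
        have h3 : (⟨k, a⟩ : JI d) = topV d hj ⟨k, hk⟩ := by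
          simp only [topV]
          congr 1
          apply Fin.ext
          exact ha
        rw [h3]
        exact h2
      · -- the vector is in the image of the nilpotent part
        have h1 : ee (F := F) d k a = NN d F *ᵥ ee d k ⟨a.val - 1, by have := a.2; omega⟩ := by
          ext ⟨l, b⟩
          rw [NN_mulVec, ee_apply]
          by_cases h2 : 1 ≤ b.val
          · rw [dif_pos h2, ee_apply]
            have h3 : (a.val - 1 = b.val - 1) ↔ (a.val = b.val) := by omega
            simp [h3]
          · rw [dif_neg h2, if_neg]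
            rintro ⟨_, h3⟩
            omega
        have h4 := hinv (ee d k ⟨a.val - 1, by have := a.2; omega⟩) w
        rw [← h1, hNw, om_zero_right, om_zero_right, add_zero, add_zero, om_ee] at h4
        exact h4
  -- conclusion
  funext l
  have hl := l.2
  let τ : JI d → F := (Pi.single (botV d hj l) 1) ᵥ* S⁻¹
  have hτ : ∀ y, om S τ y = y (botV d hj l) := by
    intro y
    rw [om, dotProduct_mulVec, vecMul_vecMul, Matrix.nonsing_inv_mul _ hdet, vecMul_one]
    simp
  have h1 : NN d F ^ j *ᵥ τ = 0 := by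
    apply ker_of_orth hinv _ (NN_pow_card d) hnd
    intro y
    rw [hτ]
    simp only [botV]
    rw [NN_pow_mulVec, dif_neg]
    simp only
    omega
  have h2 : ∀ (k : Fin t) (a : Fin (d k)), a.val + j < d k → τ ⟨k, a⟩ = 0 := by
    intro k a ha
    have := congrFun h1 ⟨k, ⟨a.val + j, ha⟩⟩
    rw [NN_pow_mulVec, dif_pos (by simp only; omega)] at this
    simpa using this
  have h3 : om S τ w = 0 := by
    rw [om, dotProduct]
    apply Finset.sum_eq_zero
    rintro ⟨k, a⟩ _
    by_cases h4 : a.val + j < d k
    · rw [h2 k a h4, zero_mul]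
    · rw [htest k a (by omega), mul_zero]
  rw [hτ] at h3
  simp only [w, botV] at h3
  rw [dif_pos l.2] at h3
  simpa using h3

theorem even_core (S : Matrix (JI d) (JI d) F) (hS : IsUnit S)
    (hM : ∀ x y, om S (Cfsg.jordanTypeMatrix d F *ᵥ x) (Cfsg.jordanTypeMatrix d F *ᵥ y) = om S x y)
    (j : ℕ) (hj : 1 ≤ j)
    (h0 : ∀ k : {k // d k = j}, S (topV d hj k) (botV d hj k) = 0)
    (h1 : ∀ k l : {k // d k = j}, S (topV d hj k) (botV d hj l) = - S (topV d hj l) (botV d hj k)) :
    Even (Finset.univ.filter (fun k : Fin t => d k = j)).card := by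
  classical
  let C : Matrix {k // d k = j} {k // d k = j} F := Matrix.of fun k l => S (topV d hj k) (botV d hj l)
  have hC : IsUnit C := by
    rw [← Matrix.mulVec_injective_iff_isUnit]
    intro x y hxy
    have h2 := C_inj d S hS hM j hj (x - y) (by
      intro k
      have := congrFun hxy k
      simp only [Matrix.mulVec, dotProduct, C, Matrix.of_apply] at this
      simp only [Pi.sub_apply, mul_sub, Finset.sum_sub_distrib]
      rw [this, sub_self])
    exact sub_eq_zero.1 h2
  have := even_of_alt C h0 h1 hC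
  rwa [Fintype.card_subtype] at this

/-- values of the form on blocks -/
theorem bot_top (S : Matrix (JI d) (JI d) F)
    (hM : ∀ x y, om S (Cfsg.jordanTypeMatrix d F *ᵥ x) (Cfsg.jordanTypeMatrix d F *ᵥ y) = om S x y)
    (j : ℕ) (hj : 1 ≤ j) (k l : {k // d k = j}) :
    S (botV d hj k) (topV d hj l) = (-1) ^ (j - 1) * S (topV d hj k) (botV d hj l) := by
  have hinv := hinv_of d S hM
  have hk := k.2
  have hl := l.2
  have h1 := om_level hinv j (ee d k.1 ⟨0, by omega⟩) (NN_pow_top_zero (F := F) d k.1 (by omega) j (by omega)) (ee d l.1 ⟨0, by omega⟩) (j - 1) 0 (by omega)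
  rw [pow_zero, one_mulVec, add_zero, NN_pow_top (F := F) d _ _ (by omega) (by omega),
    NN_pow_top (F := F) d _ _ (by omega) (by omega), om_ee_ee, om_ee_ee] at h1
  exact h1

/-- case of alternating forms and odd block sizes -/
theorem even_of_alt_odd (S : Matrix (JI d) (JI d) F) (hS : IsUnit S)
    (hM : ∀ x y, om S (Cfsg.jordanTypeMatrix d F *ᵥ x) (Cfsg.jordanTypeMatrix d F *ᵥ y) = om S x y)
    (hs0 : ∀ x, S x x = 0) (hs1 : ∀ x y, S x y = - S y x) (j : ℕ) (hj : Odd j) :
    Even (Finset.univ.filter (fun k : Fin t => d k = j)).card := by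
  have hj1 : 1 ≤ j := hj.pos
  obtain ⟨i, hi⟩ := hj
  have hinv := hinv_of d S hM
  refine even_core d S hS hM j hj1 ?_ ?_
  · intro k
    have hk := k.2
    have h1 := om_level hinv j (ee d k.1 ⟨0, by omega⟩) (NN_pow_top_zero (F := F) d k.1 (by omega) j (by omega)) (ee d k.1 ⟨0, by omega⟩) i i (by omega)
    rw [quad_alt S hs0 hs1 _ |> fun h => (show om S _ _ = 0 from h)] at h1
    rw [show i + i = j - 1 by omega, NN_pow_top (F := F) d _ _ (by omega) (by omega), om_ee_ee] at h1
    have h2 : ((-1 : F) ^ i) ≠ 0 := pow_ne_zero _ (by simp)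
    exact (mul_eq_zero.1 h1.symm).resolve_left h2
  · intro k l
    have h1 := bot_top d S hM j hj1 l k
    rw [hs1] at h1
    rw [show j - 1 = 2 * i by omega, pow_mul] at h1
    simp only [even_two, Even.neg_pow, one_pow, one_mul] at h1
    rw [← h1]
    ring

/-- case of symmetric forms and even block sizes -/
theorem even_of_sym_even (S : Matrix (JI d) (JI d) F) (hS : IsUnit S)
    (hM : ∀ x y, om S (Cfsg.jordanTypeMatrix d F *ᵥ x) (Cfsg.jordanTypeMatrix d F *ᵥ y) = om S x y)
    (h2 : (2 : F) ≠ 0) (hs : ∀ x y, S x y = S y x) (j : ℕ) (hj : Even j) (hj1 : 1 ≤ j) :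
    Even (Finset.univ.filter (fun k : Fin t => d k = j)).card := by
  have key : ∀ k l : {k // d k = j}, S (topV d hj1 k) (botV d hj1 l) = - S (topV d hj1 l) (botV d hj1 k) := by
    intro k l
    have h1 := bot_top d S hM j hj1 l k
    have hodd : Odd (j - 1) := by
      obtain ⟨i, hi⟩ := hj
      exact ⟨i - 1, by omega⟩
    rw [hodd.neg_pow, one_pow] at h1
    rw [hs] at h1
    rw [h1]
    ring
  refine even_core d S hS hM j hj1 ?_ key
  intro k
  have h1 := key k k
  have h3 : (2 : F) * S (topV d hj1 k) (botV d hj1 k) = 0 := by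
    linear_combination h1
  exact (mul_eq_zero.1 h3).resolve_left h2

end Cfsg.Agent.H11.JT
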