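import Mathlib
import Cfsg.Agent.Lib.H11.JT2

/-! Jordan types: building block sums by induction on the number of blocks. -/

set_option autoImplicit false
set_option linter.unusedSectionVars false
set_option linter.unusedVariables false

namespace Cfsg.Agent.H11.JT

open Matrix Module

variable {F : Type*} [Field F]

/-- Jordan type matrix over an arbitrary index type. -/
def JMat {ι : Type} [DecidableEq ι] (d : ι → ℕ) (F : Type*) [Field F] :
    Matrix ((i : ι) × Fin (d i)) ((i : ι) × Fin (d i)) F :=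
  Matrix.of fun x y => if x.1 = y.1 then (if x.2.val = y.2.val then 1 else if x.2.val = y.2.val + 1 then 1 else 0) else 0

theorem jordanTypeMatrix_eq {t : ℕ} (d : Fin t → ℕ) : Cfsg.jordanTypeMatrix d F = JMat d F := by
  ext ⟨k, a⟩ ⟨l, b⟩
  rw [M_apply]
  rfl

theorem reindex_eq {A B : Type*} [DecidableEq A] [DecidableEq B] (E : A ≃ B) (X : Matrix A A F) (Y : Matrix B B F)
    (h : ∀ x y, X x y = Y (E x) (E y)) : Matrix.reindex E E X = Y := by
  ext x y
  rw [Matrix.reindex_apply, Matrix.submatrix_apply, h]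
  simp

section remove

variable {ι : Type} [DecidableEq ι] (d : ι → ℕ)

/-- inclusion of remaining blocks and two removed ones -/
def G₂ (i₀ i₁ : ι) : ((i : {i // i ≠ i₀ ∧ i ≠ i₁}) × Fin (d i.1)) ⊕ (Fin (d i₁) ⊕ Fin (d i₀)) → (i : ι) × Fin (d i)
  | Sum.inl x => ⟨x.1.1, x.2⟩
  | Sum.inr (Sum.inl a) => ⟨i₁, a⟩
  | Sum.inr (Sum.inr a) => ⟨i₀, a⟩

theorem G₂_bij (i₀ i₁ : ι) (h : i₁ ≠ i₀) : Function.Bijective (G₂ d i₀ i₁) := by
  constructor
  · rintro (⟨⟨i, hi⟩, a⟩ | a | a) (⟨⟨i', hi'⟩, a'⟩ | a' | a') e <;> simp only [G₂, Sigma.mk.injEq] at e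
    · obtain ⟨rfl, e2⟩ := e
      simp only [heq_eq_eq] at e2
      subst e2
      rfl
    · exact absurd e.1 hi.2
    · exact absurd e.1 hi.1
    · exact absurd e.1.symm hi'.2
    · have e2 := e.2
      simp only [heq_eq_eq] at e2
      subst e2
      rfl
    · exact absurd e.1 h
    · exact absurd e.1.symm hi'.1
    · exact absurd e.1.symm h
    · have e2 := e.2
      simp only [heq_eq_eq] at e2
      subst e2
      rfl
  · rintro ⟨i, a⟩
    by_cases h0 : i = i₀
    · subst h0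
      exact ⟨Sum.inr (Sum.inr a), rfl⟩
    by_cases h1 : i = i₁
    · subst h1
      exact ⟨Sum.inr (Sum.inl a), rfl⟩
    exact ⟨Sum.inl ⟨⟨i, h0, h1⟩, a⟩, rfl⟩

/-- inclusion of remaining blocks and one removed -/
def G₁ (i₀ : ι) : ((i : {i // i ≠ i₀}) × Fin (d i.1)) ⊕ Fin (d i₀) → (i : ι) × Fin (d i)
  | Sum.inl x => ⟨x.1.1, x.2⟩
  | Sum.inr a => ⟨i₀, a⟩

theorem G₁_bij (i₀ : ι) : Function.Bijective (G₁ d i₀) := by
  constructor
  · rintro (⟨⟨i, hi⟩, a⟩ | a) (⟨⟨i', hi'⟩, a'⟩ | a') e <;> simp only [G₁, Sigma.mk.injEq] at e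
    · obtain ⟨rfl, e2⟩ := e
      simp only [heq_eq_eq] at e2
      subst e2
      rfl
    · exact absurd e.1 hi
    · exact absurd e.1.symm hi'
    · have e2 := e.2
      simp only [heq_eq_eq] at e2
      subst e2
      rfl
  · rintro ⟨i, a⟩
    by_cases h0 : i = i₀
    · subst h0
      exact ⟨Sum.inr a, rfl⟩
    exact ⟨Sum.inl ⟨⟨i, h0⟩, a⟩, rfl⟩

theorem block_G₁ (i₀ : ι) :
    Matrix.reindex (Equiv.ofBijective _ (G₁_bij d i₀)) (Equiv.ofBijective _ (G₁_bij d i₀))
      (Matrix.fromBlocks (JMat (fun i : {i // i ≠ i₀} => d i.1) F) 0 0 (Cfsg.jordanBlock (d i₀) F)) = JMat d F := by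
  apply reindex_eq
  rintro (⟨⟨i, hi⟩, a⟩ | a) (⟨⟨i', hi'⟩, b⟩ | b)
  · simp [G₁, JMat, Subtype.ext_iff]
  · simp [G₁, JMat, hi]
  · simp [G₁, JMat, Ne.symm hi']
  · simp [G₁, JMat, Cfsg.jordanBlock]

theorem block_G₂ (i₀ i₁ : ι) (h : i₁ ≠ i₀) :
    Matrix.reindex (Equiv.ofBijective _ (G₂_bij d i₀ i₁ h)) (Equiv.ofBijective _ (G₂_bij d i₀ i₁ h))
      (Matrix.fromBlocks (JMat (fun i : {i // i ≠ i₀ ∧ i ≠ i₁} => d i.1) F) 0 0
        (Matrix.fromBlocks (Cfsg.jordanBlock (d i₁) F) 0 0 (Cfsg.jordanBlock (d i₀) F))) = JMat d F := by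
  apply reindex_eq
  rintro (⟨⟨i, hi⟩, a⟩ | a | a) (⟨⟨i', hi'⟩, b⟩ | b | b)
  · simp [G₂, JMat, Subtype.ext_iff]
  · simp [G₂, JMat, hi.2]
  · simp [G₂, JMat, hi.1]
  · simp [G₂, JMat, Ne.symm hi'.2]
  · simp [G₂, JMat, Cfsg.jordanBlock]
  · simp [G₂, JMat, h]
  · simp [G₂, JMat, Ne.symm hi'.1]
  · simp [G₂, JMat, Ne.symm h]
  · simp [G₂, JMat, Cfsg.jordanBlock]

end remove

/-- closure properties -/
structure Cl (F : Type*) [Field F] (R : ∀ (I : Type) [Fintype I] [DecidableEq I], Matrix I I F → Prop) (P : ℕ → Prop) : Prop where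
  empty : ∀ (I : Type) [Fintype I] [DecidableEq I] [IsEmpty I] (M : Matrix I I F), R I M
  sum : ∀ (I₁ I₂ : Type) [Fintype I₁] [DecidableEq I₁] [Fintype I₂] [DecidableEq I₂] (M₁ : Matrix I₁ I₁ F)
    (M₂ : Matrix I₂ I₂ F), R I₁ M₁ → R I₂ M₂ → R (I₁ ⊕ I₂) (Matrix.fromBlocks M₁ 0 0 M₂)
  re : ∀ (I I' : Type) [Fintype I] [DecidableEq I] [Fintype I'] [DecidableEq I'] (e : I ≃ I') (M : Matrix I I F),
    R I M → R I' (Matrix.reindex e e M)
  single : ∀ j : ℕ, 1 ≤ j → ¬ P j → R (Fin j) (Cfsg.jordanBlock j F)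
  pair : ∀ j : ℕ, 1 ≤ j → P j → R (Fin j ⊕ Fin j) (Matrix.fromBlocks (Cfsg.jordanBlock j F) 0 0 (Cfsg.jordanBlock j F))

theorem card_filter_subtype {ι : Type} [Fintype ι] (p q : ι → Prop) [DecidablePred p] [DecidablePred q] :
    (Finset.univ.filter fun i : {i // p i} => q i.1).card = (Finset.univ.filter fun i => p i ∧ q i).card := by
  rw [← Finset.card_map (Function.Embedding.subtype p)]
  congr 1
  ext i
  simp [and_comm]

theorem build {R : ∀ (I : Type) [Fintype I] [DecidableEq I], Matrix I I F → Prop} {P : ℕ → Prop}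
    (hcl : Cl F R P) : ∀ (n : ℕ) (ι : Type) [Fintype ι] [DecidableEq ι] (d : ι → ℕ), Fintype.card ι = n → (∀ i, 1 ≤ d i) →
      (∀ j, P j → Even (Finset.univ.filter (fun k : ι => d k = j)).card) → R _ (JMat d F) := by
  classical
  intro n
  induction n using Nat.strong_induction_on with
  | _ n ih =>
    intro ι _ _ d hn hd hev
    by_cases hemp : IsEmpty ι
    · haveI : IsEmpty ((i : ι) × Fin (d i)) := ⟨fun x => hemp.elim x.1⟩
      exact hcl.empty _ _
    obtain ⟨i₀⟩ := not_isEmpty_iff.1 hemp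
    by_cases hP : P (d i₀)
    · have h1 := hev _ hP
      have hmem : i₀ ∈ Finset.univ.filter (fun k : ι => d k = d i₀) := by simp
      have hcard : 1 < (Finset.univ.filter (fun k : ι => d k = d i₀)).card := by
        have h2 : 0 < (Finset.univ.filter (fun k : ι => d k = d i₀)).card := Finset.card_pos.2 ⟨_, hmem⟩
        obtain ⟨m, hm⟩ := h1
        omega
      obtain ⟨i₁, hi₁, hne⟩ := Finset.exists_mem_ne hcard i₀
      have hdi₁ : d i₁ = d i₀ := by simpa using hi₁
      have hlt : Fintype.card {i // i ≠ i₀ ∧ i ≠ i₁} < n := by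
        rw [← hn]
        exact Fintype.card_subtype_lt (x := i₀) (by simp)
      have hsub := ih _ hlt {i // i ≠ i₀ ∧ i ≠ i₁} (fun i => d i.1) rfl (fun i => hd _) (by
        intro j hj
        rw [card_filter_subtype (fun i => i ≠ i₀ ∧ i ≠ i₁) (fun i => d i = j)]
        by_cases hjd : j = d i₀
        · subst hjd
          have h3 : (Finset.univ.filter fun i => (i ≠ i₀ ∧ i ≠ i₁) ∧ d i = d i₀) =
              ((Finset.univ.filter (fun k : ι => d k = d i₀)).erase i₀).erase i₁ := by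
            ext i
            simp only [Finset.mem_filter, Finset.mem_univ, true_and, Finset.mem_erase]
            tauto
          rw [h3, Finset.card_erase_of_mem (by simp [hne, hdi₁]), Finset.card_erase_of_mem hmem]
          obtain ⟨m, hm⟩ := h1
          exact ⟨m - 1, by omega⟩
        · have h3 : (Finset.univ.filter fun i => (i ≠ i₀ ∧ i ≠ i₁) ∧ d i = j) =
              Finset.univ.filter (fun k : ι => d k = j) := by
            ext i
            simp only [Finset.mem_filter, Finset.mem_univ, true_and, and_iff_right_iff_imp]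
            rintro rfl
            constructor
            · rintro rfl
              exact hjd rfl
            · rintro rfl
              exact hjd hdi₁
          rw [h3]
          exact hev j hj)
      have hpair : R (Fin (d i₁) ⊕ Fin (d i₀)) (Matrix.fromBlocks (Cfsg.jordanBlock (d i₁) F) 0 0 (Cfsg.jordanBlock (d i₀) F)) := by
        have key : ∀ a b : ℕ, a = b → 1 ≤ b → P b → R (Fin a ⊕ Fin b) (Matrix.fromBlocks (Cfsg.jordanBlock a F) 0 0 (Cfsg.jordanBlock b F)) := by
          rintro a b rfl h1 h2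
          exact hcl.pair a h1 h2
        exact key _ _ hdi₁ (hd _) hP
      rw [← block_G₂ d i₀ i₁ hne]
      exact hcl.re _ _ _ _ (hcl.sum _ _ _ _ hsub hpair)
    · have hlt : Fintype.card {i // i ≠ i₀} < n := by
        rw [← hn]
        exact Fintype.card_subtype_lt (x := i₀) (by simp)
      have hsub := ih _ hlt {i // i ≠ i₀} (fun i => d i.1) rfl (fun i => hd _) (by
        intro j hj
        rw [card_filter_subtype (fun i => i ≠ i₀) (fun i => d i = j)]
        have h3 : (Finset.univ.filter fun i => i ≠ i₀ ∧ d i = j) =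
            Finset.univ.filter (fun k : ι => d k = j) := by
          ext i
          simp only [Finset.mem_filter, Finset.mem_univ, true_and, and_iff_right_iff_imp]
          rintro rfl rfl
          exact hP hj
        rw [h3]
        exact hev j hj)
      rw [← block_G₁ d i₀]
      exact hcl.re _ _ _ _ (hcl.sum _ _ _ _ hsub (hcl.single _ (hd _) hP))

end Cfsg.Agent.H11.JT
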