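import Mathlib
import Cfsg.Agent.Lib.H11.JT3
import Cfsg.Agent.Lib.H11.RegUnip3

/-! Jordan types: invariant forms on a single block. -/

set_option autoImplicit false
set_option linter.unusedSectionVars false
set_option linter.unusedVariables false

namespace Cfsg.Agent.H11.JT

open Matrix Module Cfsg.Agent.H11

variable {F : Type*} [Field F]

theorem om_of_mat {I : Type*} [Fintype I] [DecidableEq I] {S M : Matrix I I F} (h : Mᵀ * S * M = S) (x y : I → F) :
    om S (M *ᵥ x) (M *ᵥ y) = om S x y := by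
  conv_rhs => rw [om, ← h]
  rw [om, ← mulVec_mulVec, ← mulVec_mulVec, dotProduct_mulVec x Mᵀ, vecMul_transpose]

theorem hinv_gen {I : Type*} [Fintype I] [DecidableEq I] {S M N : Matrix I I F} (hMN : M = 1 + N)
    (hM : ∀ x y, om S (M *ᵥ x) (M *ᵥ y) = om S x y) :
    ∀ x y, om S (N *ᵥ x) y + om S x (N *ᵥ y) + om S (N *ᵥ x) (N *ᵥ y) = 0 := by
  intro x y
  have h1 : ∀ z, M *ᵥ z = z + N *ᵥ z := by
    intro z
    rw [hMN, Matrix.add_mulVec, Matrix.one_mulVec]
  have h2 := hM x y
  rw [h1, h1, om_add_left, om_add_right, om_add_right] at h2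
  linear_combination h2

theorem jordanBlock_eq (j : ℕ) : Cfsg.jordanBlock j F = 1 + (shiftM j F)ᵀ := by
  ext a b
  simp only [Cfsg.jordanBlock, Matrix.of_apply, Matrix.add_apply, Matrix.one_apply, Matrix.transpose_apply, shiftM, Fin.ext_iff]
  by_cases h1 : a.val = b.val
  · have : a.val ≠ b.val + 1 := by omega
    simp [h1]
  · by_cases h2 : a.val = b.val + 1 <;> simp [h1, h2]

theorem Lt_mulVec {j : ℕ} (x : Fin j → F) (i : Fin j) :
    ((shiftM j F)ᵀ *ᵥ x) i = if h : 1 ≤ i.val then x ⟨i.val - 1, by have := i.2; omega⟩ else 0 := by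
  simp only [Matrix.mulVec, dotProduct, shiftM, Matrix.transpose_apply, Matrix.of_apply]
  split_ifs with h
  · rw [Finset.sum_eq_single (⟨i.val - 1, by have := i.2; omega⟩ : Fin j)]
    · rw [if_pos (by simp only; omega), one_mul]
    · intro b _ hb
      rw [if_neg, zero_mul]
      intro h2
      apply hb
      apply Fin.ext
      simp only
      omega
    · simp
  · apply Finset.sum_eq_zero
    intro b _
    rw [if_neg, zero_mul]
    omega

theorem Lt_pow_mulVec {j : ℕ} (p : ℕ) (x : Fin j → F) (i : Fin j) :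
    (((shiftM j F)ᵀ) ^ p *ᵥ x) i = if h : p ≤ i.val then x ⟨i.val - p, by have := i.2; omega⟩ else 0 := by
  induction p generalizing x with
  | zero => simp
  | succ p ih =>
    rw [pow_succ_mulVec', ih]
    by_cases h1 : p ≤ i.val
    · rw [dif_pos h1, Lt_mulVec]
      by_cases h2 : p + 1 ≤ i.val
      · rw [dif_pos h2, dif_pos (by simp only; omega)]
        congr 2
      · rw [dif_neg h2, dif_neg (by simp only; omega)]
    · rw [dif_neg h1, dif_neg (by omega)]

theorem rank_of_ker {ι : Type*} [Fintype ι] [DecidableEq ι] (N : Matrix ι ι F)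
    (hnil : N ^ Fintype.card ι = 0) (i₀ : ι) (h : ∀ v, N *ᵥ v = 0 → v i₀ = 0 → v = 0) :
    N.rank = Fintype.card ι - 1 := by
  have hker : finrank F (LinearMap.ker N.mulVecLin) ≤ 1 := by
    let f : LinearMap.ker N.mulVecLin →ₗ[F] F := (LinearMap.proj i₀) ∘ₗ (LinearMap.ker N.mulVecLin).subtype
    have hf : Function.Injective f := by
      rw [← LinearMap.ker_eq_bot, LinearMap.ker_eq_bot']
      intro a ha
      apply Subtype.ext
      exact h a.1 (LinearMap.mem_ker.1 a.2) ha
    have := LinearMap.finrank_le_finrank_of_injective hf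
    simpa using this
  have hn : 1 ≤ Fintype.card ι := Fintype.card_pos_iff.2 ⟨i₀⟩
  have h1 := LinearMap.finrank_range_add_finrank_ker N.mulVecLin
  have h2 : finrank F (LinearMap.ker N.mulVecLin) = 1 := by
    have := finrank_ker_pow (n := Fintype.card ι) (T := (N.mulVecLin : Module.End F (ι → F))) (by simp) (by
      rw [← mulVecLin_pow', hnil]
      ext x
      simp) hker (j := 1) (by omega)
    rw [pow_one] at this
    exact this
  rw [finrank_fintype_fun_eq_card, h2] at h1
  have h3 : finrank F (LinearMap.range N.mulVecLin) = N.rank := rfl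
  omega

/-- a form invariant under a single block -/
theorem exist_X (j : ℕ) (hj : 1 ≤ j) : ∃ X : Matrix (Fin j) (Fin j) F, IsUnit X ∧
    (Cfsg.jordanBlock j F)ᵀ * X * Cfsg.jordanBlock j F = X := by
  set S := shiftM j F with hS
  have hnil : S ^ j = 0 := shiftM_pow_card
  have hU : IsUnit (1 + S) := IsNilpotent.isUnit_one_add ⟨j, hnil⟩
  obtain ⟨Gu, hGu⟩ := hU
  let G : Matrix (Fin j) (Fin j) F := (Gu⁻¹ : (Matrix (Fin j) (Fin j) F)ˣ)
  have hG1 : G * (1 + S) = 1 := by rw [← hGu]; exact Gu.inv_mul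
  have hG2 : (1 + S) * G = 1 := by rw [← hGu]; exact Gu.mul_inv
  have hcomm : Commute G S := by
    show G * S = S * G
    have h1 : G * S = 1 - G := by
      rw [mul_add, mul_one] at hG1
      rw [← hG1]
      abel
    have h2 : S * G = 1 - G := by
      rw [add_mul, one_mul] at hG2
      rw [← hG2]
      abel
    rw [h1, h2]
  have hN : G - 1 = (-G) * S := by
    rw [mul_add, mul_one] at hG1
    rw [neg_mul, ← hG1]
    abel
  have hGunit : IsUnit (-G).det := by
    rw [← Matrix.isUnit_iff_isUnit_det]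
    exact ⟨-Gu⁻¹, rfl⟩
  obtain ⟨P, hP⟩ := regular_similar (F := F) (ι := Fin j) (N := Sᵀ) (N' := G - 1) (by simpa using hj)
    (by rw [Fintype.card_fin, ← Matrix.transpose_pow, hnil, Matrix.transpose_zero])
    (by rw [Fintype.card_fin, Matrix.rank_transpose, hS, shiftM_rank])
    (by
      rw [Fintype.card_fin, hN, (hcomm.neg_left).mul_pow, hnil, mul_zero])
    (by
      rw [hN, Fintype.card_fin, Matrix.rank_mul_eq_right_of_isUnit_det _ _ hGunit, hS, shiftM_rank])
  refine ⟨P.1, P.isUnit, ?_⟩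
  rw [jordanBlock_eq, Matrix.transpose_add, Matrix.transpose_one, Matrix.transpose_transpose]
  have h1 : (P : Matrix (Fin j) (Fin j) F) * (1 + Sᵀ) = G * P := by
    rw [mul_add, mul_one, hP, sub_mul, one_mul]
    abel
  rw [Matrix.mul_assoc, h1, ← Matrix.mul_assoc, hG2, Matrix.one_mul]

end Cfsg.Agent.H11.JT
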