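import Mathlib
import Cfsg.Agent.Lib.H11.JT4

/-! Jordan types: alternating and symmetric invariant forms on a single block. -/

set_option autoImplicit false
set_option linter.unusedSectionVars false
set_option linter.unusedVariables false

namespace Cfsg.Agent.H11.JT

open Matrix Module Cfsg.Agent.H11

variable {F : Type*} [Field F]

theorem block_pow {A B : Type*} [Fintype A] [DecidableEq A] [Fintype B] [DecidableEq B]
    (a : Matrix A A F) (b : Matrix A B F) (c : Matrix B B F) (n : ℕ) :
    ∃ Z, (Matrix.fromBlocks a b 0 c) ^ n = Matrix.fromBlocks (a ^ n) Z 0 (c ^ n) := by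
  induction n with
  | zero =>
    exact ⟨0, by simp [Matrix.fromBlocks_one]⟩
  | succ n ih =>
    obtain ⟨Z, hZ⟩ := ih
    refine ⟨a ^ n * b + Z * c, ?_⟩
    rw [pow_succ, hZ, Matrix.fromBlocks_multiply]
    simp [pow_succ]

theorem submatrix_pow_equiv {A B : Type*} [Fintype A] [DecidableEq A] [Fintype B] [DecidableEq B]
    (e : B ≃ A) (N : Matrix A A F) (n : ℕ) : (N.submatrix e e) ^ n = (N ^ n).submatrix e e := by
  induction n with
  | zero => simp
  | succ n ih => rw [pow_succ, ih, pow_succ, Matrix.submatrix_mul_equiv]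

/-- transport of alternating forms along an invertible matrix -/
theorem alt_transport {I : Type*} [Fintype I] [DecidableEq I] (Ω P : Matrix I I F)
    (h0 : ∀ i, Ω i i = 0) (h1 : ∀ i j, Ω i j = - Ω j i) (i j : I) :
    (Pᵀ * Ω * P) i i = 0 ∧ (Pᵀ * Ω * P) i j = - (Pᵀ * Ω * P) j i := by
  have key : ∀ a b, (Pᵀ * Ω * P) a b = (fun c => P c a) ⬝ᵥ Ω *ᵥ (fun c => P c b) := by
    intro a b
    rw [Matrix.mul_assoc, Matrix.mul_apply]
    simp only [Matrix.transpose_apply, dotProduct, Matrix.mul_apply, Matrix.mulVec]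
  constructor
  · rw [key]
    exact quad_alt Ω h0 h1 _
  · have h3 := quad_alt Ω h0 h1 ((fun c => P c i) + (fun c => P c j))
    have h4 := quad_alt Ω h0 h1 (fun c => P c i)
    have h5 := quad_alt Ω h0 h1 (fun c => P c j)
    change om Ω _ _ = 0 at h3
    change om Ω _ _ = 0 at h4
    change om Ω _ _ = 0 at h5
    rw [om_add_left, om_add_right, om_add_right, h4, h5] at h3
    rw [key, key]
    change om Ω _ _ = - om Ω _ _
    linear_combination h3

/-- the single vector case: the regular unipotent element of the symplectic group -/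
theorem exist_alt (k : ℕ) (hk : 1 ≤ k) : ∃ Y : Matrix (Fin (2 * k)) (Fin (2 * k)) F,
    (∀ i, Y i i = 0) ∧ (∀ i j, Y i j = - Y j i) ∧ IsUnit Y ∧
    (Cfsg.jordanBlock (2 * k) F)ᵀ * Y * Cfsg.jordanBlock (2 * k) F = Y := by
  set S := shiftM k F with hS
  have hnil : S ^ k = 0 := shiftM_pow_card
  have hU : IsUnit (1 + S) := IsNilpotent.isUnit_one_add ⟨k, hnil⟩
  obtain ⟨Gu, hGu⟩ := hU
  let G : Matrix (Fin k) (Fin k) F := (Gu⁻¹ : (Matrix (Fin k) (Fin k) F)ˣ)
  have hG1 : G * (1 + S) = 1 := by rw [← hGu]; exact Gu.inv_mul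
  have hG2 : (1 + S) * G = 1 := by rw [← hGu]; exact Gu.mul_inv
  have hcomm : Commute G S := by
    show G * S = S * G
    have h1 : G * S = 1 - G := by
      rw [mul_add, mul_one] at hG1
      rw [← hG1]
      abel
    have h2 : S * G = 1 - G := by
      rw [add_mul, one_mul] at hG2
      rw [← hG2]
      abel
    rw [h1, h2]
  have hN : G - 1 = (-G) * S := by
    rw [mul_add, mul_one] at hG1
    rw [neg_mul, ← hG1]
    abel
  let i0 : Fin k := ⟨0, by omega⟩
  let A : Matrix (Fin k) (Fin k) F := 1 + Sᵀ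
  let C : Matrix (Fin k) (Fin k) F := Matrix.single i0 i0 1
  let u : Matrix (Fin k ⊕ Fin k) (Fin k ⊕ Fin k) F := Matrix.fromBlocks A (A * C) 0 G
  let Nu : Matrix (Fin k ⊕ Fin k) (Fin k ⊕ Fin k) F := Matrix.fromBlocks Sᵀ (A * C) 0 (G - 1)
  have hu : u = 1 + Nu := by
    simp only [u, Nu, A]
    rw [← Matrix.fromBlocks_one, Matrix.fromBlocks_add]
    simp
  let Ω : Matrix (Fin k ⊕ Fin k) (Fin k ⊕ Fin k) F := Matrix.fromBlocks 0 1 (-1) 0
  have hAG : Aᵀ * G = 1 := by
    simp only [A, Matrix.transpose_add, Matrix.transpose_one, Matrix.transpose_transpose]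
    exact hG2
  have hGA : Gᵀ * A = 1 := by
    have := congrArg Matrix.transpose hAG
    rwa [Matrix.transpose_mul, Matrix.transpose_transpose, Matrix.transpose_one] at this
  have hCt : Cᵀ = C := by
    ext a b
    simp only [C, Matrix.transpose_apply, Matrix.single_apply]
    by_cases h1 : i0 = a <;> by_cases h2 : i0 = b <;> simp [h1, h2]
  have hΩ : uᵀ * Ω * u = Ω := by
    simp only [u, Ω, Matrix.fromBlocks_transpose, Matrix.fromBlocks_multiply]
    simp only [Matrix.transpose_mul, Matrix.transpose_zero, Matrix.mul_zero, Matrix.zero_mul, add_zero, zero_add, Matrix.mul_one, Matrix.mul_neg, Matrix.neg_mul]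
    rw [hAG]
    have h3 : Cᵀ * Aᵀ * G = C := by rw [Matrix.mul_assoc, hAG, Matrix.mul_one, hCt]
    have h4 : Gᵀ * (A * C) = C := by rw [← Matrix.mul_assoc, hGA, Matrix.one_mul]
    rw [h3, h4, hGA]
    simp
  have hL : ∀ (x : Fin k → F) (a : Fin k), (Sᵀ *ᵥ x) a = if h : 1 ≤ a.val then x ⟨a.val - 1, by have := a.2; omega⟩ else 0 :=
    fun x a => Lt_mulVec x a
  -- nilpotency
  have hcard : Fintype.card (Fin k ⊕ Fin k) = k + k := by simp
  have hNil : Nu ^ (k + k) = 0 := by
    obtain ⟨Z, hZ⟩ := block_pow Sᵀ (A * C) (G - 1) k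
    have h1 : (Sᵀ) ^ k = 0 := by rw [← Matrix.transpose_pow, hnil, Matrix.transpose_zero]
    have h2 : (G - 1) ^ k = 0 := by rw [hN, (hcomm.neg_left).mul_pow, hnil, mul_zero]
    rw [h1, h2] at hZ
    rw [pow_add, hZ, Matrix.fromBlocks_multiply]
    simp
  -- kernel
  have hker : ∀ v, Nu *ᵥ v = 0 → v (Sum.inl ⟨k - 1, by omega⟩) = 0 → v = 0 := by
    intro v hv hlast
    set x : Fin k → F := v ∘ Sum.inl with hx
    set y : Fin k → F := v ∘ Sum.inr with hy
    have hvxy : v = Sum.elim x y := by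
      ext (a | a) <;> rfl
    rw [hvxy, Matrix.fromBlocks_mulVec] at hv
    have hv1 : Sᵀ *ᵥ x + (A * C) *ᵥ y = 0 := by
      ext a
      have := congrFun hv (Sum.inl a)
      simpa [hx, hy] using this
    have hv2 : (G - 1) *ᵥ y = 0 := by
      ext a
      have := congrFun hv (Sum.inr a)
      simpa [hx, hy] using this
    have hSy : S *ᵥ y = 0 := by
      have h1 : (1 + S) * (G - 1) = -S := by
        rw [mul_sub, hG2]
        simp
      have h2 : (1 + S) *ᵥ ((G - 1) *ᵥ y) = 0 := by rw [hv2, mulVec_zero]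
      rw [mulVec_mulVec, h1, Matrix.neg_mulVec] at h2
      simpa using h2
    have hy1 : ∀ a : Fin k, 1 ≤ a.val → y a = 0 := by
      intro a ha
      have h1 := congrFun hSy ⟨a.val - 1, by have := a.2; omega⟩
      rw [hS, shiftM_mulVec, dif_pos (by simp only; have := a.2; omega)] at h1
      have h2 : (⟨(a.val - 1) + 1, by have := a.2; omega⟩ : Fin k) = a := by
        apply Fin.ext
        simp only
        omega
      simp only at h1
      rw [h2] at h1
      exact h1
    have hCy : C *ᵥ y = Pi.single i0 (y i0) := by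
      ext a
      simp only [C, Matrix.mulVec, dotProduct, Matrix.single_apply, Pi.single_apply]
      by_cases h : a = i0
      · subst h
        simp
      · have h' : i0 ≠ a := fun e => h e.symm
        simp [h, h']
    have hy0 : y i0 = 0 := by
      have h1 := congrFun hv1 i0
      rw [Pi.add_apply, hL, dif_neg (by simp [i0]), zero_add, ← mulVec_mulVec, hCy] at h1
      simp only [A, Matrix.add_mulVec, Matrix.one_mulVec, Pi.add_apply] at h1
      rw [hL, dif_neg (by simp [i0]), add_zero] at h1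
      simpa using h1
    have hy2 : y = 0 := by
      ext a
      by_cases h : a.val = 0
      · have : a = i0 := Fin.ext h
        rw [this, hy0]
        rfl
      · exact hy1 a (by omega)
    have hx1 : Sᵀ *ᵥ x = 0 := by
      rw [hy2, mulVec_zero, add_zero] at hv1
      exact hv1
    have hx2 : x = 0 := by
      ext a
      by_cases h : a.val = k - 1
      · have : a = ⟨k - 1, by omega⟩ := Fin.ext h
        rw [this]
        exact hlast
      · have ha := a.2
        have h1 := congrFun hx1 ⟨a.val + 1, by omega⟩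
        rw [hL, dif_pos (by simp only; omega)] at h1
        simpa using h1
    rw [hvxy, hx2, hy2]
    ext (a | a) <;> rfl
  have hrank := rank_of_ker Nu (by rw [hcard]; exact hNil) _ hker
  -- transport to the block
  have hcard2 : Fintype.card (Fin (2 * k)) = Fintype.card (Fin k ⊕ Fin k) := by simp; omega
  let e : Fin (2 * k) ≃ Fin k ⊕ Fin k := Fintype.equivOfCardEq hcard2
  let W := Nu.submatrix e e
  have hW1 : W ^ Fintype.card (Fin (2 * k)) = 0 := by
    rw [submatrix_pow_equiv, hcard2, hcard, hNil]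
    ext a b
    simp
  have hW2 : W.rank = Fintype.card (Fin (2 * k)) - 1 := by
    rw [Matrix.rank_submatrix, hrank, hcard2]
  obtain ⟨P, hP⟩ := regular_similar (F := F) (ι := Fin (2 * k)) (N := (shiftM (2 * k) F)ᵀ) (N' := W)
    (by simp; omega)
    (by rw [Fintype.card_fin, ← Matrix.transpose_pow, shiftM_pow_card, Matrix.transpose_zero])
    (by rw [Matrix.rank_transpose, shiftM_rank, Fintype.card_fin]) hW1 hW2
  let Ω' := Ω.submatrix e e
  let u' := u.submatrix e e
  have hΩ' : u'ᵀ * Ω' * u' = Ω' := by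
    have : u'ᵀ = uᵀ.submatrix e e := rfl
    simp only [this, u', Ω']
    rw [Matrix.submatrix_mul_equiv, Matrix.submatrix_mul_equiv, hΩ]
  have hu' : u' = 1 + W := by
    simp only [u', W, hu]
    ext a b
    simp [Matrix.one_apply, e.injective.eq_iff]
  have hPJ : (P : Matrix (Fin (2 * k)) (Fin (2 * k)) F) * Cfsg.jordanBlock (2 * k) F = u' * P := by
    rw [jordanBlock_eq, mul_add, mul_one, hP, hu', add_mul, one_mul]
  have hΩ0 : ∀ i, Ω' i i = 0 := by
    intro i
    simp only [Ω', Ω, Matrix.submatrix_apply]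
    rcases e i with a | a <;> simp
  have hΩ1 : ∀ i j, Ω' i j = - Ω' j i := by
    intro i j
    simp only [Ω', Ω, Matrix.submatrix_apply]
    rcases e i with a | a <;> rcases e j with b | b <;> simp [Matrix.one_apply, eq_comm]
  refine ⟨(P : Matrix (Fin (2 * k)) (Fin (2 * k)) F)ᵀ * Ω' * P,
    fun i => (alt_transport Ω' P hΩ0 hΩ1 i i).1, fun i j => (alt_transport Ω' P hΩ0 hΩ1 i j).2, ?_, ?_⟩
  · have hPu : IsUnit (P : Matrix (Fin (2 * k)) (Fin (2 * k)) F) := P.isUnit
    have hΩu : IsUnit Ω' := by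
      refine IsUnit.of_mul_eq_one (-Ω') ?_
      have h2 : Ω * Ω = -1 := by
        simp only [Ω, Matrix.fromBlocks_multiply]
        rw [← Matrix.fromBlocks_one, Matrix.fromBlocks_neg]
        simp
      have h3 : Ω' * Ω' = -1 := by
        simp only [Ω']
        rw [Matrix.submatrix_mul_equiv, h2]
        ext a b
        simp [Matrix.one_apply, e.injective.eq_iff]
      rw [mul_neg, h3, neg_neg]
    have hPt : IsUnit (P : Matrix (Fin (2 * k)) (Fin (2 * k)) F)ᵀ := by
      rw [Matrix.isUnit_iff_isUnit_det, Matrix.det_transpose, ← Matrix.isUnit_iff_isUnit_det]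
      exact hPu
    exact (hPt.mul hΩu).mul hPu
  · calc (Cfsg.jordanBlock (2 * k) F)ᵀ * ((P : Matrix (Fin (2 * k)) (Fin (2 * k)) F)ᵀ * Ω' * P) * Cfsg.jordanBlock (2 * k) F
        = ((P : Matrix (Fin (2 * k)) (Fin (2 * k)) F) * Cfsg.jordanBlock (2 * k) F)ᵀ * Ω' * ((P : Matrix (Fin (2 * k)) (Fin (2 * k)) F) * Cfsg.jordanBlock (2 * k) F) := by
          rw [Matrix.transpose_mul]
          simp only [Matrix.mul_assoc]
      _ = (P : Matrix (Fin (2 * k)) (Fin (2 * k)) F)ᵀ * (u'ᵀ * Ω' * u') * P := by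
          rw [hPJ, Matrix.transpose_mul]
          simp only [Matrix.mul_assoc]
      _ = _ := by rw [hΩ']

end Cfsg.Agent.H11.JT
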