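import Mathlib
import Cfsg.Agent.Lib.H11.JT5

/-! Jordan types: symmetric forms on odd blocks; quadratic forms in characteristic two. -/

set_option autoImplicit false
set_option linter.unusedSectionVars false
set_option linter.unusedVariables false

namespace Cfsg.Agent.H11.JT

open Matrix Module Cfsg.Agent.H11

variable {F : Type*} [Field F]

theorem om_transpose {I : Type*} [Fintype I] [DecidableEq I] (X : Matrix I I F) (x y : I → F) :
    om Xᵀ x y = om X y x := by
  rw [om, om, mulVec_transpose, dotProduct_comm, dotProduct_mulVec]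

theorem om_add_mat {I : Type*} [Fintype I] [DecidableEq I] (X Y : Matrix I I F) (x y : I → F) :
    om (X + Y) x y = om X x y + om Y x y := by
  simp [om, Matrix.add_mulVec, dotProduct_add]

theorem om_single {I : Type*} [Fintype I] [DecidableEq I] (X : Matrix I I F) (a : I) (y : I → F) :
    om X (Pi.single a 1) y = (X *ᵥ y) a := by
  simp [om]

theorem om_single_single {I : Type*} [Fintype I] [DecidableEq I] (X : Matrix I I F) (a b : I) :
    om X (Pi.single a 1) (Pi.single b 1) = X a b := by
  rw [om_single]
  simp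

theorem Lt_single {j : ℕ} (a : ℕ) (ha : a + 1 < j) :
    (shiftM j F)ᵀ *ᵥ (Pi.single (⟨a, by omega⟩ : Fin j) 1) = Pi.single (⟨a + 1, ha⟩ : Fin j) 1 := by
  ext b
  rw [Lt_mulVec]
  by_cases hb : 1 ≤ b.val
  · rw [dif_pos hb, Pi.single_apply, Pi.single_apply]
    have h1 : ((⟨b.val - 1, by have := b.2; omega⟩ : Fin j) = ⟨a, by omega⟩) ↔ (b = ⟨a + 1, ha⟩) := by
      simp only [Fin.ext_iff]
      omega
    simp [h1]
  · rw [dif_neg hb, Pi.single_apply, if_neg]
    intro h
    rw [h] at hb
    simp at hb

theorem Lt_single_last {j : ℕ} (a : Fin j) (ha : a.val + 1 = j) :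
    (shiftM j F)ᵀ *ᵥ (Pi.single a 1) = 0 := by
  ext b
  rw [Lt_mulVec]
  by_cases hb : 1 ≤ b.val
  · rw [dif_pos hb, Pi.single_apply, if_neg]
    · rfl
    intro h
    have := congrArg Fin.val h
    simp only at this
    have := b.2
    omega
  · rw [dif_neg hb]
    rfl

theorem exist_sym (j : ℕ) (hj : Odd j) (h2 : (2 : F) ≠ 0) : ∃ Y : Matrix (Fin j) (Fin j) F,
    (∀ a b, Y a b = Y b a) ∧ IsUnit Y ∧ (Cfsg.jordanBlock j F)ᵀ * Y * Cfsg.jordanBlock j F = Y := by
  have hj1 : 1 ≤ j := hj.pos
  obtain ⟨X, hXu, hX⟩ := exist_X (F := F) j hj1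
  set N := (shiftM j F)ᵀ with hN
  set J := Cfsg.jordanBlock j F with hJ
  have hJN : J = 1 + N := jordanBlock_eq j
  have hMX := om_of_mat hX
  have hinv := hinv_gen hJN hMX
  have hNnil : N ^ j = 0 := by
    rw [hN, ← Matrix.transpose_pow, shiftM_pow_card, Matrix.transpose_zero]
  have hL : ∀ (x : Fin j → F) (a : Fin j), (N *ᵥ x) a = if h : 1 ≤ a.val then x ⟨a.val - 1, by have := a.2; omega⟩ else 0 :=
    fun x a => Lt_mulVec x a
  have hLp : ∀ (p : ℕ) (x : Fin j → F) (a : Fin j), (N ^ p *ᵥ x) a = if h : p ≤ a.val then x ⟨a.val - p, by have := a.2; omega⟩ else 0 :=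
    fun p x a => Lt_pow_mulVec p x a
  have hJunit : IsUnit J := by
    rw [hJN]
    exact IsNilpotent.isUnit_one_add ⟨j, hNnil⟩
  have hJt : IsUnit Jᵀ := by
    rw [Matrix.isUnit_iff_isUnit_det, Matrix.det_transpose, ← Matrix.isUnit_iff_isUnit_det]
    exact hJunit
  have hY : Jᵀ * (X + Xᵀ) * J = X + Xᵀ := by
    have h3 : Jᵀ * Xᵀ * J = Xᵀ := by
      have := congrArg Matrix.transpose hX
      simp only [Matrix.transpose_mul, Matrix.transpose_transpose] at this
      rw [← Matrix.mul_assoc] at this
      exact this
    rw [mul_add, add_mul, hX, h3]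
  refine ⟨X + Xᵀ, ?_, ?_, hY⟩
  · intro a b
    simp [add_comm]
  · have key : ∀ w : Fin j → F, (X + Xᵀ) *ᵥ w = 0 → w = 0 := by
      intro w hw
      by_contra hne
      have hYN : ∀ z, (X + Xᵀ) *ᵥ z = 0 → (X + Xᵀ) *ᵥ (N *ᵥ z) = 0 := by
        intro z hz
        have h3 : Jᵀ *ᵥ ((X + Xᵀ) *ᵥ (J *ᵥ z)) = 0 := by
          rw [mulVec_mulVec, mulVec_mulVec, hY, hz]
        have h4 : (X + Xᵀ) *ᵥ (J *ᵥ z) = 0 := by
          have := (Matrix.mulVec_injective_iff_isUnit.2 hJt)
          exact this (by rw [h3, mulVec_zero])
        have h5 : J *ᵥ z = z + N *ᵥ z := by rw [hJN, Matrix.add_mulVec, Matrix.one_mulVec]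
        rw [h5, mulVec_add, hz, zero_add] at h4
        exact h4
      have hYq : ∀ q : ℕ, (X + Xᵀ) *ᵥ (N ^ q *ᵥ w) = 0 := by
        intro q
        induction q with
        | zero => simpa using hw
        | succ q ih =>
          rw [pow_succ_mulVec]
          exact hYN _ ih
      have hex : ∃ p, N ^ p *ᵥ w = 0 := ⟨j, by rw [hNnil, zero_mulVec]⟩
      classical
      have hp0 : Nat.find hex ≠ 0 := by
        intro h0
        have := Nat.find_spec hex
        rw [h0, pow_zero, one_mulVec] at this
        exact hne this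
      set p := Nat.find hex with hp
      have hw'ne : N ^ (p - 1) *ᵥ w ≠ 0 := Nat.find_min hex (by omega)
      set w' := N ^ (p - 1) *ᵥ w with hw'
      have hNw' : N *ᵥ w' = 0 := by
        rw [hw', ← pow_succ_mulVec, show p - 1 + 1 = p by omega]
        exact Nat.find_spec hex
      have hYw' : (X + Xᵀ) *ᵥ w' = 0 := hYq _
      have hw0 : ∀ a : Fin j, a.val + 1 < j → w' a = 0 := by
        intro a ha
        have := congrFun hNw' ⟨a.val + 1, ha⟩
        rw [hL, dif_pos (by simp only; omega)] at this
        simpa using this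
      let last : Fin j := ⟨j - 1, by omega⟩
      let first : Fin j := ⟨0, by omega⟩
      have hcne : w' last ≠ 0 := by
        intro h0
        apply hw'ne
        ext a
        by_cases ha : a.val + 1 < j
        · exact hw0 a ha
        · have : a = last := by
            apply Fin.ext
            simp only [last]
            have := a.2
            omega
          rw [this, h0]
          rfl
      let v : Fin j → F := Pi.single first (w' last)
      have hv1 : N ^ (j - 1) *ᵥ v = w' := by
        ext a
        rw [hLp]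
        by_cases ha : a.val + 1 < j
        · rw [dif_neg (by omega), hw0 a ha]
        · have h3 : a = last := by
            apply Fin.ext
            simp only [last]
            have := a.2
            omega
          subst h3
          rw [dif_pos (by simp [last])]
          simp [v, first, last]
      have hv2 : N ^ j *ᵥ v = 0 := by rw [hNnil, zero_mulVec]
      have hlev := om_level hinv j v hv2 v (j - 1) 0 (by omega)
      rw [pow_zero, one_mulVec, add_zero, hv1] at hlev
      have hev : Even (j - 1) := by
        obtain ⟨i, hi⟩ := hj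
        exact ⟨i, by omega⟩
      rw [hev.neg_pow, one_pow, one_mul] at hlev
      have hom0 : om (X + Xᵀ) v w' = 0 := by rw [om, hYw', dotProduct_zero]
      rw [om_add_mat, om_transpose, hlev] at hom0
      have hom1 : om X v w' = 0 := by
        have h3 : (2 : F) * om X v w' = 0 := by linear_combination hom0
        exact (mul_eq_zero.1 h3).resolve_left h2
      have hXw : X *ᵥ w' = 0 := by
        ext a
        by_cases ha : a.val = 0
        · have h3 : a = first := Fin.ext ha
          subst h3
          have h4 : om X v w' = w' last * (X *ᵥ w') first := by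
            simp [om, v]
          rw [h4] at hom1
          simpa using (mul_eq_zero.1 hom1).resolve_left hcne
        · have h3 := Lt_single (F := F) (j := j) (a.val - 1) (by have := a.2; omega)
          have h4 := hinv (Pi.single (⟨a.val - 1, by have := a.2; omega⟩ : Fin j) 1) w'
          rw [← hN] at h3
          rw [h3, hNw', om_zero_right, om_zero_right, add_zero, add_zero, om_single] at h4
          have h5 : (⟨a.val - 1 + 1, by have := a.2; omega⟩ : Fin j) = a := by
            apply Fin.ext
            simp only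
            omega
          rw [h5] at h4
          exact h4
      exact hw'ne ((Matrix.mulVec_injective_iff_isUnit.2 hXu) (by rw [hXw, mulVec_zero]))
    rw [← Matrix.mulVec_injective_iff_isUnit]
    intro x y hxy
    have := key (x - y) (by rw [mulVec_sub, hxy, sub_self])
    exact sub_eq_zero.1 this

/-- in characteristic two, a block of even size preserves a quadratic form with nondegenerate polar -/
theorem exist_Q [CharP F 2] (k : ℕ) (hk : 1 ≤ k) : ∃ T : Matrix (Fin (2 * k)) (Fin (2 * k)) F,
    IsUnit (T + Tᵀ) ∧ ∀ x, om T (Cfsg.jordanBlock (2 * k) F *ᵥ x) (Cfsg.jordanBlock (2 * k) F *ᵥ x) = om T x x := by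
  obtain ⟨Y, hY0, hY1, hYu, hYJ⟩ := exist_alt (F := F) k hk
  set J := Cfsg.jordanBlock (2 * k) F with hJ
  set N := (shiftM (2 * k) F)ᵀ with hN
  have hJN : J = 1 + N := jordanBlock_eq _
  let a : Fin (2 * k) → F := fun i => if h : 1 ≤ i.val then Y ⟨i.val - 1, by have := i.2; omega⟩ i else 0
  let T : Matrix (Fin (2 * k)) (Fin (2 * k)) F := Matrix.of fun p q => if p.val < q.val then Y p q else if p = q then a p else 0
  have hneg : ∀ z : F, -z = z := fun z => CharTwo.neg_eq z
  have h2z : ∀ z : F, z + z = 0 := fun z => CharTwo.add_self_eq_zero z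
  have hTY : T + Tᵀ = Y := by
    ext p q
    simp only [Matrix.add_apply, Matrix.transpose_apply, T, Matrix.of_apply]
    by_cases h1 : p.val < q.val
    · have h3 : ¬ q.val < p.val := by omega
      have h4 : q ≠ p := fun e => by rw [e] at h1; omega
      simp [h1, h3, h4]
    · by_cases h3 : q.val < p.val
      · have h4 : p ≠ q := fun e => by rw [e] at h3; omega
        simp only [h1, h3, if_true, if_false, h4, zero_add]
        rw [hY1 q p, hneg]
      · have h4 : p = q := Fin.ext (by omega)
        subst h4
        simp only [lt_irrefl, if_false, if_true]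
        rw [h2z, hY0]
  refine ⟨T, by rw [hTY]; exact hYu, ?_⟩
  intro x
  let E := Jᵀ * T * J - T
  have hEom : ∀ z, z ⬝ᵥ E *ᵥ z = om T (J *ᵥ z) (J *ᵥ z) - om T z z := by
    intro z
    simp only [E, Matrix.sub_mulVec, dotProduct_sub, om]
    congr 1
    rw [← mulVec_mulVec, ← mulVec_mulVec, dotProduct_mulVec z Jᵀ, vecMul_transpose]
  have hEt : ∀ p q, E p q = - E q p := by
    intro p q
    have h1 : E + Eᵀ = 0 := by
      have h3 : (Jᵀ * T * J)ᵀ = Jᵀ * Tᵀ * J := by
        simp only [Matrix.transpose_mul, Matrix.transpose_transpose, Matrix.mul_assoc]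
      simp only [E, Matrix.transpose_sub, h3]
      have h4 : Jᵀ * T * J - T + (Jᵀ * Tᵀ * J - Tᵀ) = Jᵀ * (T + Tᵀ) * J - (T + Tᵀ) := by
        simp only [mul_add, add_mul]
        abel
      rw [h4, hTY, hYJ, sub_self]
    have := congrFun (congrFun h1 p) q
    simp only [Matrix.add_apply, Matrix.transpose_apply, Matrix.zero_apply] at this
    linear_combination this
  have hE0 : ∀ p, E p p = 0 := by
    intro p
    have h1 := hEom (Pi.single p 1)
    have h3 : (Pi.single p 1 : Fin (2 * k) → F) ⬝ᵥ E *ᵥ (Pi.single p 1) = E p p := om_single_single E p p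
    rw [h3, om_single_single] at h1
    rw [h1, hJN, Matrix.add_mulVec, Matrix.one_mulVec]
    by_cases hp : p.val + 1 < 2 * k
    · have h4 := Lt_single (F := F) (j := 2 * k) p.val hp
      have h5 : (⟨p.val, by omega⟩ : Fin (2 * k)) = p := rfl
      rw [h5, ← hN] at h4
      rw [h4, om_add_left, om_add_right, om_add_right, om_single_single, om_single_single, om_single_single, om_single_single]
      have hlt : p.val < (⟨p.val + 1, hp⟩ : Fin (2 * k)).val := by simp
      have hnlt : ¬ (⟨p.val + 1, hp⟩ : Fin (2 * k)).val < p.val := by simp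
      have hne : (⟨p.val + 1, hp⟩ : Fin (2 * k)) ≠ p := by
        intro e
        have := congrArg Fin.val e
        simp at this
      have ha : T ⟨p.val + 1, hp⟩ ⟨p.val + 1, hp⟩ = Y p ⟨p.val + 1, hp⟩ := by
        simp only [T, Matrix.of_apply, lt_irrefl, if_false, if_true, a]
        rw [dif_pos (by simp)]
        rfl
      have hb : T p ⟨p.val + 1, hp⟩ = Y p ⟨p.val + 1, hp⟩ := by
        simp only [T, Matrix.of_apply]
        rw [if_pos hlt]
      have hc : T ⟨p.val + 1, hp⟩ p = 0 := by
        simp only [T, Matrix.of_apply]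
        rw [if_neg hnlt, if_neg hne]
      rw [ha, hb, hc]
      have := h2z (Y p ⟨p.val + 1, hp⟩)
      linear_combination this
    · have h4 := Lt_single_last (F := F) (j := 2 * k) p (by have := p.2; omega)
      rw [← hN] at h4
      rw [h4, add_zero, om_single_single, sub_self]
  have := hEom x
  rw [quad_alt E hE0 hEt x] at this
  exact (sub_eq_zero.1 this.symm)

end Cfsg.Agent.H11.JT
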