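import Mathlib
import Cfsg.Agent.Lib.H11.JT6

/-! Jordan types: the three classes of matrices preserving forms are closed under sums. -/

set_option autoImplicit false
set_option linter.unusedSectionVars false
set_option linter.unusedVariables false

namespace Cfsg.Agent.H11.JT

open Matrix Module Cfsg.Agent.H11

variable {F : Type*} [Field F]

section general

variable {I₁ I₂ I I' : Type} [Fintype I₁] [DecidableEq I₁] [Fintype I₂] [DecidableEq I₂]
  [Fintype I] [DecidableEq I] [Fintype I'] [DecidableEq I']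

theorem om_blocks (S₁ : Matrix I₁ I₁ F) (S₂ : Matrix I₂ I₂ F) (x y : I₁ ⊕ I₂ → F) :
    om (Matrix.fromBlocks S₁ 0 0 S₂) x y = om S₁ (x ∘ Sum.inl) (y ∘ Sum.inl) + om S₂ (x ∘ Sum.inr) (y ∘ Sum.inr) := by
  have hy : y = Sum.elim (y ∘ Sum.inl) (y ∘ Sum.inr) := by
    ext (a | a) <;> rfl
  conv_lhs => rw [om, hy, Matrix.fromBlocks_mulVec]
  simp [om, dotProduct, Fintype.sum_sum_type]

theorem blocks_mulVec_l (M₁ : Matrix I₁ I₁ F) (M₂ : Matrix I₂ I₂ F) (x : I₁ ⊕ I₂ → F) :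
    (Matrix.fromBlocks M₁ 0 0 M₂ *ᵥ x) ∘ Sum.inl = M₁ *ᵥ (x ∘ Sum.inl) := by
  have hy : x = Sum.elim (x ∘ Sum.inl) (x ∘ Sum.inr) := by
    ext (a | a) <;> rfl
  conv_lhs => rw [hy, Matrix.fromBlocks_mulVec]
  ext a
  simp

theorem blocks_mulVec_r (M₁ : Matrix I₁ I₁ F) (M₂ : Matrix I₂ I₂ F) (x : I₁ ⊕ I₂ → F) :
    (Matrix.fromBlocks M₁ 0 0 M₂ *ᵥ x) ∘ Sum.inr = M₂ *ᵥ (x ∘ Sum.inr) := by
  have hy : x = Sum.elim (x ∘ Sum.inl) (x ∘ Sum.inr) := by
    ext (a | a) <;> rfl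
  conv_lhs => rw [hy, Matrix.fromBlocks_mulVec]
  ext a
  simp

theorem om_reindex (e : I ≃ I') (S : Matrix I I F) (x y : I' → F) :
    om (Matrix.reindex e e S) x y = om S (x ∘ e) (y ∘ e) := by
  simp only [om, Matrix.reindex_apply, dotProduct]
  rw [← e.sum_comp]
  refine Finset.sum_congr rfl fun a _ => ?_
  congr 1
  simp only [Matrix.mulVec, dotProduct, Matrix.submatrix_apply, Equiv.symm_apply_apply, Function.comp]
  rw [← e.sum_comp]
  simp

theorem reindex_mulVec (e : I ≃ I') (M : Matrix I I F) (x : I' → F) :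
    (Matrix.reindex e e M *ᵥ x) ∘ e = M *ᵥ (x ∘ e) := by
  ext a
  simp only [Function.comp, Matrix.mulVec, dotProduct, Matrix.reindex_apply, Matrix.submatrix_apply, Equiv.symm_apply_apply]
  rw [← e.sum_comp]
  simp

theorem unit_blocks (S₁ : Matrix I₁ I₁ F) (S₂ : Matrix I₂ I₂ F) (h₁ : IsUnit S₁) (h₂ : IsUnit S₂) :
    IsUnit (Matrix.fromBlocks S₁ 0 0 S₂) := by
  rw [Matrix.isUnit_iff_isUnit_det, Matrix.det_fromBlocks_zero₂₁]
  exact ((Matrix.isUnit_iff_isUnit_det _).1 h₁).mul ((Matrix.isUnit_iff_isUnit_det _).1 h₂)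

theorem unit_reindex (e : I ≃ I') (S : Matrix I I F) (h : IsUnit S) : IsUnit (Matrix.reindex e e S) := by
  rw [Matrix.isUnit_iff_isUnit_det, Matrix.det_reindex_self]
  exact (Matrix.isUnit_iff_isUnit_det _).1 h

end general

/-- preserving a nondegenerate alternating form -/
def R₁ (I : Type) [Fintype I] [DecidableEq I] (M : Matrix I I F) : Prop :=
  ∃ S : Matrix I I F, (∀ i, S i i = 0) ∧ (∀ i j, S i j = - S j i) ∧ IsUnit S ∧
    ∀ x y, om S (M *ᵥ x) (M *ᵥ y) = om S x y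

/-- preserving a nondegenerate symmetric form -/
def R₂ (I : Type) [Fintype I] [DecidableEq I] (M : Matrix I I F) : Prop :=
  ∃ S : Matrix I I F, (∀ i j, S i j = S j i) ∧ IsUnit S ∧ ∀ x y, om S (M *ᵥ x) (M *ᵥ y) = om S x y

/-- preserving a quadratic form with nondegenerate polar form -/
def R₃ (I : Type) [Fintype I] [DecidableEq I] (M : Matrix I I F) : Prop :=
  ∃ T : Matrix I I F, IsUnit (T + Tᵀ) ∧ ∀ x, om T (M *ᵥ x) (M *ᵥ x) = om T x x

theorem unit_anti {j : ℕ} (X : Matrix (Fin j) (Fin j) F) (hX : IsUnit X) (c : F) (hc : c ≠ 0) :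
    IsUnit (Matrix.fromBlocks 0 X (c • Xᵀ) 0) := by
  obtain ⟨Xu, rfl⟩ := hX
  let X' : Matrix (Fin j) (Fin j) F := (Xu⁻¹ : (Matrix (Fin j) (Fin j) F)ˣ)
  have h1 : (Xu : Matrix (Fin j) (Fin j) F) * X' = 1 := Xu.mul_inv
  have h2 : X' * (Xu : Matrix (Fin j) (Fin j) F) = 1 := Xu.inv_mul
  refine IsUnit.of_mul_eq_one (Matrix.fromBlocks 0 (c⁻¹ • X'ᵀ) X' 0) ?_
  rw [Matrix.fromBlocks_multiply]
  have h3 : (Xu : Matrix (Fin j) (Fin j) F)ᵀ * X'ᵀ = 1 := by
    rw [← Matrix.transpose_mul, h2, Matrix.transpose_one]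
  simp [h1, h3, hc, smul_smul, Matrix.smul_mul, Matrix.mul_smul, Matrix.fromBlocks_one]

theorem inv_pair {j : ℕ} (X : Matrix (Fin j) (Fin j) F) (J : Matrix (Fin j) (Fin j) F) (hX : Jᵀ * X * J = X) (c : F) :
    (Matrix.fromBlocks J 0 0 J)ᵀ * (Matrix.fromBlocks 0 X (c • Xᵀ) 0) * (Matrix.fromBlocks J 0 0 J) = Matrix.fromBlocks 0 X (c • Xᵀ) 0 := by
  have h3 : Jᵀ * Xᵀ * J = Xᵀ := by
    have := congrArg Matrix.transpose hX
    simp only [Matrix.transpose_mul, Matrix.transpose_transpose] at this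
    rw [← Matrix.mul_assoc] at this
    exact this
  rw [Matrix.fromBlocks_transpose, Matrix.fromBlocks_multiply, Matrix.fromBlocks_multiply]
  simp [hX, Matrix.mul_smul, Matrix.smul_mul, h3]

theorem cl₁ : Cl F (@R₁ F _) Odd := by
  refine ⟨?_, ?_, ?_, ?_, ?_⟩
  · intro I _ _ _ M
    refine ⟨0, fun i => isEmptyElim i, fun i => isEmptyElim i, ?_, fun x y => by simp [om]⟩
    rw [Matrix.isUnit_iff_isUnit_det, Matrix.det_isEmpty]
    exact isUnit_one
  · rintro I₁ I₂ _ _ _ _ M₁ M₂ ⟨S₁, h1, h2, h3, h4⟩ ⟨S₂, h1', h2', h3', h4'⟩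
    refine ⟨Matrix.fromBlocks S₁ 0 0 S₂, ?_, ?_, unit_blocks _ _ h3 h3', ?_⟩
    · rintro (a | a)
      · exact h1 a
      · exact h1' a
    · rintro (a | a) (b | b)
      · exact h2 a b
      · simp
      · simp
      · exact h2' a b
    · intro x y
      rw [om_blocks, om_blocks, blocks_mulVec_l, blocks_mulVec_l, blocks_mulVec_r, blocks_mulVec_r, h4, h4']
  · rintro I I' _ _ _ _ e M ⟨S, h1, h2, h3, h4⟩
    refine ⟨Matrix.reindex e e S, ?_, ?_, unit_reindex e S h3, ?_⟩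
    · intro i
      simp [h1]
    · intro i j
      simp only [Matrix.reindex_apply, Matrix.submatrix_apply]
      exact h2 _ _
    · intro x y
      rw [om_reindex, om_reindex, reindex_mulVec, reindex_mulVec, h4]
  · intro j hj hP
    obtain ⟨k, rfl⟩ : ∃ k, j = 2 * k := (Nat.not_odd_iff_even.1 hP).two_dvd
    obtain ⟨Y, h1, h2, h3, h4⟩ := exist_alt (F := F) k (by omega)
    exact ⟨Y, h1, h2, h3, om_of_mat h4⟩
  · intro j hj hP
    obtain ⟨X, hX, hXJ⟩ := exist_X (F := F) j hj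
    refine ⟨Matrix.fromBlocks 0 X ((-1 : F) • Xᵀ) 0, ?_, ?_, unit_anti X hX _ (by simp), om_of_mat (inv_pair X _ hXJ _)⟩
    · rintro (a | a) <;> simp
    · rintro (a | a) (b | b) <;> simp

theorem cl₂ (h2 : (2 : F) ≠ 0) : Cl F (@R₂ F _) Even := by
  refine ⟨?_, ?_, ?_, ?_, ?_⟩
  · intro I _ _ _ M
    refine ⟨0, fun i => isEmptyElim i, ?_, fun x y => by simp [om]⟩
    rw [Matrix.isUnit_iff_isUnit_det, Matrix.det_isEmpty]
    exact isUnit_one
  · rintro I₁ I₂ _ _ _ _ M₁ M₂ ⟨S₁, h2, h3, h4⟩ ⟨S₂, h2', h3', h4'⟩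
    refine ⟨Matrix.fromBlocks S₁ 0 0 S₂, ?_, unit_blocks _ _ h3 h3', ?_⟩
    · rintro (a | a) (b | b)
      · exact h2 a b
      · simp
      · simp
      · exact h2' a b
    · intro x y
      rw [om_blocks, om_blocks, blocks_mulVec_l, blocks_mulVec_l, blocks_mulVec_r, blocks_mulVec_r, h4, h4']
  · rintro I I' _ _ _ _ e M ⟨S, h2, h3, h4⟩
    refine ⟨Matrix.reindex e e S, ?_, unit_reindex e S h3, ?_⟩
    · intro i j
      simp only [Matrix.reindex_apply, Matrix.submatrix_apply]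
      exact h2 _ _
    · intro x y
      rw [om_reindex, om_reindex, reindex_mulVec, reindex_mulVec, h4]
  · intro j hj hP
    obtain ⟨Y, h3, h4, h5⟩ := exist_sym (F := F) j (Nat.not_even_iff_odd.1 hP) h2
    exact ⟨Y, h3, h4, om_of_mat h5⟩
  · intro j hj hP
    obtain ⟨X, hX, hXJ⟩ := exist_X (F := F) j hj
    refine ⟨Matrix.fromBlocks 0 X ((1 : F) • Xᵀ) 0, ?_, unit_anti X hX _ (by simp), om_of_mat (inv_pair X _ hXJ _)⟩
    rintro (a | a) (b | b) <;> simp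

theorem R₃_of_R₂ (h2 : (2 : F) ≠ 0) {I : Type} [Fintype I] [DecidableEq I] {M : Matrix I I F} (h : R₂ I M) : R₃ I M := by
  obtain ⟨S, h3, h4, h5⟩ := h
  refine ⟨S, ?_, fun x => h5 x x⟩
  have h6 : S + Sᵀ = (2 : F) • S := by
    ext a b
    simp only [Matrix.add_apply, Matrix.transpose_apply, Matrix.smul_apply, smul_eq_mul]
    rw [h3 b a]
    ring
  rw [h6, Matrix.isUnit_iff_isUnit_det, Matrix.det_smul]
  exact (isUnit_iff_ne_zero.2 (pow_ne_zero _ h2)).mul ((Matrix.isUnit_iff_isUnit_det _).1 h4)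

theorem cl₃ [CharP F 2] : Cl F (@R₃ F _) Odd := by
  refine ⟨?_, ?_, ?_, ?_, ?_⟩
  · intro I _ _ _ M
    refine ⟨0, ?_, fun x => ?_⟩
    · rw [Matrix.isUnit_iff_isUnit_det, Matrix.det_isEmpty]
      exact isUnit_one
    · simp [om]
  · rintro I₁ I₂ _ _ _ _ M₁ M₂ ⟨S₁, h3, h4⟩ ⟨S₂, h3', h4'⟩
    refine ⟨Matrix.fromBlocks S₁ 0 0 S₂, ?_, ?_⟩
    · have := unit_blocks _ _ h3 h3'
      rw [Matrix.fromBlocks_transpose, Matrix.fromBlocks_add]
      simpa using this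
    · intro x
      rw [om_blocks, om_blocks, blocks_mulVec_l, blocks_mulVec_r, h4, h4']
  · rintro I I' _ _ _ _ e M ⟨S, h3, h4⟩
    refine ⟨Matrix.reindex e e S, ?_, ?_⟩
    · have := unit_reindex e _ h3
      convert this using 1
      ext a b
      simp
    · intro x
      rw [om_reindex, om_reindex, reindex_mulVec, h4]
  · intro j hj hP
    obtain ⟨k, rfl⟩ : ∃ k, j = 2 * k := (Nat.not_odd_iff_even.1 hP).two_dvd
    exact exist_Q (F := F) k (by omega)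
  · intro j hj hP
    obtain ⟨X, hX, hXJ⟩ := exist_X (F := F) j hj
    refine ⟨Matrix.fromBlocks 0 X 0 0, ?_, ?_⟩
    · have := unit_anti X hX (1 : F) one_ne_zero
      rw [Matrix.fromBlocks_transpose, Matrix.fromBlocks_add]
      simpa using this
    · intro x
      have h1 : ∀ (y : Fin j ⊕ Fin j → F), om (Matrix.fromBlocks 0 X 0 0) y y = om X (y ∘ Sum.inl) (y ∘ Sum.inr) := by
        intro y
        have hy : y = Sum.elim (y ∘ Sum.inl) (y ∘ Sum.inr) := by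
          ext (a | a) <;> rfl
        conv_lhs => rw [om, hy, Matrix.fromBlocks_mulVec]
        simp [om, dotProduct, Fintype.sum_sum_type]
      rw [h1, h1, blocks_mulVec_l, blocks_mulVec_r, om_of_mat hXJ]

end Cfsg.Agent.H11.JT
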