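import Mathlib
import Cfsg.Agent.Lib.H11.JT7
import Cfsg.Agent.Lib.H11.PSpD
import Cfsg.Prelude.Def_Classical

/-! Jordan types: the statements. -/

set_option autoImplicit false
set_option linter.unusedSectionVars false
set_option linter.unusedVariables false

namespace Cfsg.Agent.H11.JT

open Matrix Module Cfsg.Agent.H11

variable {F : Type*} [Field F]

theorem unit_of_nd {I : Type*} [Fintype I] [DecidableEq I] (S : Matrix I I F)
    (h : ∀ v : I → F, (∀ y, om S v y = 0) → v = 0) : IsUnit S := by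
  rw [← Matrix.vecMul_injective_iff_isUnit]
  intro a b hab
  have hab' : a ᵥ* S = b ᵥ* S := hab
  have := h (a - b) (by
    intro y
    rw [om, dotProduct_mulVec, Matrix.sub_vecMul, hab', sub_self, zero_dotProduct])
  exact sub_eq_zero.1 this

section setup

variable {t : ℕ} (d : Fin t → ℕ) {ι : Type} [Fintype ι] [DecidableEq ι]

theorem setup (B : (ι → F) →ₗ[F] (ι → F) →ₗ[F] F) (hnd : ∀ x, (∀ y, B x y = 0) → x = 0)
    (e : JI d ≃ ι) (A' : Matrix ι ι F) (hA : ∀ u v, B (A' *ᵥ u) (A' *ᵥ v) = B u v)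
    (hconj : IsConj (Matrix.reindex e e (Cfsg.jordanTypeMatrix d F)) A') :
    ∃ (S : Matrix (JI d) (JI d) F) (Ψ : (JI d → F) →ₗ[F] (ι → F)), IsUnit S ∧
      (∀ x y, om S (Cfsg.jordanTypeMatrix d F *ᵥ x) (Cfsg.jordanTypeMatrix d F *ᵥ y) = om S x y) ∧
      ∀ x y, om S x y = B (Ψ x) (Ψ y) := by
  obtain ⟨c, hc⟩ := hconj
  let Ψ : (JI d → F) →ₗ[F] (ι → F) := (c.1).mulVecLin ∘ₗ LinearMap.funLeft F F e.symm
  have hΨ : ∀ x, Ψ x = c.1 *ᵥ (x ∘ e.symm) := fun x => rfl
  let B' := B.compl₁₂ Ψ Ψ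
  let S : Matrix (JI d) (JI d) F := LinearMap.toMatrix₂' F B'
  have hS : ∀ x y, om S x y = B (Ψ x) (Ψ y) := by
    intro x y
    have h1 : Matrix.toLinearMap₂' F S = B' := Matrix.toLinearMap₂'_toMatrix' B'
    have h2 : Matrix.toLinearMap₂' F S x y = B' x y := by rw [h1]
    rw [Matrix.toLinearMap₂'_apply'] at h2
    exact h2
  refine ⟨S, Ψ, ?_, ?_, hS⟩
  · apply unit_of_nd
    intro v hv
    have h1 : ∀ z, B (Ψ v) z = 0 := by
      intro z
      have h2 := hv (((c⁻¹ : (Matrix ι ι F)ˣ).1 *ᵥ z) ∘ e)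
      rw [hS, hΨ (((c⁻¹ : (Matrix ι ι F)ˣ).1 *ᵥ z) ∘ e)] at h2
      have h3 : (((c⁻¹ : (Matrix ι ι F)ˣ).1 *ᵥ z) ∘ e) ∘ e.symm = (c⁻¹ : (Matrix ι ι F)ˣ).1 *ᵥ z := by
        ext a
        simp
      rw [h3, mulVec_mulVec, Units.mul_inv, one_mulVec] at h2
      exact h2
    have h2 := hnd _ h1
    rw [hΨ] at h2
    have h3 : v ∘ e.symm = 0 := by
      have := congrArg (fun w => (c⁻¹ : (Matrix ι ι F)ˣ).1 *ᵥ w) h2
      simp only [mulVec_mulVec, Units.inv_mul, one_mulVec, mulVec_zero] at this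
      exact this
    ext a
    have := congrFun h3 (e a)
    simpa using this
  · intro x y
    have h1 : ∀ z, Ψ (Cfsg.jordanTypeMatrix d F *ᵥ z) = A' *ᵥ Ψ z := by
      intro z
      rw [hΨ, hΨ]
      have h2 : (Cfsg.jordanTypeMatrix d F *ᵥ z) ∘ e.symm = Matrix.reindex e e (Cfsg.jordanTypeMatrix d F) *ᵥ (z ∘ e.symm) := by
        have h3 := reindex_mulVec e (Cfsg.jordanTypeMatrix d F) (z ∘ e.symm)
        have h4 : (z ∘ e.symm) ∘ e = z := by
          ext a
          simp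
        rw [h4] at h3
        rw [← h3]
        ext a
        simp
      rw [h2, mulVec_mulVec, mulVec_mulVec]
      have : c.1 * Matrix.reindex e e (Cfsg.jordanTypeMatrix d F) = A' * c.1 := hc
      rw [this]
    rw [hS, hS, h1, h1, hA]

theorem parity_alt (B : (ι → F) →ₗ[F] (ι → F) →ₗ[F] F) (hnd : ∀ x, (∀ y, B x y = 0) → x = 0)
    (halt : ∀ v, B v v = 0)
    (e : JI d ≃ ι) (A' : Matrix ι ι F) (hA : ∀ u v, B (A' *ᵥ u) (A' *ᵥ v) = B u v)
    (hconj : IsConj (Matrix.reindex e e (Cfsg.jordanTypeMatrix d F)) A') (j : ℕ) (hj : Odd j) :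
    Even (Finset.univ.filter (fun k : Fin t => d k = j)).card := by
  obtain ⟨S, Ψ, hS, hM, hform⟩ := setup d B hnd e A' hA hconj
  have hent : ∀ a b, S a b = B (Ψ (Pi.single a 1)) (Ψ (Pi.single b 1)) := by
    intro a b
    rw [← hform, om_single_single]
  refine even_of_alt_odd d S hS hM ?_ ?_ j hj
  · intro x
    rw [hent, halt]
  · intro x y
    rw [hent, hent]
    exact Cfsg.Agent.H29.form_swap halt _ _

theorem parity_sym (B : (ι → F) →ₗ[F] (ι → F) →ₗ[F] F) (hnd : ∀ x, (∀ y, B x y = 0) → x = 0)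
    (hsym : ∀ u v, B u v = B v u) (h2 : (2 : F) ≠ 0)
    (e : JI d ≃ ι) (A' : Matrix ι ι F) (hA : ∀ u v, B (A' *ᵥ u) (A' *ᵥ v) = B u v)
    (hconj : IsConj (Matrix.reindex e e (Cfsg.jordanTypeMatrix d F)) A') (j : ℕ) (hj : Even j) (hj1 : 1 ≤ j) :
    Even (Finset.univ.filter (fun k : Fin t => d k = j)).card := by
  obtain ⟨S, Ψ, hS, hM, hform⟩ := setup d B hnd e A' hA hconj
  have hent : ∀ a b, S a b = B (Ψ (Pi.single a 1)) (Ψ (Pi.single b 1)) := by
    intro a b
    rw [← hform, om_single_single]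
  refine even_of_sym_even d S hS hM h2 ?_ j hj hj1
  intro x y
  rw [hent, hent, hsym]

theorem M_isUnit : IsUnit (Cfsg.jordanTypeMatrix d F) := by
  have h1 : Cfsg.jordanTypeMatrix d F = 1 + NN d F := by
    rw [NN]
    abel
  rw [h1]
  apply IsNilpotent.isUnit_one_add
  refine ⟨Fintype.card (JI d), ?_⟩
  apply Matrix.ext_of_mulVec_single
  intro i
  rw [NN_pow_card, zero_mulVec]

/-- the isometry from a quadratic form -/
theorem from_R₃ {n : ℕ} (hR : R₃ _ (Cfsg.jordanTypeMatrix d F)) (e : JI d ≃ Fin n) :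
    ∃ Q : QuadraticForm F (Fin n → F), (QuadraticMap.polarBilin Q).Nondegenerate ∧
      ∃ e : ((k : Fin t) × Fin (d k)) ≃ Fin n, ∃ A : ↥(Cfsg.isometryGroup F ⇑Q),
        IsConj (Matrix.reindex e e (Cfsg.jordanTypeMatrix d F)) ((A : Matrix.GeneralLinearGroup (Fin n) F) : Matrix (Fin n) (Fin n) F) := by
  obtain ⟨T, hT, hinv⟩ := hR
  let T' := Matrix.reindex e e T
  have hTu : IsUnit (T' + T'ᵀ) := by
    have := unit_reindex e _ hT
    convert this using 1
    ext a b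
    simp [T']
  let Q : QuadraticForm F (Fin n → F) := Matrix.toQuadraticForm' T'
  have hQ : ∀ x, Q x = om T' x x := by
    intro x
    show LinearMap.BilinMap.toQuadraticMap (Matrix.toLinearMap₂' F T') x = _
    rw [LinearMap.BilinMap.toQuadraticMap_apply, Matrix.toLinearMap₂'_apply']
    rfl
  have hpol : ∀ x y, QuadraticMap.polarBilin Q x y = om (T' + T'ᵀ) x y := by
    intro x y
    rw [QuadraticMap.polarBilin_apply_apply, QuadraticMap.polar, om_add_mat, om_transpose, hQ, hQ, hQ]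
    rw [om_add_left, om_add_right, om_add_right]
    ring
  refine ⟨Q, ⟨?_, ?_⟩, e, ?_⟩
  · intro x hx
    have hdet := ((Matrix.isUnit_iff_isUnit_det _).1 hTu).ne_zero
    apply Matrix.eq_zero_of_vecMul_eq_zero hdet
    ext a
    have := hx (Pi.single a 1)
    rw [hpol, om, dotProduct_mulVec] at this
    simpa using this
  · intro y hy
    have hdet := ((Matrix.isUnit_iff_isUnit_det _).1 hTu).ne_zero
    apply Matrix.eq_zero_of_mulVec_eq_zero hdet
    ext a
    have := hy (Pi.single a 1)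
    rw [hpol, om] at this
    simpa using this
  · have hU : IsUnit (Matrix.reindex e e (Cfsg.jordanTypeMatrix d F)) := unit_reindex e _ (M_isUnit d)
    refine ⟨⟨hU.unit, ?_⟩, ?_⟩
    · intro u v
      show Q (Matrix.reindex e e (Cfsg.jordanTypeMatrix d F) *ᵥ u) = Q u
      rw [hQ, hQ, om_reindex, om_reindex, reindex_mulVec, hinv]
    · show IsConj _ (hU.unit : Matrix (Fin n) (Fin n) F)
      rw [IsUnit.unit_spec]

end setup

end Cfsg.Agent.H11.JT
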