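import Mathlib
import Cfsg.Agent.Lib.H11.JT8

/-! Jordan types: the symplectic construction and the polar form. -/

set_option autoImplicit false
set_option linter.unusedSectionVars false
set_option linter.unusedVariables false

namespace Cfsg.Agent.H11.JT

open Matrix Module Cfsg.Agent.H11

variable {F : Type*} [Field F] {t : ℕ} (d : Fin t → ℕ)

theorem card_JI : Fintype.card (JI d) = ∑ k, d k := by
  simp [JI]

/-- the matrix unit attached to a linear bijection -/
theorem unit_of_equiv {ι : Type*} [Fintype ι] [DecidableEq ι] (E : (ι → F) ≃ₗ[F] (ι → F)) :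
    ∃ c : (Matrix ι ι F)ˣ, ∀ x, c.1 *ᵥ x = E x := by
  refine ⟨⟨LinearMap.toMatrix' E.toLinearMap, LinearMap.toMatrix' E.symm.toLinearMap, ?_, ?_⟩, ?_⟩
  · rw [← LinearMap.toMatrix'_comp]
    simp
  · rw [← LinearMap.toMatrix'_comp]
    simp
  · intro x
    simp [LinearMap.toMatrix'_mulVec]

theorem from_R₁ {m : ℕ} (hR : R₁ _ (Cfsg.jordanTypeMatrix d F)) (hcard : Fintype.card (JI d) = 2 * m) :
    ∃ e : ((k : Fin t) × Fin (d k)) ≃ (Fin m ⊕ Fin m), ∃ A : Matrix.symplecticGroup (Fin m) F,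
      IsConj (Matrix.reindex e e (Cfsg.jordanTypeMatrix d F)) (A : Matrix (Fin m ⊕ Fin m) (Fin m ⊕ Fin m) F) := by
  obtain ⟨S, h0, h1, hU, hM⟩ := hR
  have hdet := ((Matrix.isUnit_iff_isUnit_det _).1 hU).ne_zero
  let ω : (JI d → F) →ₗ[F] (JI d → F) →ₗ[F] F := Matrix.toLinearMap₂' F S
  have hω : ∀ x y, ω x y = om S x y := fun x y => Matrix.toLinearMap₂'_apply' S x y
  obtain ⟨Λ, hΛ⟩ := Cfsg.Agent.H11.PSpG.darboux ω (fun v => by rw [hω]; exact quad_alt S h0 h1 v) (by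
    intro u _ hu
    by_contra hcon
    push Not at hcon
    apply hu
    apply Matrix.eq_zero_of_vecMul_eq_zero hdet
    ext a
    have := hcon (Pi.single a 1) Submodule.mem_top
    rw [hω, om, dotProduct_mulVec] at this
    simpa using this) m (by rw [Module.finrank_fintype_fun_eq_card, hcard])
  have hcard2 : Fintype.card (JI d) = Fintype.card (Fin m ⊕ Fin m) := by
    rw [hcard]
    simp
    omega
  let e : JI d ≃ (Fin m ⊕ Fin m) := Fintype.equivOfCardEq hcard2
  let M := Cfsg.jordanTypeMatrix d F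
  let T : (Fin m ⊕ Fin m → F) →ₗ[F] (Fin m ⊕ Fin m → F) := Λ.symm.toLinearMap ∘ₗ M.mulVecLin ∘ₗ Λ.toLinearMap
  let A : Matrix (Fin m ⊕ Fin m) (Fin m ⊕ Fin m) F := LinearMap.toMatrix' T
  have hAv : ∀ u, A *ᵥ u = Λ.symm (M *ᵥ Λ u) := by
    intro u
    simp only [A, LinearMap.toMatrix'_mulVec]
    rfl
  have hA : A ∈ Matrix.symplecticGroup (Fin m) F := by
    apply Cfsg.Agent.H11.PSpG.mem_of_form
    intro u v
    rw [← hΛ, ← hΛ, hAv, hAv, LinearEquiv.apply_symm_apply, LinearEquiv.apply_symm_apply, hω, hω]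
    exact hM _ _
  refine ⟨e, ⟨A, hA⟩, ?_⟩
  obtain ⟨c, hc⟩ := unit_of_equiv ((LinearEquiv.funCongrLeft F F e).trans Λ.symm)
  refine ⟨c, ?_⟩
  show c.1 * Matrix.reindex e e M = A * c.1
  apply Matrix.ext_of_mulVec_single
  intro i
  rw [← mulVec_mulVec, ← mulVec_mulVec, hc, hAv, hc]
  simp only [LinearEquiv.trans_apply, LinearEquiv.apply_symm_apply]
  congr 1
  ext a
  have := congrFun (reindex_mulVec e M (Pi.single i 1)) a
  exact this

theorem polar_iso {n : ℕ} (Q : QuadraticForm F (Fin n → F)) (A : ↥(Cfsg.isometryGroup F ⇑Q)) (u v : Fin n → F) :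
    QuadraticMap.polarBilin Q (((A : Matrix.GeneralLinearGroup (Fin n) F) : Matrix (Fin n) (Fin n) F) *ᵥ u)
      (((A : Matrix.GeneralLinearGroup (Fin n) F) : Matrix (Fin n) (Fin n) F) *ᵥ v) = QuadraticMap.polarBilin Q u v := by
  have h : ∀ w, Q (((A : Matrix.GeneralLinearGroup (Fin n) F) : Matrix (Fin n) (Fin n) F) *ᵥ w) = Q w :=
    fun w => A.2 w 0
  rw [QuadraticMap.polarBilin_apply_apply, QuadraticMap.polarBilin_apply_apply, QuadraticMap.polar, QuadraticMap.polar,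
    ← mulVec_add, h, h, h]

end Cfsg.Agent.H11.JT
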