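import Mathlib

set_option autoImplicit false
set_option linter.unusedSectionVars false

namespace Cfsg.Agent.H11.Kron

open Matrix

section toeplitz

variable {K : Type*} [Field K]

/-- the inclusion in the first `k` coordinates -/
def B1 (K : Type*) [Field K] (k : ℕ) : Matrix (Fin (k + 1)) (Fin k) K :=
  fun b a => if b = a.castSucc then 1 else 0

/-- the inclusion in the last `k` coordinates -/
def B2 (K : Type*) [Field K] (k : ℕ) : Matrix (Fin (k + 1)) (Fin k) K :=
  fun b a => if b = a.succ then 1 else 0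

lemma P_mul_B1 {k : ℕ} (P : Matrix (Fin (k + 1)) (Fin (k + 1)) K) (b : Fin (k + 1)) (a : Fin k) :
    (P * B1 K k) b a = P b a.castSucc := by
  rw [Matrix.mul_apply, Finset.sum_eq_single a.castSucc]
  · simp [B1]
  · intro c _ hc
    simp [B1, hc]
  · simp

lemma P_mul_B2 {k : ℕ} (P : Matrix (Fin (k + 1)) (Fin (k + 1)) K) (b : Fin (k + 1)) (a : Fin k) :
    (P * B2 K k) b a = P b a.succ := by
  rw [Matrix.mul_apply, Finset.sum_eq_single a.succ]
  · simp [B2]
  · intro c _ hc
    simp [B2, hc]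
  · simp

lemma B1_mul_S {k : ℕ} (S : Matrix (Fin k) (Fin k) K) (a' a : Fin k) :
    (B1 K k * S) a'.castSucc a = S a' a := by
  rw [Matrix.mul_apply, Finset.sum_eq_single a']
  · simp [B1]
  · intro c _ hc
    simp [B1, Ne.symm hc]
  · simp

lemma B1_mul_S_last {k : ℕ} (S : Matrix (Fin k) (Fin k) K) (a : Fin k) :
    (B1 K k * S) (Fin.last k) a = 0 := by
  rw [Matrix.mul_apply]
  apply Finset.sum_eq_zero
  intro c _
  have : Fin.last k ≠ c.castSucc := (Fin.castSucc_lt_last c).ne'
  simp [B1, this]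

lemma B2_mul_S {k : ℕ} (S : Matrix (Fin k) (Fin k) K) (a' a : Fin k) :
    (B2 K k * S) a'.succ a = S a' a := by
  rw [Matrix.mul_apply, Finset.sum_eq_single a']
  · simp [B2]
  · intro c _ hc
    simp [B2, Ne.symm hc]
  · simp

lemma B2_mul_S_zero {k : ℕ} (S : Matrix (Fin k) (Fin k) K) (a : Fin k) :
    (B2 K k * S) 0 a = 0 := by
  rw [Matrix.mul_apply]
  apply Finset.sum_eq_zero
  intro c _
  have : (0 : Fin (k + 1)) ≠ c.succ := (Fin.succ_ne_zero c).symm
  simp [B2, this]

/-- the Toeplitz argument -/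
theorem toeplitz {k : ℕ} (P : Matrix (Fin (k + 1)) (Fin (k + 1)) K) (S : Matrix (Fin k) (Fin k) K)
    (h1 : P * B1 K k = B1 K k * S) (h2 : P * B2 K k = B2 K k * S) :
    ∃ c : K, P = c • 1 ∧ S = c • 1 := by
  have E1 : ∀ a' a : Fin k, P a'.castSucc a.castSucc = S a' a := by
    intro a' a
    rw [← P_mul_B1 P a'.castSucc a, h1, B1_mul_S]
  have E2 : ∀ a : Fin k, P (Fin.last k) a.castSucc = 0 := by
    intro a
    rw [← P_mul_B1 P (Fin.last k) a, h1, B1_mul_S_last]
  have E3 : ∀ a' a : Fin k, P a'.succ a.succ = S a' a := by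
    intro a' a
    rw [← P_mul_B2 P a'.succ a, h2, B2_mul_S]
  have E4 : ∀ a : Fin k, P 0 a.succ = 0 := by
    intro a
    rw [← P_mul_B2 P 0 a, h2, B2_mul_S_zero]
  have T : ∀ a' a : Fin k, P a'.castSucc a.castSucc = P a'.succ a.succ := fun a' a => by
    rw [E1, E3]
  -- entries below the diagonal
  have low : ∀ d i j : ℕ, i + d = k → j < i → ∀ (hi : i < k + 1) (hj : j < k + 1),
      P ⟨i, hi⟩ ⟨j, hj⟩ = 0 := by
    intro d
    induction d with
    | zero =>
      intro i j h1 h2 hi hj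
      have h3 := E2 ⟨j, by omega⟩
      have h4 : (⟨i, hi⟩ : Fin (k + 1)) = Fin.last k := by
        apply Fin.ext
        simp
        omega
      rw [h4]
      exact h3
    | succ d ih =>
      intro i j h1 h2 hi hj
      have h3 := T ⟨i, by omega⟩ ⟨j, by omega⟩
      have h4 := ih (i + 1) (j + 1) (by omega) (by omega) (by omega) (by omega)
      simp only [Fin.castSucc_mk, Fin.succ_mk] at h3
      rw [h3, h4]
  have up : ∀ i j : ℕ, i < j → ∀ (hi : i < k + 1) (hj : j < k + 1), P ⟨i, hi⟩ ⟨j, hj⟩ = 0 := by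
    intro i
    induction i with
    | zero =>
      intro j h1 hi hj
      obtain ⟨j', rfl⟩ : ∃ j', j = j' + 1 := ⟨j - 1, by omega⟩
      have h3 := E4 ⟨j', by omega⟩
      simpa [Fin.succ_mk] using h3
    | succ i ih =>
      intro j h1 hi hj
      obtain ⟨j', rfl⟩ : ∃ j', j = j' + 1 := ⟨j - 1, by omega⟩
      have h3 := T ⟨i, by omega⟩ ⟨j', by omega⟩
      have h4 := ih j' (by omega) (by omega) (by omega)
      simp only [Fin.castSucc_mk, Fin.succ_mk] at h3
      rw [← h3, h4]
  have diag : ∀ i : ℕ, ∀ (hi : i < k + 1), P ⟨i, hi⟩ ⟨i, hi⟩ = P 0 0 := by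
    intro i
    induction i with
    | zero => intro hi; rfl
    | succ i ih =>
      intro hi
      have h3 := T ⟨i, by omega⟩ ⟨i, by omega⟩
      simp only [Fin.castSucc_mk, Fin.succ_mk] at h3
      rw [← h3]
      exact ih _
  have hP : P = P 0 0 • 1 := by
    ext a b
    rw [Matrix.smul_apply, smul_eq_mul]
    rcases lt_trichotomy a.val b.val with h | h | h
    · rw [Matrix.one_apply_ne (Fin.ne_of_val_ne (by omega)), mul_zero]
      exact up a.val b.val h a.2 b.2
    · have hab : a = b := Fin.ext h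
      subst hab
      rw [Matrix.one_apply_eq, mul_one]
      exact diag a.val a.2
    · rw [Matrix.one_apply_ne (Fin.ne_of_val_ne (by omega)), mul_zero]
      exact low (k - a.val) a.val b.val (by have := a.2; omega) h a.2 b.2
  refine ⟨P 0 0, hP, ?_⟩
  ext a' a
  rw [← E1, hP]
  by_cases h : a' = a
  · subst h
    simp
  · have : a'.castSucc ≠ a.castSucc := fun h' => h (Fin.castSucc_injective _ h')
    simp [Matrix.one_apply_ne this, Matrix.one_apply_ne h]

end toeplitz

section rep

variable {K : Type*} [Field K] [DecidableEq K]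

/-- a third independent map -/
def B3 (K : Type*) [Field K] (m : ℕ) : Matrix (Fin (m + 2 + 1)) (Fin (m + 2)) K :=
  fun b a => if b.val = 2 ∧ a.val = 0 then 1 else 0

/-- the family of maps -/
def BB (m : ℕ) (u : K × K × K) : Matrix (Fin (m + 2 + 1)) (Fin (m + 2)) K :=
  u.1 • B1 K (m + 2) + u.2.1 • B2 K (m + 2) + u.2.2 • B3 K m

lemma BB_add (m : ℕ) (u v : K × K × K) : BB m (u + v) = BB m u + BB m v := by
  simp only [BB, Prod.fst_add, Prod.snd_add, add_smul]
  abel

lemma BB_zero (m : ℕ) : BB m (0 : K × K × K) = 0 := by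
  simp [BB]

lemma BB_neg (m : ℕ) (u : K × K × K) : BB m (-u) = -BB m u := by
  simp only [BB, Prod.fst_neg, Prod.snd_neg, neg_smul]
  abel

lemma BB_eq_zero (m : ℕ) {u : K × K × K} (h : BB m u = 0) : u = 0 := by
  have h0 : ∀ b a, (BB m u) b a = 0 := fun b a => by rw [h]; rfl
  have e1 := h0 0 0
  have e2 := h0 1 0
  have e3 := h0 2 0
  simp [BB, B1, B2, B3, Fin.ext_iff] at e1 e2 e3
  obtain ⟨a, b, c⟩ := u
  simp_all

/-- index set -/
abbrev Idx (m : ℕ) := Fin (m + 2 + 1) ⊕ Fin (m + 2)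

/-- unipotent elements -/
def aa (m : ℕ) (u : K × K × K) : Matrix.SpecialLinearGroup (Idx m) K :=
  ⟨fromBlocks 1 (BB m u) 0 1, by
    rw [Matrix.det_fromBlocks_zero₂₁, Matrix.det_one, Matrix.det_one, mul_one]⟩

/-- the involution -/
def tt (m : ℕ) (hm : Even m) : Matrix.SpecialLinearGroup (Idx m) K :=
  ⟨fromBlocks 1 0 0 (-1), by
    rw [Matrix.det_fromBlocks_zero₂₁, Matrix.det_one, Matrix.det_neg, Matrix.det_one, one_mul,
      mul_one, Fintype.card_fin]
    exact Even.neg_one_pow (by simpa using hm.add (even_two))⟩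

lemma aa_val (m : ℕ) (u : K × K × K) :
    ((aa m u : Matrix.SpecialLinearGroup (Idx m) K) : Matrix (Idx m) (Idx m) K) =
      fromBlocks 1 (BB m u) 0 1 := rfl

lemma tt_val (m : ℕ) (hm : Even m) :
    ((tt m hm : Matrix.SpecialLinearGroup (Idx m) K) : Matrix (Idx m) (Idx m) K) =
      fromBlocks 1 0 0 (-1) := rfl

lemma aa_add (m : ℕ) (u v : K × K × K) : aa m (u + v) = aa m u * aa m v := by
  apply Subtype.ext
  change fromBlocks 1 (BB m (u + v)) 0 1 = (fromBlocks 1 (BB m u) 0 1) * (fromBlocks 1 (BB m v) 0 1)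
  rw [Matrix.fromBlocks_multiply, BB_add]
  simp [add_comm]

lemma aa_zero (m : ℕ) : aa m (0 : K × K × K) = 1 := by
  apply Subtype.ext
  change fromBlocks 1 (BB m 0) 0 1 = 1
  rw [BB_zero, Matrix.fromBlocks_one]

lemma tt_mul_tt (m : ℕ) (hm : Even m) : (tt m hm : Matrix.SpecialLinearGroup (Idx m) K) * tt m hm = 1 := by
  apply Subtype.ext
  change fromBlocks 1 0 0 (-1) * fromBlocks 1 0 0 (-1) = (1 : Matrix (Idx m) (Idx m) K)
  rw [Matrix.fromBlocks_multiply]
  simp [Matrix.fromBlocks_one]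

lemma tt_conj (m : ℕ) (hm : Even m) (u : K × K × K) :
    (tt m hm : Matrix.SpecialLinearGroup (Idx m) K) * aa m u * (tt m hm)⁻¹ = aa m (-u) := by
  have h1 : (tt m hm : Matrix.SpecialLinearGroup (Idx m) K)⁻¹ = tt m hm :=
    inv_eq_of_mul_eq_one_left (tt_mul_tt m hm)
  rw [h1]
  apply Subtype.ext
  change fromBlocks 1 0 0 (-1) * fromBlocks 1 (BB m u) 0 1 * fromBlocks 1 0 0 (-1) =
    (fromBlocks 1 (BB m (-u)) 0 1 : Matrix (Idx m) (Idx m) K)
  rw [Matrix.fromBlocks_multiply, Matrix.fromBlocks_multiply, BB_neg]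
  simp

/-- the key rigidity statement -/
theorem scalar_of_conj (h2 : (2 : K) ≠ 0) (m : ℕ) (hm : Even m)
    (X : Matrix.SpecialLinearGroup (Idx m) K)
    (hT : ∃ c : K, (X : Matrix (Idx m) (Idx m) K) * (tt m hm : Matrix.SpecialLinearGroup (Idx m) K)
      = c • ((tt m hm : Matrix.SpecialLinearGroup (Idx m) K) : Matrix (Idx m) (Idx m) K) * X)
    (hA : ∀ u : K × K × K, ∃ c : K, (X : Matrix (Idx m) (Idx m) K) * (aa m u : Matrix.SpecialLinearGroup (Idx m) K)
      = c • ((aa m u : Matrix.SpecialLinearGroup (Idx m) K) : Matrix (Idx m) (Idx m) K) * X) :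
    ∃ c : K, (X : Matrix (Idx m) (Idx m) K) = c • 1 := by
  obtain ⟨c, hc⟩ := hT
  have hX1 : (((X⁻¹ : Matrix.SpecialLinearGroup (Idx m) K)) : Matrix (Idx m) (Idx m) K) * X = 1 := by
    rw [← Matrix.SpecialLinearGroup.coe_mul, inv_mul_cancel, Matrix.SpecialLinearGroup.coe_one]
  have hX2 : (X : Matrix (Idx m) (Idx m) K) * ((X⁻¹ : Matrix.SpecialLinearGroup (Idx m) K)) = 1 := by
    rw [← Matrix.SpecialLinearGroup.coe_mul, mul_inv_cancel, Matrix.SpecialLinearGroup.coe_one]
  -- the scalar is one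
  have htr : Matrix.trace ((tt m hm : Matrix.SpecialLinearGroup (Idx m) K) : Matrix (Idx m) (Idx m) K) = 1 := by
    rw [tt_val]
    simp [Matrix.trace, Fintype.sum_sum_type]
    ring
  have hc1 : c = 1 := by
    have h3 : (X : Matrix (Idx m) (Idx m) K) * (tt m hm : Matrix.SpecialLinearGroup (Idx m) K) *
        ((X⁻¹ : Matrix.SpecialLinearGroup (Idx m) K)) =
        c • ((tt m hm : Matrix.SpecialLinearGroup (Idx m) K) : Matrix (Idx m) (Idx m) K) := by
      rw [hc, Matrix.mul_assoc, hX2, Matrix.mul_one]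
    have h4 := congrArg Matrix.trace h3
    rw [Matrix.trace_mul_cycle, hX1, Matrix.one_mul, Matrix.trace_smul, htr] at h4
    simpa using h4.symm
  subst hc1
  rw [one_smul] at hc
  -- blocks
  obtain ⟨P, Q, R, S, hX⟩ : ∃ P Q R S, (X : Matrix (Idx m) (Idx m) K) = fromBlocks P Q R S :=
    ⟨_, _, _, _, (Matrix.fromBlocks_toBlocks _).symm⟩
  rw [hX, tt_val, Matrix.fromBlocks_multiply, Matrix.fromBlocks_multiply] at hc
  simp only [Matrix.mul_zero, add_zero, Matrix.zero_mul, zero_add, Matrix.mul_one, Matrix.one_mul,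
    Matrix.mul_neg, Matrix.neg_mul] at hc
  obtain ⟨-, hQ, hR, -⟩ := Matrix.fromBlocks_inj.1 hc
  have hQ0 : Q = 0 := by
    ext i j
    have := congrFun (congrFun hQ i) j
    simp only [Matrix.neg_apply] at this
    have h5 : 2 * Q i j = 0 := by linear_combination -this
    simpa using (mul_eq_zero.1 h5).resolve_left h2
  have hR0 : R = 0 := by
    ext i j
    have := congrFun (congrFun hR i) j
    simp only [Matrix.neg_apply] at this
    have h5 : 2 * R i j = 0 := by linear_combination this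
    simpa using (mul_eq_zero.1 h5).resolve_left h2
  subst hQ0 hR0
  have hdet : (P.det) * (S.det) = 1 := by
    have := X.2
    rw [hX, Matrix.det_fromBlocks_zero₂₁] at this
    exact this
  have hP0 : P ≠ 0 := by
    rintro rfl
    rw [Matrix.det_zero, zero_mul] at hdet
    exact zero_ne_one hdet
  have key : ∀ u : K × K × K, P * BB m u = BB m u * S := by
    intro u
    obtain ⟨c, hc'⟩ := hA u
    rw [hX, aa_val, Matrix.smul_mul, Matrix.fromBlocks_multiply, Matrix.fromBlocks_multiply,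
      Matrix.fromBlocks_smul] at hc'
    simp only [Matrix.mul_zero, add_zero, Matrix.zero_mul, zero_add, Matrix.mul_one, Matrix.one_mul] at hc'
    obtain ⟨h6, h7, -, -⟩ := Matrix.fromBlocks_inj.1 hc'
    have hc1 : c = 1 := by
      by_contra hne
      apply hP0
      ext i j
      have h8 := congrFun (congrFun h6 i) j
      simp only [Matrix.smul_apply, smul_eq_mul, Matrix.zero_apply] at h8 ⊢
      have h9 : (1 - c) * P i j = 0 := by linear_combination h8
      exact (mul_eq_zero.1 h9).resolve_left (sub_ne_zero.2 (Ne.symm hne))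
    subst hc1
    rw [one_smul] at h7
    exact h7
  have hB1 := key (1, 0, 0)
  have hB2 := key (0, 1, 0)
  have e1 : BB m ((1, 0, 0) : K × K × K) = B1 K (m + 2) := by simp [BB]
  have e2 : BB m ((0, 1, 0) : K × K × K) = B2 K (m + 2) := by simp [BB]
  rw [e1] at hB1
  rw [e2] at hB2
  obtain ⟨c, hP, hS⟩ := toeplitz P S hB1 hB2
  refine ⟨c, ?_⟩
  rw [hX, hP, hS, ← Matrix.fromBlocks_one, Matrix.fromBlocks_smul]
  simp

end rep

section main

open scoped Pointwise

variable (p : ℕ) [Fact p.Prime]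

/-- the abelian normal subgroup -/
abbrev AA := Multiplicative (ZMod p × ZMod p × ZMod p)

/-- the inversion action -/
def phi0 : ℤˣ →* MulAut (AA p) where
  toFun u := if u = 1 then 1 else MulEquiv.inv (AA p)
  map_one' := by simp
  map_mul' := by
    intro a b
    rcases Int.units_eq_one_or a with rfl | rfl <;> rcases Int.units_eq_one_or b with rfl | rfl
    · simp
    · simp
    · simp
    · have h1 : ((-1 : ℤˣ) = 1) = False := by simp
      have h2 : (-1 : ℤˣ) * -1 = 1 := by simp
      rw [h2, if_pos rfl, if_neg (by simp)]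
      apply MulEquiv.ext
      intro x
      change x = (x⁻¹)⁻¹
      rw [inv_inv]

/-- the group of order `2 p^3` -/
abbrev HH := AA p ⋊[phi0 p] ℤˣ

instance : Finite (HH p) := Finite.of_equiv _ (SemidirectProduct.equivProd (N := AA p) (G := ℤˣ) (φ := phi0 p)).symm

lemma card_HH : Nat.card (HH p) = 2 * p ^ 3 := by
  rw [Nat.card_congr (SemidirectProduct.equivProd (N := AA p) (G := ℤˣ) (φ := phi0 p)),
    Nat.card_prod]
  have h1 : Nat.card (AA p) = p ^ 3 := by
    change Nat.card (ZMod p × ZMod p × ZMod p) = p ^ 3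
    rw [Nat.card_prod, Nat.card_prod, Nat.card_zmod]
    ring
  have h2 : Nat.card ℤˣ = 2 := by simp
  rw [h1, h2, mul_comm]

variable {p}

/-- action of the normal subgroup -/
def f1 (m : ℕ) : AA p →* Matrix.SpecialLinearGroup (Idx m) (ZMod p) where
  toFun u := aa m (Multiplicative.toAdd u)
  map_one' := aa_zero m
  map_mul' a b := aa_add m _ _

/-- action of the complement -/
def f2 (m : ℕ) (hm : Even m) : ℤˣ →* Matrix.SpecialLinearGroup (Idx m) (ZMod p) where
  toFun u := if u = 1 then 1 else tt m hm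
  map_one' := by simp
  map_mul' := by
    intro a b
    rcases Int.units_eq_one_or a with rfl | rfl <;> rcases Int.units_eq_one_or b with rfl | rfl
    · simp
    · simp
    · simp
    · have h2 : (-1 : ℤˣ) * -1 = 1 := by simp
      rw [h2, if_pos rfl, if_neg (by simp), tt_mul_tt]

/-- the representation -/
def rho (m : ℕ) (hm : Even m) : HH p →* Matrix.SpecialLinearGroup (Idx m) (ZMod p) :=
  SemidirectProduct.lift (f1 m) (f2 m hm) (by
    intro g
    rcases Int.units_eq_one_or g with rfl | rfl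
    · ext u
      simp
    · apply MonoidHom.ext
      intro u
      have h1 : f2 (p := p) m hm (-1) = tt m hm := by
        change (if (-1 : ℤˣ) = 1 then (1 : Matrix.SpecialLinearGroup (Idx m) (ZMod p)) else tt m hm) = tt m hm
        rw [if_neg (by decide)]
      have h2 : phi0 p (-1) = MulEquiv.inv (AA p) := by
        change (if (-1 : ℤˣ) = 1 then (1 : MulAut (AA p)) else MulEquiv.inv (AA p)) = MulEquiv.inv (AA p)
        rw [if_neg (by decide)]
      simp only [MonoidHom.comp_apply, MulEquiv.coe_toMonoidHom, MulAut.conj_apply, h1, h2]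
      change aa m (Multiplicative.toAdd u⁻¹) = _
      rw [toAdd_inv, ← tt_conj m hm]
      rfl)

lemma rho_apply (m : ℕ) (hm : Even m) (n : AA p) (g : ℤˣ) :
    rho m hm (⟨n, g⟩ : HH p) = f1 m n * f2 m hm g := rfl

lemma f2_neg (m : ℕ) (hm : Even m) : f2 (p := p) m hm (-1) = tt m hm := by
  change (if (-1 : ℤˣ) = 1 then (1 : Matrix.SpecialLinearGroup (Idx m) (ZMod p)) else tt m hm) = tt m hm
  rw [if_neg (by decide)]

lemma f2_one (m : ℕ) (hm : Even m) : f2 (p := p) m hm 1 = 1 := map_one _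

lemma scalar_of_center {ι : Type*} [Fintype ι] [DecidableEq ι]
    {A : Matrix.SpecialLinearGroup ι (ZMod p)} (h : A ∈ Subgroup.center _) :
    ∃ c : ZMod p, (A : Matrix ι ι (ZMod p)) = c • 1 := by
  obtain ⟨r, -, hr⟩ := Matrix.SpecialLinearGroup.mem_center_iff.1 h
  refine ⟨r, ?_⟩
  rw [← hr]
  ext i j
  simp [Matrix.scalar_apply, Matrix.one_apply, Matrix.diagonal_apply]

lemma center_of_scalar {ι : Type*} [Fintype ι] [DecidableEq ι]
    {A : Matrix.SpecialLinearGroup ι (ZMod p)} (h : ∃ c : ZMod p, (A : Matrix ι ι (ZMod p)) = c • 1) :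
    A ∈ Subgroup.center _ := by
  obtain ⟨c, hc⟩ := h
  rw [Subgroup.mem_center_iff]
  intro g
  apply Subtype.ext
  rw [Matrix.SpecialLinearGroup.coe_mul, Matrix.SpecialLinearGroup.coe_mul, hc]
  simp [Matrix.mul_smul, Matrix.smul_mul]

/-- injectivity modulo scalars -/
lemma rho_center (h2 : (2 : ZMod p) ≠ 0) (m : ℕ) (hm : Even m) (h : HH p)
    (hz : rho m hm h ∈ Subgroup.center _) : h = 1 := by
  obtain ⟨c, hc⟩ := scalar_of_center hz
  obtain ⟨n, g⟩ := h
  rw [rho_apply] at hc
  rcases Int.units_eq_one_or g with rfl | rfl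
  · rw [f2_one, mul_one] at hc
    change fromBlocks 1 (BB m (Multiplicative.toAdd n)) 0 1 = c • (1 : Matrix (Idx m) (Idx m) (ZMod p)) at hc
    rw [← Matrix.fromBlocks_one, Matrix.fromBlocks_smul] at hc
    obtain ⟨-, h3, -, -⟩ := Matrix.fromBlocks_inj.1 hc
    have h4 : BB m (Multiplicative.toAdd n) = 0 := by simpa using h3
    have h5 := BB_eq_zero m h4
    have h6 : n = 1 := h5
    subst h6
    rfl
  · rw [f2_neg] at hc
    change (fromBlocks 1 (BB m (Multiplicative.toAdd n)) 0 1 * fromBlocks 1 0 0 (-1) :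
      Matrix (Idx m) (Idx m) (ZMod p)) = c • (1 : Matrix (Idx m) (Idx m) (ZMod p)) at hc
    rw [Matrix.fromBlocks_multiply, ← Matrix.fromBlocks_one, Matrix.fromBlocks_smul] at hc
    obtain ⟨h3, -, -, h4⟩ := Matrix.fromBlocks_inj.1 hc
    have e1 := congrFun (congrFun h3 0) 0
    have e2 := congrFun (congrFun h4 0) 0
    simp at e1 e2
    exfalso
    apply h2
    rw [← e1] at e2
    linear_combination -e2

/-- reindexing -/
def EE {α β : Type*} [Fintype α] [DecidableEq α] [Fintype β] [DecidableEq β] (e : α ≃ β) :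
    Matrix.SpecialLinearGroup α (ZMod p) ≃* Matrix.SpecialLinearGroup β (ZMod p) where
  toFun g := ⟨g.1.submatrix e.symm e.symm, by
    rw [Matrix.det_submatrix_equiv_self]; exact g.2⟩
  invFun g := ⟨g.1.submatrix e e, by
    rw [Matrix.det_submatrix_equiv_self]; exact g.2⟩
  left_inv g := by
    apply Subtype.ext
    ext i j
    simp
  right_inv g := by
    apply Subtype.ext
    ext i j
    simp
  map_mul' g h := Subtype.ext (by
    change (g.1 * h.1).submatrix e.symm e.symm = g.1.submatrix e.symm e.symm * h.1.submatrix e.symm e.symm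
    rw [Matrix.submatrix_mul_equiv])

theorem main_thm (hp : p ≠ 2) :
    ∃ (H : Type) (_ : Group H) (_ : Finite H), Nat.card H = 2 * p ^ 3 ∧
      ∀ N : ℕ, ∃ n, N ≤ n ∧ ∃ φ : H →* Matrix.ProjectiveSpecialLinearGroup (Fin n) (ZMod p),
        Function.Injective φ ∧ Subgroup.centralizer (φ.range : Set (Matrix.ProjectiveSpecialLinearGroup (Fin n) (ZMod p))) = ⊥ := by
  have h2 : (2 : ZMod p) ≠ 0 := by
    intro h
    have h3 : ((2 : ℕ) : ZMod p) = 0 := by exact_mod_cast h
    rw [ZMod.natCast_eq_zero_iff] at h3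
    have h4 := (Nat.prime_dvd_prime_iff_eq (Fact.out) Nat.prime_two).1 h3
    exact hp h4
  refine ⟨HH p, inferInstance, inferInstance, card_HH p, ?_⟩
  intro N
  let m := 2 * N
  have hm : Even m := even_two_mul N
  let e : Idx m ≃ Fin (m + 2 + 1 + (m + 2)) := finSumFinEquiv
  let E := EE (p := p) e
  let π := QuotientGroup.mk' (Subgroup.center (Matrix.SpecialLinearGroup (Fin (m + 2 + 1 + (m + 2))) (ZMod p)))
  have hEz : ∀ A, E A ∈ Subgroup.center _ ↔ A ∈ Subgroup.center _ := by
    intro A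
    rw [Subgroup.mem_center_iff, Subgroup.mem_center_iff]
    constructor
    · intro h g
      apply E.injective
      rw [map_mul, map_mul]
      exact h _
    · intro h g
      obtain ⟨g', rfl⟩ := E.surjective g
      rw [← map_mul, ← map_mul, h]
  refine ⟨m + 2 + 1 + (m + 2), by omega, π.comp (E.toMonoidHom.comp (rho m hm)), ?_, ?_⟩
  · rw [injective_iff_map_eq_one]
    intro h hh
    apply rho_center h2 m hm
    rw [← hEz]
    exact (QuotientGroup.eq_one_iff _).1 hh
  · rw [eq_bot_iff]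
    intro x hx
    obtain ⟨Y, rfl⟩ := QuotientGroup.mk_surjective x
    obtain ⟨X, rfl⟩ := E.surjective Y
    rw [Subgroup.mem_bot, QuotientGroup.eq_one_iff, hEz]
    apply center_of_scalar
    have hconj : ∀ h : HH p, ∃ c : ZMod p, (X : Matrix (Idx m) (Idx m) (ZMod p)) * (rho m hm h : Matrix.SpecialLinearGroup (Idx m) (ZMod p))
        = c • ((rho m hm h : Matrix.SpecialLinearGroup (Idx m) (ZMod p)) : Matrix (Idx m) (Idx m) (ZMod p)) * X := by
      intro h
      have h3 := (Subgroup.mem_centralizer_iff.1 hx) (π (E (rho m hm h))) ⟨h, rfl⟩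
      have h4 : (QuotientGroup.mk (E (rho m hm h) * E X) :
          Matrix.SpecialLinearGroup (Fin (m + 2 + 1 + (m + 2))) (ZMod p) ⧸ Subgroup.center (Matrix.SpecialLinearGroup (Fin (m + 2 + 1 + (m + 2))) (ZMod p))) =
          QuotientGroup.mk (E X * E (rho m hm h)) := h3
      rw [QuotientGroup.eq, ← map_mul, ← map_inv, ← map_mul, ← map_mul, hEz] at h4
      obtain ⟨c, hc⟩ := scalar_of_center h4
      refine ⟨c, ?_⟩
      have h5 : X * rho m hm h = (rho m hm h) * X * ((rho m hm h * X)⁻¹ * (X * rho m hm h)) := by group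
      have h6 := congrArg (fun z : Matrix.SpecialLinearGroup (Idx m) (ZMod p) => (z : Matrix (Idx m) (Idx m) (ZMod p))) h5
      simp only [Matrix.SpecialLinearGroup.coe_mul] at h6
      rw [Matrix.SpecialLinearGroup.coe_mul, Matrix.SpecialLinearGroup.coe_mul X] at hc
      rw [h6, hc]
      simp [Matrix.mul_smul, Matrix.smul_mul, Matrix.mul_assoc]
    apply scalar_of_conj h2 m hm X
    · have h3 : rho m hm (⟨1, -1⟩ : HH p) = tt m hm := by
        rw [rho_apply, f2_neg, map_one, one_mul]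
      rw [← h3]
      exact hconj _
    · intro u
      have h3 : rho m hm (⟨Multiplicative.ofAdd u, 1⟩ : HH p) = aa m u := by
        rw [rho_apply, f2_one, mul_one]
        rfl
      rw [← h3]
      exact hconj _

end main

end Cfsg.Agent.H11.Kron
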