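import Mathlib
import Cfsg.Prelude.Def_Classical
import Cfsg.Agent.Lib.Lead.OrthoOrder

/-! The orthogonal group `O⁺₄(2)`. -/

namespace Cfsg.Agent.H11.O42

open Equiv Matrix

/-- coordinates of the three nonzero vectors of the plane -/
def c1 : Fin 3 → ZMod 2 := ![1, 0, 1]
def c2 : Fin 3 → ZMod 2 := ![0, 1, 1]

abbrev Ix := Fin 2 ⊕ Fin 2

/-- left multiplication on two by two matrices, by the image of a permutation -/
def aM (σ : Perm (Fin 3)) : Matrix Ix Ix (ZMod 2) :=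
  let p := c1 (σ 0)
  let q := c1 (σ 1)
  let r := c2 (σ 0)
  let s := c2 (σ 1)
  Matrix.fromBlocks !![p, 0; 0, p] !![0, q; q, 0] !![0, r; r, 0] !![s, 0; 0, s]

/-- the transposition -/
def gM : Matrix Ix Ix (ZMod 2) :=
  Matrix.fromBlocks !![1, 0; 0, 0] !![0, 0; 0, 1] !![0, 0; 0, 1] !![1, 0; 0, 0]

theorem aM_mul : ∀ σ τ : Perm (Fin 3), aM (σ * τ) = aM σ * aM τ := by
  decide +kernel

theorem aM_one : aM 1 = 1 := by
  decide +kernel

theorem gM_sq : gM * gM = 1 := by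
  decide +kernel

theorem aM_inj : ∀ σ τ : Perm (Fin 3), aM σ = aM τ → σ = τ := by
  decide +kernel

theorem comm_ab : ∀ σ τ : Perm (Fin 3), aM σ * (gM * aM τ * gM) = (gM * aM τ * gM) * aM σ := by
  decide +kernel

theorem inter_ab : ∀ σ τ : Perm (Fin 3), aM σ = gM * aM τ * gM → σ = 1 := by
  decide +kernel

theorem aM_iso : ∀ (σ : Perm (Fin 3)) (x0 x1 y0 y1 : ZMod 2),
    (aM σ *ᵥ (Sum.elim ![x0, x1] ![y0, y1])) (Sum.inl 0) * (aM σ *ᵥ (Sum.elim ![x0, x1] ![y0, y1])) (Sum.inr 0) +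
    (aM σ *ᵥ (Sum.elim ![x0, x1] ![y0, y1])) (Sum.inl 1) * (aM σ *ᵥ (Sum.elim ![x0, x1] ![y0, y1])) (Sum.inr 1) =
    x0 * y0 + x1 * y1 := by
  decide +kernel

theorem gM_iso : ∀ (x0 x1 y0 y1 : ZMod 2),
    (gM *ᵥ (Sum.elim ![x0, x1] ![y0, y1])) (Sum.inl 0) * (gM *ᵥ (Sum.elim ![x0, x1] ![y0, y1])) (Sum.inr 0) +
    (gM *ᵥ (Sum.elim ![x0, x1] ![y0, y1])) (Sum.inl 1) * (gM *ᵥ (Sum.elim ![x0, x1] ![y0, y1])) (Sum.inr 1) =
    x0 * y0 + x1 * y1 := by
  decide +kernel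

abbrev QQ : (Ix → ZMod 2) → ZMod 2 := Cfsg.quadFormPlus 2 (ZMod 2)

abbrev OO := Cfsg.isometryGroup (ZMod 2) QQ

theorem split_vec (u : Ix → ZMod 2) :
    u = Sum.elim ![u (Sum.inl 0), u (Sum.inl 1)] ![u (Sum.inr 0), u (Sum.inr 1)] := by
  funext i
  rcases i with i | i <;> fin_cases i <;> rfl

theorem QQ_apply (u : Ix → ZMod 2) :
    QQ u = u (Sum.inl 0) * u (Sum.inr 0) + u (Sum.inl 1) * u (Sum.inr 1) := by
  simp [QQ, Cfsg.quadFormPlus, Fin.sum_univ_two]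

/-- The units. -/
def aU (σ : Perm (Fin 3)) : GL Ix (ZMod 2) :=
  ⟨aM σ, aM σ⁻¹, by rw [← aM_mul, mul_inv_cancel, aM_one], by rw [← aM_mul, inv_mul_cancel, aM_one]⟩

def gU : GL Ix (ZMod 2) := ⟨gM, gM, gM_sq, gM_sq⟩

theorem aU_mem (σ : Perm (Fin 3)) : aU σ ∈ OO := by
  intro u v
  change QQ (aM σ *ᵥ u) = QQ u
  rw [QQ_apply, QQ_apply]
  conv_lhs => rw [split_vec u]
  exact aM_iso σ _ _ _ _

theorem gU_mem : gU ∈ OO := by
  intro u v
  change QQ (gM *ᵥ u) = QQ u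
  rw [QQ_apply, QQ_apply]
  conv_lhs => rw [split_vec u]
  exact gM_iso _ _ _ _

/-- the embedding -/
def aH : Perm (Fin 3) →* OO where
  toFun σ := ⟨aU σ, aU_mem σ⟩
  map_one' := by
    apply Subtype.ext
    apply Units.ext
    exact aM_one
  map_mul' σ τ := by
    apply Subtype.ext
    apply Units.ext
    exact aM_mul σ τ

def gO : OO := ⟨gU, gU_mem⟩

theorem aH_val (σ : Perm (Fin 3)) : ((aH σ : OO).1.1 : Matrix Ix Ix (ZMod 2)) = aM σ := rfl

theorem gO_val : (gO.1.1 : Matrix Ix Ix (ZMod 2)) = gM := rfl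

theorem gO_inv_val : ((gO⁻¹ : OO).1.1 : Matrix Ix Ix (ZMod 2)) = gM := rfl

theorem aH_inj : Function.Injective aH := by
  intro σ τ h
  apply aM_inj
  rw [← aH_val, ← aH_val, h]

/-- the other factor -/
noncomputable def bH : Perm (Fin 3) →* OO := (MulAut.conj gO).toMonoidHom.comp aH

theorem bH_val (σ : Perm (Fin 3)) : ((bH σ : OO).1.1 : Matrix Ix Ix (ZMod 2)) = gM * aM σ * gM := rfl

theorem bH_inj : Function.Injective bH :=
  (MulAut.conj gO).injective.comp aH_inj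

theorem comm_H (σ τ : Perm (Fin 3)) : Commute (aH σ) (bH τ) := by
  apply Subtype.ext
  apply Units.ext
  exact comm_ab σ τ

theorem main :
    Nat.card OO = 72 ∧
    ∃ (A B : Subgroup OO),
      Nonempty (↥A ≃* Equiv.Perm (Fin 3)) ∧ Nonempty (↥B ≃* Equiv.Perm (Fin 3)) ∧ A ⊓ B = ⊥ ∧ (∀ a ∈ A, ∀ b ∈ B, a * b = b * a) ∧
      (A ⊔ B).index = 2 ∧ ∃ g : OO, A.map (MulAut.conj g).toMonoidHom = B := by
  have hcard : Nat.card OO = 72 := by
    have := Cfsg.Agent.Lead.Ortho.card_GO_plus (F := ZMod 2) (q := 2) (ZMod.card 2) 2 (by norm_num)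
    rw [this]
    decide
  refine ⟨hcard, aH.range, bH.range, ⟨(MonoidHom.ofInjective aH_inj).symm⟩, ⟨(MonoidHom.ofInjective bH_inj).symm⟩, ?_, ?_, ?_, gO, ?_⟩
  · rw [eq_bot_iff]
    rintro x ⟨⟨σ, rfl⟩, ⟨τ, hτ⟩⟩
    have h1 : aM σ = gM * aM τ * gM := by
      rw [← aH_val, ← hτ, bH_val]
    rw [inter_ab σ τ h1, map_one]
    exact Subgroup.one_mem _
  · rintro _ ⟨σ, rfl⟩ _ ⟨τ, rfl⟩
    exact comm_H σ τ
  · have hr : (MonoidHom.noncommCoprod aH bH comm_H).range = aH.range ⊔ bH.range :=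
      MonoidHom.noncommCoprod_range aH bH comm_H
    have hinj : Function.Injective (MonoidHom.noncommCoprod aH bH comm_H) := by
      rw [injective_iff_map_eq_one]
      rintro ⟨σ, τ⟩ h
      have h1 : aH σ * bH τ = 1 := h
      have h2 : aH σ = bH τ⁻¹ := by
        rw [map_inv]
        exact eq_inv_of_mul_eq_one_left h1
      have h3 : aM σ = gM * aM τ⁻¹ * gM := by
        rw [← aH_val, h2, bH_val]
      have h4 : σ = 1 := inter_ab σ τ⁻¹ h3
      subst h4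
      rw [map_one, one_mul] at h1
      have h5 : τ = 1 := bH_inj (by rw [h1, map_one])
      rw [h5]
      rfl
    have hc : Nat.card (aH.range ⊔ bH.range : Subgroup OO) = 36 := by
      rw [← hr, Nat.card_congr (MonoidHom.ofInjective hinj).toEquiv.symm, Nat.card_prod]
      have : Nat.card (Perm (Fin 3)) = 6 := by
        rw [Nat.card_eq_fintype_card, Fintype.card_perm]
        decide
      rw [this]
    have hi := Subgroup.card_mul_index (aH.range ⊔ bH.range : Subgroup OO)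
    rw [hc, hcard] at hi
    omega
  · rw [MonoidHom.range_eq_map, MonoidHom.range_eq_map, bH, ← Subgroup.map_map]

end Cfsg.Agent.H11.O42
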