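import Mathlib
import Cfsg.Agent.Lib.H03.OGen
import Cfsg.Agent.Lib.H03.ODick
import Cfsg.Agent.Lib.H11.Ortho
import Cfsg.Agent.Lib.H11.Spin4
import Cfsg.Agent.Lib.H11.MTS5

/-! Orthogonal sums of quadratic forms and the commutator subgroups of the isometry groups. -/

set_option autoImplicit false
set_option linter.unusedSectionVars false
set_option linter.unusedVariables false

namespace Cfsg.Agent.H11.OSum

open Cfsg Matrix Module QuadraticMap
open Cfsg.Agent.H03.OGen
open Cfsg.Agent.H03 (reflection_mulVec)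
open scoped commutatorElement

section evendim

universe u v
variable {F : Type v} [Field F]

/-- a quadratic form in characteristic two with nondegenerate polar form has even dimension -/
theorem even_finrank (h2 : (2 : F) = 0) : ∀ (n : ℕ) (V : Type u) [AddCommGroup V] [Module F V]
    [FiniteDimensional F V] (Q : QuadraticForm F V), finrank F V = n →
    (polarBilin Q).Nondegenerate → Even n := by
  intro n
  induction n using Nat.strong_induction_on with
  | _ n ih =>
    intro V _ _ _ Q hV hQ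
    rcases Nat.eq_zero_or_pos n with rfl | hn
    · exact Even.zero
    · obtain ⟨v, hv⟩ : ∃ v : V, v ≠ 0 := by
        haveI : Nontrivial V := Module.finrank_pos_iff.1 (hV ▸ hn)
        exact exists_ne 0
      obtain ⟨y, hy⟩ := Cfsg.Agent.H11.exists_polar_ne hQ hv
      let w : V := (polar Q v y)⁻¹ • y
      have hvw : polar Q v w = 1 := by
        simp only [w]
        rw [polar_smul_right, smul_eq_mul, inv_mul_cancel₀ hy]
      have hwv : polar Q w v = 1 := by rw [polar_comm]; exact hvw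
      have hvv : polar Q v v = 0 := by rw [polar_self', h2, zero_mul]
      have hww : polar Q w w = 0 := by rw [polar_self', h2, zero_mul]
      let U := perp2 Q v w
      have hU : ∀ x, x ∈ U ↔ ∀ s ∈ ({v, w} : Set V), polar Q s x = 0 := by
        intro x
        simp [U, mem_perp2]
      have hsup : Submodule.span F ({v, w} : Set V) ⊔ U = ⊤ := by
        rw [eq_top_iff]
        intro x _
        have e : x = (polar Q w x • v + polar Q v x • w) + (x - (polar Q w x • v + polar Q v x • w)) := by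
          abel
        rw [e]
        apply Submodule.add_mem_sup
        · exact Submodule.add_mem _ (Submodule.smul_mem _ _ (Submodule.subset_span (by simp)))
            (Submodule.smul_mem _ _ (Submodule.subset_span (by simp)))
        · rw [hU]
          intro s hs
          simp only [Set.mem_insert_iff, Set.mem_singleton_iff] at hs
          rcases hs with rfl | rfl
          · rw [polar_sub_right, polar_add_right, polar_smul_right, polar_smul_right, hvv, hvw]
            simp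
          · rw [polar_sub_right, polar_add_right, polar_smul_right, polar_smul_right, hww, hwv]
            simp
      have hfr : finrank F U + 2 = n := by
        rw [← hV]
        exact finrank_perp2 Q v w w v hvw hww hvv hwv
      have hnd := sub_nondeg hQ {v, w} U hU hsup
      have h3 := ih (finrank F U) (by omega) U (Q.comp U.subtype) rfl hnd
      rw [← hfr]
      exact h3.add (by decide)

end evendim

variable {F : Type*} [Field F] {k l : ℕ}

/-- the orthogonal sum of two quadratic forms -/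
noncomputable def sumForm (Q₁ : QuadraticForm F (Fin k → F)) (Q₂ : QuadraticForm F (Fin l → F)) :
    QuadraticForm F (Fin k ⊕ Fin l → F) :=
  Q₁.comp (LinearMap.funLeft F F Sum.inl) + Q₂.comp (LinearMap.funLeft F F Sum.inr)

variable (Q₁ : QuadraticForm F (Fin k → F)) (Q₂ : QuadraticForm F (Fin l → F))

lemma sumForm_coe : ⇑(sumForm Q₁ Q₂) = fun v : Fin k ⊕ Fin l → F => Q₁ (v ∘ Sum.inl) + Q₂ (v ∘ Sum.inr) := rfl

lemma polar_sum (x y : Fin k ⊕ Fin l → F) :
    polar (sumForm Q₁ Q₂) x y = polar Q₁ (x ∘ Sum.inl) (y ∘ Sum.inl) + polar Q₂ (x ∘ Sum.inr) (y ∘ Sum.inr) := by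
  unfold polar
  simp only [sumForm_coe]
  have e1 : (x + y) ∘ Sum.inl = x ∘ Sum.inl + y ∘ Sum.inl := rfl
  have e2 : (x + y) ∘ Sum.inr = x ∘ Sum.inr + y ∘ Sum.inr := rfl
  rw [e1, e2]
  ring

lemma sum_nondeg (h₁ : (polarBilin Q₁).Nondegenerate) (h₂ : (polarBilin Q₂).Nondegenerate) :
    (polarBilin (sumForm Q₁ Q₂)).Nondegenerate := by
  apply Cfsg.Agent.H11.nondeg_of_left
  intro x h
  have hl : x ∘ Sum.inl = 0 := by
    apply h₁.1
    intro y
    have := h (Sum.elim y 0)
    rw [polar_sum, Sum.elim_comp_inl, Sum.elim_comp_inr] at this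
    simpa using this
  have hr : x ∘ Sum.inr = 0 := by
    apply h₂.1
    intro y
    have := h (Sum.elim 0 y)
    rw [polar_sum, Sum.elim_comp_inl, Sum.elim_comp_inr] at this
    simpa using this
  funext i
  rcases i with i | i
  · exact congrFun hl i
  · exact congrFun hr i

/-- the squares lie in the commutator subgroup -/
theorem sq_mem_omega {ι : Type} [Fintype ι] [DecidableEq ι] [Fintype F] (Q : QuadraticForm F (ι → F))
    (hQ : (polarBilin Q).Nondegenerate) (h : Nat.card F ≠ 2 ∨ Fintype.card ι ≠ 4) (x : ↥(isometryGroup F (⇑Q))) :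
    x ^ 2 ∈ Omega F (⇑Q) := by
  have htop := closure_refl_eq_top Q hQ h
  have hx : x ∈ Subgroup.closure {g : ↥(isometryGroup F (⇑Q)) | ∃ v : ι → F, Q v ≠ 0 ∧
      ((g : GL ι F) : Matrix ι ι F) = reflectionMatrix (⇑Q) v} := by
    rw [htop]
    exact Subgroup.mem_top x
  have hker : ∀ y : ↥(isometryGroup F (⇑Q)), y ^ 2 ∈ Omega F (⇑Q) ↔
      (Abelianization.of y) ^ 2 = 1 := by
    intro y
    rw [← map_pow]
    constructor
    · intro h1
      have : (commutator ↥(isometryGroup F (⇑Q))) ≤ (Abelianization.of (G := ↥(isometryGroup F (⇑Q)))).ker :=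
        Abelianization.commutator_subset_ker _
      exact this h1
    · intro h1
      rw [Abelianization.of] at h1
      exact (QuotientGroup.eq_one_iff _).1 h1
  rw [hker]
  induction hx using Subgroup.closure_induction with
  | mem y hy =>
    obtain ⟨v, hv, e⟩ := hy
    have h1 : y ^ 2 = 1 := by
      apply Subtype.ext
      apply Units.ext
      simp only [Subgroup.coe_pow, Units.val_pow_eq_pow_val, e, Subgroup.coe_one, Units.val_one]
      rw [_root_.sq, Cfsg.Agent.H11.refl_sq Q v hv]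
    rw [← map_pow, h1, map_one]
  | one => simp
  | mul a b _ _ ha hb =>
    rw [map_mul, mul_pow, ha, hb, one_mul]
  | inv a _ ha =>
    rw [map_inv, inv_pow, ha, inv_one]

/-- the swap isometry -/
noncomputable def swapIso (Q : (Fin k → F) → F) :
    ↥(isometryGroup F (fun v : Fin k ⊕ Fin k → F => Q (v ∘ Sum.inl) + Q (v ∘ Sum.inr))) :=
  ⟨⟨Matrix.fromBlocks 0 1 1 0, Matrix.fromBlocks 0 1 1 0, by simp [Matrix.fromBlocks_multiply],
      by simp [Matrix.fromBlocks_multiply]⟩, by
    rw [Cfsg.Agent.H11.mem_isometryGroup_iff]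
    intro v
    simp only [Matrix.fromBlocks_mulVec, Matrix.zero_mulVec, Matrix.one_mulVec, zero_add, add_zero,
      Sum.elim_comp_inl, Sum.elim_comp_inr]
    ring⟩

theorem diag_mem [Fintype F] (h : Fintype.card F ≠ 2 ∨ k ≠ 2) (Q : QuadraticForm F (Fin k → F))
    (hQ : (polarBilin Q).Nondegenerate) (g : ↥(isometryGroup F ⇑Q)) :
    ∃ x : ↥(isometryGroup F (fun v : Fin k ⊕ Fin k → F => Q (v ∘ Sum.inl) + Q (v ∘ Sum.inr))),
      x ∈ Omega F (fun v : Fin k ⊕ Fin k → F => Q (v ∘ Sum.inl) + Q (v ∘ Sum.inr)) ∧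
      ((x : GL (Fin k ⊕ Fin k) F) : Matrix (Fin k ⊕ Fin k) (Fin k ⊕ Fin k) F) =
        Matrix.fromBlocks ((g : GL (Fin k) F) : Matrix (Fin k) (Fin k) F) 0 0 ((g : GL (Fin k) F) : Matrix (Fin k) (Fin k) F) := by
  let A := Cfsg.Agent.H11.blockHom (⇑Q) (⇑Q) (g, 1)
  let B := Cfsg.Agent.H11.blockHom (⇑Q) (⇑Q) (1, g)
  let σ := swapIso (⇑Q)
  have hB : B = σ * A * σ⁻¹ := by
    rw [eq_mul_inv_iff_mul_eq]
    apply Subtype.ext
    apply Units.ext
    change Matrix.fromBlocks ((1 : GL (Fin k) F) : Matrix (Fin k) (Fin k) F) 0 0 ((g : GL (Fin k) F) : Matrix (Fin k) (Fin k) F) * Matrix.fromBlocks 0 1 1 0 =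
      Matrix.fromBlocks 0 1 1 0 * Matrix.fromBlocks ((g : GL (Fin k) F) : Matrix (Fin k) (Fin k) F) 0 0 ((1 : GL (Fin k) F) : Matrix (Fin k) (Fin k) F)
    simp [Matrix.fromBlocks_multiply]
  have hsq : A ^ 2 ∈ Omega F (fun v : Fin k ⊕ Fin k → F => Q (v ∘ Sum.inl) + Q (v ∘ Sum.inr)) := by
    apply sq_mem_omega (sumForm Q Q) (sum_nondeg Q Q hQ hQ)
    rcases h with h | h
    · left
      rwa [Nat.card_eq_fintype_card]
    · right
      simp only [Fintype.card_sum, Fintype.card_fin]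
      omega
  refine ⟨A * B, ?_, ?_⟩
  · have e : A * B = A ^ 2 * ⁅A⁻¹, σ⁆ := by
      rw [hB, commutatorElement_def, _root_.sq]
      group
    rw [e]
    apply Subgroup.mul_mem _ hsq
    have h5 : ⁅A⁻¹, σ⁆ ∈ ⁅(⊤ : Subgroup ↥(isometryGroup F (fun v : Fin k ⊕ Fin k → F => Q (v ∘ Sum.inl) + Q (v ∘ Sum.inr)))), ⊤⁆ :=
      Subgroup.commutator_mem_commutator (Subgroup.mem_top _) (Subgroup.mem_top _)
    exact h5
  · change Matrix.fromBlocks ((g : GL (Fin k) F) : Matrix (Fin k) (Fin k) F) 0 0 ((1 : GL (Fin k) F) : Matrix (Fin k) (Fin k) F) * Matrix.fromBlocks ((1 : GL (Fin k) F) : Matrix (Fin k) (Fin k) F) 0 0 ((g : GL (Fin k) F) : Matrix (Fin k) (Fin k) F) = _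
    simp [Matrix.fromBlocks_multiply]

section refl

/-- the reflection in a vector of the first summand -/
lemma refl_sum (v : Fin k → F) :
    reflectionMatrix (⇑(sumForm Q₁ Q₂)) (Sum.elim v 0) =
      Matrix.fromBlocks (reflectionMatrix (⇑Q₁) v) 0 0 1 := by
  apply Cfsg.Agent.H11.mat_ext_mulVec
  intro x
  rw [reflection_mulVec, Matrix.fromBlocks_mulVec, polar_sum, Sum.elim_comp_inl, Sum.elim_comp_inr]
  have e1 : (sumForm Q₁ Q₂) (Sum.elim v 0) = Q₁ v := by
    rw [sumForm_coe]
    simp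
  have e2 : polar Q₂ (0 : Fin l → F) (x ∘ Sum.inr) = 0 := by
    exact QuadraticMap.polar_zero_left Q₂ _
  rw [e1, e2, add_zero]
  funext i
  rcases i with i | i
  · simp [reflection_mulVec Q₁ v]
  · simp

lemma sumForm_elim (v : Fin k → F) : (sumForm Q₁ Q₂) (Sum.elim v 0) = Q₁ v := by
  rw [sumForm_coe]
  simp

/-- the product of reflections in the first summand -/
lemma prod_refl_sum (L : List (Fin k → F)) :
    (L.map (fun v => reflectionMatrix (⇑(sumForm Q₁ Q₂)) (Sum.elim v 0))).prod =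
      Matrix.fromBlocks (L.map (fun v => reflectionMatrix (⇑Q₁) v)).prod 0 0 1 := by
  induction L with
  | nil =>
    simp
  | cons v L ih =>
    simp only [List.map_cons, List.prod_cons]
    rw [ih, refl_sum, Matrix.fromBlocks_multiply]
    simp

variable {Q₁ Q₂}

/-- the second half of the statement on orthogonal summands: first the odd case -/
theorem omega_of_sum_odd [Fintype F] (h2 : (2 : F) ≠ 0) (hk : 2 ≤ k)
    (h₁ : (polarBilin Q₁).Nondegenerate) (h₂ : (polarBilin Q₂).Nondegenerate)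
    (g₁ : ↥(isometryGroup F ⇑Q₁)) (g : ↥(isometryGroup F ⇑(sumForm Q₁ Q₂)))
    (hg : g ∈ Omega F ⇑(sumForm Q₁ Q₂))
    (e : ((g : GL (Fin k ⊕ Fin l) F) : Matrix (Fin k ⊕ Fin l) (Fin k ⊕ Fin l) F) =
      Matrix.fromBlocks ((g₁ : GL (Fin k) F) : Matrix (Fin k) (Fin k) F) 0 0 1) :
    g₁ ∈ Omega F ⇑Q₁ := by
  classical
  obtain ⟨L, hL, hL2⟩ := exists_list_of_isometry Q₁ h₁ (Or.inl (card_ne_two_of h2)) g₁
  have hL' : ∀ v ∈ L.map (fun v => (Sum.elim v 0 : Fin k ⊕ Fin l → F)), (sumForm Q₁ Q₂) v ≠ 0 := by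
    intro v hv
    obtain ⟨w, hw, rfl⟩ := List.mem_map.1 hv
    rw [sumForm_elim]
    exact hL w hw
  have hprod : (g : GL (Fin k ⊕ Fin l) F).val =
      ((L.map (fun v => (Sum.elim v 0 : Fin k ⊕ Fin l → F))).map (fun v => reflectionMatrix (⇑(sumForm Q₁ Q₂)) v)).prod := by
    rw [List.map_map]
    change _ = (L.map (fun v => reflectionMatrix (⇑(sumForm Q₁ Q₂)) (Sum.elim v 0))).prod
    rw [prod_refl_sum, ← hL2]
    exact e
  have h3 := (Cfsg.Agent.H11.spinor_criterion h2 (by simp; omega) (sumForm Q₁ Q₂) (sum_nondeg Q₁ Q₂ h₁ h₂) g _ hL' hprod).1 hg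
  apply (Cfsg.Agent.H11.spinor_criterion h2 (by simpa using hk) Q₁ h₁ g₁ L hL hL2).2
  have e1 : (L.map (fun v => (Sum.elim v 0 : Fin k ⊕ Fin l → F))).length = L.length := by simp
  have e2 : ((L.map (fun v => (Sum.elim v 0 : Fin k ⊕ Fin l → F))).map (fun v => (sumForm Q₁ Q₂) v)).prod =
      (L.map (fun v => Q₁ v)).prod := by
    rw [List.map_map]
    congr 1
    apply List.map_congr_left
    intro v _
    exact sumForm_elim Q₁ Q₂ v
  rw [e1, e2] at h3
  exact h3

/-- the characteristic two case -/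
theorem omega_of_sum_even [Fintype F] (h2 : (2 : F) = 0) (h : Fintype.card F ≠ 2 ∨ (k ≠ 4 ∧ k + l ≠ 4))
    (h₁ : (polarBilin Q₁).Nondegenerate) (h₂ : (polarBilin Q₂).Nondegenerate)
    (g₁ : ↥(isometryGroup F ⇑Q₁)) (g : ↥(isometryGroup F ⇑(sumForm Q₁ Q₂)))
    (hg : g ∈ Omega F ⇑(sumForm Q₁ Q₂))
    (e : ((g : GL (Fin k ⊕ Fin l) F) : Matrix (Fin k ⊕ Fin l) (Fin k ⊕ Fin l) F) =
      Matrix.fromBlocks ((g₁ : GL (Fin k) F) : Matrix (Fin k) (Fin k) F) 0 0 1) :
    g₁ ∈ Omega F ⇑Q₁ := by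
  have hc1 : Nat.card F ≠ 2 ∨ Fintype.card (Fin k) ≠ 4 := by
    rcases h with h | h
    · left
      rwa [Nat.card_eq_fintype_card]
    · right
      simpa using h.1
  have hc2 : Nat.card F ≠ 2 ∨ Fintype.card (Fin k ⊕ Fin l) ≠ 4 := by
    rcases h with h | h
    · left
      rwa [Nat.card_eq_fintype_card]
    · right
      simpa using h.2
  obtain ⟨L, hL, hL2⟩ := exists_list_of_isometry Q₁ h₁ hc1 g₁
  have hL' : ∀ v ∈ L.map (fun v => (Sum.elim v 0 : Fin k ⊕ Fin l → F)), (sumForm Q₁ Q₂) v ≠ 0 := by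
    intro v hv
    obtain ⟨w, hw, rfl⟩ := List.mem_map.1 hv
    rw [sumForm_elim]
    exact hL w hw
  have hprod : (g : GL (Fin k ⊕ Fin l) F).val =
      ((L.map (fun v => (Sum.elim v 0 : Fin k ⊕ Fin l → F))).map (fun v => reflectionMatrix (⇑(sumForm Q₁ Q₂)) v)).prod := by
    rw [List.map_map]
    change _ = (L.map (fun v => reflectionMatrix (⇑(sumForm Q₁ Q₂)) (Sum.elim v 0))).prod
    rw [prod_refl_sum, ← hL2]
    exact e
  have hnd := sum_nondeg Q₁ Q₂ h₁ h₂
  have h3 := Cfsg.Agent.H03.ODick.dick_of_list h2 (sumForm Q₁ Q₂) hnd g _ hL' hprod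
  have h4 : Cfsg.Agent.H03.ODick.dick (sumForm Q₁ Q₂) g = 1 := by
    have h5 : (commutator ↥(isometryGroup F ⇑(sumForm Q₁ Q₂))) ≤ (Cfsg.Agent.H03.ODick.dickHom h2 (sumForm Q₁ Q₂) hnd hc2).ker :=
      Abelianization.commutator_subset_ker _
    exact h5 hg
  rw [h4] at h3
  have hev : Even L.length := by
    by_contra hodd
    rw [Nat.not_even_iff_odd] at hodd
    rw [List.length_map, hodd.neg_one_pow] at h3
    exact absurd h3 (by decide)
  obtain ⟨n, hn⟩ := hev
  obtain ⟨m, hm⟩ := even_finrank h2 _ (Fin k → F) Q₁ rfl h₁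
  have hdim : Fintype.card (Fin k) = 2 * m := by
    rw [Module.finrank_fintype_fun_eq_card] at hm
    omega
  have hq : Fintype.card F ≠ 2 ∨ m ≠ 2 := by
    rcases h with h | h
    · exact Or.inl h
    · right
      have := h.1
      simp only [Fintype.card_fin] at hdim
      omega
  obtain ⟨g', hg', hg'2⟩ := Cfsg.Agent.H11.exists_omega_of_even h2 h₁ hdim hq n L hL (by omega)
  have e3 : g₁ = g' := by
    apply Subtype.ext
    apply Units.ext
    rw [hg'2, hL2]
  rw [e3]
  exact hg'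

end refl

end Cfsg.Agent.H11.OSum
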