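import Cfsg.Agent.Lib.H11.P11
import Cfsg.Agent.Lib.H11.A5Pairs
import Cfsg.Agent.Lib.Lead.CardSL

/-! `PSL₂(11)`: the subgroups isomorphic to `A₅`. -/

set_option autoImplicit false
set_option linter.unusedSectionVars false

namespace Cfsg.Agent.H11.P11

open Matrix Cfsg.Agent.H08.L2
open scoped Pointwise

instance fact11 : Fact (Nat.Prime 11) := ⟨by norm_num⟩

abbrev Z := ZMod 11
abbrev SL2 := Matrix.SpecialLinearGroup (Fin 2) Z
abbrev X := Bool × Fin 11

/-- the action on `11 + 11` points -/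
def actX (m : SL2) (p : X) : X := (p.1, act p.1 (m.1 0 0) (m.1 0 1) (m.1 1 0) (m.1 1 1) p.2)

theorem actX_one (p : X) : actX 1 p = p := by
  exact Prod.ext rfl (p_one p.1 p.2)

/-- the Weyl element -/
def ww : SL2 := ⟨!![0, -1; 1, 0], by simp [Matrix.det_fin_two]⟩

theorem actX_up (k : Fin 11) (p : X) : actX (up (k : Z)) p = (p.1, p.2 + k) :=
  Prod.ext rfl (p_up p.1 k p.2)

theorem actX_ww (p : X) : actX ww p = (p.1, wtab p.1 p.2) := by
  exact Prod.ext rfl (p_w p.1 p.2)

theorem mul_up_one (g : SL2) (p : X) : actX (g * up 1) p = actX g (actX (up 1) p) := by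
  have h00 : (g * up 1).1 0 0 = g.1 0 0 := by rw [mul_entry]; simp
  have h01 : (g * up 1).1 0 1 = g.1 0 0 + g.1 0 1 := by rw [mul_entry]; simp
  have h10 : (g * up 1).1 1 0 = g.1 1 0 := by rw [mul_entry]; simp
  have h11 : (g * up 1).1 1 1 = g.1 1 0 + g.1 1 1 := by rw [mul_entry]; simp
  have h1 : actX (up 1) p = (p.1, p.2 + 1) := actX_up 1 p
  rw [h1]
  unfold actX
  rw [h00, h01, h10, h11]
  exact Prod.ext rfl (p1a (g.1 0 0) (g.1 0 1) (g.1 1 0) (g.1 1 1) (det_rel g) p.1 p.2)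

theorem mul_ww (g : SL2) (p : X) : actX (g * ww) p = actX g (actX ww p) := by
  have h00 : (g * ww).1 0 0 = g.1 0 1 := by rw [mul_entry]; simp [ww]
  have h01 : (g * ww).1 0 1 = - g.1 0 0 := by rw [mul_entry]; simp [ww]
  have h10 : (g * ww).1 1 0 = g.1 1 1 := by rw [mul_entry]; simp [ww]
  have h11 : (g * ww).1 1 1 = - g.1 1 0 := by rw [mul_entry]; simp [ww]
  rw [actX_ww]
  unfold actX
  rw [h00, h01, h10, h11]
  exact Prod.ext rfl (p1b (g.1 0 0) (g.1 0 1) (g.1 1 0) (g.1 1 1) (det_rel g) p.1 p.2)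

/-- the elements for which the multiplicative law holds -/
def MM : Subgroup SL2 where
  carrier := {h | ∀ g p, actX (g * h) p = actX g (actX h p)}
  one_mem' := by
    intro g p
    rw [mul_one, actX_one]
  mul_mem' := by
    intro a b ha hb g p
    rw [← mul_assoc, hb, ha, hb a]
  inv_mem' := by
    intro a ha
    have hmon : ∀ n : ℕ, a ^ n ∈ ({h | ∀ g p, actX (g * h) p = actX g (actX h p)} : Set SL2) := by
      intro n
      induction n with
      | zero =>
        intro g p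
        rw [pow_zero, mul_one, actX_one]
      | succ n ih =>
        intro g p
        rw [pow_succ, ← mul_assoc, ha, ih g, ha (a ^ n) p]
    have h1 : a⁻¹ = a ^ (orderOf a - 1) := by
      apply inv_eq_of_mul_eq_one_right
      rw [← pow_succ']
      have : orderOf a - 1 + 1 = orderOf a := Nat.sub_add_cancel (orderOf_pos a)
      rw [this, pow_orderOf_eq_one]
    rw [h1]
    exact hmon _

theorem MM_top : MM = ⊤ := by
  apply eq_top_of_not_le
  · have hn : ∀ n : ℕ, up (n : Z) ∈ MM := by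
      intro n
      induction n with
      | zero =>
        have : up ((0 : ℕ) : Z) = 1 := by
          apply slt_ext <;> simp
        rw [this]
        exact MM.one_mem
      | succ n ih =>
        have h1 : up ((n + 1 : ℕ) : Z) = up (n : Z) * up 1 := by
          apply slt_ext <;> simp [mul_entry, add_comm]
        rw [h1]
        exact MM.mul_mem ih (fun g p => mul_up_one g p)
    intro g hg
    obtain ⟨h0, h1⟩ := hg
    have h2 := det_rel g
    rw [h0, h1] at h2
    have h3 : g = up (g.1 0 1) := by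
      apply slt_ext
      · simpa using h1
      · simp
      · simpa using h0
      · simpa using h2
    rw [h3]
    have := hn (g.1 0 1).val
    rwa [ZMod.natCast_zmod_val] at this
  · intro h
    have h1 : ww ∈ MM := fun g p => mul_ww g p
    have h2 := h h1
    rw [mem_borel] at h2
    simp [ww] at h2

theorem actX_mul (g h : SL2) (p : X) : actX (g * h) p = actX g (actX h p) := by
  have : h ∈ MM := by
    rw [MM_top]
    trivial
  exact this g p

/-- the permutation representation of `SL₂(11)` -/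
def rho0 : SL2 →* Equiv.Perm X where
  toFun m := { toFun := actX m, invFun := actX m⁻¹,
               left_inv := fun p => by rw [← actX_mul, inv_mul_cancel, actX_one],
               right_inv := fun p => by rw [← actX_mul, mul_inv_cancel, actX_one] }
  map_one' := Equiv.ext actX_one
  map_mul' g h := Equiv.ext (actX_mul g h)

theorem rho0_apply (m : SL2) (p : X) : rho0 m p = actX m p := rfl

theorem rho0_eq_one_iff (m : SL2) : rho0 m = 1 ↔ m ∈ Subgroup.center SL2 := by
  constructor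
  · intro h
    have h1 : ∀ (s : Bool) (i : Fin 11), act s (m.1 0 0) (m.1 0 1) (m.1 1 0) (m.1 1 1) i = i := by
      intro s i
      have := congrArg (fun e : Equiv.Perm X => (e (s, i)).2) h
      exact this
    obtain ⟨h2, h3, h4⟩ := p_ker (m.1 0 0) (m.1 0 1) (m.1 1 0) (m.1 1 1) (det_rel m) h1
    rw [Matrix.SpecialLinearGroup.mem_center_iff]
    have h5 := det_rel m
    have h2' : m.1 0 1 = 0 := h2
    have h3' : m.1 1 0 = 0 := h3
    have h4' : m.1 0 0 = m.1 1 1 := h4
    rw [h2', h3', ← h4'] at h5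
    refine ⟨m.1 0 0, ?_, ?_⟩
    · rw [Fintype.card_fin, sq]
      simpa using h5
    · ext i j
      fin_cases i <;> fin_cases j <;> simp [Matrix.scalar_apply, h2', h3', ← h4']
  · intro h
    rw [Matrix.SpecialLinearGroup.mem_center_iff] at h
    obtain ⟨r, hr, hm⟩ := h
    rw [Fintype.card_fin, sq] at hr
    have e00 : m.1 0 0 = r := by rw [← hm]; simp [Matrix.scalar_apply]
    have e01 : m.1 0 1 = 0 := by rw [← hm]; simp [Matrix.scalar_apply]
    have e10 : m.1 1 0 = 0 := by rw [← hm]; simp [Matrix.scalar_apply]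
    have e11 : m.1 1 1 = r := by rw [← hm]; simp [Matrix.scalar_apply]
    apply Equiv.ext
    intro p
    show ((p.1, act p.1 (m.1 0 0) (m.1 0 1) (m.1 1 0) (m.1 1 1) p.2) : X) = p
    rw [e00, e01, e10, e11]
    exact Prod.ext rfl (p_scalar r hr p.1 p.2)

/-- matrices from quadruples -/
def mkQ (q : Q4) (h : q.1 * q.2.2.2 - q.2.1 * q.2.2.1 = 1) : SL2 :=
  ⟨!![(q.1 : Z), (q.2.1 : Z); (q.2.2.1 : Z), (q.2.2.2 : Z)], by
    rw [Matrix.det_fin_two]
    exact h⟩

theorem actX_mkQ (q : Q4) (h : q.1 * q.2.2.2 - q.2.1 * q.2.2.1 = 1) (p : X) :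
    actX (mkQ q h) p = (p.1, actq p.1 q p.2) := rfl

/-! ## The abstract setting -/

/-- a group with the permutation representation -/
structure Model (G : Type*) [Group G] where
  π : SL2 →* G
  hπ : Function.Surjective π
  ρ : G →* Equiv.Perm X
  hρ : ∀ m p, ρ (π m) p = actX m p
  hinj : Function.Injective ρ
  hcard : Nat.card G = 660

variable {G : Type*} [Group G] [Finite G] (M : Model G)

/-- point stabilisers -/
def Stab (p : X) : Subgroup G where
  carrier := {g | M.ρ g p = p}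
  mul_mem' := by
    intro a b ha hb
    simp only [Set.mem_setOf_eq] at ha hb ⊢
    rw [map_mul, Equiv.Perm.mul_apply, hb, ha]
  one_mem' := by simp
  inv_mem' := by
    intro a ha
    simp only [Set.mem_setOf_eq] at ha ⊢
    rw [map_inv, Equiv.Perm.inv_eq_iff_eq, ha]

theorem mem_Stab (g : G) (p : X) : g ∈ Stab M p ↔ M.ρ g p = p := Iff.rfl

theorem rho_fst (g : G) (p : X) : (M.ρ g p).1 = p.1 := by
  obtain ⟨m, rfl⟩ := M.hπ g
  rw [M.hρ]
  rfl

theorem rho_up (k : Fin 11) (p : X) : M.ρ (M.π (up (k : Z))) p = (p.1, p.2 + k) := by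
  rw [M.hρ, actX_up]

theorem index_Stab (p : X) : (Stab M p).index = 11 := by
  classical
  letI : MulAction G X := MulAction.compHom X M.ρ
  have h1 : MulAction.stabilizer G p = Stab M p := by
    ext g
    exact Iff.rfl
  rw [← h1, MulAction.index_stabilizer]
  have h2 : MulAction.orbit G p = (fun i : Fin 11 => ((p.1, i) : X)) '' Set.univ := by
    ext q
    constructor
    · rintro ⟨g, rfl⟩
      refine ⟨(M.ρ g p).2, trivial, ?_⟩
      apply Prod.ext
      · exact (rho_fst M g p).symm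
      · rfl
    · rintro ⟨i, -, rfl⟩
      refine ⟨M.π (up ((i - p.2 : Fin 11) : Z)), ?_⟩
      show M.ρ _ p = _
      rw [rho_up]
      exact Prod.ext rfl (by simp)
  rw [h2, Set.ncard_image_of_injective _ (fun a b h => (Prod.ext_iff.1 h).2), Set.ncard_univ]
  simp

theorem card_Stab (p : X) : Nat.card (Stab M p) = 60 := by
  have h := Subgroup.card_mul_index (Stab M p)
  rw [index_Stab, M.hcard] at h
  omega

theorem Stab_smul (g : G) (p : X) : MulAut.conj g • Stab M p = Stab M (M.ρ g p) := by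
  ext a
  rw [Subgroup.mem_pointwise_smul_iff_inv_smul_mem, mem_Stab, mem_Stab]
  have h1 : (MulAut.conj g)⁻¹ • a = g⁻¹ * a * g := by
    rw [MulAut.smul_def, MulAut.conj_inv_apply]
  rw [h1, map_mul, map_mul, map_inv, Equiv.Perm.mul_apply, Equiv.Perm.mul_apply, Equiv.Perm.inv_eq_iff_eq]

theorem iso_smul (g : G) (p : X) (h : Nonempty (Stab M p ≃* alternatingGroup (Fin 5))) :
    Nonempty (Stab M (M.ρ g p) ≃* alternatingGroup (Fin 5)) := by
  obtain ⟨e⟩ := h
  rw [← Stab_smul]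
  exact ⟨(Subgroup.equivSMul (MulAut.conj g) (Stab M p)).symm.trans e⟩

theorem rel3 (q : Q4) (h) (hq : ∀ (s : Bool) (i : Fin 11), actq s q (actq s q (actq s q i)) = i) :
    (M.π (mkQ q h)) ^ 3 = 1 := by
  apply M.hinj
  rw [map_pow, map_one]
  apply Equiv.ext
  rintro ⟨s, i⟩
  simp only [pow_succ, pow_zero, one_mul, Equiv.Perm.mul_apply, M.hρ, Equiv.Perm.one_apply, actX_mkQ]
  exact Prod.ext rfl (hq s i)

theorem rel5 (q : Q4) (h) (hq : ∀ (s : Bool) (i : Fin 11), actq s q (actq s q (actq s q (actq s q (actq s q i)))) = i) :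
    (M.π (mkQ q h)) ^ 5 = 1 := by
  apply M.hinj
  rw [map_pow, map_one]
  apply Equiv.ext
  rintro ⟨s, i⟩
  simp only [pow_succ, pow_zero, one_mul, Equiv.Perm.mul_apply, M.hρ, Equiv.Perm.one_apply, actX_mkQ]
  exact Prod.ext rfl (hq s i)

theorem rel2 (q q' : Q4) (h h') (hq : ∀ (s : Bool) (i : Fin 11), actq s q (actq s q' (actq s q (actq s q' i))) = i) :
    (M.π (mkQ q h) * M.π (mkQ q' h')) ^ 2 = 1 := by
  apply M.hinj
  rw [map_pow, map_one, map_mul]
  apply Equiv.ext
  rintro ⟨s, i⟩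
  simp only [pow_succ, pow_zero, one_mul, Equiv.Perm.mul_apply, M.hρ, Equiv.Perm.one_apply, actX_mkQ]
  exact Prod.ext rfl (hq s i)

theorem ne_one (q : Q4) (h) (hq : ∃ (s : Bool) (i : Fin 11), actq s q i ≠ i) : M.π (mkQ q h) ≠ 1 := by
  intro h1
  obtain ⟨s, i, hi⟩ := hq
  have h2 := M.hρ (mkQ q h) (s, i)
  rw [h1, map_one, Equiv.Perm.one_apply, actX_mkQ] at h2
  exact hi (congrArg Prod.snd h2).symm

/-- a pair in a stabiliser gives the isomorphism -/
theorem iso_of_pair (p : X) (x y : G) (hx : x ^ 3 = 1) (hy : y ^ 5 = 1) (hxy : (x * y) ^ 2 = 1) (hne : x ≠ 1)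
    (hxp : M.ρ x p = p) (hyp : M.ρ y p = p) : Stab M p = Subgroup.closure ({x, y} : Set G) ∧
      Nonempty (Stab M p ≃* alternatingGroup (Fin 5)) := by
  obtain ⟨e⟩ := A5Pairs.closure_iso x y hx hy hxy hne
  have hle : Subgroup.closure ({x, y} : Set G) ≤ Stab M p := by
    rw [Subgroup.closure_le]
    rintro _ (rfl | rfl)
    · exact hxp
    · exact hyp
  have hc : Nat.card (Subgroup.closure ({x, y} : Set G)) = 60 := by
    rw [Nat.card_congr e.toEquiv, nat_card_alternatingGroup]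
    simp [Nat.factorial]
  have heq : Subgroup.closure ({x, y} : Set G) = Stab M p :=
    Subgroup.eq_of_le_of_card_ge hle (by rw [card_Stab, hc])
  rw [← heq]
  exact ⟨rfl, ⟨e⟩⟩

theorem iso_f0 : Nonempty (Stab M (false, 0) ≃* alternatingGroup (Fin 5)) := by
  obtain ⟨d1, d2, -, -⟩ := p_pair_det
  obtain ⟨h1, h2, h3, h4, h5, h6⟩ := p_pair_f
  refine (iso_of_pair M (false, 0) (M.π (mkQ xf d1)) (M.π (mkQ yf d2)) (rel3 M _ _ h1) (rel5 M _ _ h2)
    (rel2 M _ _ _ _ h3) (ne_one M _ _ h4) ?_ ?_).2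
  · rw [M.hρ, actX_mkQ]
    exact Prod.ext rfl h5
  · rw [M.hρ, actX_mkQ]
    exact Prod.ext rfl h6

theorem iso_t0 : Nonempty (Stab M (true, 0) ≃* alternatingGroup (Fin 5)) := by
  obtain ⟨-, -, d1, d2⟩ := p_pair_det
  obtain ⟨h1, h2, h3, h4, h5, h6⟩ := p_pair_t
  refine (iso_of_pair M (true, 0) (M.π (mkQ xt d1)) (M.π (mkQ yt d2)) (rel3 M _ _ h1) (rel5 M _ _ h2)
    (rel2 M _ _ _ _ h3) (ne_one M _ _ h4) ?_ ?_).2
  · rw [M.hρ, actX_mkQ]
    exact Prod.ext rfl h5
  · rw [M.hρ, actX_mkQ]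
    exact Prod.ext rfl h6

theorem iso_all (p : X) : Nonempty (Stab M p ≃* alternatingGroup (Fin 5)) := by
  obtain ⟨s, i⟩ := p
  have h1 : M.ρ (M.π (up (i : Z))) (s, 0) = (s, i) := by
    rw [rho_up]
    exact Prod.ext rfl (zero_add i)
  rw [← h1]
  apply iso_smul
  cases s
  · exact iso_f0 M
  · exact iso_t0 M

theorem Stab_inj {p q : X} (h : Stab M p = Stab M q) : p = q := by
  by_contra hne
  obtain ⟨s, i⟩ := p
  obtain ⟨s', j⟩ := q
  set t := M.π (up ((-i : Fin 11) : Z)) with ht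
  have h1 : Stab M (M.ρ t (s, i)) = Stab M (M.ρ t (s', j)) := by
    rw [← Stab_smul, ← Stab_smul, h]
  rw [ht, rho_up, rho_up] at h1
  have h2 : (s, i).2 + -i = 0 := by simp
  rw [h2] at h1
  have hne' : (s, (0 : Fin 11)) ≠ (s', (s', j).2 + -i) := by
    intro h3
    apply hne
    have h4 : s = s' := congrArg Prod.fst h3
    have h5 : (0 : Fin 11) = j + -i := congrArg Prod.snd h3
    have h6 : i = j := by
      have : j = i := by
        have h7 : j + -i + i = 0 + i := by rw [← h5]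
        simpa using h7
      exact this.symm
    rw [h4, h6]
  obtain ⟨m, -, hm2⟩ := List.any_eq_true.1 (p_sep s s' _ hne')
  obtain ⟨hdet, h3, h4⟩ := of_decide_eq_true hm2
  set g := M.π (mkQ m hdet) with hg
  have h5 : g ∈ Stab M (s, 0) := by
    rw [mem_Stab, hg, M.hρ, actX_mkQ]
    exact Prod.ext rfl h3
  rw [h1, mem_Stab, hg, M.hρ, actX_mkQ] at h5
  exact h4 (congrArg Prod.snd h5)

/-- the main classification -/
theorem classify (L : Subgroup G) (hL : Nonempty (L ≃* alternatingGroup (Fin 5))) : ∃ p, L = Stab M p := by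
  obtain ⟨x, y, hx, hy, hxy, hne, rfl⟩ := A5Pairs.exists_pair L hL
  obtain ⟨m, rfl⟩ := M.hπ x
  obtain ⟨hx1, hx2⟩ : (∀ (s : Bool) (i : Fin 11), act s (m.1 0 0) (m.1 0 1) (m.1 1 0) (m.1 1 1)
      (act s (m.1 0 0) (m.1 0 1) (m.1 1 0) (m.1 1 1) (act s (m.1 0 0) (m.1 0 1) (m.1 1 0) (m.1 1 1) i)) = i) ∧
      ∃ (s : Bool) (i : Fin 11), act s (m.1 0 0) (m.1 0 1) (m.1 1 0) (m.1 1 1) i ≠ i := by
    constructor
    · intro s i
      have h0 : (M.ρ (M.π m)) ^ 3 = 1 := by rw [← map_pow, hx, map_one]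
      have h1 := congrArg (fun e : Equiv.Perm X => (e (s, i))) h0
      simp only [pow_succ, pow_zero, one_mul, Equiv.Perm.mul_apply, M.hρ, Equiv.Perm.one_apply] at h1
      exact congrArg Prod.snd h1
    · by_contra hcon
      push Not at hcon
      apply hne
      apply M.hinj
      apply Equiv.ext
      rintro ⟨s, i⟩
      rw [M.hρ, map_one, Equiv.Perm.one_apply]
      exact Prod.ext rfl (hcon s i)
  obtain ⟨r, hr, hr2'⟩ := List.any_eq_true.1 (p_conj3 _ _ _ _ (det_rel m) hx1 hx2)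
  have hr2 := of_decide_eq_true hr2'
  have hrd : r.1 * r.2.2.2 - r.2.1 * r.2.2.1 = 1 := of_decide_eq_true (List.all_eq_true.1 p_reps_det r hr)
  set h := M.π (mkQ r hrd) with hh
  set x₀ := M.π (mkQ x0 p_x0_det) with hx₀
  have hconj : h * M.π m * h⁻¹ = x₀ := by
    rw [mul_inv_eq_iff_eq_mul]
    apply M.hinj
    apply Equiv.ext
    rintro ⟨s, i⟩
    simp only [map_mul, Equiv.Perm.mul_apply, hh, hx₀, M.hρ, actX_mkQ]
    exact Prod.ext rfl (hr2 s i)
  set y' := h * y * h⁻¹ with hy'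
  obtain ⟨m', hm'⟩ := M.hπ y'
  have hy5 : y' ^ 5 = 1 := by
    rw [hy', conj_pow, hy]
    simp
  have hxy' : (x₀ * y') ^ 2 = 1 := by
    rw [← hconj, hy']
    have : h * M.π m * h⁻¹ * (h * y * h⁻¹) = h * (M.π m * y) * h⁻¹ := by group
    rw [this, conj_pow, hxy]
    simp
  have hy1 : ∀ (s : Bool) (i : Fin 11), act s (m'.1 0 0) (m'.1 0 1) (m'.1 1 0) (m'.1 1 1) (act s (m'.1 0 0) (m'.1 0 1) (m'.1 1 0) (m'.1 1 1)
      (act s (m'.1 0 0) (m'.1 0 1) (m'.1 1 0) (m'.1 1 1) (act s (m'.1 0 0) (m'.1 0 1) (m'.1 1 0) (m'.1 1 1) (act s (m'.1 0 0) (m'.1 0 1) (m'.1 1 0) (m'.1 1 1) i)))) = i := by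
    intro s i
    rw [← hm'] at hy5
    have h0 : (M.ρ (M.π m')) ^ 5 = 1 := by rw [← map_pow, hy5, map_one]
    have h1 := congrArg (fun e : Equiv.Perm X => (e (s, i))) h0
    simp only [pow_succ, pow_zero, one_mul, Equiv.Perm.mul_apply, M.hρ, Equiv.Perm.one_apply] at h1
    exact congrArg Prod.snd h1
  have hy2 : ∀ (s : Bool) (i : Fin 11), actq s x0 (act s (m'.1 0 0) (m'.1 0 1) (m'.1 1 0) (m'.1 1 1)
      (actq s x0 (act s (m'.1 0 0) (m'.1 0 1) (m'.1 1 0) (m'.1 1 1) i))) = i := by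
    intro s i
    rw [← hm', hx₀] at hxy'
    have h0 : (M.ρ (M.π (mkQ x0 p_x0_det)) * M.ρ (M.π m')) ^ 2 = 1 := by rw [← map_mul, ← map_pow, hxy', map_one]
    have h1 := congrArg (fun e : Equiv.Perm X => (e (s, i))) h0
    simp only [pow_succ, pow_zero, one_mul, Equiv.Perm.mul_apply, M.hρ, Equiv.Perm.one_apply, actX_mkQ] at h1
    exact congrArg Prod.snd h1
  obtain ⟨s, i, hf1, hf2⟩ := p_fixed _ _ _ _ (det_rel m') hy1 hy2
  -- the fixed point
  have hfx : M.ρ x₀ (s, i) = (s, i) := by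
    rw [hx₀, M.hρ, actX_mkQ]
    exact Prod.ext rfl hf1
  have hfy : M.ρ y' (s, i) = (s, i) := by
    rw [← hm', M.hρ]
    exact Prod.ext rfl hf2
  set P := M.ρ h⁻¹ (s, i) with hP
  have hPx : M.ρ (M.π m) P = P := by
    have h1 : M.π m = h⁻¹ * x₀ * h := by rw [← hconj]; group
    rw [h1, hP, map_mul, map_mul, Equiv.Perm.mul_apply, Equiv.Perm.mul_apply, ← Equiv.Perm.mul_apply (M.ρ h),
      ← map_mul, mul_inv_cancel, map_one, Equiv.Perm.one_apply, hfx]
  have hPy : M.ρ y P = P := by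
    have h1 : y = h⁻¹ * y' * h := by rw [hy']; group
    rw [h1, hP, map_mul, map_mul, Equiv.Perm.mul_apply, Equiv.Perm.mul_apply, ← Equiv.Perm.mul_apply (M.ρ h),
      ← map_mul, mul_inv_cancel, map_one, Equiv.Perm.one_apply, hfy]
  exact ⟨P, (iso_of_pair M P _ _ hx hy hxy hne hPx hPy).1.symm⟩

include M in
/-- The count of the statement. -/
theorem main_count : Nat.card {H : Subgroup G // Nonempty (H ≃* alternatingGroup (Fin 5))} = 22 := by
  let Ψ : X → {H : Subgroup G // Nonempty (H ≃* alternatingGroup (Fin 5))} := fun p => ⟨Stab M p, iso_all M p⟩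
  have hΨ : Function.Bijective Ψ := by
    constructor
    · intro p q h
      exact Stab_inj M (Subtype.ext_iff.1 h)
    · rintro ⟨L, hL⟩
      obtain ⟨p, hp⟩ := classify M L hL
      exact ⟨p, Subtype.ext hp.symm⟩
  rw [← Nat.card_congr (Equiv.ofBijective Ψ hΨ)]
  simp

include M in
theorem main_classes : ∃ H K : Subgroup G, Nonempty (H ≃* alternatingGroup (Fin 5)) ∧ Nonempty (K ≃* alternatingGroup (Fin 5)) ∧
    (∀ g : G, MulAut.conj g • H ≠ K) ∧ ∀ L : Subgroup G, Nonempty (L ≃* alternatingGroup (Fin 5)) →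
      ∃ g : G, MulAut.conj g • L = H ∨ MulAut.conj g • L = K := by
  refine ⟨Stab M (false, 0), Stab M (true, 0), iso_f0 M, iso_t0 M, ?_, ?_⟩
  · intro g h
    rw [Stab_smul] at h
    have h1 := Stab_inj M h
    have h2 := rho_fst M g (false, 0)
    rw [h1] at h2
    simp at h2
  · intro L hL
    obtain ⟨⟨s, i⟩, rfl⟩ := classify M L hL
    refine ⟨M.π (up ((-i : Fin 11) : Z)), ?_⟩
    rw [Stab_smul, rho_up]
    have h3 : i + -i = 0 := by simp
    cases s
    · left
      simp only [h3]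
    · right
      simp only [h3]

/-- double transitivity on the points of the first class -/
theorem two_base (i j : Fin 11) (hij : i ≠ j) : ∃ g : G, M.ρ g (false, 0) = (false, i) ∧ M.ρ g (false, 1) = (false, j) := by
  have hk : j - i ≠ 0 := sub_ne_zero.2 hij.symm
  obtain ⟨m, hm, hm2⟩ := List.any_eq_true.1 (p_two (j - i) hk)
  obtain ⟨h0, h1, h2⟩ := of_decide_eq_true hm2
  refine ⟨M.π (up (i : Z)) * M.π (mkQ m h0), ?_, ?_⟩
  · rw [map_mul, Equiv.Perm.mul_apply, M.hρ (mkQ m h0), actX_mkQ, rho_up]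
    exact Prod.ext rfl (by
      show actq false m 0 + i = i
      rw [h1, zero_add])
  · rw [map_mul, Equiv.Perm.mul_apply, M.hρ (mkQ m h0), actX_mkQ, rho_up]
    exact Prod.ext rfl (by
      show actq false m 1 + i = j
      rw [h2]
      simp)

theorem two_trans (i j i' j' : Fin 11) (hij : i ≠ j) (hij' : i' ≠ j') :
    ∃ g : G, M.ρ g (false, i) = (false, i') ∧ M.ρ g (false, j) = (false, j') := by
  obtain ⟨g1, h1, h2⟩ := two_base M i j hij
  obtain ⟨g2, h3, h4⟩ := two_base M i' j' hij'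
  refine ⟨g2 * g1⁻¹, ?_, ?_⟩
  · rw [map_mul, map_inv, Equiv.Perm.mul_apply, ← h1, ← Equiv.Perm.mul_apply (M.ρ g1)⁻¹, inv_mul_cancel, Equiv.Perm.one_apply, h3]
  · rw [map_mul, map_inv, Equiv.Perm.mul_apply, ← h2, ← Equiv.Perm.mul_apply (M.ρ g1)⁻¹, inv_mul_cancel, Equiv.Perm.one_apply, h4]

theorem mk_eq_iff (x y : G) : (QuotientGroup.mk x : G ⧸ Stab M (false, 0)) = QuotientGroup.mk y ↔
    M.ρ x (false, 0) = M.ρ y (false, 0) := by
  rw [QuotientGroup.eq, mem_Stab, map_mul, map_inv, Equiv.Perm.mul_apply, Equiv.Perm.inv_eq_iff_eq]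
  exact eq_comm

theorem main_two : MulAction.IsMultiplyPretransitive G (G ⧸ Stab M (false, 0)) 2 := by
  rw [MulAction.is_two_pretransitive_iff]
  intro a b c d hab hcd
  obtain ⟨x, rfl⟩ := QuotientGroup.mk_surjective a
  obtain ⟨y, rfl⟩ := QuotientGroup.mk_surjective b
  obtain ⟨x', rfl⟩ := QuotientGroup.mk_surjective c
  obtain ⟨y', rfl⟩ := QuotientGroup.mk_surjective d
  have hf : ∀ z : G, M.ρ z (false, 0) = (false, (M.ρ z (false, 0)).2) := by
    intro z
    apply Prod.ext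
    · exact rho_fst M z _
    · rfl
  have h1 : (M.ρ x (false, 0)).2 ≠ (M.ρ y (false, 0)).2 := by
    intro h
    apply hab
    rw [mk_eq_iff, hf x, hf y, h]
  have h2 : (M.ρ x' (false, 0)).2 ≠ (M.ρ y' (false, 0)).2 := by
    intro h
    apply hcd
    rw [mk_eq_iff, hf x', hf y', h]
  obtain ⟨g, hg1, hg2⟩ := two_trans M _ _ _ _ h1 h2
  refine ⟨g, ?_, ?_⟩
  · show (QuotientGroup.mk (g * x) : G ⧸ Stab M (false, 0)) = _
    rw [mk_eq_iff, map_mul, Equiv.Perm.mul_apply, hf x, hg1, ← hf x']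
  · show (QuotientGroup.mk (g * y) : G ⧸ Stab M (false, 0)) = _
    rw [mk_eq_iff, map_mul, Equiv.Perm.mul_apply, hf y, hg2, ← hf y']

/-! ## The model for `PSL₂(F)` -/

section field

variable {F : Type*} [Field F] [Fintype F]

/-- the transport of `SL₂` -/
noncomputable def sig (e : ZMod 11 ≃+* F) : SL2 ≃* Matrix.SpecialLinearGroup (Fin 2) F :=
  MonoidHom.toMulEquiv (Matrix.SpecialLinearGroup.map e.toRingHom) (Matrix.SpecialLinearGroup.map e.symm.toRingHom)
    (by
      ext g i j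
      simp)
    (by
      ext g i j
      simp)

theorem sig_center (e : ZMod 11 ≃+* F) (m : SL2) :
    sig e m ∈ Subgroup.center (Matrix.SpecialLinearGroup (Fin 2) F) ↔ m ∈ Subgroup.center SL2 := by
  simp only [Subgroup.mem_center_iff]
  constructor
  · intro h g
    apply (sig e).injective
    rw [map_mul, map_mul]
    exact h _
  · intro h g
    obtain ⟨g', rfl⟩ := (sig e).surjective g
    rw [← map_mul, ← map_mul, h]

/-- the model -/
noncomputable def model (hF : Fintype.card F = 11) : Model (Matrix.ProjectiveSpecialLinearGroup (Fin 2) F) :=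
  let e : ZMod 11 ≃+* F := ZMod.ringEquivOfPrime F (by norm_num) hF
  { π := (QuotientGroup.mk' _).comp (sig e).toMonoidHom
    hπ := (QuotientGroup.mk'_surjective _).comp (sig e).surjective
    ρ := QuotientGroup.lift _ (rho0.comp (sig e).symm.toMonoidHom) (by
      intro g hg
      obtain ⟨m, rfl⟩ := (sig e).surjective g
      rw [MonoidHom.mem_ker]
      show rho0 ((sig e).symm (sig e m)) = 1
      rw [MulEquiv.symm_apply_apply, rho0_eq_one_iff]
      exact (sig_center e m).1 hg)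
    hρ := by
      intro m p
      show rho0 ((sig e).symm (sig e m)) p = _
      rw [MulEquiv.symm_apply_apply, rho0_apply]
    hinj := by
      rw [injective_iff_map_eq_one]
      intro a ha
      obtain ⟨g, rfl⟩ := QuotientGroup.mk_surjective a
      obtain ⟨m, rfl⟩ := (sig e).surjective g
      have h1 : rho0 ((sig e).symm (sig e m)) = 1 := ha
      rw [MulEquiv.symm_apply_apply, rho0_eq_one_iff] at h1
      exact (QuotientGroup.eq_one_iff _).2 ((sig_center e m).2 h1)
    hcard := by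
      have h := Cfsg.Agent.Lead.card_PSL (F := F) 2 (by norm_num)
      rw [hF, Fin.prod_univ_two] at h
      norm_num at h
      omega }

end field

end Cfsg.Agent.H11.P11
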