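import Mathlib
import Cfsg.Agent.Lib.H10.SS2

/-! Classes of involutions in `PGL_n(q)`, `q` odd. -/

set_option linter.unusedSectionVars false

namespace Cfsg.Agent.H11.PGLInv

open Polynomial Module

variable {F : Type*} [Field F] [Fintype F] {p : ℕ} [hp : Fact p.Prime] [CharP F p] {n : ℕ}

/-- factors of the characteristic polynomial of semisimple elements -/
theorem dvd_of_aeval (g : GL (Fin n) F) (hg : (orderOf g).Coprime p) (P : F[X])
    (hP : aeval (Matrix.toLin' (g : Matrix (Fin n) (Fin n) F)) P = 0) (π : F[X]) (hπ : Irreducible π)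
    (hd : π ∣ (g : Matrix (Fin n) (Fin n) F).charpoly) : π ∣ P := by
  by_contra hcon
  have hL := Cfsg.Agent.H10.isSemisimple_of_coprime p g hg
  obtain ⟨v, hv, hv2⟩ := Cfsg.Agent.H10.exists_ker_of_dvd_charpoly n (Fin n → F)
    (Matrix.toLin' (g : Matrix (Fin n) (Fin n) F)) (by simp) hL π hπ
    (by rw [Cfsg.Agent.H10.charpoly_toLin'_eq]; exact hd)
  obtain ⟨u, w, huw⟩ := (hπ.coprime_iff_not_dvd).2 hcon
  apply hv
  have h1 := congrArg (fun Q : F[X] => aeval (Matrix.toLin' (g : Matrix (Fin n) (Fin n) F)) Q v) huw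
  simp only [map_add, map_mul, map_one, hP, mul_zero, add_zero, Module.End.mul_apply, hv2, map_zero,
    Module.End.one_apply] at h1
  exact h1.symm

theorem aeval_of_dvd (g : GL (Fin n) F) (hg : (orderOf g).Coprime p) (P : F[X]) (N : ℕ)
    (hd : (g : Matrix (Fin n) (Fin n) F).charpoly ∣ P ^ N) :
    aeval (Matrix.toLin' (g : Matrix (Fin n) (Fin n) F)) P = 0 := by
  have hL := Cfsg.Agent.H10.isSemisimple_of_coprime p g hg
  set L := Matrix.toLin' (g : Matrix (Fin n) (Fin n) F) with hLd
  have h1 : minpoly F L ∣ L.charpoly := LinearMap.minpoly_dvd_charpoly L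
  rw [hLd, Cfsg.Agent.H10.charpoly_toLin'_eq, ← hLd] at h1
  have h2 : minpoly F L ∣ P ^ (N + 1) := (h1.trans hd).trans (pow_dvd_pow _ (Nat.le_succ N))
  have h3 : minpoly F L ∣ P := (hL.minpoly_squarefree.dvd_pow_iff_dvd (by omega)).1 h2
  obtain ⟨c, hc⟩ := h3
  rw [hc, map_mul, minpoly.aeval, zero_mul]

theorem toLin_sq (A : Matrix (Fin n) (Fin n) F) (c : F) :
    A * A = c • 1 ↔ aeval (Matrix.toLin' A) (X ^ 2 - C c) = 0 := by
  have h1 : aeval (Matrix.toLin' A) (X ^ 2 - C c : F[X]) = Matrix.toLin' (A * A - c • 1) := by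
    rw [map_sub, map_sub, map_pow, aeval_X, aeval_C, map_smul, Matrix.toLin'_mul, Matrix.toLin'_one, sq,
      Algebra.algebraMap_eq_smul_one]
    rfl
  rw [h1]
  constructor
  · intro h
    rw [h, sub_self, map_zero]
  · intro h
    have := (Matrix.toLin' (m := Fin n) (n := Fin n) (R := F)).injective (h.trans (map_zero _).symm)
    exact sub_eq_zero.1 this

theorem toLin_eq (A : Matrix (Fin n) (Fin n) F) (c : F) :
    A = c • 1 ↔ aeval (Matrix.toLin' A) (X - C c) = 0 := by
  have h1 : aeval (Matrix.toLin' A) (X - C c : F[X]) = Matrix.toLin' (A - c • 1) := by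
    rw [map_sub, map_sub, aeval_X, aeval_C, map_smul, Matrix.toLin'_one,
      Algebra.algebraMap_eq_smul_one]
    rfl
  rw [h1]
  constructor
  · intro h
    rw [h, sub_self, map_zero]
  · intro h
    have := (Matrix.toLin' (m := Fin n) (n := Fin n) (R := F)).injective (h.trans (map_zero _).symm)
    exact sub_eq_zero.1 this

/-- monic polynomials with factors among `X - a`, `X - b` -/
theorem exists_two_form (a b : F) : ∀ (d : ℕ) (f : F[X]), f.natDegree = d → f.Monic →
    (∀ π : F[X], Irreducible π → π ∣ f → π ∣ (X - C a) * (X - C b)) →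
    ∃ u v : ℕ, f = (X - C a) ^ u * (X - C b) ^ v := by
  intro d
  induction d using Nat.strong_induction_on with
  | _ d ih =>
    intro f hd hm hf
    rcases Nat.eq_zero_or_pos d with h0 | h0
    · refine ⟨0, 0, ?_⟩
      have : f = 1 := hm.natDegree_eq_zero.1 (by omega)
      simp [this]
    · obtain ⟨π, hπ, hπf⟩ := exists_irreducible_of_natDegree_ne_zero (f := f) (by omega)
      have h1 := hf π hπ hπf
      have hcase : (X - C a ∣ f) ∨ (X - C b ∣ f) := by
        rcases hπ.prime.dvd_or_dvd h1 with h2 | h2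
        · left
          exact ((hπ.associated_of_dvd (irreducible_X_sub_C a) h2).symm.dvd).trans hπf
        · right
          exact ((hπ.associated_of_dvd (irreducible_X_sub_C b) h2).symm.dvd).trans hπf
      rcases hcase with ⟨f', hf'⟩ | ⟨f', hf'⟩
      · have hm' : f'.Monic := by
          rw [hf'] at hm
          exact (monic_X_sub_C a).of_mul_monic_left hm
        have hd' : f'.natDegree = d - 1 := by
          have := (monic_X_sub_C a).natDegree_mul hm'
          rw [← hf', natDegree_X_sub_C] at this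
          omega
        obtain ⟨u, v, huv⟩ := ih (d - 1) (by omega) f' hd' hm'
          (fun σ hσ hσf => hf σ hσ (by rw [hf']; exact hσf.mul_left _))
        exact ⟨u + 1, v, by rw [hf', huv]; ring⟩
      · have hm' : f'.Monic := by
          rw [hf'] at hm
          exact (monic_X_sub_C b).of_mul_monic_left hm
        have hd' : f'.natDegree = d - 1 := by
          have := (monic_X_sub_C b).natDegree_mul hm'
          rw [← hf', natDegree_X_sub_C] at this
          omega
        obtain ⟨u, v, huv⟩ := ih (d - 1) (by omega) f' hd' hm'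
          (fun σ hσ hσf => hf σ hσ (by rw [hf']; exact hσf.mul_left _))
        exact ⟨u, v + 1, by rw [hf', huv]; ring⟩

/-- monic polynomials with all factors dividing an irreducible monic polynomial -/
theorem exists_pow_form (P : F[X]) (hP : P.Monic) (hPi : Irreducible P) : ∀ (d : ℕ) (f : F[X]), f.natDegree = d → f.Monic →
    (∀ π : F[X], Irreducible π → π ∣ f → π ∣ P) → ∃ k : ℕ, f = P ^ k := by
  intro d
  induction d using Nat.strong_induction_on with
  | _ d ih =>
    intro f hd hm hf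
    rcases Nat.eq_zero_or_pos d with h0 | h0
    · refine ⟨0, ?_⟩
      have : f = 1 := hm.natDegree_eq_zero.1 (by omega)
      simp [this]
    · obtain ⟨π, hπ, hπf⟩ := exists_irreducible_of_natDegree_ne_zero (f := f) (by omega)
      have h1 := hf π hπ hπf
      obtain ⟨f', hf'⟩ : P ∣ f := ((hπ.associated_of_dvd hPi h1).symm.dvd).trans hπf
      have hm' : f'.Monic := by
        rw [hf'] at hm
        exact hP.of_mul_monic_left hm
      have hdeg0 : 0 < P.natDegree := hPi.natDegree_pos
      have hd' : f'.natDegree = d - P.natDegree := by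
        have := hP.natDegree_mul hm'
        rw [← hf'] at this
        omega
      obtain ⟨k, hk⟩ := ih _ (by omega) f' hd' hm'
        (fun σ hσ hσf => hf σ hσ (by rw [hf']; exact hσf.mul_left _))
      exact ⟨k + 1, by rw [hf', hk]; ring⟩

theorem two_form_natDegree (a b : F) (u v : ℕ) : ((X - C a) ^ u * (X - C b) ^ v).natDegree = u + v := by
  rw [((monic_X_sub_C a).pow u).natDegree_mul ((monic_X_sub_C b).pow v), (monic_X_sub_C a).natDegree_pow,
    (monic_X_sub_C b).natDegree_pow, natDegree_X_sub_C, natDegree_X_sub_C]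
  ring

theorem two_form_unique (a b : F) (hab : a ≠ b) {u v u' v' : ℕ}
    (h : (X - C a) ^ u * (X - C b) ^ v = (X - C a) ^ u' * (X - C b) ^ v') : v = v' := by
  have key : ∀ u v : ℕ, rootMultiplicity b ((X - C a) ^ u * (X - C b) ^ v) = v := by
    intro u v
    have h0 : (X - C a) ^ u * (X - C b) ^ v ≠ (0 : F[X]) :=
      (((monic_X_sub_C a).pow u).mul ((monic_X_sub_C b).pow v)).ne_zero
    rw [rootMultiplicity_mul h0, rootMultiplicity_X_sub_C_pow]
    have : rootMultiplicity b ((X - C a) ^ u) = 0 := by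
      apply rootMultiplicity_eq_zero
      simp [IsRoot, eval_pow, sub_ne_zero.2 hab.symm]
    omega
  rw [← key u v, h, key]

/-- The diagonal involutions -/
def dd (n a : ℕ) (i : Fin n) : F := if i.val < a then -1 else 1

theorem dd_sq (a : ℕ) (i : Fin n) : (dd n a i : F) * dd n a i = 1 := by
  unfold dd
  split_ifs <;> simp

noncomputable def DD (n a : ℕ) : GL (Fin n) F :=
  ⟨Matrix.diagonal (dd n a), Matrix.diagonal (dd n a),
    by rw [Matrix.diagonal_mul_diagonal]; simp [dd_sq], by rw [Matrix.diagonal_mul_diagonal]; simp [dd_sq]⟩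

theorem DD_sq (a : ℕ) : (DD n a : GL (Fin n) F).val * (DD n a : GL (Fin n) F).val = (1 : F) • 1 := by
  rw [one_smul]
  exact (DD n a : GL (Fin n) F).val_inv

theorem card_lt (a : ℕ) (ha : a ≤ n) : (Finset.univ.filter (fun i : Fin n => i.val < a)).card = a := by
  have : Finset.univ.filter (fun j : Fin n => j.val < a) =
      (Finset.range a).attachFin (by intro m hm; have := Finset.mem_range.1 hm; omega) := by
    ext j
    simp
  rw [this, Finset.card_attachFin, Finset.card_range]

theorem card_ge (a : ℕ) (ha : a ≤ n) : (Finset.univ.filter (fun i : Fin n => ¬ i.val < a)).card = n - a := by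
  have h := Finset.card_filter_add_card_filter_not (s := (Finset.univ : Finset (Fin n))) (fun i : Fin n => i.val < a)
  rw [Finset.card_univ, Fintype.card_fin, card_lt a ha] at h
  omega

theorem charpoly_diag_gen (a : ℕ) (ha : a ≤ n) (x y : F) :
    (Matrix.diagonal (fun i : Fin n => if i.val < a then x else y)).charpoly = (X - C y) ^ (n - a) * (X - C x) ^ a := by
  rw [Matrix.charpoly_diagonal]
  simp only [apply_ite C]
  have : ∀ i : Fin n, (X - (if i.val < a then C x else C y)) = if i.val < a then (X - C x) else (X - C y) := by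
    intro i
    split_ifs <;> rfl
  simp_rw [this]
  rw [Finset.prod_ite, Finset.prod_const, Finset.prod_const, card_lt a ha, card_ge a ha, mul_comm]

theorem charpoly_DD (a : ℕ) (ha : a ≤ n) :
    ((DD n a : GL (Fin n) F) : Matrix (Fin n) (Fin n) F).charpoly = (X - C 1) ^ (n - a) * (X - C (-1)) ^ a := by
  exact charpoly_diag_gen a ha (-1) 1

theorem charpoly_neg_DD (a : ℕ) (ha : a ≤ n) :
    (Matrix.diagonal (fun i : Fin n => -(dd n a i : F))).charpoly = (X - C 1) ^ a * (X - C (-1)) ^ (n - a) := by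
  have h : (fun i : Fin n => -(dd n a i : F)) = fun i : Fin n => if i.val < a then 1 else -1 := by
    funext i
    unfold dd
    split_ifs <;> simp
  rw [h, charpoly_diag_gen a ha 1 (-1), mul_comm]

/-! ## scalars and the quotient -/

/-- scalar elements -/
noncomputable def sc (s : F) (hs : s ≠ 0) : GL (Fin n) F :=
  ⟨s • 1, s⁻¹ • 1, by simp [smul_smul, hs], by simp [smul_smul, hs]⟩

theorem sc_val (s : F) (hs : s ≠ 0) : ((sc s hs : GL (Fin n) F) : Matrix (Fin n) (Fin n) F) = s • 1 := rfl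

theorem sc_mem (s : F) (hs : s ≠ 0) : (sc s hs : GL (Fin n) F) ∈ Subgroup.center (GL (Fin n) F) := by
  rw [Subgroup.mem_center_iff]
  intro g
  apply Units.ext
  simp [sc_val]

theorem one_ne_zero' (hn : 2 ≤ n) : (1 : Matrix (Fin n) (Fin n) F) ≠ 0 := by
  haveI : Nonempty (Fin n) := ⟨⟨0, by omega⟩⟩
  exact one_ne_zero

theorem smul_one_inj (hn : 2 ≤ n) {a b : F} (h : a • (1 : Matrix (Fin n) (Fin n) F) = b • 1) : a = b := by
  have := congrFun (congrFun h ⟨0, by omega⟩) ⟨0, by omega⟩
  simpa using this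

theorem scalar_ne_zero (hn : 2 ≤ n) (g : GL (Fin n) F) (s : F) (hg : g.val = s • 1) : s ≠ 0 := by
  rintro rfl
  have h1 : g.val * g⁻¹.val = 1 := by rw [← Units.val_mul, mul_inv_cancel, Units.val_one]
  rw [hg, zero_smul, zero_mul] at h1
  exact one_ne_zero' hn h1.symm

theorem exists_of_mem_center (hn : 2 ≤ n) (g : GL (Fin n) F) (hg : g ∈ Subgroup.center (GL (Fin n) F)) :
    ∃ s : F, s ≠ 0 ∧ g.val = s • 1 := by
  obtain ⟨s, hs⟩ := Matrix.GeneralLinearGroup.mem_center_iff_val_mem_range_scalar.1 hg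
  have hg2 : g.val = s • 1 := by
    rw [← hs]
    ext i j
    simp [Matrix.scalar_apply, Matrix.diagonal_apply, Matrix.one_apply]
  exact ⟨s, scalar_ne_zero hn g s hg2, hg2⟩

/-- the projection to PGL -/
noncomputable abbrev pr : GL (Fin n) F →* (GL (Fin n) F ⧸ Subgroup.center (GL (Fin n) F)) := QuotientGroup.mk' _

theorem pr_eq_one_iff (g : GL (Fin n) F) : pr g = 1 ↔ g ∈ Subgroup.center (GL (Fin n) F) :=
  QuotientGroup.eq_one_iff g

theorem pr_sc_mul (g : GL (Fin n) F) (s : F) (hs : s ≠ 0) : pr (sc s hs * g) = pr g := by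
  rw [map_mul, (pr_eq_one_iff _).2 (sc_mem s hs), one_mul]

theorem order_two (A : GL (Fin n) F) (c : F) (hc : c ≠ 0) (hA : A.val * A.val = c • 1)
    (hns : ∀ s : F, A.val ≠ s • 1) (hn : 2 ≤ n) : orderOf (pr A) = 2 := by
  haveI : Fact (Nat.Prime 2) := ⟨Nat.prime_two⟩
  apply orderOf_eq_prime
  · rw [← map_pow, pr_eq_one_iff, sq]
    have : A * A = sc c hc := Units.ext hA
    rw [this]
    exact sc_mem _ _
  · rw [Ne, pr_eq_one_iff]
    intro h
    obtain ⟨s, -, hs⟩ := exists_of_mem_center hn A h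
    exact hns s hs

theorem of_order_two (hn : 2 ≤ n) (A : GL (Fin n) F) (h : orderOf (pr A) = 2) :
    (∃ c : F, c ≠ 0 ∧ A.val * A.val = c • 1) ∧ ∀ s : F, A.val ≠ s • 1 := by
  constructor
  · have h1 : pr A ^ 2 = 1 := by rw [← h]; exact pow_orderOf_eq_one _
    rw [← map_pow, pr_eq_one_iff] at h1
    obtain ⟨c, hc, hv⟩ := exists_of_mem_center hn _ h1
    exact ⟨c, hc, by rw [← hv, sq]; rfl⟩
  · intro s hs
    have hs0 : s ≠ 0 := scalar_ne_zero hn A s hs
    have h1 : A = sc s hs0 := Units.ext hs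
    have h2 : pr A = 1 := (pr_eq_one_iff A).2 (h1 ▸ sc_mem s hs0)
    rw [h2, orderOf_one] at h
    omega

theorem conj_scalar (hn : 2 ≤ n) (A B : GL (Fin n) F) (h : IsConj (pr A) (pr B)) :
    ∃ (x : GL (Fin n) F) (l : F), l ≠ 0 ∧ x.val * A.val * (x⁻¹).val = l • B.val := by
  rw [isConj_iff] at h
  obtain ⟨c, hc⟩ := h
  obtain ⟨x, rfl⟩ := QuotientGroup.mk'_surjective _ c
  have h1 : pr (x * A * x⁻¹) = pr B := by
    rw [map_mul, map_mul, map_inv]
    exact hc
  have h2 := QuotientGroup.eq.1 h1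
  obtain ⟨s, hs, hv⟩ := exists_of_mem_center hn _ h2
  refine ⟨x, s⁻¹, inv_ne_zero hs, ?_⟩
  have h3 : B.val = (x * A * x⁻¹).val * (s • 1) := by
    rw [← hv, ← Units.val_mul, mul_inv_cancel_left]
  rw [h3, Matrix.mul_smul, Matrix.mul_one, smul_smul, inv_mul_cancel₀ hs, one_smul]
  simp [Units.val_mul]

theorem coprime_of_sq (hp2 : p ≠ 2) (A : GL (Fin n) F) (c : F) (hc : c ≠ 0)
    (hA : A.val * A.val = c • 1) : (orderOf A).Coprime p := by
  have h1 : A ^ (2 * (Fintype.card F - 1)) = 1 := by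
    rw [pow_mul]
    apply Units.ext
    rw [Units.val_pow_eq_pow_val, Units.val_pow_eq_pow_val, sq, hA, Units.val_one, _root_.smul_pow, one_pow,
      FiniteField.pow_card_sub_one_eq_one c hc, one_smul]
  refine Nat.Coprime.coprime_dvd_left (orderOf_dvd_of_pow_eq_one h1) ?_
  rw [Nat.coprime_comm, Nat.Prime.coprime_iff_not_dvd hp.out]
  intro h
  rcases (Nat.Prime.dvd_mul hp.out).1 h with h2 | h2
  · exact hp2 ((Nat.prime_dvd_prime_iff_eq hp.out Nat.prime_two).1 h2)
  · have h3 : p ∣ Fintype.card F := (CharP.cast_eq_zero_iff F p _).1 (Nat.cast_card_eq_zero F)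
    have h4 : 1 ≤ Fintype.card F := Fintype.card_pos
    have h5 := Nat.dvd_sub h3 h2
    have h6 : Fintype.card F - (Fintype.card F - 1) = 1 := by omega
    rw [h6] at h5
    exact hp.out.one_lt.ne' (Nat.dvd_one.1 h5)

theorem two_ne (hp2 : p ≠ 2) : (-1 : F) ≠ 1 := by
  intro h
  have h2 : (2 : F) = 0 := by linear_combination -h
  have h3 : ((2 : ℕ) : F) = 0 := by exact_mod_cast h2
  have h4 := (CharP.cast_eq_zero_iff F p 2).1 h3
  exact hp2 ((Nat.prime_dvd_prime_iff_eq hp.out Nat.prime_two).1 h4)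

theorem charpoly_of_sq_one (hp2 : p ≠ 2) (A : GL (Fin n) F) (hA : A.val * A.val = (1 : F) • 1) :
    ∃ u v : ℕ, u + v = n ∧ (A.val).charpoly = (X - C 1) ^ u * (X - C (-1)) ^ v := by
  have hco := coprime_of_sq hp2 A 1 one_ne_zero hA
  obtain ⟨u, v, huv⟩ := exists_two_form (1 : F) (-1) n (A.val).charpoly
    (by simpa using Matrix.charpoly_natDegree_eq_dim A.val) (Matrix.charpoly_monic _) (by
      intro π hπ hd
      have h1 := dvd_of_aeval A hco (X ^ 2 - C 1) ((toLin_sq A.val 1).1 hA) π hπ hd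
      have h2 : (X - C (1 : F)) * (X - C (-1)) = X ^ 2 - C 1 := by
        simp only [map_neg, map_one]
        ring
      rw [h2]
      exact h1)
  refine ⟨u, v, ?_, huv⟩
  have h1 := Matrix.charpoly_natDegree_eq_dim A.val
  rw [huv, two_form_natDegree] at h1
  simpa using h1

theorem DD_order_coprime (hp2 : p ≠ 2) (a : ℕ) : (orderOf (DD n a : GL (Fin n) F)).Coprime p :=
  coprime_of_sq hp2 _ 1 one_ne_zero (DD_sq a)

theorem DD_nonscalar (hp2 : p ≠ 2) (hn : 2 ≤ n) (a : ℕ) (h1 : 1 ≤ a) (h2 : a ≤ n / 2) (s : F) :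
    (DD n a : GL (Fin n) F).val ≠ s • 1 := by
  intro h
  have ha : a < n := by omega
  have h3 := congrFun (congrFun h ⟨0, by omega⟩) ⟨0, by omega⟩
  have h4 := congrFun (congrFun h ⟨a, ha⟩) ⟨a, ha⟩
  have h5 : (Matrix.diagonal (dd n a) : Matrix (Fin n) (Fin n) F) ⟨0, by omega⟩ ⟨0, by omega⟩ = -1 := by
    rw [Matrix.diagonal_apply_eq]
    simp [dd]
    omega
  have h6 : (Matrix.diagonal (dd n a) : Matrix (Fin n) (Fin n) F) ⟨a, ha⟩ ⟨a, ha⟩ = 1 := by
    rw [Matrix.diagonal_apply_eq]
    simp [dd]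
  have h7 : (-1 : F) = s := by
    have : (DD n a : GL (Fin n) F).val = Matrix.diagonal (dd n a) := rfl
    rw [this, h5] at h3
    simpa using h3
  have h8 : (1 : F) = s := by
    have : (DD n a : GL (Fin n) F).val = Matrix.diagonal (dd n a) := rfl
    rw [this, h6] at h4
    simpa using h4
  exact two_ne hp2 (h7.trans h8.symm)

theorem DD_order_two (hp2 : p ≠ 2) (hn : 2 ≤ n) (a : ℕ) (h1 : 1 ≤ a) (h2 : a ≤ n / 2) :
    orderOf (pr (DD n a : GL (Fin n) F)) = 2 :=
  order_two _ 1 one_ne_zero (DD_sq a) (DD_nonscalar hp2 hn a h1 h2) hn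

/-- the twisted involution, with the polynomial `(X² − μ)^(n/2)` -/
theorem exists_B (hp2 : p ≠ 2) (hn : 2 ≤ n) (he : Even n) (μ : F) (hμ : ¬ IsSquare μ) :
    ∃ B : GL (Fin n) F, (orderOf B).Coprime p ∧ B.val.charpoly = (X ^ 2 - C μ) ^ (n / 2) ∧
      B.val * B.val = μ • 1 ∧ orderOf (pr B) = 2 := by
  have hμ0 : μ ≠ 0 := by
    rintro rfl
    exact hμ (IsSquare.zero)
  have hm : (X ^ 2 - C μ : F[X]).Monic := monic_X_pow_sub_C μ (by norm_num)
  have hd : (X ^ 2 - C μ : F[X]).natDegree = 2 := natDegree_X_pow_sub_C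
  obtain ⟨k, hk⟩ := he
  have hk2 : n / 2 = k := by omega
  obtain ⟨B, hB1, hB2⟩ := Cfsg.Agent.H10.exists_GL_of_poly p n ((X ^ 2 - C μ : F[X]) ^ (n / 2)) (hm.pow _)
    (by rw [hm.natDegree_pow, hd]; omega) (by
      rw [coeff_zero_eq_eval_zero, eval_pow]
      simp [hμ0])
  have hB3 : B.val * B.val = μ • 1 := by
    rw [toLin_sq]
    exact aeval_of_dvd B hB1 (X ^ 2 - C μ) (n / 2) (by rw [hB2])
  refine ⟨B, hB1, hB2, hB3, order_two B μ hμ0 hB3 ?_ hn⟩
  intro s hs
  rw [hs, smul_mul_assoc, Matrix.mul_smul, Matrix.mul_one, smul_smul] at hB3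
  exact hμ ⟨s, (smul_one_inj hn hB3).symm⟩

theorem charpoly_conj (x A : GL (Fin n) F) : (x.val * A.val * (x⁻¹).val).charpoly = A.val.charpoly := by
  rw [Matrix.coe_units_inv]
  exact Matrix.charpoly_units_conj x A.val

theorem charpoly_neg (A : Matrix (Fin n) (Fin n) F) (D : Matrix (Fin n) (Fin n) F) (a b : F) (hab : a = b)
    (h : A = a • D) : A = b • D := by
  rw [h, hab]

theorem conj_sq (x D : GL (Fin n) F) (c : F) (hD : D.val * D.val = c • 1) :
    (x.val * D.val * (x⁻¹).val) * (x.val * D.val * (x⁻¹).val) = c • 1 := by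
  have h : (x⁻¹).val * x.val = 1 := by rw [← Units.val_mul, inv_mul_cancel, Units.val_one]
  have h' : x.val * (x⁻¹).val = 1 := by rw [← Units.val_mul, mul_inv_cancel, Units.val_one]
  calc (x.val * D.val * (x⁻¹).val) * (x.val * D.val * (x⁻¹).val)
      = x.val * D.val * ((x⁻¹).val * x.val) * D.val * (x⁻¹).val := by simp only [mul_assoc]
    _ = x.val * (D.val * D.val) * (x⁻¹).val := by rw [h]; simp only [mul_one, mul_assoc]
    _ = c • (x.val * (x⁻¹).val) := by rw [hD]; simp
    _ = c • 1 := by rw [h']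

/-- from an involution modulo scalars with square eigenvalue -/
theorem surj_square (hp2 : p ≠ 2) (hn : 2 ≤ n) (A : GL (Fin n) F) (hA : A.val * A.val = (1 : F) • 1)
    (hns : ∀ s : F, A.val ≠ s • 1) : ∃ a : ℕ, 1 ≤ a ∧ a ≤ n / 2 ∧ IsConj (pr A) (pr (DD n a : GL (Fin n) F)) := by
  obtain ⟨u, v, huv, hc⟩ := charpoly_of_sq_one hp2 A hA
  have hco := coprime_of_sq hp2 A 1 one_ne_zero hA
  have hv : 1 ≤ v := by
    rcases Nat.eq_zero_or_pos v with rfl | h
    · exfalso
      apply hns 1
      rw [toLin_eq]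
      apply aeval_of_dvd A hco _ u
      rw [hc]
      simp
    · exact h
  have hu : 1 ≤ u := by
    rcases Nat.eq_zero_or_pos u with rfl | h
    · exfalso
      apply hns (-1)
      rw [toLin_eq]
      apply aeval_of_dvd A hco _ v
      rw [hc]
      simp
    · exact h
  by_cases hle : v ≤ n / 2
  · refine ⟨v, hv, hle, ?_⟩
    apply MonoidHom.map_isConj
    apply Cfsg.Agent.H10.isConj_of_charpoly_eq p A _ hco (DD_order_coprime hp2 v)
    rw [hc, charpoly_DD v (by omega)]
    have : n - v = u := by omega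
    rw [this]
  · refine ⟨u, hu, by omega, ?_⟩
    have hneg : (-1 : F) ≠ 0 := by simp
    rw [← pr_sc_mul (DD n u) (-1) hneg]
    apply MonoidHom.map_isConj
    have hsq : (sc (-1) hneg * DD n u : GL (Fin n) F).val = Matrix.diagonal (fun i : Fin n => -(dd n u i : F)) := by
      rw [Units.val_mul, sc_val, smul_mul_assoc, one_mul]
      show (-1 : F) • Matrix.diagonal (dd n u) = _
      ext i j
      by_cases h : i = j
      · subst h
        simp
      · simp [h]
    have hsq2 : (sc (-1) hneg * DD n u : GL (Fin n) F).val * (sc (-1) hneg * DD n u : GL (Fin n) F).val = (1 : F) • 1 := by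
      rw [hsq, Matrix.diagonal_mul_diagonal, one_smul, ← Matrix.diagonal_one]
      congr 1
      funext i
      have := dd_sq (n := n) (F := F) u i
      simpa using this
    apply Cfsg.Agent.H10.isConj_of_charpoly_eq p A _ hco (coprime_of_sq hp2 _ 1 one_ne_zero hsq2)
    rw [hc, hsq, charpoly_neg_DD u (by omega)]
    have : n - u = v := by omega
    rw [this]

theorem exists_mul_square (μ c : F) (hμ : ¬ IsSquare μ) (hc : ¬ IsSquare c) (hodd : ringChar F ≠ 2) :
    ∃ r : F, r ≠ 0 ∧ r * r * c = μ := by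
  classical
  have h1 : quadraticChar F μ = -1 := (quadraticChar_neg_one_iff_not_isSquare).2 hμ
  have h2 : quadraticChar F c = -1 := (quadraticChar_neg_one_iff_not_isSquare).2 hc
  have hc0 : c ≠ 0 := by
    rintro rfl
    exact hc IsSquare.zero
  have hμ0 : μ ≠ 0 := by
    rintro rfl
    exact hμ IsSquare.zero
  have h3 : quadraticChar F (μ * c⁻¹) = 1 := by
    rw [map_mul, h1]
    have h4 : quadraticChar F c⁻¹ = -1 := by
      rw [quadraticChar_neg_one_iff_not_isSquare]
      intro h
      apply hc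
      have := h.inv
      simpa using this
    rw [h4]
    norm_num
  have h5 : IsSquare (μ * c⁻¹) := (quadraticChar_one_iff_isSquare (mul_ne_zero hμ0 (inv_ne_zero hc0))).1 h3
  obtain ⟨r, hr⟩ := h5
  refine ⟨r, ?_, ?_⟩
  · rintro rfl
    rw [mul_zero] at hr
    exact (mul_ne_zero hμ0 (inv_ne_zero hc0)) hr
  · rw [← hr]
    field_simp

theorem irreducible_sq_sub (μ : F) (hμ : ¬ IsSquare μ) : Irreducible (X ^ 2 - C μ : F[X]) := by
  classical
  have hd : (X ^ 2 - C μ : F[X]).natDegree = 2 := natDegree_X_pow_sub_C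
  have hm : (X ^ 2 - C μ : F[X]).Monic := monic_X_pow_sub_C μ (by norm_num)
  rw [hm.irreducible_iff_roots_eq_zero_of_degree_le_three (by omega) (by omega)]
  rw [Multiset.eq_zero_iff_forall_notMem]
  intro a ha
  have h1 := (mem_roots hm.ne_zero).1 ha
  apply hμ
  refine ⟨a, ?_⟩
  simp only [IsRoot, eval_sub, eval_pow, eval_X, eval_C] at h1
  linear_combination -h1

theorem surj_nonsquare (hp2 : p ≠ 2) (hn : 2 ≤ n) (μ : F) (hμ : ¬ IsSquare μ) (A B : GL (Fin n) F)
    (hA : A.val * A.val = μ • 1) (hB1 : (orderOf B).Coprime p) (hB2 : B.val.charpoly = (X ^ 2 - C μ) ^ (n / 2)) :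
    IsConj A B := by
  have hμ0 : μ ≠ 0 := by
    rintro rfl
    exact hμ IsSquare.zero
  have hco := coprime_of_sq hp2 A μ hμ0 hA
  have hm : (X ^ 2 - C μ : F[X]).Monic := monic_X_pow_sub_C μ (by norm_num)
  have hd : (X ^ 2 - C μ : F[X]).natDegree = 2 := natDegree_X_pow_sub_C
  obtain ⟨k, hk⟩ := exists_pow_form (X ^ 2 - C μ : F[X]) hm (irreducible_sq_sub μ hμ) n A.val.charpoly
    (by simpa using Matrix.charpoly_natDegree_eq_dim A.val) (Matrix.charpoly_monic _) (by
      intro π hπ hdv
      exact dvd_of_aeval A hco (X ^ 2 - C μ) ((toLin_sq A.val μ).1 hA) π hπ hdv)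
  have h1 := Matrix.charpoly_natDegree_eq_dim A.val
  rw [hk, hm.natDegree_pow, hd] at h1
  have h2 : k = n / 2 := by
    have : k * 2 = n := by simpa using h1
    omega
  apply Cfsg.Agent.H10.isConj_of_charpoly_eq p A B hco hB1
  rw [hk, hB2, h2]

theorem even_of_nonsquare (hp2 : p ≠ 2) (μ : F) (hμ : ¬ IsSquare μ) (A : GL (Fin n) F)
    (hA : A.val * A.val = μ • 1) : Even n := by
  have hμ0 : μ ≠ 0 := by
    rintro rfl
    exact hμ IsSquare.zero
  have hco := coprime_of_sq hp2 A μ hμ0 hA
  have hm : (X ^ 2 - C μ : F[X]).Monic := monic_X_pow_sub_C μ (by norm_num)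
  have hd : (X ^ 2 - C μ : F[X]).natDegree = 2 := natDegree_X_pow_sub_C
  obtain ⟨k, hk⟩ := exists_pow_form (X ^ 2 - C μ : F[X]) hm (irreducible_sq_sub μ hμ) n A.val.charpoly
    (by simpa using Matrix.charpoly_natDegree_eq_dim A.val) (Matrix.charpoly_monic _) (by
      intro π hπ hdv
      exact dvd_of_aeval A hco (X ^ 2 - C μ) ((toLin_sq A.val μ).1 hA) π hπ hdv)
  have h1 := Matrix.charpoly_natDegree_eq_dim A.val
  rw [hk, hm.natDegree_pow, hd] at h1
  have : k * 2 = n := by simpa using h1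
  exact ⟨k, by omega⟩

/-- Classes of involutions in `PGL_n(q)`. -/
theorem main (hodd : Odd (Fintype.card F)) (hn : 2 ≤ n) :
    Nat.card {C : ConjClasses (GL (Fin n) F ⧸ Subgroup.center (GL (Fin n) F)) //
      ∃ g : GL (Fin n) F ⧸ Subgroup.center (GL (Fin n) F), ConjClasses.mk g = C ∧ orderOf g = 2} =
      n / 2 + (if Even n then 1 else 0) := by
  classical
  obtain ⟨p, hchar⟩ := CharP.exists F
  haveI : Fact p.Prime := ⟨CharP.char_is_prime F p⟩
  have hp2 : p ≠ 2 := by
    rintro rfl
    have h3 : 2 ∣ Fintype.card F := (CharP.cast_eq_zero_iff F 2 _).1 (Nat.cast_card_eq_zero F)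
    rw [← even_iff_two_dvd] at h3
    exact (Nat.not_even_iff_odd.2 hodd) h3
  have hrc : ringChar F ≠ 2 := by
    rw [ringChar.eq F p]
    exact hp2
  obtain ⟨μ, hμ⟩ := FiniteField.exists_nonsquare hrc
  have hμ0 : μ ≠ 0 := by
    rintro rfl
    exact hμ IsSquare.zero
  have hBex := fun he : Even n => exists_B hp2 hn he μ hμ
  choose B hB1 hB2 hB3 hB4 using hBex
  let Ψ : Fin (n / 2) ⊕ {_u : Unit // Even n} →
      {C : ConjClasses (GL (Fin n) F ⧸ Subgroup.center (GL (Fin n) F)) //
        ∃ g : GL (Fin n) F ⧸ Subgroup.center (GL (Fin n) F), ConjClasses.mk g = C ∧ orderOf g = 2} :=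
    fun t => match t with
      | Sum.inl i => ⟨ConjClasses.mk (pr (DD n (i.val + 1))), _, rfl,
          DD_order_two hp2 hn _ (by omega) (by have := i.2; omega)⟩
      | Sum.inr h => ⟨ConjClasses.mk (pr (B h.2)), _, rfl, hB4 h.2⟩
  have hΨ : Function.Bijective Ψ := by
    constructor
    · have hDD : ∀ a b : ℕ, a ≤ n / 2 → b ≤ n / 2 → IsConj (pr (DD n a : GL (Fin n) F)) (pr (DD n b)) → a = b := by
        intro a b ha hb h
        obtain ⟨x, l, hl, hx⟩ := conj_scalar hn _ _ h
        have hsq : l * l = 1 := by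
          have h1 := conj_sq x (DD n a : GL (Fin n) F) 1 (DD_sq a)
          rw [hx, smul_mul_assoc, Matrix.mul_smul, DD_sq b, one_smul, smul_smul] at h1
          exact smul_one_inj hn (h1.trans (one_smul _ _).symm)
        have hchar := charpoly_conj x (DD n a : GL (Fin n) F)
        rw [hx] at hchar
        have hl2 : l = 1 ∨ l = -1 := mul_self_eq_one_iff.1 hsq
        rcases hl2 with rfl | rfl
        · rw [one_smul, charpoly_DD b (by omega), charpoly_DD a (by omega)] at hchar
          exact (two_form_unique (1 : F) (-1) (two_ne hp2).symm hchar).symm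
        · have h5 : (-1 : F) • (DD n b : GL (Fin n) F).val = Matrix.diagonal (fun i : Fin n => -(dd n b i : F)) := by
            show (-1 : F) • Matrix.diagonal (dd n b) = _
            ext i j
            by_cases h : i = j
            · subst h
              simp
            · simp [h]
          rw [h5, charpoly_neg_DD b (by omega), charpoly_DD a (by omega)] at hchar
          have h6 := two_form_unique (1 : F) (-1) (two_ne hp2).symm hchar
          omega
      have hDB : ∀ (a : ℕ) (he : Even n), ¬ IsConj (pr (DD n a : GL (Fin n) F)) (pr (B he)) := by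
        intro a he h
        obtain ⟨x, l, hl, hx⟩ := conj_scalar hn _ _ h
        have h1 := conj_sq x (DD n a : GL (Fin n) F) 1 (DD_sq a)
        rw [hx, smul_mul_assoc, Matrix.mul_smul, hB3 he, smul_smul, smul_smul] at h1
        have h2 : l * l * μ = 1 := smul_one_inj hn h1
        apply hμ
        refine ⟨l⁻¹, ?_⟩
        field_simp
        linear_combination h2
      rintro (i | ⟨_, hi⟩) (j | ⟨_, hj⟩) h
      · have h1 := ConjClasses.mk_eq_mk_iff_isConj.1 (Subtype.ext_iff.1 h)
        have h2 := hDD _ _ (by have := i.2; omega) (by have := j.2; omega) h1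
        congr 1
        exact Fin.ext (by omega)
      · exact absurd (ConjClasses.mk_eq_mk_iff_isConj.1 (Subtype.ext_iff.1 h)) (hDB _ hj)
      · exact absurd (ConjClasses.mk_eq_mk_iff_isConj.1 (Subtype.ext_iff.1 h)).symm (hDB _ hi)
      · rfl
    · rintro ⟨C, g, rfl, hg⟩
      obtain ⟨A, rfl⟩ := QuotientGroup.mk'_surjective _ g
      obtain ⟨⟨c, hc, hA⟩, hns⟩ := of_order_two hn A hg
      by_cases hcs : IsSquare c
      · obtain ⟨b, hb⟩ := hcs
        have hb0 : b ≠ 0 := by
          rintro rfl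
          exact hc (by simpa using hb)
        have hA' : (sc b⁻¹ (inv_ne_zero hb0) * A : GL (Fin n) F).val * (sc b⁻¹ (inv_ne_zero hb0) * A : GL (Fin n) F).val = (1 : F) • 1 := by
          rw [Units.val_mul, sc_val, smul_mul_assoc, one_mul, smul_mul_assoc, Matrix.mul_smul, hA, smul_smul, smul_smul, hb]
          congr 1
          field_simp
        have hns' : ∀ s : F, (sc b⁻¹ (inv_ne_zero hb0) * A : GL (Fin n) F).val ≠ s • 1 := by
          intro s hs
          rw [Units.val_mul, sc_val, smul_mul_assoc, one_mul] at hs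
          apply hns (b * s)
          rw [mul_smul, ← hs, smul_smul, mul_inv_cancel₀ hb0, one_smul]
        obtain ⟨a, ha1, ha2, hconj⟩ := surj_square hp2 hn _ hA' hns'
        rw [pr_sc_mul] at hconj
        refine ⟨Sum.inl ⟨a - 1, by omega⟩, ?_⟩
        apply Subtype.ext
        show ConjClasses.mk (pr (DD n (a - 1 + 1))) = ConjClasses.mk (pr A)
        have : a - 1 + 1 = a := by omega
        rw [this]
        exact ConjClasses.mk_eq_mk_iff_isConj.2 hconj.symm
      · obtain ⟨r, hr0, hr⟩ := exists_mul_square μ c hμ hcs hrc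
        have hA' : (sc r hr0 * A : GL (Fin n) F).val * (sc r hr0 * A : GL (Fin n) F).val = μ • 1 := by
          rw [Units.val_mul, sc_val, smul_mul_assoc, one_mul, smul_mul_assoc, Matrix.mul_smul, hA, smul_smul, smul_smul, ← hr]
        have he := even_of_nonsquare hp2 μ hμ _ hA'
        have hconj := surj_nonsquare hp2 hn μ hμ _ (B he) hA' (hB1 he) (hB2 he)
        refine ⟨Sum.inr ⟨(), he⟩, ?_⟩
        apply Subtype.ext
        show ConjClasses.mk (pr (B he)) = ConjClasses.mk (pr A)
        have h2 := (pr (n := n) (F := F)).map_isConj hconj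
        rw [pr_sc_mul] at h2
        exact ConjClasses.mk_eq_mk_iff_isConj.2 h2.symm
  rw [← Nat.card_congr (Equiv.ofBijective Ψ hΨ), Nat.card_sum, Nat.card_eq_fintype_card, Fintype.card_fin]
  congr 1
  by_cases he : Even n
  · rw [if_pos he]
    have : Unique {_u : Unit // Even n} := ⟨⟨⟨(), he⟩⟩, fun x => Subtype.ext rfl⟩
    exact Nat.card_unique
  · rw [if_neg he]
    have : IsEmpty {_u : Unit // Even n} := ⟨fun x => he x.2⟩
    exact Nat.card_of_isEmpty

end Cfsg.Agent.H11.PGLInv
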