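import Cfsg.Agent.Lib.H11.Transv2
import Cfsg.Agent.Lib.Lead.CardSL

set_option autoImplicit false
set_option linter.unusedSectionVars false

namespace Cfsg.Agent.H11.PSL34

open Matrix Module Cfsg

variable {K : Type*} [Field K] [Fintype K] (hK : Fintype.card K = 4)
include hK

lemma two_eq_zero' : (2 : K) = 0 := by
  have h := FiniteField.cast_card_eq_zero K
  rw [hK] at h
  have h2 : (2 : K) * 2 = 0 := by
    have : (4 : K) = 2 * 2 := by norm_num
    rw [← this]
    exact_mod_cast h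
  exact mul_self_eq_zero.1 h2

lemma pow4 (x : K) : x ^ 4 = x := by
  have := FiniteField.pow_card x
  rwa [hK] at this

lemma pow3 {x : K} (hx : x ≠ 0) : x ^ 3 = 1 := by
  have := FiniteField.pow_card_sub_one_eq_one x hx
  rwa [hK] at this

omit hK [Fintype K] in
lemma rank_ne_zero {ι : Type} [Fintype ι] [DecidableEq ι] {N : Matrix ι ι K} (hN : N ≠ 0) : N.rank ≠ 0 := by
  intro h0
  apply hN
  have h1 : LinearMap.range N.mulVecLin = ⊥ := Submodule.finrank_eq_zero.1 h0
  ext i j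
  have h2 : N.mulVecLin (Pi.single j 1) = 0 := by
    have : N.mulVecLin (Pi.single j 1) ∈ LinearMap.range N.mulVecLin := ⟨_, rfl⟩
    rw [h1] at this
    exact this
  have h3 := congrFun h2 i
  rw [Matrix.mulVecLin_apply, Matrix.mulVec_single_one] at h3
  exact h3

/-- the main computation: an element of `SL₃` commuting with a nontrivial involution has `g⁴` scalar -/
lemma pow4_scalar (g h : Matrix (Fin 3) (Fin 3) K) (hg : g.det = 1) (hcomm : g * h = h * g)
    (hsq : h * h = 1) (hne : h ≠ 1) : ∃ α : K, α ^ 3 = 1 ∧ g ^ 4 = α • 1 := by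
  have h20 := two_eq_zero' hK
  have hNN : (h - 1) * (h - 1) = 0 := by
    rw [mul_sub, sub_mul, sub_mul, hsq, one_mul, mul_one, one_mul]
    have : (1 : Matrix (Fin 3) (Fin 3) K) - h - (h - 1) = (2 : K) • (1 - h) := by
      rw [two_smul]
      abel
    rw [this, h20, zero_smul]
  have hN0 : h - 1 ≠ 0 := fun h0 => hne (sub_eq_zero.1 h0)
  have hrank : (h - 1).rank = 1 := by
    have h1 := Matrix.rank_add_rank_le_card_of_mul_eq_zero hNN
    rw [Fintype.card_fin] at h1
    have h2 : (h - 1).rank ≠ 0 := rank_ne_zero hN0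
    omega
  obtain ⟨v, w, hv, hw, hwv, hdec⟩ := Transv.exists_decomp h ⟨hrank, hNN⟩
  let e₀ : Fin 3 → K := Pi.single 0 1
  let e₂ : Fin 3 → K := Pi.single 2 1
  have he₀ : e₀ ≠ 0 := by simp [e₀]
  have he₂ : e₂ ≠ 0 := by simp [e₂]
  have hee : e₂ ⬝ᵥ e₀ = 0 := by simp [e₀, e₂]
  obtain ⟨P, hP, hPh⟩ := Transv.exists_conj hv hw hwv he₀ he₂ hee
  rw [← hdec] at hPh
  set T := 1 + vecMulVec e₀ e₂ with hT
  let u : GL (Fin 3) K := Matrix.GeneralLinearGroup.mk'' P hP
  have hu : (u : Matrix (Fin 3) (Fin 3) K) = P := rfl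
  set A := (u : Matrix (Fin 3) (Fin 3) K) * g * ((u⁻¹ : GL (Fin 3) K) : Matrix (Fin 3) (Fin 3) K) with hA
  have huu : ((u⁻¹ : GL (Fin 3) K) : Matrix (Fin 3) (Fin 3) K) * (u : Matrix (Fin 3) (Fin 3) K) = 1 := by
    rw [← Units.val_mul, inv_mul_cancel, Units.val_one]
  have huu' : (u : Matrix (Fin 3) (Fin 3) K) * ((u⁻¹ : GL (Fin 3) K) : Matrix (Fin 3) (Fin 3) K) = 1 := by
    rw [← Units.val_mul, mul_inv_cancel, Units.val_one]
  have hAT : A * T = T * A := by
    have e1 : T = (u : Matrix (Fin 3) (Fin 3) K) * h * ((u⁻¹ : GL (Fin 3) K) : Matrix (Fin 3) (Fin 3) K) := by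
      rw [hu, hPh, hu.symm, mul_assoc, huu', mul_one]
    rw [e1, hA]
    calc _ = (u : Matrix (Fin 3) (Fin 3) K) * g * (((u⁻¹ : GL (Fin 3) K) : Matrix (Fin 3) (Fin 3) K) * (u : Matrix (Fin 3) (Fin 3) K)) * h * ((u⁻¹ : GL (Fin 3) K) : Matrix (Fin 3) (Fin 3) K) := by
          simp only [mul_assoc]
      _ = (u : Matrix (Fin 3) (Fin 3) K) * (g * h) * ((u⁻¹ : GL (Fin 3) K) : Matrix (Fin 3) (Fin 3) K) := by
          rw [huu]; simp only [mul_assoc, mul_one]
      _ = (u : Matrix (Fin 3) (Fin 3) K) * h * (((u⁻¹ : GL (Fin 3) K) : Matrix (Fin 3) (Fin 3) K) * (u : Matrix (Fin 3) (Fin 3) K)) * g * ((u⁻¹ : GL (Fin 3) K) : Matrix (Fin 3) (Fin 3) K) := by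
          rw [huu, hcomm]; simp only [mul_assoc, mul_one]
      _ = _ := by simp only [mul_assoc]
  have hE : vecMulVec (A *ᵥ e₀) e₂ = vecMulVec e₀ (e₂ ᵥ* A) := by
    rw [hT, mul_add, add_mul, mul_one, one_mul, Matrix.mul_vecMulVec, Matrix.vecMulVec_mul] at hAT
    exact add_left_cancel hAT
  have hent : ∀ i j, A i 0 * e₂ j = e₀ i * A 2 j := by
    intro i j
    have := congrFun (congrFun hE i) j
    simpa [Matrix.vecMulVec_apply, e₀, e₂, Matrix.mulVec_single_one, Matrix.single_one_vecMul] using this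
  have h10 : A 1 0 = 0 := by simpa [e₀, e₂] using hent 1 2
  have h20' : A 2 0 = 0 := by simpa [e₀, e₂] using hent 2 2
  have h21 : A 2 1 = 0 := by simpa [e₀, e₂] using (hent 0 1).symm
  have h0022 : A 0 0 = A 2 2 := by simpa [e₀, e₂] using hent 0 2
  have hdetA : A.det = 1 := by
    rw [hA, Matrix.det_mul, Matrix.det_mul, mul_comm, ← mul_assoc, ← Matrix.det_mul, huu, Matrix.det_one, one_mul, hg]
  rw [Matrix.det_fin_three, h10, h20', h21, ← h0022] at hdetA
  simp only [mul_zero, zero_mul, sub_zero, add_zero, zero_sub] at hdetA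
  set α := A 0 0 with hα
  have hα0 : α ≠ 0 := by
    rintro h0
    rw [h0] at hdetA
    simp at hdetA
  have hα3 : α ^ 3 = 1 := pow3 hK hα0
  have hβ : A 1 1 = α := by
    have : A 1 1 = α ^ 3 * A 1 1 := by rw [hα3, one_mul]
    rw [this]
    linear_combination α * hdetA
  have hAform : A = !![α, A 0 1, A 0 2; 0, α, A 1 2; 0, 0, α] := by
    ext i j
    fin_cases i <;> fin_cases j <;> simp [h10, h20', h21, hβ, ← h0022, hα]
  set b := A 0 1
  set c := A 0 2
  set d := A 1 2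
  have hA2 : A * A = !![α * α, 0, b * d; 0, α * α, 0; 0, 0, α * α] := by
    rw [hAform]
    ext i j
    fin_cases i <;> fin_cases j <;> simp [Matrix.mul_apply, Fin.sum_univ_three]
    · linear_combination (α * b) * h20
    · linear_combination (α * c) * h20
    · linear_combination (α * d) * h20
  have hA4 : A ^ 4 = α • 1 := by
    have : A ^ 4 = (A * A) * (A * A) := by
      simp only [pow_succ, pow_zero, one_mul, mul_assoc]
    rw [this, hA2]
    ext i j
    fin_cases i <;> fin_cases j <;> simp [Matrix.mul_apply, Fin.sum_univ_three]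
    · linear_combination pow4 hK α
    · linear_combination (α * α * (b * d)) * h20
    · linear_combination pow4 hK α
    · linear_combination pow4 hK α
  refine ⟨α, hα3, ?_⟩
  have hconj : A ^ 4 = (u : Matrix (Fin 3) (Fin 3) K) * g ^ 4 * ((u⁻¹ : GL (Fin 3) K) : Matrix (Fin 3) (Fin 3) K) := Units.conj_pow u g 4
  have h5 : g ^ 4 = ((u⁻¹ : GL (Fin 3) K) : Matrix (Fin 3) (Fin 3) K) * A ^ 4 * (u : Matrix (Fin 3) (Fin 3) K) := by
    rw [hconj]
    calc g ^ 4 = (((u⁻¹ : GL (Fin 3) K) : Matrix (Fin 3) (Fin 3) K) * (u : Matrix (Fin 3) (Fin 3) K)) * g ^ 4 * (((u⁻¹ : GL (Fin 3) K) : Matrix (Fin 3) (Fin 3) K) * (u : Matrix (Fin 3) (Fin 3) K)) := by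
          rw [huu, one_mul, mul_one]
      _ = _ := by simp only [mul_assoc]
  rw [h5, hA4, Matrix.mul_smul, mul_one, Matrix.smul_mul, huu]

omit hK in
lemma mk_eq_one_iff {g : SpecialLinearGroup (Fin 3) K} :
    (QuotientGroup.mk g : ProjectiveSpecialLinearGroup (Fin 3) K) = 1 ↔
      ∃ r : K, r ^ 3 = 1 ∧ (g : Matrix (Fin 3) (Fin 3) K) = r • 1 := by
  rw [QuotientGroup.eq_one_iff, Matrix.SpecialLinearGroup.mem_center_iff, Fintype.card_fin]
  constructor
  · rintro ⟨r, hr, h⟩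
    refine ⟨r, hr, ?_⟩
    rw [← h]
    ext i j
    simp [Matrix.scalar_apply, Matrix.smul_apply, Matrix.one_apply, Matrix.diagonal_apply]
  · rintro ⟨r, hr, h⟩
    refine ⟨r, hr, ?_⟩
    rw [h]
    ext i j
    simp [Matrix.scalar_apply, Matrix.smul_apply, Matrix.one_apply, Matrix.diagonal_apply]

theorem no_order_six (y : ProjectiveSpecialLinearGroup (Fin 3) K) : orderOf y ≠ 6 := by
  intro hy
  obtain ⟨g, rfl⟩ := QuotientGroup.mk_surjective y
  have h6 : (QuotientGroup.mk (g ^ 6) : ProjectiveSpecialLinearGroup (Fin 3) K) = 1 := by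
    rw [QuotientGroup.mk_pow, ← hy]
    exact pow_orderOf_eq_one _
  have h3 : (QuotientGroup.mk (g ^ 3) : ProjectiveSpecialLinearGroup (Fin 3) K) ≠ 1 := by
    rw [QuotientGroup.mk_pow]
    intro h
    have := orderOf_dvd_of_pow_eq_one h
    rw [hy] at this
    omega
  obtain ⟨r, hr, hgr⟩ := (mk_eq_one_iff).1 h6
  have hr0 : r ≠ 0 := by
    rintro rfl
    norm_num at hr
  let a : K := r⁻¹ ^ 2
  have ha0 : a ≠ 0 := pow_ne_zero _ (inv_ne_zero hr0)
  have ha2 : a * a * r = 1 := by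
    have h4 := pow4 hK r⁻¹
    calc a * a * r = r⁻¹ ^ 4 * r := by simp only [a]; ring
      _ = 1 := by rw [h4, inv_mul_cancel₀ hr0]
  let G : Matrix (Fin 3) (Fin 3) K := (g : Matrix (Fin 3) (Fin 3) K)
  let h : Matrix (Fin 3) (Fin 3) K := a • (G ^ 3)
  have hG6 : G ^ 6 = r • 1 := by
    have : ((g ^ 6 : SpecialLinearGroup (Fin 3) K) : Matrix (Fin 3) (Fin 3) K) = G ^ 6 := by simp [G]
    rw [← this, hgr]
  have hsq : h * h = 1 := by
    have e : G ^ 3 * G ^ 3 = G ^ 6 := by rw [← pow_add]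
    calc h * h = (a * a) • (G ^ 3 * G ^ 3) := by
          change (a • (G ^ 3)) * (a • (G ^ 3)) = _
          rw [Matrix.smul_mul, Matrix.mul_smul, smul_smul]
      _ = 1 := by rw [e, hG6, smul_smul, ha2, one_smul]
  have hne : h ≠ 1 := by
    intro he
    apply h3
    rw [mk_eq_one_iff]
    have e1 : G ^ 3 = a⁻¹ • 1 := by
      have := congrArg (fun M => a⁻¹ • M) he
      simpa [h, smul_smul, ha0] using this
    refine ⟨a⁻¹, ?_, by simpa [G] using e1⟩
    have h5 := pow3 hK (inv_ne_zero ha0)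
    exact h5
  have hcomm : G * h = h * G := by
    simp only [h, Matrix.mul_smul, Matrix.smul_mul]
    congr 1
    exact (pow_succ' G 3).symm.trans (pow_succ G 3)
  have hdet : G.det = 1 := g.2
  obtain ⟨α, hα3, hα⟩ := pow4_scalar hK G h hdet hcomm hsq hne
  have h4 : (QuotientGroup.mk (g ^ 4) : ProjectiveSpecialLinearGroup (Fin 3) K) = 1 := by
    rw [mk_eq_one_iff]
    refine ⟨α, hα3, ?_⟩
    have : ((g ^ 4 : SpecialLinearGroup (Fin 3) K) : Matrix (Fin 3) (Fin 3) K) = G ^ 4 := by simp [G]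
    rw [this, hα]
  rw [QuotientGroup.mk_pow] at h4
  have := orderOf_dvd_of_pow_eq_one h4
  rw [hy] at this
  omega

end Cfsg.Agent.H11.PSL34
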