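import Cfsg.Agent.Lib.H11.PSU3d

/-! The element of order `(q^2 - q + 1) / d` of `PSU_3(q)`, from the field of `q^6` elements. -/

set_option autoImplicit false
set_option linter.unusedSectionVars false
set_option linter.unusedVariables false

namespace Cfsg.Agent.H11.PSU3

open Matrix Module

variable {F : Type*} [Field F] [Fintype F] {q p : ℕ}

theorem nat_gcd2 (q : ℕ) (hq : 2 ≤ q) : Nat.gcd (q ^ 2 - q + 1) (q ^ 2 - 1) = Nat.gcd 3 (q + 1) := by
  obtain ⟨m, rfl⟩ : ∃ m, q = m + 2 := ⟨q - 2, by omega⟩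
  have h1 : (m + 2) ^ 2 - (m + 2) + 1 = (m + 2) * (m + 1) + 1 := by
    have : (m + 2) ^ 2 = (m + 2) * (m + 1) + (m + 2) := by ring
    omega
  have h2 : (m + 2) ^ 2 - 1 = (m + 1) * (m + 3) := by
    have : (m + 2) ^ 2 = (m + 1) * (m + 3) + 1 := by ring
    omega
  rw [h1, h2]
  have hcop : Nat.Coprime ((m + 2) * (m + 1) + 1) (m + 1) := by
    rw [Nat.coprime_mul_right_add_left]
    simp
  rw [Nat.Coprime.gcd_mul_left_cancel_right _ hcop.symm]
  have h7 : (m + 2) * (m + 1) + 1 = m * (m + 3) + 3 - 0 := by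
    have : (m + 2) * (m + 1) + 1 = m * (m + 3) + 3 := by ring
    omega
  rw [h7, show m + 2 + 1 = m + 3 from rfl, Nat.sub_zero]
  rw [Nat.gcd_comm, Nat.gcd_comm 3]
  simp [Nat.gcd_mul_right_add_right]

/-- Element of order `(q ^ 2 - q + 1) / d`. -/
theorem element_four [Fact p.Prime] [CharP F p] (hF : Fintype.card F = q ^ 2) (hp2 : p ≠ 2) {j : ℕ} (hq : q = p ^ j) (hq3 : 3 ≤ q) :
    ∃ y : Cfsg.PSU 3 F q, orderOf y = (q ^ 2 - q + 1) / Nat.gcd 3 (q + 1) := by
  classical
  have hq0 : 0 < q := by omega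
  obtain ⟨E, _, _, _, hcard, hfr, -⟩ := Cfsg.Agent.H10.exists_field_matrix F 3 (by norm_num)
  have hE : Fintype.card E = q ^ 6 := by
    rw [hcard, hF, ← pow_mul]
  haveI : CharP E p := charP_of_injective_algebraMap (algebraMap F E).injective p
  haveI : FiniteDimensional F E := Module.Finite.of_finite
  obtain ⟨ρ3, hρ3⟩ := exists_rh (p := p) E hq 3
  have h6 : ∀ x : E, x ^ (q ^ 6) = x := fun x => by rw [← hE, FiniteField.pow_card]
  have hFq : ∀ a : F, a ^ (q ^ 3) = a ^ q := by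
    intro a
    have : q ^ 3 = q ^ 2 * q := by ring
    rw [this, pow_mul, pow_q_q' hF]
  have htr : ∀ x : E, algebraMap F E (Algebra.trace F E x) = x + x ^ (q ^ 2) + x ^ (q ^ 4) := by
    intro x
    rw [FiniteField.algebraMap_trace_eq_sum_pow, hfr, Nat.card_eq_fintype_card, hF]
    simp only [Finset.sum_range_succ, Finset.sum_range_zero, zero_add, pow_zero, pow_one]
    rw [← pow_mul q 2 2]
  let B : E → E → F := fun x y => Algebra.trace F E (x * y ^ (q ^ 3))
  have hB : Herm (F := F) q B := by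
    refine ⟨?_, ?_, ?_, ?_⟩
    · intro x x' y
      simp only [B, add_mul, map_add]
    · intro c x y
      simp only [B, smul_mul_assoc, map_smul, smul_eq_mul]
    · intro x y
      apply (algebraMap F E).injective
      simp only [B]
      rw [← hFq, map_pow, htr, htr]
      have e1 : ρ3 (x * y ^ (q ^ 3)) = y * x ^ (q ^ 3) := by
        rw [map_mul, map_pow, hρ3, hρ3, ← pow_mul, show q ^ 3 * q ^ 3 = q ^ 6 by ring, h6, mul_comm]
      rw [← hρ3 (x * y ^ (q ^ 3) + (x * y ^ (q ^ 3)) ^ q ^ 2 + (x * y ^ (q ^ 3)) ^ q ^ 4), map_add, map_add, map_pow, map_pow, e1]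
    · intro x hx
      have h1 : ∀ w : E, Algebra.trace F E (x * w) = 0 := by
        intro w
        have h2 := hx (w ^ (q ^ 3))
        simp only [B] at h2
        rwa [← pow_mul, show q ^ 3 * q ^ 3 = q ^ 6 by ring, h6] at h2
      by_contra hne
      have htrn := (traceForm_nondegenerate F E).1 x
      simp_rw [Algebra.traceForm_apply] at htrn
      exact hne (htrn h1)
  -- the element
  obtain ⟨w₀, hw₀⟩ := IsCyclic.exists_generator (α := Eˣ)
  have hord : orderOf w₀ = q ^ 6 - 1 := by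
    rw [orderOf_eq_card_of_forall_mem_zpowers hw₀, Nat.card_eq_fintype_card, Fintype.card_units, hE]
  set A := q ^ 2 - q + 1 with hA
  have hAq : A + q = q ^ 2 + 1 := by
    have : q ≤ q ^ 2 := by nlinarith
    omega
  set D := (q ^ 2 - 1) * (q ^ 2 + q + 1) with hD
  have hA0 : A ≠ 0 := by omega
  have hq21 : q ^ 2 - 1 + 1 = q ^ 2 := by
    have : 1 ≤ q ^ 2 := Nat.one_le_pow _ _ hq0
    omega
  have hDA : q ^ 6 - 1 = D * A := by
    have h1 : D * A + 1 = q ^ 6 := by
      rw [hD]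
      zify at hAq hq21 ⊢
      have e1 : (A : ℤ) = q ^ 2 + 1 - q := by linarith
      have e2 : ((q ^ 2 - 1 : ℕ) : ℤ) = q ^ 2 - 1 := by linarith
      rw [e1, e2]
      ring
    omega
  have hD0 : D ≠ 0 := by
    intro h
    have h1 : q ^ 6 - 1 = 0 := by rw [hDA, h, zero_mul]
    have h2 : 2 ^ 6 ≤ q ^ 6 := Nat.pow_le_pow_left (by omega) 6
    omega
  let zu : Eˣ := w₀ ^ D
  have hzu : orderOf zu = A := by
    simp only [zu]
    rw [orderOf_pow_of_dvd hD0 ⟨A, by rw [hord, hDA]⟩, hord, hDA]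
    exact Nat.mul_div_cancel_left _ (Nat.pos_of_ne_zero hD0)
  let z : E := zu
  have hz : orderOf z = A := by rw [← hzu]; exact orderOf_units
  have hz0 : z ≠ 0 := zu.ne_zero
  have hzA : z ^ A = 1 := by rw [← hz, pow_orderOf_eq_one]
  have hAq3 : q ^ 3 + 1 = A * (q + 1) := by
    zify at hAq ⊢
    have e1 : (A : ℤ) = q ^ 2 + 1 - q := by linarith
    rw [e1]
    ring
  have hzn : z * z ^ (q ^ 3) = 1 := by
    rw [← pow_succ', hAq3, pow_mul, hzA, one_pow]
  let τ : E →ₗ[F] E := Algebra.lmul F E z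
  have hτ : ∀ x y, B (τ x) (τ y) = B x y := by
    intro x y
    simp only [B]
    congr 1
    change z * x * (z * y) ^ (q ^ 3) = _
    rw [mul_pow]
    linear_combination (x * y ^ (q ^ 3)) * hzn
  have hdet : LinearMap.det τ = 1 := by
    have h1 : LinearMap.det τ = Algebra.norm F z := (Algebra.norm_apply F z).symm
    rw [h1]
    have h2 : z = (w₀ : E) ^ D := by
      simp only [z, zu]
      rw [Units.val_pow_eq_pow_val]
    rw [h2, map_pow, hD, pow_mul]
    have hn0 : Algebra.norm F (w₀ : E) ≠ 0 := Algebra.norm_ne_zero_iff.2 w₀.ne_zero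
    have h3 := FiniteField.pow_card_sub_one_eq_one _ hn0
    rw [hF] at h3
    rw [h3, one_pow]
  obtain ⟨g, hg⟩ := transport hF hp2 hq hq0 B hB hfr τ hτ hdet
  apply psu_order hF g
  intro m
  have hτpow : ∀ m : ℕ, τ ^ m = Algebra.lmul F E (z ^ m) := by
    intro m
    simp only [τ]
    rw [map_pow]
  set d := Nat.gcd 3 (q + 1) with hdd
  have hgcd : Nat.gcd A (q ^ 2 - 1) = d := nat_gcd2 q (by omega)
  have hd3 : d ∣ 3 := Nat.gcd_dvd_left _ _
  have hd0 : 0 < d := Nat.pos_of_dvd_of_pos hd3 (by norm_num)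
  obtain ⟨B', hB'⟩ : d ∣ A := by
    rw [← hgcd]
    exact Nat.gcd_dvd_left _ _
  obtain ⟨f, hf⟩ : d ∣ q ^ 2 - 1 := by
    rw [← hgcd]
    exact Nat.gcd_dvd_right _ _
  have hBeq : A / d = B' := by
    rw [hB']
    exact Nat.mul_div_cancel_left _ hd0
  have hcop : Nat.Coprime B' f := by
    have h1 := hgcd
    rw [hB', hf, Nat.gcd_mul_left] at h1
    exact Nat.eq_of_mul_eq_mul_left hd0 (by rw [h1, mul_one])
  rw [hBeq]
  have hstep : (∃ c : F, z ^ m = algebraMap F E c) ↔ B' ∣ m := by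
    constructor
    · rintro ⟨c, hc⟩
      have h1 : (z ^ m) ^ (q ^ 2) = z ^ m := by
        rw [hc, ← map_pow, pow_q_q' hF]
      have h2 : (z ^ m) ^ (q ^ 2 - 1) = 1 := by
        have h3 : (z ^ m) ^ (q ^ 2 - 1) * z ^ m = z ^ m := by
          rw [← pow_succ, hq21, h1]
        exact mul_right_cancel₀ (pow_ne_zero _ hz0) (by rw [h3, one_mul])
      rw [← pow_mul, ← orderOf_dvd_iff_pow_eq_one, hz, hB', hf] at h2
      have h3 : d * B' ∣ d * (m * f) := by
        convert h2 using 1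
        ring
      have h4 := Nat.dvd_of_mul_dvd_mul_left hd0 h3
      exact hcop.dvd_of_dvd_mul_right h4
    · rintro ⟨k, rfl⟩
      have h1 : (z ^ B') ^ Fintype.card F = z ^ B' := by
        rw [hF, ← hq21, pow_succ, ← pow_mul, ]
        have h2 : z ^ (B' * (q ^ 2 - 1)) = 1 := by
          rw [hf, show B' * (d * f) = d * B' * f by ring, ← hB', pow_mul, hzA, one_pow]
        rw [h2, one_mul]
      obtain ⟨c, hc⟩ := Cfsg.Agent.H10.mem_range_algebraMap_of_pow_card _ h1
      exact ⟨c ^ k, by rw [pow_mul, ← hc, map_pow]⟩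
  rw [← hstep]
  apply exists_congr
  intro c
  rw [hg, hτpow]
  constructor
  · intro h
    have h1 := LinearMap.congr_fun h 1
    have e : (Algebra.lmul F E (z ^ m)) 1 = z ^ m := by
      change z ^ m * 1 = _
      rw [mul_one]
    have e' : ((c • 1 : E →ₗ[F] E)) 1 = algebraMap F E c := by
      change c • (1 : E) = _
      rw [Algebra.algebraMap_eq_smul_one]
    rw [e, e'] at h1
    exact h1
  · intro h
    apply LinearMap.ext
    intro x
    change z ^ m * x = c • x
    rw [h, Algebra.smul_def]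

/-- The spectrum of `PSU_3(q)`, `q` odd. -/
theorem spectrum [Fact p.Prime] [CharP F p] (hp : p ≠ 2) (hF : Fintype.card F = q ^ 2) :
    Set.range (orderOf : Cfsg.PSU 3 F q → ℕ) =
      {s : ℕ | s ∣ q + 1} ∪ {s : ℕ | s ∣ p * (q + 1) / Nat.gcd 3 (q + 1)} ∪
        {s : ℕ | s ∣ (q ^ 2 - 1) / Nat.gcd 3 (q + 1)} ∪ {s : ℕ | s ∣ (q ^ 2 - q + 1) / Nat.gcd 3 (q + 1)} := by
  classical
  obtain ⟨j, hj, hq⟩ := q_eq (p := p) hF
  have hpP : p.Prime := Fact.out
  have hp3 : 3 ≤ p := by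
    have := hpP.two_le
    omega
  have hq3 : 3 ≤ q := by
    rw [hq]
    calc 3 ≤ p := hp3
      _ = p ^ 1 := (pow_one p).symm
      _ ≤ p ^ j := Nat.pow_le_pow_right hpP.pos hj
  have hq0 : 0 < q := by omega
  have hdvd : Nat.gcd 3 (q + 1) ∣ q + 1 := Nat.gcd_dvd_right _ _
  have hmul : p * (q + 1) / Nat.gcd 3 (q + 1) = p * ((q + 1) / Nat.gcd 3 (q + 1)) := Nat.mul_div_assoc p hdvd
  rw [hmul]
  haveI : Finite (Cfsg.PSU 3 F q) := inferInstance
  have hsub : ∀ N : ℕ, (∃ y : Cfsg.PSU 3 F q, orderOf y = N) → ∀ s, s ∣ N → ∃ y : Cfsg.PSU 3 F q, orderOf y = s := by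
    rintro N ⟨y, rfl⟩ s hs
    have hpos : 0 < orderOf y := orderOf_pos y
    obtain ⟨k, hk⟩ := hs
    have hk0 : k ≠ 0 := by
      rintro rfl
      omega
    have hs0 : 0 < k := Nat.pos_of_ne_zero hk0
    refine ⟨y ^ k, ?_⟩
    rw [orderOf_pow_of_dvd hk0 ⟨s, by rw [hk]; ring⟩, hk]
    exact Nat.mul_div_cancel _ hs0
  ext s
  simp only [Set.mem_range, Set.mem_union, Set.mem_setOf_eq]
  constructor
  · rintro ⟨y, rfl⟩
    rcases psu_upper (p := p) hF hp y with h | h | h | h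
    · exact Or.inl (Or.inl (Or.inl h))
    · exact Or.inl (Or.inl (Or.inr h))
    · exact Or.inl (Or.inr h)
    · exact Or.inr h
  · rintro (((h | h) | h) | h)
    · exact hsub _ (element_one hF hp hq hq0) s h
    · exact hsub _ (element_two hF hp hq hj) s h
    · exact hsub _ (element_three hF hp hq hq3) s h
    · exact hsub _ (element_four hF hp hq hq3) s h

end Cfsg.Agent.H11.PSU3
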