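import Mathlib
import Cfsg.Prelude.Def_LinearParabolics

/-! Order of the standard parabolic subgroups of `GL_n` over a finite field. -/

namespace Cfsg.Agent.H11.Para

open scoped MatrixGroups
open Matrix

variable {F : Type*} [Field F] [Fintype F] {n : ℕ}

/-- Data of a block triangular invertible matrix with labels `b` below `n`. -/
abbrev BT (F : Type*) [Field F] {n : ℕ} (b : Fin n → ℕ) : Type _ :=
  {M : Matrix (Fin n) (Fin n) F // M.BlockTriangular b ∧ IsUnit M.det}

abbrev BlockUnit (F : Type*) [Field F] {n : ℕ} (b : Fin n → ℕ) (l : ℕ) : Type _ :=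
  {A : Matrix {i : Fin n // b i = l} {i : Fin n // b i = l} F // IsUnit A.det}

abbrev Upper {n : ℕ} (b : Fin n → ℕ) : Type :=
  {p : Fin n × Fin n // b p.1 < b p.2}

noncomputable def btMap (b : Fin n → ℕ) (hb : ∀ i, b i < n) (M : BT F b) :
    (Upper b → F) × (∀ l : Fin n, BlockUnit F b l.val) :=
  (fun p => M.1 p.1.1 p.1.2, fun l => ⟨M.1.toSquareBlock b l.val, by
    classical
    have hd := Matrix.BlockTriangular.det M.2.1
    have hu := M.2.2
    rw [hd] at hu
    by_cases hl : l.val ∈ Finset.univ.image b
    · exact (IsUnit.prod_iff (f := fun a => (M.1.toSquareBlock b a).det)).1 hu l.val hl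
    · have : IsEmpty {i : Fin n // b i = l.val} := ⟨fun i => hl (Finset.mem_image.2 ⟨i.1, Finset.mem_univ _, i.2⟩)⟩
      simp [Matrix.det_isEmpty]⟩)

theorem btMap_bijective (b : Fin n → ℕ) (hb : ∀ i, b i < n) :
    Function.Bijective (btMap (F := F) b hb) := by
  classical
  constructor
  · rintro ⟨M, hM, hMu⟩ ⟨N, hN, hNu⟩ h
    have h1 := congrArg Prod.fst h
    have h2 := congrArg Prod.snd h
    apply Subtype.ext
    ext i j
    rcases lt_trichotomy (b i) (b j) with hij | hij | hij
    · exact congrFun h1 ⟨(i, j), hij⟩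
    · have := congrFun h2 ⟨b i, hb i⟩
      have h3 := congrArg Subtype.val this
      have h4 := congrFun (congrFun h3 ⟨i, rfl⟩) ⟨j, hij.symm⟩
      exact h4
    · exact (hM hij).trans (hN hij).symm
  · rintro ⟨u, A⟩
    let M : Matrix (Fin n) (Fin n) F := fun i j =>
      if h : b i < b j then u ⟨(i, j), h⟩
      else if h' : b j = b i then (A ⟨b i, hb i⟩).1 ⟨i, rfl⟩ ⟨j, h'⟩ else 0
    have hMb : M.BlockTriangular b := by
      intro i j hij
      have hij' : b j < b i := hij
      have h1 : ¬ b i < b j := by omega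
      have h2 : ¬ b j = b i := by omega
      simp [M, h1, h2]
    have hblock : ∀ l : Fin n, M.toSquareBlock b l.val = (A l).1 := by
      intro l
      ext ⟨i, hi⟩ ⟨j, hj⟩
      have h1 : ¬ b i < b j := by omega
      have h2 : b j = b i := by omega
      obtain ⟨l, hl⟩ := l
      simp only at hi hj ⊢
      subst hi
      change M i j = _
      simp only [M]
      rw [dif_neg h1, dif_pos h2]
    have hdet : IsUnit M.det := by
      rw [Matrix.BlockTriangular.det hMb]
      refine (IsUnit.prod_iff (f := fun a => (M.toSquareBlock b a).det)).2 ?_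
      intro a ha
      obtain ⟨i, _, rfl⟩ := Finset.mem_image.1 ha
      have := hblock ⟨b i, hb i⟩
      simp only at this
      rw [this]
      exact (A _).2
    refine ⟨⟨M, hMb, hdet⟩, ?_⟩
    refine Prod.ext ?_ ?_
    · funext ⟨⟨i, j⟩, h⟩
      have h' : b i < b j := h
      simp [btMap, M, h']
    · funext l
      apply Subtype.ext
      exact hblock l

theorem card_BT (b : Fin n → ℕ) (hb : ∀ i, b i < n) :
    Nat.card (BT F b) = Fintype.card F ^ (Nat.card (Upper b)) *
      ∏ l : Fin n, Nat.card (BlockUnit F b l.val) := by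
  classical
  rw [Nat.card_congr (Equiv.ofBijective _ (btMap_bijective (F := F) b hb)), Nat.card_prod,
    Nat.card_pi, Nat.card_pi]
  simp [Nat.card_eq_fintype_card]

theorem card_blockUnit {ι : Type*} [Fintype ι] [DecidableEq ι] {m : ℕ} (hm : Fintype.card ι = m) :
    Nat.card {A : Matrix ι ι F // IsUnit A.det} = ∏ i : Fin m, (Fintype.card F ^ m - Fintype.card F ^ i.val) := by
  classical
  have e : ι ≃ Fin m := Fintype.equivFinOfCardEq hm
  have e2 : {A : Matrix ι ι F // IsUnit A.det} ≃ GL (Fin m) F :=
    { toFun := fun A => ((Matrix.isUnit_iff_isUnit_det _).2 (by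
        have := A.2
        simpa [Matrix.det_reindex_self] using this : IsUnit (Matrix.reindex e e A.1).det)).unit
      invFun := fun g => ⟨Matrix.reindex e.symm e.symm g.1, by
        have := (Matrix.isUnit_iff_isUnit_det _).1 g.isUnit
        simpa [Matrix.det_reindex_self] using this⟩
      left_inv := fun A => by
        apply Subtype.ext
        ext i j
        simp
      right_inv := fun g => by
        apply Units.ext
        ext i j
        simp }
  rw [Nat.card_congr e2]
  exact Matrix.card_GL_field m

/-- Size of the fibres of `compLabel`. -/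
theorem T_mono (μ : Fin n → ℕ) {a c : ℕ} (h : a ≤ c) :
    (∑ k ∈ Finset.univ.filter (fun k : Fin n => k.val < a), μ k) ≤
      ∑ k ∈ Finset.univ.filter (fun k : Fin n => k.val < c), μ k := by
  apply Finset.sum_le_sum_of_subset
  intro k hk
  simp only [Finset.mem_filter, Finset.mem_univ, true_and] at hk ⊢
  omega

/-- partial sums -/
def T (μ : Fin n → ℕ) (a : ℕ) : ℕ := ∑ k ∈ Finset.univ.filter (fun k : Fin n => k.val < a), μ k

theorem T_succ (μ : Fin n → ℕ) (l : Fin n) : T μ (l.val + 1) = T μ l.val + μ l := by
  classical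
  unfold T
  have : Finset.univ.filter (fun k : Fin n => k.val < l.val + 1) =
      insert l (Finset.univ.filter (fun k : Fin n => k.val < l.val)) := by
    ext k
    simp only [Finset.mem_filter, Finset.mem_univ, true_and, Finset.mem_insert, Fin.ext_iff]
    omega
  rw [this, Finset.sum_insert (by simp), add_comm]

theorem T_n (μ : Fin n → ℕ) : T μ n = ∑ i, μ i := by
  unfold T
  congr 1
  ext k
  simp

theorem compLabel_eq_iff (μ : Fin n → ℕ) (hμ : ∑ i, μ i = n) (i : Fin n) (l : ℕ) (hl : l < n) :
    Cfsg.compLabel μ i = l ↔ T μ l ≤ i.val ∧ i.val < T μ (l + 1) := by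
  classical
  -- the set of `j` with partial sum at most `i` is an initial segment
  have hS : ∀ j : Fin n, (∑ k ∈ Finset.univ.filter (fun k : Fin n => k ≤ j), μ k) = T μ (j.val + 1) := by
    intro j
    unfold T
    congr 1
    ext k
    simp only [Finset.mem_filter, Finset.mem_univ, true_and, Fin.le_iff_val_le_val]
    omega
  have hset : ∀ c : ℕ, c ≤ n → T μ c ≤ i.val → i.val < T μ (c + 1) →
      Finset.univ.filter (fun j : Fin n => (∑ k ∈ Finset.univ.filter (fun k : Fin n => k ≤ j), μ k) ≤ i.val)
        = Finset.univ.filter (fun j : Fin n => j.val < c) := by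
    intro c _ h1 h2
    ext j
    simp only [Finset.mem_filter, Finset.mem_univ, true_and, hS]
    constructor
    · intro h
      by_contra hc
      have : T μ (c + 1) ≤ T μ (j.val + 1) := T_mono μ (by omega)
      omega
    · intro h
      have : T μ (j.val + 1) ≤ T μ c := T_mono μ (by omega)
      omega
  have hcard : ∀ c : ℕ, c ≤ n → (Finset.univ.filter (fun j : Fin n => j.val < c)).card = c := by
    intro c hc
    have : Finset.univ.filter (fun j : Fin n => j.val < c) =
        (Finset.range c).attachFin (by intro m hm; have := Finset.mem_range.1 hm; omega) := by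
      ext j
      simp
    rw [this, Finset.card_attachFin, Finset.card_range]
  -- existence of the block
  have hex : ∃ c : ℕ, c < n ∧ T μ c ≤ i.val ∧ i.val < T μ (c + 1) := by
    have h0 : ∃ c : ℕ, i.val < T μ (c + 1) := ⟨n, by
      have h1 : T μ n ≤ T μ (n + 1) := T_mono μ (by omega)
      have h2 : T μ n = n := by rw [T_n, hμ]
      have := i.2
      omega⟩
    let c := Nat.find h0
    have hc : i.val < T μ (c + 1) := Nat.find_spec h0
    have hcm : ∀ d, d < c → ¬ i.val < T μ (d + 1) := fun d hd => Nat.find_min h0 hd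
    have h1 : T μ c ≤ i.val := by
      rcases Nat.eq_zero_or_pos c with h | h
      · rw [h]
        simp [T]
      · have := hcm (c - 1) (by omega)
        rw [show c - 1 + 1 = c by omega] at this
        omega
    refine ⟨c, ?_, h1, hc⟩
    by_contra hn
    have h2 : T μ n ≤ T μ c := T_mono μ (by omega)
    have h3 : T μ n = n := by rw [T_n, hμ]
    have := i.2
    omega
  obtain ⟨c, hcn, h1, h2⟩ := hex
  have hlab : Cfsg.compLabel μ i = c := by
    unfold Cfsg.compLabel
    rw [hset c hcn.le h1 h2, hcard c hcn.le]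
  rw [hlab]
  constructor
  · rintro rfl
    exact ⟨h1, h2⟩
  · rintro ⟨h3, h4⟩
    by_contra hne
    rcases lt_or_gt_of_ne hne with h | h
    · have : T μ (c + 1) ≤ T μ l := T_mono μ (by omega)
      omega
    · have : T μ (l + 1) ≤ T μ c := T_mono μ (by omega)
      omega

theorem compLabel_lt (μ : Fin n → ℕ) (hμ : ∑ i, μ i = n) (i : Fin n) : Cfsg.compLabel μ i < n := by
  classical
  unfold Cfsg.compLabel
  have hi := i.2
  have hn : 0 < n := by omega
  have hne : (⟨n - 1, by omega⟩ : Fin n) ∉
      Finset.univ.filter (fun j : Fin n => (∑ k ∈ Finset.univ.filter (fun k : Fin n => k ≤ j), μ k) ≤ i.val) := by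
    simp only [Finset.mem_filter, Finset.mem_univ, true_and, not_le]
    have : Finset.univ.filter (fun k : Fin n => k ≤ (⟨n - 1, by omega⟩ : Fin n)) = Finset.univ := by
      ext k
      simp only [Finset.mem_filter, Finset.mem_univ, true_and, iff_true, Fin.le_iff_val_le_val]
      have := k.2
      omega
    rw [this, hμ]
    exact hi
  calc _ < (Finset.univ : Finset (Fin n)).card := Finset.card_lt_card
        (Finset.ssubset_univ_iff.2 (fun h => hne (by rw [h]; exact Finset.mem_univ _)))
    _ = n := by simp

theorem card_fiber (μ : Fin n → ℕ) (hμ : ∑ i, μ i = n) (l : Fin n) :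
    Fintype.card {i : Fin n // Cfsg.compLabel μ i = l.val} = μ l := by
  classical
  rw [Fintype.card_subtype]
  have hsucc := T_succ μ l
  have hle : T μ (l.val + 1) ≤ n := by
    have : T μ (l.val + 1) ≤ T μ n := T_mono μ (by have := l.2; omega)
    rwa [T_n, hμ] at this
  have : Finset.univ.filter (fun i : Fin n => Cfsg.compLabel μ i = l.val) =
      (Finset.Ico (T μ l.val) (T μ (l.val + 1))).attachFin (by
        intro m hm
        have := (Finset.mem_Ico.1 hm).2
        omega) := by
    ext i
    simp only [Finset.mem_filter, Finset.mem_univ, true_and, Finset.mem_attachFin, Finset.mem_Ico]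
    exact compLabel_eq_iff μ hμ i l.val l.2
  rw [this, Finset.card_attachFin, Nat.card_Ico]
  omega

/-- `q`-factorial. -/
def qF (q m : ℕ) : ℕ := ∏ j ∈ Finset.range m, ∑ l ∈ Finset.range (j + 1), q ^ l

theorem card_formula (q m : ℕ) (hq : 2 ≤ q) :
    (∏ i : Fin m, (q ^ m - q ^ i.val)) * 1 = q ^ (m.choose 2) * (q - 1) ^ m * qF q m := by
  obtain ⟨x, rfl⟩ : ∃ x, q = x + 1 := ⟨q - 1, by omega⟩
  rw [mul_one, Nat.add_sub_cancel]
  rw [Fin.prod_univ_eq_prod_range (fun i => (x + 1) ^ m - (x + 1) ^ i) m]
  have h1 : ∀ i ∈ Finset.range m, (x + 1) ^ m - (x + 1) ^ i =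
      (x + 1) ^ i * (x * ∑ l ∈ Finset.range (m - i), (x + 1) ^ l) := by
    intro i hi
    have hi' := Finset.mem_range.1 hi
    have hg := geom_sum_mul_add x (m - i)
    have : (x + 1) ^ m = (x + 1) ^ i * (x + 1) ^ (m - i) := by
      rw [← pow_add]
      congr 1
      omega
    rw [this, ← hg]
    rw [mul_add, mul_one, Nat.add_sub_cancel]
    ring
  rw [Finset.prod_congr rfl h1, Finset.prod_mul_distrib, Finset.prod_mul_distrib, Finset.prod_const,
    Finset.card_range, Finset.prod_pow_eq_pow_sum, Finset.sum_range_id, Nat.choose_two_right]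
  have h2 : ∏ i ∈ Finset.range m, ∑ l ∈ Finset.range (m - i), (x + 1) ^ l = qF (x + 1) m := by
    unfold qF
    rw [← Finset.prod_range_reflect]
    apply Finset.prod_congr rfl
    intro j hj
    have := Finset.mem_range.1 hj
    congr 2
    omega
  rw [h2]
  ring

theorem choose2_id (m : ℕ) : m.choose 2 * 2 + m = m * m := by
  induction m with
  | zero => simp
  | succ k ih =>
    have : (k + 1).choose 2 = k + k.choose 2 := by
      rw [Nat.choose_succ_succ' k 1, Nat.choose_one_right]
    rw [this]
    nlinarith

noncomputable def parabolicEquiv (μ : Fin n → ℕ) :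
    Cfsg.parabolicGL n F μ ≃ BT F (Cfsg.compLabel μ) where
  toFun g := ⟨g.1.1, g.2, (Matrix.isUnit_iff_isUnit_det _).1 g.1.isUnit⟩
  invFun M := ⟨((Matrix.isUnit_iff_isUnit_det _).2 M.2.2).unit, M.2.1⟩
  left_inv g := by
    apply Subtype.ext
    apply Units.ext
    rfl
  right_inv M := by
    apply Subtype.ext
    rfl

theorem card_upper (b : Fin n → ℕ) (hb : ∀ i, b i < n) :
    2 * Nat.card (Upper b) + ∑ l : Fin n, (Fintype.card {i : Fin n // b i = l.val}) ^ 2 = n * n := by
  classical
  have hU : Nat.card (Upper b) = (Finset.univ.filter (fun p : Fin n × Fin n => b p.1 < b p.2)).card := by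
    rw [Nat.card_eq_fintype_card, Fintype.card_subtype]
  have hB : (Finset.univ.filter (fun p : Fin n × Fin n => b p.2 < b p.1)).card =
      (Finset.univ.filter (fun p : Fin n × Fin n => b p.1 < b p.2)).card := by
    apply Finset.card_bij (fun p _ => (p.2, p.1))
    · intro p hp
      simpa using hp
    · intro p _ p' _ h
      exact Prod.ext (congrArg (fun x => x.2) h) (congrArg (fun x => x.1) h)
    · intro p hp
      exact ⟨(p.2, p.1), by simpa using hp, rfl⟩
  have hC : (Finset.univ.filter (fun p : Fin n × Fin n => b p.1 = b p.2)).card =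
      ∑ l : Fin n, (Fintype.card {i : Fin n // b i = l.val}) ^ 2 := by
    rw [Finset.card_eq_sum_card_fiberwise (f := fun p : Fin n × Fin n => (⟨b p.1, hb p.1⟩ : Fin n))
      (t := Finset.univ) (fun _ _ => Finset.mem_univ _)]
    apply Finset.sum_congr rfl
    intro l _
    rw [Fintype.card_subtype, sq, ← Finset.card_product]
    congr 1
    ext ⟨i, j⟩
    simp only [Finset.mem_filter, Finset.mem_univ, true_and, Fin.ext_iff, Finset.mem_product]
    constructor
    · rintro ⟨h1, h2⟩
      exact ⟨h2, by omega⟩
    · rintro ⟨h1, h2⟩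
      exact ⟨by omega, h1⟩
  have hsum : (Finset.univ.filter (fun p : Fin n × Fin n => b p.1 < b p.2)).card +
      (Finset.univ.filter (fun p : Fin n × Fin n => b p.2 < b p.1)).card +
      (Finset.univ.filter (fun p : Fin n × Fin n => b p.1 = b p.2)).card = n * n := by
    have htot : (Finset.univ : Finset (Fin n × Fin n)).card = n * n := by simp
    rw [← htot, ← Finset.card_union_of_disjoint, ← Finset.card_union_of_disjoint]
    · congr 1
      ext p
      simp only [Finset.mem_union, Finset.mem_filter, Finset.mem_univ, true_and, iff_true]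
      omega
    · rw [Finset.disjoint_left]
      intro p hp hp'
      simp only [Finset.mem_union, Finset.mem_filter, Finset.mem_univ, true_and] at hp hp'
      omega
    · rw [Finset.disjoint_left]
      intro p hp hp'
      simp only [Finset.mem_filter, Finset.mem_univ, true_and] at hp hp'
      omega
  rw [hU, ← hC]
  omega

theorem main {q : ℕ} (hq : Fintype.card F = q) (μ : Fin n → ℕ) (hμ : ∑ i, μ i = n) :
    Nat.card (GL (Fin n) F ⧸ Cfsg.parabolicGL n F μ) * ∏ i : Fin n, qF q (μ i) = qF q n := by
  classical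
  have hq2 : 2 ≤ q := by
    rw [← hq]
    exact Fintype.one_lt_card
  have hb := compLabel_lt μ hμ
  have hP : Nat.card (Cfsg.parabolicGL n F μ) = q ^ (n.choose 2) * (q - 1) ^ n * ∏ i : Fin n, qF q (μ i) := by
    rw [Nat.card_congr (parabolicEquiv μ), card_BT _ hb, hq]
    have h1 : ∀ l : Fin n, Nat.card (BlockUnit F (Cfsg.compLabel μ) l.val) =
        q ^ ((μ l).choose 2) * (q - 1) ^ (μ l) * qF q (μ l) := by
      intro l
      rw [card_blockUnit (card_fiber μ hμ l), hq, ← card_formula q (μ l) hq2, mul_one]
    rw [Finset.prod_congr rfl (fun l _ => h1 l), Finset.prod_mul_distrib, Finset.prod_mul_distrib,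
      Finset.prod_pow_eq_pow_sum, Finset.prod_pow_eq_pow_sum, hμ]
    have hN := card_upper _ hb
    simp only [card_fiber μ hμ] at hN
    have hexp : Nat.card (Upper (Cfsg.compLabel μ)) + ∑ l : Fin n, (μ l).choose 2 = n.choose 2 := by
      have h2 : (∑ l : Fin n, (μ l).choose 2) * 2 + n = ∑ l : Fin n, (μ l) ^ 2 := by
        have h4 : (∑ l : Fin n, (μ l).choose 2) * 2 + ∑ l : Fin n, μ l = ∑ l : Fin n, (μ l) ^ 2 := by
          rw [Finset.sum_mul, ← Finset.sum_add_distrib]
          apply Finset.sum_congr rfl
          intro l _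
          rw [choose2_id, sq]
        rwa [hμ] at h4
      have h3 := choose2_id n
      omega
    rw [← hexp, pow_add]
    ring
  have hL : Nat.card (GL (Fin n) F) = q ^ (n.choose 2) * (q - 1) ^ n * qF q n := by
    rw [Matrix.card_GL_field, hq, ← card_formula q n hq2, mul_one]
  have hlag := Subgroup.card_eq_card_quotient_mul_card_subgroup (Cfsg.parabolicGL n F μ)
  rw [hL, hP] at hlag
  have hpos : 0 < q ^ (n.choose 2) * (q - 1) ^ n := by
    apply Nat.mul_pos
    · exact pow_pos (by omega) _
    · exact pow_pos (by omega) _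
  apply Nat.eq_of_mul_eq_mul_left hpos
  rw [hlag]
  ring

end Cfsg.Agent.H11.Para
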