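import Mathlib
import Cfsg.Agent.Lib.H11.Para

/-! Degree formula for the partition-indexed alternating sums. -/

namespace Cfsg.Agent.H11.Para

open scoped MatrixGroups
open Matrix Polynomial

/-- the `q`-integer -/
def Qi (q r : ℕ) : ℕ := ∑ l ∈ Finset.range r, q ^ l

theorem qF_succ (q m : ℕ) : qF q (m + 1) = qF q m * Qi q (m + 1) := by
  unfold qF Qi
  rw [Finset.prod_range_succ]

theorem Qi_sub (q a k : ℕ) (h : k ≤ a) : (Qi q a : ℂ) - (Qi q k : ℂ) = (q : ℂ) ^ k * (Qi q (a - k) : ℂ) := by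
  obtain ⟨d, rfl⟩ := Nat.exists_eq_add_of_le h
  rw [Nat.add_sub_cancel_left]
  have : Qi q (k + d) = Qi q k + q ^ k * Qi q d := by
    unfold Qi
    rw [Finset.sum_range_add, Finset.mul_sum]
    congr 1
    apply Finset.sum_congr rfl
    intro x _
    rw [pow_add]
  rw [this]
  push_cast
  ring

/-- The Newton-type polynomial. -/
noncomputable def pN (q j : ℕ) : ℂ[X] :=
  ∏ k ∈ Finset.range j, (X - C ((Qi q k : ℕ) : ℂ))

theorem pN_monic (q j : ℕ) : (pN q j).Monic :=
  monic_prod_of_monic _ _ (fun k _ => monic_X_sub_C _)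

theorem pN_natDegree (q j : ℕ) : (pN q j).natDegree = j := by
  unfold pN
  rw [natDegree_prod_of_monic _ _ (fun k _ => monic_X_sub_C _)]
  simp only [natDegree_X_sub_C, Finset.sum_const, Finset.card_range, smul_eq_mul, mul_one]

theorem pN_eval (q j a : ℕ) :
    (pN q j).eval ((Qi q a : ℕ) : ℂ) = ∏ k ∈ Finset.range j, (((Qi q a : ℕ) : ℂ) - ((Qi q k : ℕ) : ℂ)) := by
  unfold pN
  rw [eval_prod]
  simp

theorem pN_eval_zero (q j a : ℕ) (h : a < j) : (pN q j).eval ((Qi q a : ℕ) : ℂ) = 0 := by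
  rw [pN_eval]
  exact Finset.prod_eq_zero (Finset.mem_range.2 h) (sub_self _)

/-- The key identity. -/
theorem key_identity (q a j : ℕ) (h : j ≤ a) :
    (q : ℂ) ^ (j.choose 2) * (qF q a : ℂ) = (qF q (a - j) : ℂ) * (pN q j).eval ((Qi q a : ℕ) : ℂ) := by
  induction j with
  | zero => simp [pN_eval]
  | succ j ih =>
    have ih' := ih (by omega)
    rw [pN_eval, Finset.prod_range_succ, ← pN_eval]
    rw [Qi_sub q a j (by omega)]
    have h1 : a - j = (a - (j + 1)) + 1 := by omega
    have h2 : qF q (a - j) = qF q (a - (j + 1)) * Qi q (a - j) := by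
      rw [h1, qF_succ]
    rw [h2] at ih'
    push_cast at ih'
    have h3 : (j + 1).choose 2 = j + j.choose 2 := by
      rw [Nat.choose_succ_succ' j 1, Nat.choose_one_right]
    rw [h3, pow_add]
    linear_combination (q : ℂ) ^ j * ih'

theorem sum_choose_range (n : ℕ) : 6 * ∑ j ∈ Finset.range n, j.choose 2 = n * (n - 1) * (n - 2) := by
  induction n with
  | zero => simp
  | succ k ih =>
    rw [Finset.sum_range_succ, mul_add, ih]
    have := Para.choose2_id k
    rcases k with _ | _ | k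
    · simp
    · simp
    · simp only [Nat.add_sub_cancel, show k + 1 + 1 + 1 - 1 = k + 2 by omega, show k + 1 + 1 + 1 - 2 = k + 1 by omega,
        show k + 1 + 1 - 1 = k + 1 by omega, show k + 1 + 1 - 2 = k by omega] at *
      nlinarith

theorem sum_choose_perm {n : ℕ} (κ : Equiv.Perm (Fin n)) :
    ∑ i : Fin n, (κ i).val.choose 2 = n * (n - 1) * (n - 2) / 6 := by
  have h1 : ∑ i : Fin n, (κ i).val.choose 2 = ∑ i : Fin n, (i.val).choose 2 :=
    Equiv.sum_comp κ (fun i : Fin n => (i.val).choose 2)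
  rw [h1, Fin.sum_univ_eq_sum_range (fun j => j.choose 2) n, ← sum_choose_range n]
  simp

theorem sum_perm_vals {n : ℕ} (κ : Equiv.Perm (Fin n)) :
    ∑ i : Fin n, (κ i).val = ∑ i : Fin n, i.val :=
  Equiv.sum_comp κ (fun i : Fin n => i.val)

theorem fixed_one {G : Type*} [Group G] (H : Subgroup G) :
    Cfsg.fixedPointCharacter H 1 = (Nat.card (G ⧸ H) : ℂ) := by
  unfold Cfsg.fixedPointCharacter
  have : Nat.card (MulAction.fixedBy (G ⧸ H) (1 : G)) = Nat.card (G ⧸ H) :=
    Nat.card_congr (Equiv.subtypeUnivEquiv (fun x => by simp [MulAction.mem_fixedBy]))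
  rw [this]

theorem degree_formula {F : Type*} [Field F] [Fintype F] {q : ℕ} (hq : Fintype.card F = q) {n : ℕ}
    (ν : Fin n → ℕ) (hsum : ∑ i, ν i = n) :
    Cfsg.unipotentCharacterGL n F ν 1 * (q : ℂ) ^ (n * (n - 1) * (n - 2) / 6) *
        ∏ i : Fin n, (qF q (ν i + i.val) : ℂ) =
      (qF q n : ℂ) * ∏ i : Fin n, ∏ j ∈ Finset.Ioi i,
          (((Qi q (ν j + j.val) : ℕ) : ℂ) - ((Qi q (ν i + i.val) : ℕ) : ℂ)) := by
  classical
  set x : Fin n → ℂ := fun i => ((Qi q (ν i + i.val) : ℕ) : ℂ) with hx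
  have hV : ∏ i : Fin n, ∏ j ∈ Finset.Ioi i, (x j - x i) =
      ∑ κ : Equiv.Perm (Fin n), ((Equiv.Perm.sign κ : ℤ) : ℂ) * ∏ i : Fin n, (pN q (κ i).val).eval (x i) := by
    rw [← Matrix.det_vandermonde]
    rw [Matrix.det_eval_matrixOfPolynomials_eq_det_vandermonde x (fun j : Fin n => pN q j.val)
      (fun j => pN_natDegree q j.val) (fun j => pN_monic q j.val)]
    rw [← Matrix.det_transpose, Matrix.det_apply']
    apply Finset.sum_congr rfl
    intro κ _
    simp [Matrix.transpose_apply, Matrix.of_apply]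
  rw [hV, Finset.mul_sum]
  unfold Cfsg.unipotentCharacterGL
  rw [Finset.sum_mul, Finset.sum_mul]
  apply Finset.sum_congr rfl
  intro κ _
  by_cases hk : ∀ i : Fin n, (κ i).val ≤ ν i + i.val
  · rw [if_pos hk, fixed_one]
    -- the composition has the right total
    have hμ : ∑ i, (ν i + i.val - (κ i).val) = n := by
      have h1 : ∑ i, (ν i + i.val - (κ i).val) + ∑ i : Fin n, (κ i).val = ∑ i, (ν i + i.val) := by
        rw [← Finset.sum_add_distrib]
        apply Finset.sum_congr rfl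
        intro i _
        have := hk i
        omega
      rw [sum_perm_vals, Finset.sum_add_distrib, hsum] at h1
      omega
    have hmain := main (F := F) hq (fun i => ν i + i.val - (κ i).val) hμ
    have hmainC := congrArg (fun m : ℕ => (m : ℂ)) hmain
    have hcast : ∀ (μ : Fin n → ℕ), (∏ i : Fin n, (qF q (μ i) : ℂ)) = ((∏ i : Fin n, qF q (μ i) : ℕ) : ℂ) := by
      intro μ
      push_cast
      rfl
    simp only [Nat.cast_mul] at hmainC
    rw [← hcast] at hmainC
    rw [← hmainC]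
    have hkey : (q : ℂ) ^ (n * (n - 1) * (n - 2) / 6) * ∏ i : Fin n, (qF q (ν i + i.val) : ℂ) =
        (∏ i : Fin n, (qF q (ν i + i.val - (κ i).val) : ℂ)) * ∏ i : Fin n, (pN q (κ i).val).eval (x i) := by
      rw [← sum_choose_perm κ, ← Finset.prod_pow_eq_pow_sum, ← Finset.prod_mul_distrib,
        ← Finset.prod_mul_distrib]
      apply Finset.prod_congr rfl
      intro i _
      exact key_identity q (ν i + i.val) (κ i).val (hk i)
    rw [mul_assoc, hkey]
    ring
  · rw [if_neg hk, zero_mul, zero_mul]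
    push Not at hk
    obtain ⟨i, hi⟩ := hk
    have : (pN q (κ i).val).eval (x i) = 0 := pN_eval_zero q _ _ hi
    rw [Finset.prod_eq_zero (Finset.mem_univ i) this, mul_zero, mul_zero]

end Cfsg.Agent.H11.Para
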