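import Mathlib
import Cfsg.Agent.Lib.H29.PrimeOrd
import Cfsg.Agent.Lib.H10.SS2

/-! Counting the classes of elements of a given prime order of `GL_n(q)`. -/

set_option linter.unusedSectionVars false

namespace Cfsg.Agent.H11.PrimeCl

open Polynomial Module UniqueFactorizationMonoid
open Cfsg.Agent.H12.Singer

variable {F : Type*} [Field F] [Fintype F] {p : ℕ} [hp : Fact p.Prime] [CharP F p] {q r : ℕ}

section poly

variable [DecidableEq F]

/-- the irreducible factors of `Φ_r`. -/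
noncomputable def RR (F : Type*) [Field F] [DecidableEq F] (r : ℕ) : Finset F[X] :=
  (normalizedFactors (Phi F r)).toFinset

theorem X_pow_monic (hr : r ≠ 0) : (X ^ r - 1 : F[X]).Monic := by
  have := monic_X_pow_sub_C (1 : F) hr
  simpa using this

theorem X_sub_one_monic : (X - 1 : F[X]).Monic := by
  have := monic_X_sub_C (1 : F)
  simpa using this

theorem Phi_monic (hr : r ≠ 0) : (Phi F r).Monic := by
  have h := X_sub_one_mul_Phi (F := F) r
  have h2 := X_pow_monic (F := F) hr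
  rw [← h] at h2
  exact X_sub_one_monic.of_mul_monic_left h2

theorem Phi_natDegree (hr : r ≠ 0) : (Phi F r).natDegree = r - 1 := by
  have h := X_sub_one_mul_Phi (F := F) r
  have h1 : ((X - 1 : F[X]) * Phi F r).natDegree = (X - 1 : F[X]).natDegree + (Phi F r).natDegree :=
    X_sub_one_monic.natDegree_mul (Phi_monic hr)
  have h2 : (X - 1 : F[X]).natDegree = 1 := by
    have := natDegree_X_sub_C (1 : F)
    simpa using this
  have h3 : (X ^ r - 1 : F[X]).natDegree = r := by
    have := natDegree_X_pow_sub_C (n := r) (r := (1 : F))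
    simpa using this
  rw [h, h3, h2] at h1
  omega

theorem r_ne_zero_F (hr : r.Prime) (hrp : r ≠ p) : (r : F) ≠ 0 := by
  intro h
  have h5 : p ∣ r := (CharP.cast_eq_zero_iff F p r).1 h
  exact hrp ((Nat.prime_dvd_prime_iff_eq hp.out hr).1 h5).symm

theorem X_pow_squarefree (hr : r.Prime) (hrp : r ≠ p) : Squarefree (X ^ r - 1 : F[X]) := by
  have : (X ^ r - C 1 : F[X]).Separable := separable_X_pow_sub_C 1 (r_ne_zero_F (p := p) hr hrp) one_ne_zero
  simpa using this.squarefree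

theorem Phi_squarefree (hr : r.Prime) (hrp : r ≠ p) : Squarefree (Phi F r) := by
  have := X_pow_squarefree (F := F) (p := p) hr hrp
  rw [← X_sub_one_mul_Phi] at this
  exact this.squarefree_of_dvd (Dvd.intro_left _ rfl)

theorem mem_RR {φ : F[X]} (hr : r ≠ 0) :
    φ ∈ RR F r ↔ φ ∈ normalizedFactors (Phi F r) :=
  Multiset.mem_toFinset

theorem RR_irr {φ : F[X]} (hr : r ≠ 0) (h : φ ∈ RR F r) : Irreducible φ :=
  irreducible_of_normalized_factor _ ((mem_RR hr).1 h)

theorem RR_monic {φ : F[X]} (hr : r ≠ 0) (h : φ ∈ RR F r) : φ.Monic := by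
  have h1 := normalize_normalized_factor _ ((mem_RR hr).1 h)
  rw [← h1]
  exact monic_normalize (RR_irr hr h).ne_zero

theorem RR_dvd {φ : F[X]} (hr : r ≠ 0) (h : φ ∈ RR F r) : φ ∣ Phi F r :=
  dvd_of_mem_normalizedFactors ((mem_RR hr).1 h)

theorem RR_degree [Fact r.Prime] (hF : Fintype.card F = q) (hrp : r ≠ p) {φ : F[X]}
    (h : φ ∈ RR F r) : φ.natDegree = orderOf (q : ZMod r) :=
  Cfsg.Agent.H29.natDegree_of_dvd_Phi (p := p) hF hrp φ
    (RR_irr (Fact.out : r.Prime).ne_zero h) (RR_dvd (Fact.out : r.Prime).ne_zero h)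

theorem RR_coprime [hr : Fact r.Prime] (hrp : r ≠ p) {φ : F[X]}
    (h : φ ∈ RR F r) : IsCoprime (X - 1 : F[X]) φ :=
  (Cfsg.Agent.H29.isCoprime_X_sub_one_Phi (F := F) (p := p) (r := r) hrp).of_isCoprime_of_dvd_right
    (RR_dvd hr.out.ne_zero h)

theorem RR_ne [hr : Fact r.Prime] (hrp : r ≠ p) {φ : F[X]} (h : φ ∈ RR F r) : φ ≠ X - 1 := by
  rintro rfl
  have h1 := RR_coprime (p := p) hrp h
  have h2 := isCoprime_self.1 h1
  have h3 := (irreducible_X_sub_C (1 : F))
  apply h3.not_isUnit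
  simpa using h2

theorem RR_pair_coprime (hr : r ≠ 0) {φ ψ : F[X]} (h1 : φ ∈ RR F r) (h2 : ψ ∈ RR F r) (hne : φ ≠ ψ) :
    IsCoprime φ ψ := by
  rw [(RR_irr hr h1).coprime_iff_not_dvd]
  intro hd
  apply hne
  exact eq_of_monic_of_associated (RR_monic hr h1) (RR_monic hr h2)
    ((RR_irr hr h1).associated_of_dvd (RR_irr hr h2) hd)

theorem prod_RR (hr : r.Prime) (hrp : r ≠ p) : ∏ φ ∈ RR F r, φ = Phi F r := by
  have hnd := (squarefree_iff_nodup_normalizedFactors (Phi_monic (F := F) hr.ne_zero).ne_zero).1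
    (Phi_squarefree (p := p) hr hrp)
  have h1 : ∏ φ ∈ RR F r, φ = (normalizedFactors (Phi F r)).prod := by
    rw [RR, Finset.prod_eq_multiset_prod, Multiset.toFinset_val, hnd.dedup, Multiset.map_id']
  rw [h1]
  have h2 := prod_normalizedFactors_eq (Phi_monic (F := F) hr.ne_zero).ne_zero
  rw [h2]
  exact (Phi_monic (F := F) hr.ne_zero).normalize_eq_self

theorem card_RR [hr : Fact r.Prime] (hF : Fintype.card F = q) (hrp : r ≠ p) (i t : ℕ)
    (hi : i = orderOf (q : ZMod r)) (ht : t * i = r - 1) (hi0 : 0 < i) : (RR F r).card = t := by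
  have h1 : (∏ φ ∈ RR F r, φ).natDegree = ∑ φ ∈ RR F r, φ.natDegree :=
    natDegree_prod_of_monic _ _ (fun φ h => RR_monic hr.out.ne_zero h)
  rw [prod_RR (p := p) hr.out hrp, Phi_natDegree hr.out.ne_zero,
    Finset.sum_congr rfl (fun φ h => RR_degree (p := p) hF hrp h), ← hi, Finset.sum_const, smul_eq_mul] at h1
  have : (RR F r).card * i = t * i := by rw [← h1, ht]
  exact Nat.eq_of_mul_eq_mul_right hi0 this

/-- the characteristic polynomial with multiplicities `a`. -/
noncomputable def ff (r : ℕ) (a : RR F r → ℕ) (m : ℕ) : F[X] :=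
  (X - 1) ^ m * ∏ φ : RR F r, (φ : F[X]) ^ a φ

theorem ff_monic (hr : r ≠ 0) (a : RR F r → ℕ) (m : ℕ) : (ff r a m).Monic :=
  (X_sub_one_monic.pow m).mul (monic_prod_of_monic _ _ (fun φ _ => (RR_monic hr φ.2).pow _))

theorem ff_natDegree [hr : Fact r.Prime] (hF : Fintype.card F = q) (hrp : r ≠ p) (a : RR F r → ℕ) (m : ℕ) :
    (ff r a m).natDegree = m + orderOf (q : ZMod r) * ∑ φ, a φ := by
  unfold ff
  rw [(X_sub_one_monic.pow m).natDegree_mul (monic_prod_of_monic _ _ (fun φ _ => (RR_monic hr.out.ne_zero φ.2).pow _)),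
    natDegree_prod_of_monic _ _ (fun φ _ => (RR_monic hr.out.ne_zero φ.2).pow _),
    X_sub_one_monic.natDegree_pow, Finset.mul_sum]
  have h2 : (X - 1 : F[X]).natDegree = 1 := by
    have := natDegree_X_sub_C (1 : F)
    simpa using this
  rw [h2, mul_one]
  congr 1
  apply Finset.sum_congr rfl
  intro φ _
  rw [(RR_monic hr.out.ne_zero φ.2).natDegree_pow, RR_degree (p := p) hF hrp φ.2, mul_comm]

theorem ff_dvd (hr : r.Prime) (a : RR F r → ℕ) (m : ℕ) :
    ff r a m ∣ (X ^ r - 1) ^ (m + ∑ φ, a φ) := by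
  unfold ff
  rw [pow_add]
  refine mul_dvd_mul (pow_dvd_pow_of_dvd ⟨Phi F r, (X_sub_one_mul_Phi r).symm⟩ m) ?_
  rw [← Finset.prod_pow_eq_pow_sum]
  refine Finset.prod_dvd_prod_of_dvd _ _ (fun φ _ => pow_dvd_pow_of_dvd ?_ _)
  rw [← X_sub_one_mul_Phi]
  exact Dvd.dvd.mul_left (RR_dvd hr.ne_zero φ.2) _

theorem ff_coeff_zero (hr : r.Prime) (a : RR F r → ℕ) (m : ℕ) : (ff r a m).coeff 0 ≠ 0 := by
  intro h
  have h1 : (X : F[X]) ∣ ff r a m := X_dvd_iff.2 h
  have h2 : (X : F[X]) ∣ (X ^ r - 1) ^ (m + ∑ φ, a φ) := h1.trans (ff_dvd hr a m)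
  have h3 : (X : F[X]) ∣ X ^ r - 1 := Prime.dvd_of_dvd_pow prime_X h2
  have h4 := X_dvd_iff.1 h3
  have : r ≠ 0 := hr.ne_zero
  simp [coeff_X_pow, this.symm, coeff_one] at h4

theorem ff_pow_dvd [hr : Fact r.Prime] (hrp : r ≠ p) (a : RR F r → ℕ) (m k : ℕ) (φ : RR F r)
    (h : (φ : F[X]) ^ k ∣ ff r a m) : k ≤ a φ := by
  classical
  have hφ := RR_irr hr.out.ne_zero φ.2
  have hsplit : ∏ ψ : RR F r, (ψ : F[X]) ^ a ψ =
      (φ : F[X]) ^ a φ * ∏ ψ ∈ Finset.univ.erase φ, (ψ : F[X]) ^ a ψ := by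
    exact (Finset.mul_prod_erase _ (fun ψ : RR F r => (ψ : F[X]) ^ a ψ) (Finset.mem_univ φ)).symm
  have hc : IsCoprime ((φ : F[X]) ^ k) ((X - 1) ^ m * ∏ ψ ∈ Finset.univ.erase φ, (ψ : F[X]) ^ a ψ) := by
    apply IsCoprime.pow_left
    apply IsCoprime.mul_right
    · exact ((RR_coprime (p := p) hrp φ.2).symm).pow_right
    · apply IsCoprime.prod_right
      intro ψ hψ
      apply IsCoprime.pow_right
      exact RR_pair_coprime hr.out.ne_zero φ.2 ψ.2 (fun e => (Finset.ne_of_mem_erase hψ) (Subtype.ext e.symm))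
  have h2 : (φ : F[X]) ^ k ∣ (φ : F[X]) ^ a φ * ((X - 1) ^ m * ∏ ψ ∈ Finset.univ.erase φ, (ψ : F[X]) ^ a ψ) := by
    have : ff r a m = (φ : F[X]) ^ a φ * ((X - 1) ^ m * ∏ ψ ∈ Finset.univ.erase φ, (ψ : F[X]) ^ a ψ) := by
      unfold ff
      rw [hsplit]
      ring
    rwa [← this]
  have h3 : (φ : F[X]) ^ k ∣ (φ : F[X]) ^ a φ := hc.dvd_of_dvd_mul_right h2
  exact (pow_dvd_pow_iff hφ.ne_zero hφ.not_isUnit).1 h3

theorem dvd_ff [hr : Fact r.Prime] (a : RR F r → ℕ) (m : ℕ) (φ : RR F r) :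
    (φ : F[X]) ^ a φ ∣ ff r a m := by
  classical
  unfold ff
  exact Dvd.dvd.mul_left (Finset.dvd_prod_of_mem (fun ψ : RR F r => (ψ : F[X]) ^ a ψ) (Finset.mem_univ φ)) _

theorem ff_inj [hr : Fact r.Prime] (hrp : r ≠ p) {a b : RR F r → ℕ} {m m' : ℕ} (h : ff r a m = ff r b m') :
    a = b := by
  funext φ
  apply le_antisymm
  · apply ff_pow_dvd (p := p) hrp b m' _ φ
    rw [← h]
    exact dvd_ff a m φ
  · apply ff_pow_dvd (p := p) hrp a m _ φ
    rw [h]
    exact dvd_ff b m' φ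

/-- A monic polynomial all of whose irreducible factors divide `X ^ r - 1` has the form `ff`. -/
theorem exists_ff [hr : Fact r.Prime] (hrp : r ≠ p) (f : F[X]) (hm : f.Monic)
    (hf : ∀ π : F[X], Irreducible π → π ∣ f → π ∣ X ^ r - 1) :
    ∃ (a : RR F r → ℕ) (m : ℕ), f = ff r a m := by
  classical
  have hf0 : f ≠ 0 := hm.ne_zero
  have hprod := prod_normalizedFactors_eq hf0
  rw [hm.normalize_eq_self] at hprod
  have hsub : (normalizedFactors f).toFinset ⊆ insert (X - 1) (RR F r) := by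
    intro π hπ
    have hπ' := Multiset.mem_toFinset.1 hπ
    have hirr := irreducible_of_normalized_factor _ hπ'
    have hd := dvd_of_mem_normalizedFactors hπ'
    have hmon : π.Monic := by
      rw [← normalize_normalized_factor _ hπ']
      exact monic_normalize hirr.ne_zero
    have h1 := hf π hirr hd
    rw [← X_sub_one_mul_Phi] at h1
    rcases hirr.prime.dvd_or_dvd h1 with h2 | h2
    · have : π = X - 1 := eq_of_monic_of_associated hmon X_sub_one_monic
        (hirr.associated_of_dvd (by simpa using irreducible_X_sub_C (1 : F)) h2)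
      rw [this]
      exact Finset.mem_insert_self _ _
    · obtain ⟨c, hc, hc2⟩ := exists_mem_normalizedFactors_of_dvd (Phi_monic hr.out.ne_zero).ne_zero hirr h2
      have hcm : c.Monic := by
        rw [← normalize_normalized_factor _ hc]
        exact monic_normalize (irreducible_of_normalized_factor _ hc).ne_zero
      have : π = c := eq_of_monic_of_associated hmon hcm hc2
      rw [this]
      exact Finset.mem_insert_of_mem ((mem_RR hr.out.ne_zero).2 hc)
  refine ⟨fun φ => (normalizedFactors f).count φ.1, (normalizedFactors f).count (X - 1), ?_⟩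
  have h1 : f = ∏ π ∈ insert (X - 1) (RR F r), π ^ (normalizedFactors f).count π := by
    have hh := Finset.prod_multiset_count (normalizedFactors f)
    rw [hprod] at hh
    refine hh.trans ?_
    apply Finset.prod_subset hsub
    intro π _ hπ
    have : (normalizedFactors f).count π = 0 := Multiset.count_eq_zero_of_notMem (fun h => hπ (Multiset.mem_toFinset.2 h))
    rw [this, pow_zero]
  have hnot : (X - 1 : F[X]) ∉ RR F r := fun h => RR_ne (p := p) hrp h rfl
  rw [Finset.prod_insert hnot] at h1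
  rw [ff, Finset.prod_coe_sort (RR F r) (fun π => π ^ (normalizedFactors f).count π)]
  exact h1

end poly

section cnt

theorem cnt_le (ι : Type*) [Fintype ι] [DecidableEq ι] (m : ℕ) :
    Nat.card {a : ι → ℕ // ∑ i, a i ≤ m} = (m + Fintype.card ι).choose (Fintype.card ι) := by
  classical
  let e : {a : ι → ℕ // ∑ i, a i ≤ m} ≃ {P : Option ι → ℕ // ∑ i, P i = m} :=
    { toFun := fun a => ⟨fun o => o.elim (m - ∑ i, a.1 i) a.1, by
        rw [Fintype.sum_option]
        simp only [Option.elim]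
        have := a.2
        omega⟩
      invFun := fun P => ⟨fun i => P.1 (some i), by
        have := P.2
        rw [Fintype.sum_option] at this
        change ∑ i, P.1 (some i) ≤ m
        omega⟩
      left_inv := fun a => by
        apply Subtype.ext
        rfl
      right_inv := fun P => by
        apply Subtype.ext
        funext o
        cases o with
        | none =>
          have := P.2
          rw [Fintype.sum_option] at this
          simp only [Option.elim]
          omega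
        | some i => rfl }
  rw [Nat.card_congr e, ← Nat.card_congr (Sym.equivNatSumOfFintype (Option ι) m), Nat.card_eq_fintype_card,
    Sym.card_sym_eq_choose, Fintype.card_option]
  rw [show Fintype.card ι + 1 + m - 1 = Fintype.card ι + m by omega, add_comm m, Nat.choose_symm_add]

theorem cnt_ne (ι : Type*) [Fintype ι] [DecidableEq ι] (m : ℕ) :
    Nat.card {a : ι → ℕ // ∑ i, a i ≤ m ∧ a ≠ 0} = (m + Fintype.card ι).choose (Fintype.card ι) - 1 := by
  classical
  rw [← cnt_le]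
  have hpos : Nat.card {a : ι → ℕ // ∑ i, a i ≤ m} ≠ 0 := by
    rw [cnt_le]
    exact (Nat.choose_pos (by omega)).ne'
  have hfin : Finite {a : ι → ℕ // ∑ i, a i ≤ m} := Nat.finite_of_card_ne_zero hpos
  have hS : ({a : ι → ℕ | ∑ i, a i ≤ m}).Finite := @Set.toFinite _ _ hfin
  have h0 : (0 : ι → ℕ) ∈ {a : ι → ℕ | ∑ i, a i ≤ m} := by simp
  have := Set.ncard_sdiff_singleton_add_one h0 hS
  have h1 : Nat.card {a : ι → ℕ // ∑ i, a i ≤ m} = ({a : ι → ℕ | ∑ i, a i ≤ m}).ncard := Nat.card_coe_set_eq _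
  have h2 : Nat.card {a : ι → ℕ // ∑ i, a i ≤ m ∧ a ≠ 0} = ({a : ι → ℕ | ∑ i, a i ≤ m} \ {0}).ncard := by
    rw [← Nat.card_coe_set_eq]
    rfl
  rw [h1, h2]
  omega

end cnt

section GLpart

variable [DecidableEq F] {n : ℕ}

theorem toLin_pow (M : Matrix (Fin n) (Fin n) F) (k : ℕ) :
    Matrix.toLin' (M ^ k) = (Matrix.toLin' M) ^ k :=
  (Matrix.toLinAlgEquiv' (R := F) (n := Fin n)).map_pow M k

theorem toLin_g_pow (g : GL (Fin n) F) (hg : g ^ r = 1) :
    (Matrix.toLin' (g : Matrix (Fin n) (Fin n) F)) ^ r = 1 := by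
  rw [← toLin_pow, ← Units.val_pow_eq_pow_val, hg, Units.val_one]
  exact Matrix.toLin'_one

theorem coprime_of_pow (g : GL (Fin n) F) (hr : r.Prime) (hrp : r ≠ p) (hg : g ^ r = 1) :
    (orderOf g).Coprime p := by
  have h1 : orderOf g ∣ r := orderOf_dvd_of_pow_eq_one hg
  exact Nat.Coprime.coprime_dvd_left h1 ((Nat.coprime_primes hr hp.out).2 hrp)

/-- irreducible factors of the characteristic polynomial divide `X ^ r - 1`. -/
theorem dvd_of_dvd_charpoly (g : GL (Fin n) F) (hr : r.Prime) (hrp : r ≠ p) (hg : g ^ r = 1)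
    (π : F[X]) (hπ : Irreducible π) (hd : π ∣ (g : Matrix (Fin n) (Fin n) F).charpoly) :
    π ∣ X ^ r - 1 := by
  by_contra hcon
  have hL := Cfsg.Agent.H10.isSemisimple_of_coprime p g (coprime_of_pow g hr hrp hg)
  obtain ⟨v, hv, hv2⟩ := Cfsg.Agent.H10.exists_ker_of_dvd_charpoly n (Fin n → F)
    (Matrix.toLin' (g : Matrix (Fin n) (Fin n) F)) (by simp) hL π hπ
    (by rw [Cfsg.Agent.H10.charpoly_toLin'_eq]; exact hd)
  obtain ⟨u, w, huw⟩ := (hπ.coprime_iff_not_dvd).2 hcon
  apply hv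
  have h1 := congrArg (fun P : F[X] => aeval (Matrix.toLin' (g : Matrix (Fin n) (Fin n) F)) P v) huw
  simp only [map_add, map_mul, map_one, map_sub, map_pow, aeval_X, toLin_g_pow g hg, sub_self, mul_zero,
    add_zero, Module.End.mul_apply, LinearMap.add_apply, hv2, map_zero, Module.End.one_apply] at h1
  exact h1.symm

/-- semisimple elements with charpoly dividing a power of `X ^ r - 1` satisfy `g ^ r = 1`. -/
theorem pow_eq_one_of_dvd (g : GL (Fin n) F) (hg : (orderOf g).Coprime p) (N : ℕ)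
    (hd : (g : Matrix (Fin n) (Fin n) F).charpoly ∣ (X ^ r - 1) ^ N) : g ^ r = 1 := by
  have hL := Cfsg.Agent.H10.isSemisimple_of_coprime p g hg
  set L := Matrix.toLin' (g : Matrix (Fin n) (Fin n) F) with hLd
  have h1 : minpoly F L ∣ L.charpoly := LinearMap.minpoly_dvd_charpoly L
  rw [hLd, Cfsg.Agent.H10.charpoly_toLin'_eq, ← hLd] at h1
  have h2 : minpoly F L ∣ (X ^ r - 1) ^ (N + 1) :=
    (h1.trans hd).trans (pow_dvd_pow _ (Nat.le_succ N))
  have h3 : minpoly F L ∣ X ^ r - 1 := (hL.minpoly_squarefree.dvd_pow_iff_dvd (by omega)).1 h2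
  have h4 : aeval L (X ^ r - 1 : F[X]) = 0 := by
    obtain ⟨c, hc⟩ := h3
    rw [hc, map_mul, minpoly.aeval, zero_mul]
  simp only [map_sub, map_pow, aeval_X, map_one, sub_eq_zero] at h4
  apply Units.ext
  rw [Units.val_pow_eq_pow_val, Units.val_one]
  apply (Matrix.toLin' (m := Fin n) (n := Fin n) (R := F)).injective
  rw [toLin_pow, h4]
  exact Matrix.toLin'_one.symm

theorem eq_one_of_charpoly [hr : Fact r.Prime] (g : GL (Fin n) F) (hg : (orderOf g).Coprime p)
    (hc : (g : Matrix (Fin n) (Fin n) F).charpoly = (X - 1) ^ n) : g = 1 := by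
  have hL := Cfsg.Agent.H10.isSemisimple_of_coprime p g hg
  set L := Matrix.toLin' (g : Matrix (Fin n) (Fin n) F) with hLd
  have h1 : minpoly F L ∣ L.charpoly := LinearMap.minpoly_dvd_charpoly L
  rw [hLd, Cfsg.Agent.H10.charpoly_toLin'_eq, ← hLd, hc] at h1
  have h2 : minpoly F L ∣ (X - 1) ^ (n + 1) := h1.trans (pow_dvd_pow _ (Nat.le_succ n))
  have h3 : minpoly F L ∣ X - 1 := (hL.minpoly_squarefree.dvd_pow_iff_dvd (by omega)).1 h2
  have h4 : aeval L (X - 1 : F[X]) = 0 := by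
    obtain ⟨c, hc⟩ := h3
    rw [hc, map_mul, minpoly.aeval, zero_mul]
  simp only [map_sub, aeval_X, map_one, sub_eq_zero] at h4
  apply Units.ext
  rw [Units.val_one]
  apply (Matrix.toLin' (m := Fin n) (n := Fin n) (R := F)).injective
  exact h4.trans Matrix.toLin'_one.symm

theorem charpoly_form [hr : Fact r.Prime] (hF : Fintype.card F = q) (hrp : r ≠ p) (g : GL (Fin n) F)
    (hg : orderOf g = r) :
    ∃ a : RR F r → ℕ, a ≠ 0 ∧ orderOf (q : ZMod r) * ∑ φ, a φ ≤ n ∧
      (g : Matrix (Fin n) (Fin n) F).charpoly = ff r a (n - orderOf (q : ZMod r) * ∑ φ, a φ) := by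
  have hgr : g ^ r = 1 := by rw [← hg]; exact pow_orderOf_eq_one g
  have hm := Matrix.charpoly_monic (g : Matrix (Fin n) (Fin n) F)
  obtain ⟨a, m, hf⟩ := exists_ff (p := p) hrp _ hm (dvd_of_dvd_charpoly g hr.out hrp hgr)
  have hdeg : (g : Matrix (Fin n) (Fin n) F).charpoly.natDegree = n := by
    rw [Matrix.charpoly_natDegree_eq_dim]
    simp
  have h2 := ff_natDegree (p := p) hF hrp a m
  rw [← hf, hdeg] at h2
  have hmn : n - orderOf (q : ZMod r) * ∑ φ, a φ = m := by omega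
  refine ⟨a, ?_, by omega, by rw [hmn]; exact hf⟩
  rintro rfl
  have hc : (g : Matrix (Fin n) (Fin n) F).charpoly = (X - 1) ^ n := by
    rw [hf, ff]
    have hm0 : m = n := by
      simpa using h2.symm
    simp [hm0]
  have hg1 : g = 1 := eq_one_of_charpoly (p := p) (r := r) g (by
    rw [hg]
    exact (Nat.coprime_primes hr.out hp.out).2 hrp) hc
  rw [hg1, orderOf_one] at hg
  exact hr.out.one_lt.ne hg

theorem exists_of_form [hr : Fact r.Prime] (hF : Fintype.card F = q) (hrp : r ≠ p) (a : RR F r → ℕ) (ha : a ≠ 0)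
    (hle : orderOf (q : ZMod r) * ∑ φ, a φ ≤ n) :
    ∃ g : GL (Fin n) F, orderOf g = r ∧
      (g : Matrix (Fin n) (Fin n) F).charpoly = ff r a (n - orderOf (q : ZMod r) * ∑ φ, a φ) := by
  set m := n - orderOf (q : ZMod r) * ∑ φ, a φ with hm
  obtain ⟨g, hg1, hg2⟩ := Cfsg.Agent.H10.exists_GL_of_poly p n (ff r a m) (ff_monic hr.out.ne_zero a m)
    (by rw [ff_natDegree (p := p) hF hrp]; omega) (ff_coeff_zero hr.out a m)
  refine ⟨g, ?_, hg2⟩
  have h1 : g ^ r = 1 := pow_eq_one_of_dvd (p := p) g hg1 _ (by rw [hg2]; exact ff_dvd hr.out a m)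
  refine orderOf_eq_prime h1 ?_
  rintro rfl
  apply ha
  have h2 : ((1 : GL (Fin n) F) : Matrix (Fin n) (Fin n) F).charpoly = (X - 1) ^ n := by
    rw [Units.val_one, Matrix.charpoly_one]
    simp
  rw [h2] at hg2
  have h3 : ff r (0 : RR F r → ℕ) n = (X - 1) ^ n := by
    simp [ff]
  rw [← h3] at hg2
  exact (ff_inj (p := p) hrp hg2).symm

set_option maxHeartbeats 1000000 in
theorem main (hF : Fintype.card F = q) (n i t : ℕ) (hr : r.Prime) (hrp : r ≠ p)
    (hi : i = orderOf (q : ZMod r)) (ht : t * i = r - 1) :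
    Nat.card {C : ConjClasses (GL (Fin n) F) // ∃ g : GL (Fin n) F, ConjClasses.mk g = C ∧ orderOf g = r} =
      Nat.choose (n / i + t) t - 1 := by
  classical
  haveI : Fact r.Prime := ⟨hr⟩
  have hi0 : 0 < i := by
    rw [hi]
    exact Cfsg.Agent.H29.orderOf_q_pos (F := F) (p := p) hF hrp
  have hcoprime : ∀ g : GL (Fin n) F, orderOf g = r → (orderOf g).Coprime p := by
    intro g hg
    rw [hg]
    exact (Nat.coprime_primes hr hp.out).2 hrp
  -- the parametrisation
  let W := {a : RR F r → ℕ // ∑ φ, a φ ≤ n / i ∧ a ≠ 0}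
  have hW : ∀ a : W, orderOf (q : ZMod r) * ∑ φ, a.1 φ ≤ n := by
    intro a
    have := a.2.1
    rw [Nat.le_div_iff_mul_le hi0] at this
    rw [← hi, mul_comm]
    exact this
  choose G hG1 hG2 using fun a : W => exists_of_form (F := F) (p := p) (q := q) (n := n) hF hrp a.1 a.2.2 (hW a)
  let Ψ : W → {C : ConjClasses (GL (Fin n) F) // ∃ g : GL (Fin n) F, ConjClasses.mk g = C ∧ orderOf g = r} :=
    fun a => ⟨ConjClasses.mk (G a), G a, rfl, hG1 a⟩
  have hΨ : Function.Bijective Ψ := by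
    constructor
    · intro a b hab
      have h1 : ConjClasses.mk (G a) = ConjClasses.mk (G b) := congrArg Subtype.val hab
      have h2 : IsConj (G a) (G b) := ConjClasses.mk_eq_mk_iff_isConj.1 h1
      obtain ⟨c, hc⟩ := isConj_iff.1 h2
      have h3 : ((G a : GL (Fin n) F) : Matrix (Fin n) (Fin n) F).charpoly = ((G b : GL (Fin n) F) : Matrix (Fin n) (Fin n) F).charpoly := by
        rw [← hc, Units.val_mul, Units.val_mul, Matrix.coe_units_inv]
        exact (Matrix.charpoly_units_conj c (G a : Matrix (Fin n) (Fin n) F)).symm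
      rw [hG2, hG2] at h3
      exact Subtype.ext (ff_inj (p := p) hrp h3)
    · rintro ⟨_, g, rfl, hg⟩
      obtain ⟨a, ha0, ha1, ha2⟩ := charpoly_form (p := p) hF hrp g hg
      have ha3 : ∑ φ, a φ ≤ n / i := by
        rw [Nat.le_div_iff_mul_le hi0, hi, mul_comm]
        exact ha1
      refine ⟨⟨a, ha3, ha0⟩, ?_⟩
      apply Subtype.ext
      apply ConjClasses.mk_eq_mk_iff_isConj.2
      apply Cfsg.Agent.H10.isConj_of_charpoly_eq p _ _ (hcoprime _ (hG1 _)) (hcoprime _ hg)
      rw [hG2, ha2]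
  rw [← Nat.card_congr (Equiv.ofBijective Ψ hΨ)]
  have hcard : Fintype.card (RR F r) = t := by
    rw [Fintype.card_coe]
    exact card_RR (p := p) hF hrp i t hi ht hi0
  have := cnt_ne (RR F r) (n / i)
  rw [hcard] at this
  exact this

end GLpart

end Cfsg.Agent.H11.PrimeCl
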