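import Cfsg.Agent.Lib.H11.RegSp1
import Cfsg.Agent.Lib.H11.InvCl1

/-! Conjugacy of regular unipotent elements in `Sp_{2m}`, odd characteristic. -/

set_option autoImplicit false
set_option linter.unusedSectionVars false
set_option linter.unusedVariables false

namespace Cfsg.Agent.H11.RegSp

open Module Matrix Cfsg.Agent.H11 Polynomial

variable {F : Type*} [Field F] {m : ℕ}

/-- the adjoint -/
noncomputable def adj (M : MatS m F) : MatS m F := -(Matrix.J (Fin m) F * Mᵀ * Matrix.J (Fin m) F)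

theorem J_sq : Matrix.J (Fin m) F * Matrix.J (Fin m) F = -1 := Matrix.J_squared (Fin m) F

theorem adj_mul (M N : MatS m F) : adj (M * N) = adj N * adj M := by
  unfold adj
  rw [Matrix.transpose_mul]
  have e := J_sq (m := m) (F := F)
  calc -(Matrix.J (Fin m) F * (Nᵀ * Mᵀ) * Matrix.J (Fin m) F)
      = (Matrix.J (Fin m) F * Nᵀ) * (-1) * (Mᵀ * Matrix.J (Fin m) F) := by noncomm_ring
    _ = (Matrix.J (Fin m) F * Nᵀ) * (Matrix.J (Fin m) F * Matrix.J (Fin m) F) * (Mᵀ * Matrix.J (Fin m) F) := by rw [e]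
    _ = _ := by noncomm_ring

theorem adj_one : adj (1 : MatS m F) = 1 := by
  unfold adj
  rw [Matrix.transpose_one, mul_one, J_sq, neg_neg]

theorem adj_add (M N : MatS m F) : adj (M + N) = adj M + adj N := by
  unfold adj
  rw [Matrix.transpose_add]
  noncomm_ring

theorem adj_smul (c : F) (M : MatS m F) : adj (c • M) = c • adj M := by
  unfold adj
  rw [Matrix.transpose_smul, Matrix.mul_smul, Matrix.smul_mul, smul_neg]

theorem adj_pow (M : MatS m F) (k : ℕ) : adj (M ^ k) = (adj M) ^ k := by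
  induction k with
  | zero => simp [adj_one]
  | succ k ih => rw [pow_succ, adj_mul, ih, pow_succ']

theorem adj_adj (M : MatS m F) : adj (adj M) = M := by
  unfold adj
  have e := J_sq (m := m) (F := F)
  have et : (Matrix.J (Fin m) F)ᵀ = -Matrix.J (Fin m) F := Matrix.J_transpose (Fin m) F
  rw [Matrix.transpose_neg, Matrix.transpose_mul, Matrix.transpose_mul, Matrix.transpose_transpose, et]
  calc -(Matrix.J (Fin m) F * -(-Matrix.J (Fin m) F * (M * -Matrix.J (Fin m) F)) * Matrix.J (Fin m) F)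
      = (Matrix.J (Fin m) F * Matrix.J (Fin m) F) * M * (Matrix.J (Fin m) F * Matrix.J (Fin m) F) := by noncomm_ring
    _ = M := by rw [e]; noncomm_ring

theorem form_adj (M : MatS m F) (x y : Fin m ⊕ Fin m → F) :
    Cfsg.sympForm m F (M *ᵥ x) y = Cfsg.sympForm m F x (adj M *ᵥ y) := by
  unfold Cfsg.sympForm
  rw [← Matrix.vecMul_transpose M x, ← Matrix.dotProduct_mulVec, Matrix.mulVec_mulVec, Matrix.mulVec_mulVec]
  congr 2
  unfold adj
  have e := J_sq (m := m) (F := F)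
  calc Mᵀ * Matrix.J (Fin m) F = -((Matrix.J (Fin m) F * Matrix.J (Fin m) F) * (Mᵀ * Matrix.J (Fin m) F)) := by rw [e]; noncomm_ring
    _ = _ := by noncomm_ring

theorem form_adj' (M : MatS m F) (x y : Fin m ⊕ Fin m → F) :
    Cfsg.sympForm m F x (M *ᵥ y) = Cfsg.sympForm m F (adj M *ᵥ x) y := by
  rw [form_adj, adj_adj]

theorem mem_sp_iff (A : MatS m F) : A ∈ Matrix.symplecticGroup (Fin m) F ↔ adj A * A = 1 := by
  rw [SymplecticGroup.mem_iff']
  have e := J_sq (m := m) (F := F)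
  constructor
  · intro h
    unfold adj
    calc -(Matrix.J (Fin m) F * Aᵀ * Matrix.J (Fin m) F) * A = -(Matrix.J (Fin m) F * (Aᵀ * Matrix.J (Fin m) F * A)) := by noncomm_ring
      _ = 1 := by rw [h, e, neg_neg]
  · intro h
    unfold adj at h
    calc Aᵀ * Matrix.J (Fin m) F * A = -((Matrix.J (Fin m) F * Matrix.J (Fin m) F) * (Aᵀ * Matrix.J (Fin m) F * A)) := by rw [e]; noncomm_ring
      _ = Matrix.J (Fin m) F * (-(Matrix.J (Fin m) F * Aᵀ * Matrix.J (Fin m) F) * A) := by noncomm_ring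
      _ = Matrix.J (Fin m) F := by rw [h, mul_one]

theorem adj_aeval (w : MatS m F) (hw : adj w = w) (f : F[X]) : adj (aeval w f) = aeval w f := by
  induction f using Polynomial.induction_on' with
  | add p q hp hq => rw [map_add, adj_add, hp, hq]
  | monomial k a =>
    rw [Polynomial.aeval_monomial, Algebra.algebraMap_eq_smul_one, smul_mul_assoc, one_mul, adj_smul, adj_pow, hw]

theorem aeval_comm' (c A : MatS m F) (h : c * A = A * c) (f : F[X]) :
    aeval c f * A = A * aeval c f := by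
  induction f using Polynomial.induction_on' with
  | add p q hp hq => rw [map_add, add_mul, mul_add, hp, hq]
  | monomial k a =>
    rw [Polynomial.aeval_monomial, Algebra.algebraMap_eq_smul_one, smul_mul_assoc, one_mul, smul_mul_assoc, mul_smul_comm]
    congr 1
    exact (Commute.pow_left h k).eq

/-- square roots modulo powers of a linear polynomial -/
theorem sqrt_poly (a d : F) (hd : d ≠ 0) (ha : a = d * d) (h2 : (2 : F) ≠ 0) (K : ℕ) :
    ∃ f : F[X], (X - C a) ^ K ∣ f * f - X ∧ f.eval a ≠ 0 := by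
  induction K with
  | zero => exact ⟨C d, by simp, by simpa using hd⟩
  | succ K ih =>
    by_cases hK : K = 0
    · subst hK
      refine ⟨C d, ?_, by simpa using hd⟩
      rw [zero_add, pow_one, ← C_mul, ← ha]
      exact ⟨-1, by ring⟩
    · obtain ⟨f, ⟨h, hh⟩, hf⟩ := ih
      have hdiv : f.eval a * 2 ≠ 0 := mul_ne_zero hf h2
      let t : F := -(h.eval a) / (f.eval a * 2)
      have hg : (X - C a) ∣ (X - C a) ^ K := dvd_pow_self _ hK
      obtain ⟨g', hg'⟩ := hg
      have hroot : (X - C a) ∣ h + C 2 * f * C t := by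
        rw [Polynomial.dvd_iff_isRoot]
        simp only [IsRoot.def, eval_add, eval_mul, eval_C]
        simp only [t]
        field_simp
        ring
      obtain ⟨y, hy⟩ := hroot
      refine ⟨f + (X - C a) ^ K * C t, ?_, ?_⟩
      · refine ⟨y + g' * C t * C t, ?_⟩
        have e : (f + (X - C a) ^ K * C t) * (f + (X - C a) ^ K * C t) - X =
            (f * f - X) + (X - C a) ^ K * (C 2 * f * C t) + (X - C a) ^ K * ((X - C a) ^ K * (C t * C t)) := by
          simp only [C_ofNat]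
          ring
        rw [e, hh]
        have e2 : (X - C a) ^ K * h + (X - C a) ^ K * (C 2 * f * C t) = (X - C a) ^ K * (h + C 2 * f * C t) := by ring
        rw [e2, hy]
        nth_rewrite 2 [hg']
        ring
      · simp only [eval_add, eval_mul, eval_pow, eval_sub, eval_X, eval_C, sub_self, zero_pow hK, zero_mul, add_zero]
        exact hf

section main

variable {F : Type*} [Field F] {m : ℕ}

/-- the invariant -/
noncomputable def cv (u : Matrix.symplecticGroup (Fin m) F) (v : Fin m ⊕ Fin m → F) : F :=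
  Cfsg.sympForm m F v ((((u : MatS m F) - 1) ^ (Fintype.card (Fin m ⊕ Fin m) - 1)) *ᵥ v)

variable (u : Matrix.symplecticGroup (Fin m) F)

theorem adj_u : adj (u : MatS m F) * (u : MatS m F) = 1 := (mem_sp_iff _).1 u.2

theorem u_adj : (u : MatS m F) * adj (u : MatS m F) = 1 := mul_eq_one_comm.1 (adj_u u)

theorem form_ker {y : Fin m ⊕ Fin m → F} (hy : ((u : MatS m F) - 1) *ᵥ y = 0) (x : Fin m ⊕ Fin m → F) :
    Cfsg.sympForm m F (((u : MatS m F) - 1) *ᵥ x) y = 0 := by
  have h1 : (u : MatS m F) *ᵥ y = y := by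
    rw [Matrix.sub_mulVec, Matrix.one_mulVec, sub_eq_zero] at hy
    exact hy
  have h2 : adj (u : MatS m F) *ᵥ y = y := by
    conv_lhs => rw [← h1]
    rw [Matrix.mulVec_mulVec, adj_u, Matrix.one_mulVec]
  rw [Matrix.sub_mulVec, Matrix.one_mulVec, sympForm_sub_left, form_adj, h2, sub_self]

variable (hn : 1 ≤ Fintype.card (Fin m ⊕ Fin m))
  (hnil : ((u : MatS m F) - 1) ^ Fintype.card (Fin m ⊕ Fin m) = 0)
  (hreg : ((u : MatS m F) - 1).rank = Fintype.card (Fin m ⊕ Fin m) - 1)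

include hn hnil hreg

theorem exists_cyc : ∃ v, (((u : MatS m F) - 1) ^ (Fintype.card (Fin m ⊕ Fin m) - 1)) *ᵥ v ≠ 0 := by
  obtain ⟨h1, h2, h3⟩ := regular_data hn hnil hreg
  obtain ⟨v, hv⟩ := exists_cyclic_vector h1 hn h2 h3
  refine ⟨v, ?_⟩
  rw [← mulVecLin_pow'] at hv
  exact hv

theorem expand {v : Fin m ⊕ Fin m → F} (hv : (((u : MatS m F) - 1) ^ (Fintype.card (Fin m ⊕ Fin m) - 1)) *ᵥ v ≠ 0)
    (x : Fin m ⊕ Fin m → F) : ∃ a : Fin (Fintype.card (Fin m ⊕ Fin m)) → F, x = polM ((u : MatS m F) - 1) a *ᵥ v := by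
  obtain ⟨h1, h2, h3⟩ := regular_data hn hnil hreg
  have hv' : (((u : MatS m F) - 1).mulVecLin ^ (Fintype.card (Fin m ⊕ Fin m) - 1) : Module.End F _) v ≠ 0 := by
    rw [← mulVecLin_pow']
    exact hv
  obtain ⟨a, ha⟩ := exists_polT_apply_eq h1 hn h2 hv' x
  refine ⟨a, ?_⟩
  rw [← ha, ← mulVecLin_polM]
  rfl

omit hreg in
theorem polM_ker (a : Fin (Fintype.card (Fin m ⊕ Fin m)) → F) {y : Fin m ⊕ Fin m → F} (hy : ((u : MatS m F) - 1) *ᵥ y = 0) :
    polM ((u : MatS m F) - 1) a *ᵥ y = a ⟨0, by omega⟩ • y := by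
  rw [polM_mulVec, Finset.sum_eq_single (⟨0, by omega⟩ : Fin (Fintype.card (Fin m ⊕ Fin m)))]
  · simp
  · intro b _ hb
    have hb0 : (b : ℕ) ≠ 0 := fun h => hb (Fin.ext h)
    obtain ⟨c, hc⟩ : ∃ c, (b : ℕ) = c + 1 := ⟨b - 1, by omega⟩
    rw [hc, pow_succ, ← Matrix.mulVec_mulVec, hy, Matrix.mulVec_zero, smul_zero]
  · intro h
    exact absurd (Finset.mem_univ _) h

omit hreg in
theorem top_ker (v : Fin m ⊕ Fin m → F) :
    ((u : MatS m F) - 1) *ᵥ ((((u : MatS m F) - 1) ^ (Fintype.card (Fin m ⊕ Fin m) - 1)) *ᵥ v) = 0 := by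
  rw [Matrix.mulVec_mulVec, ← pow_succ']
  have : Fintype.card (Fin m ⊕ Fin m) - 1 + 1 = Fintype.card (Fin m ⊕ Fin m) := by omega
  rw [this, hnil, Matrix.zero_mulVec]

omit hreg in
theorem form_polM (a : Fin (Fintype.card (Fin m ⊕ Fin m)) → F) (v : Fin m ⊕ Fin m → F) {y : Fin m ⊕ Fin m → F}
    (hy : ((u : MatS m F) - 1) *ᵥ y = 0) :
    Cfsg.sympForm m F (polM ((u : MatS m F) - 1) a *ᵥ v) y = a ⟨0, by omega⟩ * Cfsg.sympForm m F v y := by
  rw [polM_mulVec, ← sympBilin_apply, map_sum, LinearMap.sum_apply,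
    Finset.sum_eq_single (⟨0, by omega⟩ : Fin (Fintype.card (Fin m ⊕ Fin m)))]
  · simp
  · intro b _ hb
    have hb0 : (b : ℕ) ≠ 0 := fun h => hb (Fin.ext h)
    obtain ⟨c, hc⟩ : ∃ c, (b : ℕ) = c + 1 := ⟨b - 1, by omega⟩
    rw [hc, pow_succ', ← Matrix.mulVec_mulVec, map_smul, LinearMap.smul_apply, sympBilin_apply, form_ker u hy, smul_zero]
  · intro h
    exact absurd (Finset.mem_univ _) h

omit hreg in
theorem pow_polM (a : Fin (Fintype.card (Fin m ⊕ Fin m)) → F) (v : Fin m ⊕ Fin m → F) :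
    ((((u : MatS m F) - 1) ^ (Fintype.card (Fin m ⊕ Fin m) - 1)) *ᵥ (polM ((u : MatS m F) - 1) a *ᵥ v)) =
      a ⟨0, by omega⟩ • (((u : MatS m F) - 1) ^ (Fintype.card (Fin m ⊕ Fin m) - 1)) *ᵥ v := by
  have hc : Commute (((u : MatS m F) - 1) ^ (Fintype.card (Fin m ⊕ Fin m) - 1)) (polM ((u : MatS m F) - 1) a) :=
    ((polM_commute _ a).pow_right _).symm
  rw [Matrix.mulVec_mulVec, hc.eq, ← Matrix.mulVec_mulVec, polM_ker u hn hnil a (top_ker u hn hnil v)]

theorem cv_ne {v : Fin m ⊕ Fin m → F} (hv : (((u : MatS m F) - 1) ^ (Fintype.card (Fin m ⊕ Fin m) - 1)) *ᵥ v ≠ 0) : cv u v ≠ 0 := by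
  intro h0
  apply hv
  apply sympForm_left_eq_zero
  intro x
  obtain ⟨a, rfl⟩ := expand u hn hnil hreg hv x
  rw [sympForm_comm, form_polM u hn hnil a v (top_ker u hn hnil v)]
  have : Cfsg.sympForm m F v ((((u : MatS m F) - 1) ^ (Fintype.card (Fin m ⊕ Fin m) - 1)) *ᵥ v) = 0 := h0
  rw [this]
  simp

/-- the value on another cyclic vector -/
theorem cv_change {v v' : Fin m ⊕ Fin m → F} (hv : (((u : MatS m F) - 1) ^ (Fintype.card (Fin m ⊕ Fin m) - 1)) *ᵥ v ≠ 0) :
    ∃ c : F, cv u v' = c * c * cv u v := by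
  obtain ⟨a, rfl⟩ := expand u hn hnil hreg hv v'
  refine ⟨a ⟨0, by omega⟩, ?_⟩
  unfold cv
  rw [pow_polM u hn hnil a v, sympForm_smul_right, form_polM u hn hnil a v (top_ker u hn hnil v)]
  ring

end main

end Cfsg.Agent.H11.RegSp
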