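import Cfsg.Agent.Lib.H11.RegSp2

/-! Two classes of regular unipotent elements in `Sp_{2m}`, odd characteristic. -/

set_option autoImplicit false
set_option linter.unusedSectionVars false
set_option linter.unusedVariables false

namespace Cfsg.Agent.H11.RegSp

open Module Matrix Cfsg.Agent.H11 Polynomial

variable {F : Type*} [Field F] [Fintype F] {m : ℕ}

theorem is_sq_of_iff (h2 : (2 : F) ≠ 0) (a c : F) (ha : a ≠ 0) (hc : c ≠ 0) (h : IsSquare c ↔ IsSquare (a * c)) : IsSquare a := by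
  classical
  by_contra hna
  have hrc : ringChar F ≠ 2 := by
    intro h3
    apply h2
    have := ringChar.spec F 2
    rw [h3] at this
    exact_mod_cast this.2 (dvd_refl 2)
  have h1 : quadraticChar F a = -1 := quadraticChar_neg_one_iff_not_isSquare.2 hna
  have hac : a * c ≠ 0 := mul_ne_zero ha hc
  by_cases hs : IsSquare c
  · have h3 : quadraticChar F c = 1 := (quadraticChar_one_iff_isSquare hc).2 hs
    have h4 : quadraticChar F (a * c) = 1 := (quadraticChar_one_iff_isSquare hac).2 (h.1 hs)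
    rw [map_mul, h1, h3] at h4
    omega
  · have h3 : quadraticChar F c = -1 := quadraticChar_neg_one_iff_not_isSquare.2 hs
    have h4 : quadraticChar F (a * c) = -1 := quadraticChar_neg_one_iff_not_isSquare.2 (fun h5 => hs (h.2 h5))
    rw [map_mul, h1, h3] at h4
    omega

/-- conjugacy from the square class -/
theorem conj_main (h2 : (2 : F) ≠ 0) (u₁ u₂ : Matrix.symplecticGroup (Fin m) F)
    (hn : 1 ≤ Fintype.card (Fin m ⊕ Fin m))
    (hnil₁ : ((u₁ : MatS m F) - 1) ^ Fintype.card (Fin m ⊕ Fin m) = 0)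
    (hreg₁ : ((u₁ : MatS m F) - 1).rank = Fintype.card (Fin m ⊕ Fin m) - 1)
    (hnil₂ : ((u₂ : MatS m F) - 1) ^ Fintype.card (Fin m ⊕ Fin m) = 0)
    (hreg₂ : ((u₂ : MatS m F) - 1).rank = Fintype.card (Fin m ⊕ Fin m) - 1)
    (v : Fin m ⊕ Fin m → F) (hv : (((u₁ : MatS m F) - 1) ^ (Fintype.card (Fin m ⊕ Fin m) - 1)) *ᵥ v ≠ 0)
    (P : GL (Fin m ⊕ Fin m) F) (hP : P.1 * (u₁ : MatS m F) = (u₂ : MatS m F) * P.1)
    (hsq : IsSquare (cv u₁ v) ↔ IsSquare (cv u₂ (P.1 *ᵥ v))) : IsConj u₁ u₂ := by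
  classical
  set N₁ : MatS m F := (u₁ : MatS m F) - 1 with hN₁
  set N₂ : MatS m F := (u₂ : MatS m F) - 1 with hN₂
  set n := Fintype.card (Fin m ⊕ Fin m) with hndef
  have hPN : P.1 * N₁ = N₂ * P.1 := by
    rw [hN₁, hN₂, mul_sub, sub_mul, hP, mul_one, one_mul]
  have hPNj : ∀ j : ℕ, P.1 * N₁ ^ j = N₂ ^ j * P.1 := by
    intro j
    exact (SemiconjBy.pow_right (show SemiconjBy P.1 N₁ N₂ from hPN) j).eq
  let w : MatS m F := adj P.1 * P.1
  have hww : adj w = w := by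
    simp only [w]
    rw [adj_mul, adj_adj]
  have hcomm0 : w * (u₁ : MatS m F) = (u₁ : MatS m F) * w := by
    have h1 : adj (u₁ : MatS m F) * w * (u₁ : MatS m F) = w := by
      have e : adj (u₁ : MatS m F) * w * (u₁ : MatS m F) = adj (P.1 * (u₁ : MatS m F)) * (P.1 * (u₁ : MatS m F)) := by
        rw [adj_mul]
        simp only [w, mul_assoc]
      rw [e, hP, adj_mul]
      calc adj P.1 * adj (u₂ : MatS m F) * ((u₂ : MatS m F) * P.1) = adj P.1 * (adj (u₂ : MatS m F) * (u₂ : MatS m F)) * P.1 := by simp only [mul_assoc]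
        _ = w := by rw [adj_u, mul_one]
    calc w * (u₁ : MatS m F) = ((u₁ : MatS m F) * adj (u₁ : MatS m F)) * w * (u₁ : MatS m F) := by rw [u_adj, one_mul]
      _ = (u₁ : MatS m F) * (adj (u₁ : MatS m F) * w * (u₁ : MatS m F)) := by simp only [mul_assoc]
      _ = _ := by rw [h1]
  have hcomm : Commute w N₁ := by
    show w * N₁ = N₁ * w
    rw [hN₁, mul_sub, sub_mul, hcomm0, mul_one, one_mul]
  obtain ⟨a, ha⟩ := exists_polM_eq_of_commute hn hnil₁ hreg₁ w hcomm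
  set a₀ := a ⟨0, by omega⟩ with ha₀
  set y := (N₁ ^ (n - 1)) *ᵥ v with hy
  have hyk : N₁ *ᵥ y = 0 := top_ker u₁ hn hnil₁ v
  have hwy : w *ᵥ y = a₀ • y := by
    rw [ha]
    exact polM_ker u₁ hn hnil₁ a hyk
  have hPy : (N₂ ^ (n - 1)) *ᵥ (P.1 *ᵥ v) = P.1 *ᵥ y := by
    rw [hy, Matrix.mulVec_mulVec, Matrix.mulVec_mulVec, hPNj]
  have hPinj : ∀ x, P.1 *ᵥ x = 0 → x = 0 := by
    intro x hx
    have h1 : (P⁻¹ : GL _ F).1 * P.1 = 1 := congrArg Units.val (inv_mul_cancel P)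
    have h3 := congrArg (fun t => (P⁻¹ : GL _ F).1 *ᵥ t) hx
    simp only [Matrix.mulVec_mulVec, h1, Matrix.one_mulVec, Matrix.mulVec_zero] at h3
    exact h3
  have hcv₂ : cv u₂ (P.1 *ᵥ v) = a₀ * cv u₁ v := by
    show Cfsg.sympForm m F (P.1 *ᵥ v) ((N₂ ^ (n - 1)) *ᵥ (P.1 *ᵥ v)) = a₀ * Cfsg.sympForm m F v ((N₁ ^ (n - 1)) *ᵥ v)
    rw [hPy, form_adj, Matrix.mulVec_mulVec, ← hy]
    change Cfsg.sympForm m F v (w *ᵥ y) = _
    rw [hwy, sympForm_smul_right]
  have hc₁ : cv u₁ v ≠ 0 := cv_ne u₁ hn hnil₁ hreg₁ hv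
  have hc₂ : cv u₂ (P.1 *ᵥ v) ≠ 0 := cv_ne u₂ hn hnil₂ hreg₂ (by
    rw [hPy]
    exact fun h => hv (hPinj _ h))
  have ha0 : a₀ ≠ 0 := by
    intro h
    rw [hcv₂, h, zero_mul] at hc₂
    exact hc₂ rfl
  rw [hcv₂] at hsq
  obtain ⟨d, hd⟩ := is_sq_of_iff h2 a₀ _ ha0 hc₁ hsq
  have hd0 : d ≠ 0 := by
    rintro rfl
    rw [mul_zero] at hd
    exact ha0 hd
  obtain ⟨K, hK⟩ := polM_sub_nilpotent hn hnil₁ a
  rw [← ha] at hK
  obtain ⟨f, ⟨h, hh⟩, -⟩ := sqrt_poly a₀ d hd0 hd h2 K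
  set b := aeval w f with hb
  have hbb : b * b = w := by
    have e : f * f = X + (X - C a₀) ^ K * h := by
      rw [← hh]
      ring
    have e2 : b * b = aeval w (f * f) := by
      rw [map_mul]
    rw [e2, e, map_add, map_mul, map_pow, map_sub, Polynomial.aeval_X, Polynomial.aeval_C,
      Algebra.algebraMap_eq_smul_one, hK, zero_mul, add_zero]
  have hadjb : adj b = b := adj_aeval w hww f
  have hbu : IsUnit b.det := by
    have h1 : (P⁻¹ : GL _ F).1 * P.1 = 1 := congrArg Units.val (inv_mul_cancel P)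
    have h3 : P.1 * (P⁻¹ : GL _ F).1 = 1 := congrArg Units.val (mul_inv_cancel P)
    have h4 : adj P.1 * adj (P⁻¹ : GL _ F).1 = 1 := by
      rw [← adj_mul, h1, adj_one]
    have h5 : IsUnit w := (IsUnit.of_mul_eq_one _ h4).mul P.isUnit
    have h6 : IsUnit (b * b).det := by
      rw [hbb]
      exact (Matrix.isUnit_iff_isUnit_det _).1 h5
    rw [Matrix.det_mul] at h6
    exact isUnit_of_mul_isUnit_left h6
  let B : GL (Fin m ⊕ Fin m) F := Matrix.GeneralLinearGroup.mk'' b hbu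
  have hBv : B.1 = b := rfl
  set b' : MatS m F := (B⁻¹ : GL _ F).1 with hb'
  have hbb' : b * b' = 1 := congrArg Units.val (mul_inv_cancel B)
  have hb'b : b' * b = 1 := congrArg Units.val (inv_mul_cancel B)
  let H : GL (Fin m ⊕ Fin m) F := P * B⁻¹
  have hHv : H.1 = P.1 * b' := rfl
  have hbu₁ : b * (u₁ : MatS m F) = (u₁ : MatS m F) * b := aeval_comm' w _ hcomm0 f
  have hb'u₁ : b' * (u₁ : MatS m F) = (u₁ : MatS m F) * b' := by
    calc b' * (u₁ : MatS m F) = b' * (u₁ : MatS m F) * (b * b') := by rw [hbb', mul_one]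
      _ = b' * ((u₁ : MatS m F) * b) * b' := by simp only [mul_assoc]
      _ = b' * (b * (u₁ : MatS m F)) * b' := by rw [hbu₁]
      _ = (b' * b) * (u₁ : MatS m F) * b' := by simp only [mul_assoc]
      _ = _ := by rw [hb'b, one_mul]
  have hmem : H.1 ∈ Matrix.symplecticGroup (Fin m) F := by
    rw [mem_sp_iff, hHv, adj_mul]
    calc adj b' * adj P.1 * (P.1 * b') = adj b' * w * b' := by simp only [w, mul_assoc]
      _ = adj b' * (adj b * b) * b' := by rw [hadjb, hbb]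
      _ = adj (b * b') * (b * b') := by
        rw [adj_mul]
        simp only [mul_assoc]
      _ = 1 := by rw [hbb', adj_one, one_mul]
  have hHu : H.1 * (u₁ : MatS m F) = (u₂ : MatS m F) * H.1 := by
    rw [hHv, mul_assoc, hb'u₁, ← mul_assoc, hP, mul_assoc]
  refine isConj_iff.2 ⟨⟨H.1, hmem⟩, ?_⟩
  rw [mul_inv_eq_iff_eq_mul]
  exact Subtype.ext hHu

/-- being a square on all cyclic vectors -/
def sq (u : Matrix.symplecticGroup (Fin m) F) : Prop :=
  ∀ v, (((u : MatS m F) - 1) ^ (Fintype.card (Fin m ⊕ Fin m) - 1)) *ᵥ v ≠ 0 → IsSquare (cv u v)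

theorem sq_iff (u : Matrix.symplecticGroup (Fin m) F) (hn : 1 ≤ Fintype.card (Fin m ⊕ Fin m))
    (hnil : ((u : MatS m F) - 1) ^ Fintype.card (Fin m ⊕ Fin m) = 0)
    (hreg : ((u : MatS m F) - 1).rank = Fintype.card (Fin m ⊕ Fin m) - 1)
    {v : Fin m ⊕ Fin m → F} (hv : (((u : MatS m F) - 1) ^ (Fintype.card (Fin m ⊕ Fin m) - 1)) *ᵥ v ≠ 0) :
    sq u ↔ IsSquare (cv u v) := by
  constructor
  · intro h
    exact h v hv
  · intro h v' _
    obtain ⟨c, hc⟩ := cv_change u hn hnil hreg (v' := v') hv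
    rw [hc]
    exact (IsSquare.mul_self c).mul h

theorem cv_conj (g u₁ u₂ : Matrix.symplecticGroup (Fin m) F) (h : g * u₁ = u₂ * g) (v : Fin m ⊕ Fin m → F) :
    cv u₂ ((g : MatS m F) *ᵥ v) = cv u₁ v ∧
      (((u₂ : MatS m F) - 1) ^ (Fintype.card (Fin m ⊕ Fin m) - 1)) *ᵥ ((g : MatS m F) *ᵥ v) =
        (g : MatS m F) *ᵥ ((((u₁ : MatS m F) - 1) ^ (Fintype.card (Fin m ⊕ Fin m) - 1)) *ᵥ v) := by
  have hgu : (g : MatS m F) * (u₁ : MatS m F) = (u₂ : MatS m F) * (g : MatS m F) := congrArg Subtype.val h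
  have hPN : (g : MatS m F) * ((u₁ : MatS m F) - 1) = ((u₂ : MatS m F) - 1) * (g : MatS m F) := by
    rw [mul_sub, sub_mul, hgu, mul_one, one_mul]
  have hj : ∀ j : ℕ, (g : MatS m F) * ((u₁ : MatS m F) - 1) ^ j = ((u₂ : MatS m F) - 1) ^ j * (g : MatS m F) := fun j =>
    (SemiconjBy.pow_right (show SemiconjBy (g : MatS m F) ((u₁ : MatS m F) - 1) ((u₂ : MatS m F) - 1) from hPN) j).eq
  have e : (((u₂ : MatS m F) - 1) ^ (Fintype.card (Fin m ⊕ Fin m) - 1)) *ᵥ ((g : MatS m F) *ᵥ v) =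
        (g : MatS m F) *ᵥ ((((u₁ : MatS m F) - 1) ^ (Fintype.card (Fin m ⊕ Fin m) - 1)) *ᵥ v) := by
    rw [Matrix.mulVec_mulVec, Matrix.mulVec_mulVec, hj]
  refine ⟨?_, e⟩
  unfold cv
  rw [e]
  exact sympForm_mulVec g.2 _ _

theorem sq_conj (g u₁ u₂ : Matrix.symplecticGroup (Fin m) F) (h : g * u₁ = u₂ * g) (hs : sq u₁) : sq u₂ := by
  intro v hv
  have hgg : (g : MatS m F) * ((g⁻¹ : Matrix.symplecticGroup (Fin m) F) : MatS m F) = 1 := congrArg Subtype.val (mul_inv_cancel g)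
  obtain ⟨h1, h2⟩ := cv_conj g u₁ u₂ h (((g⁻¹ : Matrix.symplecticGroup (Fin m) F) : MatS m F) *ᵥ v)
  have e : (g : MatS m F) *ᵥ (((g⁻¹ : Matrix.symplecticGroup (Fin m) F) : MatS m F) *ᵥ v) = v := by
    rw [Matrix.mulVec_mulVec, hgg, Matrix.one_mulVec]
  rw [e] at h1 h2
  rw [h1]
  apply hs
  intro h0
  rw [h0, Matrix.mulVec_zero] at h2
  exact hv h2

/-- the count -/
theorem card_reg (h2 : (2 : F) ≠ 0) (hm : 1 ≤ m) :
    Nat.card {C : ConjClasses (Matrix.symplecticGroup (Fin m) F) // ∃ u : Matrix.symplecticGroup (Fin m) F,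
      ConjClasses.mk u = C ∧ ((u : MatS m F) - 1) ^ (2 * m) = 0 ∧ ((u : MatS m F) - 1).rank = 2 * m - 1} = 2 := by
  classical
  have hcard : Fintype.card (Fin m ⊕ Fin m) = 2 * m := card_symp_index
  have hn : 1 ≤ Fintype.card (Fin m ⊕ Fin m) := by omega
  let inv : Matrix.symplecticGroup (Fin m) F → Bool := fun u => decide (sq u)
  have : (Finset.univ : Finset Bool).card = 2 := rfl
  rw [← this]
  apply Cfsg.Agent.H11.InvCl.card_classes_of_inv (fun u : Matrix.symplecticGroup (Fin m) F => ((u : MatS m F) - 1) ^ (2 * m) = 0 ∧ ((u : MatS m F) - 1).rank = 2 * m - 1) inv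
  · rintro a b ⟨ha1, ha2⟩ ⟨hb1, hb2⟩
    rw [← hcard] at ha1 ha2 hb1 hb2
    simp only [inv, decide_eq_decide]
    constructor
    · intro hc
      obtain ⟨c, hc⟩ := isConj_iff.1 hc
      have h1 : c * a = b * c := by
        rw [← hc]
        group
      have h3 : c⁻¹ * b = a * c⁻¹ := by
        rw [← hc]
        group
      exact ⟨sq_conj c a b h1, sq_conj c⁻¹ b a h3⟩
    · intro hs
      obtain ⟨v, hv⟩ := exists_cyc a hn ha1 ha2
      obtain ⟨P, hP⟩ := regular_similar hn ha1 ha2 hb1 hb2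
      have hPu : P.1 * (a : MatS m F) = (b : MatS m F) * P.1 := by
        have : P.1 * ((a : MatS m F) - 1) = ((b : MatS m F) - 1) * P.1 := hP
        rw [mul_sub, sub_mul, mul_one, one_mul] at this
        exact sub_left_injective this
      have hPinj : ∀ x, P.1 *ᵥ x = 0 → x = 0 := by
        intro x hx
        have h1 : (P⁻¹ : GL _ F).1 * P.1 = 1 := congrArg Units.val (inv_mul_cancel P)
        have h3 := congrArg (fun t => (P⁻¹ : GL _ F).1 *ᵥ t) hx
        simp only [Matrix.mulVec_mulVec, h1, Matrix.one_mulVec, Matrix.mulVec_zero] at h3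
        exact h3
      have hj : ∀ j : ℕ, P.1 * ((a : MatS m F) - 1) ^ j = ((b : MatS m F) - 1) ^ j * P.1 := fun j =>
        (SemiconjBy.pow_right (show SemiconjBy P.1 ((a : MatS m F) - 1) ((b : MatS m F) - 1) from hP) j).eq
      have hv' : (((b : MatS m F) - 1) ^ (Fintype.card (Fin m ⊕ Fin m) - 1)) *ᵥ (P.1 *ᵥ v) ≠ 0 := by
        rw [Matrix.mulVec_mulVec, ← hj, ← Matrix.mulVec_mulVec]
        exact fun h => hv (hPinj _ h)
      refine conj_main h2 a b hn ha1 ha2 hb1 hb2 v hv P hPu ?_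
      rw [← sq_iff a hn ha1 ha2 hv, ← sq_iff b hn hb1 hb2 hv']
      exact hs
  · intro g _
    exact Finset.mem_univ _
  · -- both values occur
    obtain ⟨k, rfl⟩ : ∃ k, m = k + 1 := ⟨m - 1, by omega⟩
    obtain ⟨u₀, hu1, hu2⟩ := exists_reg (F := F) (k := k) h2
    have hu1' := hu1
    have hu2' := hu2
    rw [← hcard] at hu1' hu2'
    obtain ⟨v₀, hv₀⟩ := exists_cyc u₀ hn hu1' hu2'
    have hc₀ := cv_ne u₀ hn hu1' hu2' hv₀
    have hrc : ringChar F ≠ 2 := by
      intro h3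
      apply h2
      have := ringChar.spec F 2
      rw [h3] at this
      exact_mod_cast this.2 (dvd_refl 2)
    obtain ⟨l, hl⟩ := FiniteField.exists_nonsquare hrc
    have hl0 : l ≠ 0 := by
      rintro rfl
      exact hl (IsSquare.zero)
    let dd : Fin (k + 1) ⊕ Fin (k + 1) → F := Sum.elim (fun _ => l) (fun _ => 1)
    let dd' : Fin (k + 1) ⊕ Fin (k + 1) → F := Sum.elim (fun _ => l⁻¹) (fun _ => 1)
    let D : MatS (k + 1) F := Matrix.diagonal dd
    let D' : MatS (k + 1) F := Matrix.diagonal dd'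
    have hDD' : D * D' = 1 := by
      simp only [D, D', Matrix.diagonal_mul_diagonal]
      rw [← Matrix.diagonal_one]
      congr 1
      funext i
      rcases i with i | i
      · simp [dd, dd', hl0]
      · simp [dd, dd']
    have hD'D : D' * D = 1 := mul_eq_one_comm.1 hDD'
    have hform : ∀ x y, Cfsg.sympForm (k + 1) F (D *ᵥ x) (D *ᵥ y) = l * Cfsg.sympForm (k + 1) F x y := by
      intro x y
      rw [sympForm_eq_sum, sympForm_eq_sum, Finset.mul_sum]
      apply Finset.sum_congr rfl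
      intro i _
      simp only [D, Matrix.mulVec_diagonal, dd, Sum.elim_inl, Sum.elim_inr]
      ring
    have hform' : ∀ x y, Cfsg.sympForm (k + 1) F (D' *ᵥ x) (D' *ᵥ y) = l⁻¹ * Cfsg.sympForm (k + 1) F x y := by
      intro x y
      rw [sympForm_eq_sum, sympForm_eq_sum, Finset.mul_sum]
      apply Finset.sum_congr rfl
      intro i _
      simp only [D', Matrix.mulVec_diagonal, dd', Sum.elim_inl, Sum.elim_inr]
      ring
    have hmem : D * (u₀ : MatS (k + 1) F) * D' ∈ Matrix.symplecticGroup (Fin (k + 1)) F := by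
      apply mem_symplectic_of_preserves
      intro x y
      rw [← Matrix.mulVec_mulVec, ← Matrix.mulVec_mulVec, ← Matrix.mulVec_mulVec, ← Matrix.mulVec_mulVec, hform,
        sympForm_mulVec u₀.2, hform', mul_inv_cancel_left₀ hl0]
    let u₁ : Matrix.symplecticGroup (Fin (k + 1)) F := ⟨_, hmem⟩
    have hu₁ : (u₁ : MatS (k + 1) F) - 1 = D * ((u₀ : MatS (k + 1) F) - 1) * D' := by
      change D * (u₀ : MatS (k + 1) F) * D' - 1 = _
      rw [mul_sub, sub_mul, mul_one, hDD']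
    have hpow : ∀ j : ℕ, ((u₁ : MatS (k + 1) F) - 1) ^ j = D * ((u₀ : MatS (k + 1) F) - 1) ^ j * D' := by
      intro j
      induction j with
      | zero => simp [hDD']
      | succ j ih =>
        rw [pow_succ, ih, hu₁, pow_succ]
        calc D * ((u₀ : MatS (k + 1) F) - 1) ^ j * D' * (D * ((u₀ : MatS (k + 1) F) - 1) * D')
            = D * ((u₀ : MatS (k + 1) F) - 1) ^ j * (D' * D) * ((u₀ : MatS (k + 1) F) - 1) * D' := by simp only [mul_assoc]
          _ = _ := by rw [hD'D, mul_one]; simp only [mul_assoc]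
    have hu11 : ((u₁ : MatS (k + 1) F) - 1) ^ Fintype.card (Fin (k + 1) ⊕ Fin (k + 1)) = 0 := by
      rw [hpow, hu1', mul_zero, zero_mul]
    have hDinj : ∀ x, D *ᵥ x = 0 → x = 0 := by
      intro x hx
      have h3 := congrArg (fun t => D' *ᵥ t) hx
      simp only [Matrix.mulVec_mulVec, hD'D, Matrix.one_mulVec, Matrix.mulVec_zero] at h3
      exact h3
    have hdet1 : IsUnit (D : MatS (k + 1) F).det := (Matrix.isUnit_iff_isUnit_det _).1 (IsUnit.of_mul_eq_one _ hDD')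
    have hdet2 : IsUnit (D' : MatS (k + 1) F).det := (Matrix.isUnit_iff_isUnit_det _).1 (IsUnit.of_mul_eq_one _ hD'D)
    have hu12 : ((u₁ : MatS (k + 1) F) - 1).rank = Fintype.card (Fin (k + 1) ⊕ Fin (k + 1)) - 1 := by
      rw [hu₁, Matrix.rank_mul_eq_left_of_isUnit_det _ _ hdet2, Matrix.rank_mul_eq_right_of_isUnit_det _ _ hdet1, hu2']
    have hvD : (((u₁ : MatS (k + 1) F) - 1) ^ (Fintype.card (Fin (k + 1) ⊕ Fin (k + 1)) - 1)) *ᵥ (D *ᵥ v₀) =
        D *ᵥ ((((u₀ : MatS (k + 1) F) - 1) ^ (Fintype.card (Fin (k + 1) ⊕ Fin (k + 1)) - 1)) *ᵥ v₀) := by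
      rw [hpow, Matrix.mulVec_mulVec, mul_assoc, mul_assoc, hD'D, mul_one, ← Matrix.mulVec_mulVec]
    have hv₁ : (((u₁ : MatS (k + 1) F) - 1) ^ (Fintype.card (Fin (k + 1) ⊕ Fin (k + 1)) - 1)) *ᵥ (D *ᵥ v₀) ≠ 0 := by
      rw [hvD]
      exact fun h => hv₀ (hDinj _ h)
    have hcv₁ : cv u₁ (D *ᵥ v₀) = l * cv u₀ v₀ := by
      unfold cv
      rw [hvD, hform]
    have hdiff : ¬ (IsSquare (cv u₀ v₀) ↔ IsSquare (l * cv u₀ v₀)) := fun h => hl (is_sq_of_iff h2 l _ hl0 hc₀ h)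
    have hs₀ := sq_iff u₀ hn hu1' hu2' hv₀
    have hs₁ := sq_iff u₁ hn hu11 hu12 hv₁
    rw [hcv₁] at hs₁
    have hu₁' : ((u₁ : MatS (k + 1) F) - 1) ^ (2 * (k + 1)) = 0 := by
      rw [← hcard]
      exact hu11
    have hu₁'' : ((u₁ : MatS (k + 1) F) - 1).rank = 2 * (k + 1) - 1 := by
      rw [← hcard]
      exact hu12
    have hne : sq u₀ ↔ ¬ sq u₁ := by
      rw [hs₀, hs₁]
      tauto
    intro x _
    by_cases hx : inv u₀ = x
    · exact ⟨u₀, ⟨hu1, hu2⟩, hx⟩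
    · refine ⟨u₁, ⟨hu₁', hu₁''⟩, ?_⟩
      by_cases h0 : sq u₀
      · have h1 : ¬ sq u₁ := hne.1 h0
        have e0 : inv u₀ = true := decide_eq_true h0
        have e1 : inv u₁ = false := decide_eq_false h1
        rw [e0] at hx
        rw [e1]
        cases x with
        | true => exact absurd rfl hx
        | false => rfl
      · have h1 : sq u₁ := by
          by_contra h3
          exact h0 (hne.2 h3)
        have e0 : inv u₀ = false := decide_eq_false h0
        have e1 : inv u₁ = true := decide_eq_true h1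
        rw [e0] at hx
        rw [e1]
        cases x with
        | true => rfl
        | false => exact absurd rfl hx

end Cfsg.Agent.H11.RegSp
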