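import Mathlib
import Cfsg.Agent.Lib.H11.SL2T4
import Cfsg.Agent.Lib.H10.PS1Table
import Cfsg.Agent.Lib.H10.PS1Tau
import Cfsg.Agent.Lib.H10.PS1Zero
import Cfsg.Agent.Lib.H06.CharVirtual
import Cfsg.Agent.Lib.H01.Frobenius
import Cfsg.Agent.Lib.Lead.CardSL

/-! The discrete series of `SL₂(q)`, `q` odd: the nonsplit tori. -/

set_option autoImplicit false
set_option linter.unusedSectionVars false
set_option linter.unusedSimpArgs false
set_option linter.unusedVariables false

namespace Cfsg.Agent.H11.SL2D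

open Matrix Cfsg.Agent.H11.SL2X Cfsg.Agent.H11.SL2T

variable {F : Type*} [Field F]

/-- no eigenvector -/
def NE (g : SL2 F) : Prop := ∀ (c : F) (v : Fin 2 → F), v ≠ 0 → (g : Matrix (Fin 2) (Fin 2) F).mulVec v ≠ c • v

theorem cayley (M : M2 F) : M * M = M.trace • M - M.det • 1 := by
  ext i j
  fin_cases i <;> fin_cases j <;>
    simp [Matrix.mul_apply, Fin.sum_univ_two, Matrix.trace_fin_two, Matrix.det_fin_two] <;> ring

theorem ne_of_aniso {M : M2 F} (h : Aniso M.trace M.det) (a : F) {b : F} (hb : b ≠ 0) (c : F) (v : Fin 2 → F)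
    (hv : v ≠ 0) : (lin M a b).mulVec v ≠ c • v := by
  intro hc
  set l := (c - a) / b with hl
  have h1 : M.mulVec v = l • v := by
    have h2 : (lin M a b).mulVec v = a • v + b • M.mulVec v := by
      simp [lin, Matrix.add_mulVec, Matrix.smul_mulVec]
    rw [h2] at hc
    have h3 : b • M.mulVec v = (c - a) • v := by
      rw [sub_smul, ← hc]
      abel
    calc M.mulVec v = b⁻¹ • (b • M.mulVec v) := by rw [smul_smul, inv_mul_cancel₀ hb, one_smul]
      _ = l • v := by rw [h3, smul_smul, hl]; congr 1; field_simp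
  have h4 : (M * M).mulVec v = (l * l) • v := by
    rw [← Matrix.mulVec_mulVec, h1, Matrix.mulVec_smul, h1, smul_smul]
  rw [cayley, Matrix.sub_mulVec, Matrix.smul_mulVec, Matrix.smul_mulVec, h1, Matrix.one_mulVec, smul_smul] at h4
  have h5 : (l * l - M.trace * l + M.det) • v = 0 := by
    rw [add_smul, sub_smul, ← h4]
    simp
  have h6 : l * l - M.trace * l + M.det = 0 := by
    rcases smul_eq_zero.1 h5 with h7 | h7
    · exact h7
    · exact absurd h7 hv
  have h7 := h (-l) 1 (by linear_combination h6)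
  exact one_ne_zero h7.2

theorem ne_conj {g : SL2 F} (x : SL2 F) (h : NE g) : NE (x⁻¹ * g * x) := by
  intro c v hv hc
  apply h c ((x : M2 F).mulVec v)
  · intro h0
    apply hv
    have : ((x⁻¹ : SL2 F) : M2 F).mulVec ((x : M2 F).mulVec v) = v := by
      rw [Matrix.mulVec_mulVec, ← Matrix.SpecialLinearGroup.coe_mul, inv_mul_cancel]
      simp
    rw [← this, h0]
    simp
  · have h1 : ((x⁻¹ * g * x : SL2 F) : M2 F).mulVec v = ((x⁻¹ : SL2 F) : M2 F).mulVec ((g : M2 F).mulVec ((x : M2 F).mulVec v)) := by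
      rw [Matrix.SpecialLinearGroup.coe_mul, Matrix.SpecialLinearGroup.coe_mul, ← Matrix.mulVec_mulVec, ← Matrix.mulVec_mulVec]
    rw [h1] at hc
    have h2 := congrArg (fun w => (x : M2 F).mulVec w) hc
    simp only [Matrix.mulVec_smul] at h2
    have h3 : (x : M2 F).mulVec (((x⁻¹ : SL2 F) : M2 F).mulVec ((g : M2 F).mulVec ((x : M2 F).mulVec v))) = (g : M2 F).mulVec ((x : M2 F).mulVec v) := by
      rw [Matrix.mulVec_mulVec, ← Matrix.SpecialLinearGroup.coe_mul, mul_inv_cancel]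
      simp
    rw [h3] at h2
    exact h2

theorem mem_center_iff_scalar {g : SL2 F} : g ∈ Subgroup.center (SL2 F) ↔ ¬ NS (g : M2 F) := by
  unfold NS
  rw [not_not, Matrix.SpecialLinearGroup.mem_center_iff]
  constructor
  · rintro ⟨r, -, hr⟩
    refine ⟨r, ?_⟩
    rw [← hr]
    ext i j
    simp [Matrix.scalar_apply, Matrix.one_apply, Matrix.diagonal_apply]
  · rintro ⟨r, hr⟩
    refine ⟨r, ?_, ?_⟩
    · have h1 : (g : M2 F).det = 1 := g.2
      rw [hr] at h1
      simpa [Matrix.det_smul] using h1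
    · rw [hr]
      ext i j
      simp [Matrix.scalar_apply, Matrix.one_apply, Matrix.diagonal_apply]

section torus

variable {M : M2 F} (hA : Aniso M.trace M.det)

include hA

theorem ne_of_mem {c : SL2 F} (hc : c ∈ CM M) (hn : c ∉ Subgroup.center (SL2 F)) : NE c := by
  have hM := aniso_ns hA
  obtain ⟨a, b, hab⟩ := (mem_CM_iff hM).1 hc
  rw [mem_center_iff_scalar, not_not] at hn
  have hb : b ≠ 0 := by
    rintro rfl
    apply hn
    exact ⟨a, by rw [hab]; simp [lin]⟩
  intro l v hv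
  rw [hab]
  exact ne_of_aniso hA a hb l v hv

/-- The conjugates inside the torus. -/
theorem conj_cases {c y : SL2 F} (hc : c ∈ CM M) (hy : y ∈ CM M) (ht : (y : M2 F).trace = (c : M2 F).trace) :
    y = c ∨ y = c⁻¹ := by
  have hM := aniso_ns hA
  obtain ⟨a, b, hab⟩ := (mem_CM_iff hM).1 hc
  obtain ⟨a', b', hab'⟩ := (mem_CM_iff hM).1 hy
  set t := (c : M2 F).trace with htd
  have hdc : (c : M2 F).det = 1 := c.2
  have hdy : (y : M2 F).det = 1 := y.2
  have hcc := cayley (c : M2 F)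
  have hyy := cayley (y : M2 F)
  rw [hdc, ← htd] at hcc
  rw [hdy, ht] at hyy
  have hcomm : (y : M2 F) * c = c * y := by
    have := CM_comm hM hy hc
    have h2 := congrArg (fun z : SL2 F => (z : M2 F)) this
    simpa [Matrix.SpecialLinearGroup.coe_mul] using h2
  have hprod : ((y : M2 F) - c) * ((y : M2 F) + c - t • 1) = 0 := by
    have : ((y : M2 F) - c) * ((y : M2 F) + c - t • 1) = ((y : M2 F) * y - t • (y : M2 F)) - ((c : M2 F) * c - t • (c : M2 F)) + ((y : M2 F) * c - c * y) := by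
      simp only [sub_mul, mul_sub, add_mul, mul_add, smul_mul_assoc, mul_smul_comm, mul_one, smul_sub]
      abel
    rw [this, hyy, hcc, hcomm]
    simp
  have h1 : ((y : M2 F) - c).det * ((y : M2 F) + c - t • 1).det = 0 := by
    rw [← Matrix.det_mul, hprod]
    simp
  rcases mul_eq_zero.1 h1 with h2 | h2
  · left
    have h3 : (y : M2 F) - c = lin M (a' - a) (b' - b) := by
      rw [hab, hab']
      simp only [lin, sub_smul]
      abel
    rw [h3] at h2
    have h4 := lin_eq_zero_of_det hA h2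
    rw [← h3] at h4
    exact Subtype.ext (sub_eq_zero.1 h4)
  · right
    have h3 : (y : M2 F) + c - t • 1 = lin M (a' + a - t) (b' + b) := by
      rw [hab, hab']
      simp only [lin, sub_smul, add_smul]
      abel
    rw [h3] at h2
    have h4 := lin_eq_zero_of_det hA h2
    rw [← h3] at h4
    apply Subtype.ext
    have h5 : ((c⁻¹ : SL2 F) : M2 F) = t • 1 - c := by
      rw [Matrix.SpecialLinearGroup.SL2_inv_expl]
      ext i j
      fin_cases i <;> fin_cases j <;> simp [htd, Matrix.trace_fin_two]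
    rw [h5]
    have h7 := sub_eq_zero.1 h4
    rw [← h7]
    abel

end torus

section finite

variable [Fintype F]

local notation "q" => Fintype.card F

theorem two_ne_of_odd (hodd : Odd q) : (2 : F) ≠ 0 :=
  Ring.two_ne_zero (Cfsg.Agent.S2325.char_ne_two hodd)

theorem three_le_of_odd (hodd : Odd q) : 3 ≤ q := by
  have h2 : 2 ≤ q := Fintype.one_lt_card
  obtain ⟨k, hk⟩ := hodd
  omega

/-- A cyclic subgroup of order `q + 1` is an anisotropic torus. -/
theorem exists_torus (hodd : Odd q) (C : Subgroup (SL2 F)) (hC : IsCyclic C) (hcard : Nat.card C = q + 1) :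
    ∃ M : M2 F, Aniso M.trace M.det ∧ C = CM M := by
  have hq3 := three_le_of_odd (F := F) hodd
  have h2 := two_ne_of_odd (F := F) hodd
  obtain ⟨⟨c₀, hc₀⟩, hgen⟩ := hC.exists_generator
  have hord : orderOf (⟨c₀, hc₀⟩ : C) = q + 1 := by
    rw [orderOf_eq_card_of_forall_mem_zpowers hgen, hcard]
  have hord' : orderOf c₀ = q + 1 := by
    rw [← hord]
    exact (Subgroup.orderOf_mk c₀ hc₀).symm
  have hNS : NS (c₀ : M2 F) := by
    rintro ⟨r, hr⟩
    have h1 : (c₀ : M2 F).det = 1 := c₀.2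
    rw [hr] at h1
    have h3 : r * r = 1 := by
      simpa [Matrix.det_smul, sq] using h1
    have h4 : c₀ ^ 2 = 1 := by
      apply Subtype.ext
      rw [sq, Matrix.SpecialLinearGroup.coe_mul, hr]
      simp [smul_smul, h3]
    have h5 := orderOf_le_of_pow_eq_one (by norm_num) h4
    omega
  have hle : C ≤ CM (c₀ : M2 F) := by
    intro x hx
    obtain ⟨k, hk⟩ := hgen ⟨x, hx⟩
    have h3 : x = c₀ ^ k := by
      have := congrArg Subtype.val hk
      simpa using this.symm
    rw [mem_CM, h3]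
    have h4 : c₀ ^ k * c₀ = c₀ * c₀ ^ k := ((Commute.refl c₀).zpow_left k).eq
    have h5 := congrArg (fun z : SL2 F => (z : M2 F)) h4
    simpa [Matrix.SpecialLinearGroup.coe_mul] using h5
  have hdvd : q + 1 ∣ Nat.card (conic (c₀ : M2 F).trace (c₀ : M2 F).det) := by
    rw [← card_CM _ hNS, ← hcard]
    exact Subgroup.card_dvd_of_le hle
  have hdet : (c₀ : M2 F).det = 1 := c₀.2
  rw [hdet] at hdvd
  rcases trichotomy (c₀ : M2 F).trace with h | ⟨l, hl, hl2, ht⟩ | ⟨e, he, ht⟩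
  · refine ⟨(c₀ : M2 F), by rw [hdet]; exact h, ?_⟩
    apply Subgroup.eq_of_le_of_card_ge hle
    rw [card_CM _ hNS, hdet, card_conic_aniso h, hcard]
  · exfalso
    rw [ht, card_conic_split hl hl2] at hdvd
    have h3 := Nat.le_of_dvd (by omega) hdvd
    omega
  · exfalso
    rw [ht, card_conic_unip he, Cfsg.Agent.H10.card_sq_eq_one_of_ne_two h2] at hdvd
    have h3 : Nat.Coprime (q + 1) q := by simp
    have h4 : q + 1 ∣ 2 := h3.dvd_of_dvd_mul_right hdvd
    have h5 := Nat.le_of_dvd (by norm_num) h4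
    omega

theorem inv_trace (c : SL2 F) : ((c⁻¹ : SL2 F) : M2 F).trace = (c : M2 F).trace := by
  rw [Matrix.SpecialLinearGroup.SL2_inv_expl]
  show Matrix.trace !![(c : M2 F) 1 1, -(c : M2 F) 0 1; -(c : M2 F) 1 0, (c : M2 F) 0 0] = _
  rw [Matrix.trace_fin_two_of, Matrix.trace_fin_two]
  ring

section ind

open Cfsg Cfsg.Agent.H21

variable [Fintype (SL2 F)] {M : M2 F} (hA : Aniso M.trace M.det) (hodd : Odd (Fintype.card F))

theorem sum_mem_const (C : Subgroup (SL2 F)) [DecidablePred (· ∈ C)] (a : ℂ) :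
    (∑ x : SL2 F, if x ∈ C then a else 0) = (Nat.card C : ℂ) * a := by
  classical
  rw [Finset.sum_ite, Finset.sum_const_zero, add_zero, Finset.sum_const, nsmul_eq_mul]
  congr 1
  rw [Nat.card_eq_fintype_card, Fintype.card_subtype]

include hA hodd

theorem center_le : Subgroup.center (SL2 F) ≤ CM M := by
  intro z hz
  rw [mem_center_iff_scalar] at hz
  unfold NS at hz
  rw [not_not] at hz
  obtain ⟨r, hr⟩ := hz
  rw [mem_CM, hr]
  simp

theorem no_root (c : SL2 F) (hc : NE c) : (c : M2 F).trace ^ 2 ≠ 4 := by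
  intro h
  have h2 := two_ne_of_odd (F := F) hodd
  set t := (c : M2 F).trace with ht
  set l : F := t / 2 with hl
  have h3 : t = 2 * l := by
    rw [hl]
    field_simp
  have h4 : l * l = 1 := by
    have : (2 : F) * 2 * (l * l) = 2 * 2 * 1 := by
      rw [h3] at h
      linear_combination h
    exact mul_left_cancel₀ (mul_ne_zero h2 h2) this
  -- a singular matrix has a kernel vector
  have hdet : ((c : M2 F) - l • 1).det = 0 := by
    have hd : (c : M2 F).det = 1 := c.2
    rw [Matrix.det_fin_two] at hd ⊢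
    rw [Matrix.trace_fin_two] at ht
    simp only [Matrix.sub_apply, Matrix.smul_apply, Matrix.one_apply_eq, smul_eq_mul, mul_one,
      Matrix.one_apply_ne (show (0 : Fin 2) ≠ 1 by decide), Matrix.one_apply_ne (show (1 : Fin 2) ≠ 0 by decide), mul_zero, sub_zero]
    have : t = (c : M2 F) 0 0 + (c : M2 F) 1 1 := ht
    linear_combination hd + l * this - l * h3 - h4
  obtain ⟨v, hv, hv2⟩ := Matrix.exists_mulVec_eq_zero_iff.2 hdet
  apply hc l v hv
  rw [Matrix.sub_mulVec, sub_eq_zero] at hv2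
  rw [hv2]
  simp [Matrix.smul_mulVec]

theorem exists_w {c : SL2 F} (hc : c ∈ CM M) (hn : c ∉ Subgroup.center (SL2 F)) : ∃ w : SL2 F, w⁻¹ * c * w = c⁻¹ := by
  have hNE := ne_of_mem hA hc hn
  have hNS : NS (c : M2 F) := by
    rw [mem_center_iff_scalar, not_not] at hn
    exact hn
  have hNS' : NS ((c⁻¹ : SL2 F) : M2 F) := by
    have : c⁻¹ ∉ Subgroup.center (SL2 F) := fun h => hn (by simpa using Subgroup.inv_mem _ h)
    rw [mem_center_iff_scalar, not_not] at this
    exact this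
  have h1 := sl_isConj_of_trace hNS hNS' (inv_trace c).symm (Or.inr (no_root hA hodd c hNE))
  obtain ⟨z, hz⟩ := isConj_iff.1 h1
  exact ⟨z⁻¹, by simpa using hz⟩

theorem c_ne_inv {c : SL2 F} (hn : c ∉ Subgroup.center (SL2 F)) : c ≠ c⁻¹ := by
  intro h
  have h1 : c ^ 2 = 1 := by
    rw [sq]
    nth_rewrite 1 [h]
    simp
  apply hn
  rw [mem_center_iff_scalar]
  unfold NS
  rw [not_not]
  exact scalar_of_sq_eq_one (two_ne_of_odd hodd) h1

theorem mem_of_comm {c : SL2 F} (hc : c ∈ CM M) (hn : c ∉ Subgroup.center (SL2 F)) {x : SL2 F}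
    (h : x⁻¹ * c * x = c) : x ∈ CM M := by
  have hM := aniso_ns hA
  have hNS : NS (c : M2 F) := by
    rw [mem_center_iff_scalar, not_not] at hn
    exact hn
  rw [← CM_eq_of_mem hM hc hNS, mem_CM]
  have h1 : x * c = c * x := by
    calc x * c = x * (x⁻¹ * c * x) := by rw [h]
      _ = c * x := by group
  have h2 := congrArg (fun z : SL2 F => (z : M2 F)) h1
  simpa [Matrix.SpecialLinearGroup.coe_mul] using h2

theorem ind_ell (θ' : CM M → ℂ) {c : SL2 F} (hc : c ∈ CM M) (hn : c ∉ Subgroup.center (SL2 F)) :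
    indFun (CM M) θ' c = θ' ⟨c, hc⟩ + θ' ⟨c⁻¹, Subgroup.inv_mem _ hc⟩ := by
  classical
  have hM := aniso_ns hA
  obtain ⟨w, hw⟩ := exists_w hA hodd hc hn
  have hne := c_ne_inv hA hodd hn
  have hcinv : c⁻¹ ∈ CM M := Subgroup.inv_mem _ hc
  have key : ∀ x : SL2 F, extendByZero (CM M) θ' (x⁻¹ * c * x) =
      (if x ∈ CM M then θ' ⟨c, hc⟩ else 0) + (if x * w⁻¹ ∈ CM M then θ' ⟨c⁻¹, hcinv⟩ else 0) := by
    intro x
    by_cases hx : x ∈ CM M
    · have h1 : x⁻¹ * c * x = c := by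
        have := CM_comm hM (Subgroup.inv_mem _ hx) hc
        rw [this, mul_assoc]
        simp
      have h2 : x * w⁻¹ ∉ CM M := by
        intro h3
        have h4 : w ∈ CM M := by
          have h5 := Subgroup.mul_mem _ (Subgroup.inv_mem _ h3) hx
          simpa using h5
        have h6 : w⁻¹ * c * w = c := by
          have := CM_comm hM (Subgroup.inv_mem _ h4) hc
          rw [this, mul_assoc]
          simp
        rw [hw] at h6
        exact hne h6.symm
      rw [h1, if_pos hx, if_neg h2, add_zero]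
      exact extendByZero_coe (CM M) θ' ⟨c, hc⟩
    · by_cases hx2 : x * w⁻¹ ∈ CM M
      · have h1 : x⁻¹ * c * x = c⁻¹ := by
          have h3 := CM_comm hM (Subgroup.inv_mem _ hx2) hc
          have h4 : (x * w⁻¹)⁻¹ * c * (x * w⁻¹) = c := by
            rw [h3, mul_assoc]
            simp
          have h5 : x⁻¹ * c * x = w⁻¹ * ((x * w⁻¹)⁻¹ * c * (x * w⁻¹)) * w := by group
          rw [h5, h4, hw]
        rw [h1, if_neg hx, if_pos hx2, zero_add]
        exact extendByZero_coe (CM M) θ' ⟨c⁻¹, hcinv⟩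
      · have h1 : x⁻¹ * c * x ∉ CM M := by
          intro h3
          have h4 : ((x⁻¹ * c * x : SL2 F) : M2 F).trace = (c : M2 F).trace := by
            rw [Matrix.SpecialLinearGroup.coe_mul, Matrix.SpecialLinearGroup.coe_mul, Matrix.trace_mul_comm,
              ← Matrix.mul_assoc, ← Matrix.SpecialLinearGroup.coe_mul, mul_inv_cancel]
            simp
          rcases conj_cases hA hc h3 h4 with h5 | h5
          · exact hx (mem_of_comm hA hodd hc hn h5)
          · apply hx2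
            apply mem_of_comm hA hodd hc hn
            have h6 : (x * w⁻¹)⁻¹ * c * (x * w⁻¹) = w * (x⁻¹ * c * x) * w⁻¹ := by group
            rw [h6, h5, ← hw]
            group
        rw [extendByZero_of_not_mem _ _ h1, if_neg hx, if_neg hx2, add_zero]
  unfold indFun
  simp_rw [key]
  rw [Finset.sum_add_distrib, sum_mem_const]
  have h3 : (∑ x : SL2 F, if x * w⁻¹ ∈ CM M then θ' ⟨c⁻¹, hcinv⟩ else 0) = (Nat.card (CM M) : ℂ) * θ' ⟨c⁻¹, hcinv⟩ := by
    rw [← sum_mem_const (CM M)]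
    exact Equiv.sum_comp (Equiv.mulRight w⁻¹) (fun y : SL2 F => if y ∈ CM M then θ' ⟨c⁻¹, hcinv⟩ else 0)
  rw [h3]
  have hn0 : (Nat.card (CM M) : ℂ) ≠ 0 := by
    exact_mod_cast (Nat.card_pos (α := CM M)).ne'
  field_simp

theorem card_torus : Nat.card (CM M) = Fintype.card F + 1 := by
  rw [card_CM _ (aniso_ns hA), card_conic_aniso hA]

theorem ind_central (θ' : CM M → ℂ) {z : SL2 F} (hz : z ∈ Subgroup.center (SL2 F)) :
    indFun (CM M) θ' z = ((Fintype.card F : ℂ) * ((Fintype.card F : ℂ) - 1)) * θ' ⟨z, center_le hA hodd hz⟩ := by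
  have key : ∀ x : SL2 F, extendByZero (CM M) θ' (x⁻¹ * z * x) = θ' ⟨z, center_le hA hodd hz⟩ := by
    intro x
    have h1 : x⁻¹ * z * x = z := by
      have := (Subgroup.mem_center_iff.1 hz) x
      rw [mul_assoc, ← this]
      simp
    rw [h1]
    exact extendByZero_coe (CM M) θ' ⟨z, center_le hA hodd hz⟩
  unfold indFun
  simp_rw [key]
  rw [Finset.sum_const, Finset.card_univ, nsmul_eq_mul, ← Nat.card_eq_fintype_card, Cfsg.Agent.H10.card_SL_two,
    card_torus hA hodd]
  have hq1 : 1 ≤ (Fintype.card F) ^ 2 := Nat.pos_of_ne_zero (pow_ne_zero 2 Fintype.card_ne_zero)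
  have hq2 : (((Fintype.card F) ^ 2 - 1 : ℕ) : ℂ) = (Fintype.card F : ℂ) ^ 2 - 1 := by
    rw [Nat.cast_sub hq1]
    simp
  rw [Nat.cast_mul, hq2, Nat.cast_add, Nat.cast_one]
  have h0 : ((Fintype.card F : ℂ) + 1) ≠ 0 := by
    have : ((Fintype.card F + 1 : ℕ) : ℂ) ≠ 0 := Nat.cast_ne_zero.2 (Nat.succ_ne_zero _)
    simpa using this
  field_simp
  ring

theorem ind_zero (θ' : CM M → ℂ) {g : SL2 F} (hg : ¬ NE g) (hn : g ∉ Subgroup.center (SL2 F)) :
    indFun (CM M) θ' g = 0 := by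
  unfold indFun
  rw [Finset.sum_eq_zero, mul_zero]
  intro x _
  apply extendByZero_of_not_mem
  intro h
  have h1 : x⁻¹ * g * x ∉ Subgroup.center (SL2 F) := by
    intro h2
    apply hn
    have h3 : g = x * (x⁻¹ * g * x) * x⁻¹ := by group
    have h4 := (Subgroup.mem_center_iff.1 h2) x
    rw [h4, mul_inv_cancel_right] at h3
    rw [h3]
    exact h2
  have h2 := ne_of_mem hA h h1
  apply hg
  have h3 := ne_conj x⁻¹ h2
  have h4 : (x⁻¹)⁻¹ * (x⁻¹ * g * x) * x⁻¹ = g := by group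
  rwa [h4] at h3

end ind

section R

open Cfsg Cfsg.Agent.H21 Cfsg.Agent.H10
open scoped ComplexConjugate

variable [Fintype (SL2 F)] {M : M2 F} (hA : Aniso M.trace M.det) (hodd : Odd (Fintype.card F))

/-- the Deligne-Lusztig type virtual character -/
noncomputable def Rf (M : M2 F) (α : MulChar F ℂ) (θ' : CM M → ℂ) : SL2 F → ℂ :=
  fun g => ((st1 : SL2 F → ℂ) g - 1) * (pi1 α : SL2 F → ℂ) g - indFun (CM M) θ' g

theorem b1Mk_center (a : Fˣ) (ha : (a : F) ^ 2 = 1) : (((b1Mk a 0 : B1 F) : SL2 F)) ∈ Subgroup.center (SL2 F) := by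
  rw [mem_center_iff_scalar]
  unfold NS
  rw [not_not]
  refine ⟨(a : F), ?_⟩
  have h1 : (a : F)⁻¹ = a := by
    have h2 : (a : F) * a = 1 := by rw [← sq]; exact ha
    exact (eq_inv_of_mul_eq_one_left h2).symm
  rw [b1Mk_coe, h1]
  ext i j
  fin_cases i <;> fin_cases j <;> simp

/-- elements of the Borel subgroup -/
noncomputable abbrev bm (a : Fˣ) (x : F) : SL2 F := ((b1Mk a x : B1 F) : SL2 F)

theorem sq_inv_eq {a : Fˣ} (ha : (a : F) ^ 2 = 1) : (a : F)⁻¹ = a := by
  have h2 : (a : F) * a = 1 := by rw [← sq]; exact ha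
  exact (eq_inv_of_mul_eq_one_left h2).symm

theorem pi1_central (α : MulChar F ℂ) (a : Fˣ) (ha : (a : F) ^ 2 = 1) :
    (pi1 α : SL2 F → ℂ) (bm a 0) = ((Fintype.card F : ℂ) + 1) * α (a : F) := by
  rw [pi1_borel, sq_inv_eq ha]
  simp only [add_zero, if_true, Finset.sum_const, Finset.card_univ, nsmul_eq_mul]
  ring

theorem st1_central (a : Fˣ) (ha : (a : F) ^ 2 = 1) : (st1 : SL2 F → ℂ) (bm a 0) = (Fintype.card F : ℂ) := by
  have h1 : (st1 : SL2 F → ℂ) (bm a 0) = (pi1 (1 : MulChar F ℂ) : SL2 F → ℂ) (bm a 0) - 1 := rfl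
  rw [h1, pi1_central 1 a ha, MulChar.one_apply a.isUnit]
  ring

theorem not_ne_bm (a : Fˣ) (x : F) : ¬ NE (bm a x) := by
  intro h
  apply h (a : F) ![1, 0]
  · intro h0
    have := congrFun h0 0
    simp at this
  · rw [b1Mk_coe]
    ext i
    fin_cases i <;> simp [Matrix.mulVec, dotProduct, Fin.sum_univ_two]

theorem not_center_unip (a : Fˣ) {x : F} (hx : x ≠ 0) : bm a x ∉ Subgroup.center (SL2 F) := by
  rw [mem_center_iff_scalar, not_not]
  rintro ⟨r, hr⟩
  rw [b1Mk_coe] at hr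
  have := congrFun (congrFun hr 0) 1
  simp at this
  exact hx this

theorem not_center_split {a : Fˣ} (ha : (a : F) ^ 2 ≠ 1) (x : F) : bm a x ∉ Subgroup.center (SL2 F) := by
  rw [mem_center_iff_scalar, not_not]
  rintro ⟨r, hr⟩
  rw [b1Mk_coe] at hr
  have h1 := congrFun (congrFun hr 0) 0
  have h2 := congrFun (congrFun hr 1) 1
  simp at h1 h2
  apply ha
  have h3 : (a : F) * (a : F)⁻¹ = 1 := mul_inv_cancel₀ a.ne_zero
  rw [h2, ← h1] at h3
  rw [sq]
  exact h3

variable (α : MulChar F ℂ) (θ' : CM M → ℂ)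

include hA hodd

theorem R_central (a : Fˣ) (ha : (a : F) ^ 2 = 1) (h : bm a 0 ∈ CM M) (hc : θ' ⟨bm a 0, h⟩ = α (a : F)) :
    Rf M α θ' (bm a 0) = ((Fintype.card F : ℂ) - 1) * α (a : F) := by
  unfold Rf
  rw [st1_central a ha, pi1_central α a ha, ind_central hA hodd θ' (b1Mk_center a ha), hc]
  ring

theorem R_unip (a : Fˣ) (ha : (a : F) ^ 2 = 1) {x : F} (hx : x ≠ 0) :
    Rf M α θ' (bm a x) = - α (a : F) := by
  unfold Rf
  have h1 : (a : F) = (a : F)⁻¹ := (sq_inv_eq ha).symm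
  have h2 := (st1_values (bm a x)).2.2 (by rw [b1Mk_coe]; simp) (by rw [b1Mk_coe]; simpa using h1)
    (by rw [b1Mk_coe]; simpa using hx)
  rw [h2, pi1_central_unip α a h1 x hx, ind_zero hA hodd θ' (not_ne_bm a x) (not_center_unip a hx)]
  ring

theorem R_split {a : Fˣ} (ha : (a : F) ^ 2 ≠ 1) (x : F) : Rf M α θ' (bm a x) = 0 := by
  unfold Rf
  have h1 : (st1 : SL2 F → ℂ) (bm a 0) = 1 :=
    (st1_values (bm a 0)).1 (by rw [b1Mk_coe]; simp) (by rw [b1Mk_coe]; simp) (by rw [b1Mk_coe]; simpa using ha)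
  have h2 : (st1 : SL2 F → ℂ) (bm a x) = 1 := by
    rw [← h1]
    exact (class_eq_of_isConj st1_class (b1_isConj_split a x ha)).symm
  rw [h2, ind_zero hA hodd θ' (not_ne_bm a x) (not_center_split ha x)]
  ring

theorem R_ell {c : SL2 F} (hc : c ∈ CM M) (hn : c ∉ Subgroup.center (SL2 F)) :
    Rf M α θ' c = - θ' ⟨c, hc⟩ - θ' ⟨c⁻¹, Subgroup.inv_mem _ hc⟩ := by
  unfold Rf
  have hNE := ne_of_mem hA hc hn
  rw [(st1_values c).2.1 hNE, pi1_no_eig α c hNE, ind_ell hA hodd θ' hc hn]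
  ring

end R

theorem sq_eq_one_iff_of_ne_zero_aux {z : ℂ} (h : z ^ 2 = 1) : z = 1 ∨ z = -1 := by
  have h4 : (z - 1) * (z + 1) = 0 := by linear_combination h
  rcases mul_eq_zero.1 h4 with h5 | h5
  · left
    exact sub_eq_zero.1 h5
  · right
    linear_combination h5

section Inner

open Cfsg Cfsg.Agent.H21 Cfsg.Agent.H10
open scoped ComplexConjugate Classical

omit [Fintype F] in
theorem sum_add_const [Fintype F] (f : F → ℂ) (c : ℂ) (hf : ∀ x, x ≠ 0 → f x = c) :
    ∑ x : F, f x = f 0 + ((Fintype.card F - 1 : ℕ) : ℂ) * c := by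
  rw [← Finset.add_sum_erase _ _ (Finset.mem_univ (0 : F))]
  congr 1
  rw [Finset.sum_congr rfl (fun x hx => hf x (Finset.ne_of_mem_erase hx)), Finset.sum_const,
    Finset.card_erase_of_mem (Finset.mem_univ _), Finset.card_univ, nsmul_eq_mul]

variable [Fintype (SL2 F)] {M : M2 F} (hA : Aniso M.trace M.det) (hodd : Odd (Fintype.card F))
  (α : MulChar F ℂ) (θ : CM M →* ℂˣ)

/-- values of a linear character -/
noncomputable def thv (θ : CM M →* ℂˣ) : CM M → ℂ := fun c => ((θ c : ℂˣ) : ℂ)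

theorem thv_mul (a b : CM M) : thv θ (a * b) = thv θ a * thv θ b := by
  simp [thv]

theorem thv_one : thv θ 1 = 1 := by
  simp [thv]

theorem thv_inv (c : CM M) : thv θ c⁻¹ = (thv θ c)⁻¹ := by
  simp [thv]

theorem thv_isChar : IsCharacter (CM M) (thv θ) :=
  isCharacter_of_mul _ (thv_mul θ) (thv_one θ)

theorem thv_conj (c : CM M) : conj (thv θ c) = (thv θ c)⁻¹ := by
  have h1 : (thv θ c) ^ (orderOf c) = 1 := by
    have h2 : (θ c) ^ orderOf c = 1 := by
      rw [← map_pow, pow_orderOf_eq_one, map_one]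
    have h3 := congrArg (fun u : ℂˣ => (u : ℂ)) h2
    simpa [thv] using h3
  have h4 : ‖thv θ c‖ = 1 := Complex.norm_eq_one_of_pow_eq_one h1 (orderOf_pos c).ne'
  exact (Complex.inv_eq_conj h4).symm

theorem thv_ne (c : CM M) : thv θ c ≠ 0 := by
  simp [thv]

/-- the compatibility of the two linear characters on the centre -/
def Compat (α : MulChar F ℂ) (θ : CM M →* ℂˣ) : Prop :=
  ∀ (a : Fˣ) (_ : (a : F) ^ 2 = 1) (h : bm a 0 ∈ CM M), thv θ ⟨bm a 0, h⟩ = α (a : F)

theorem R_class : IsClassFunction (SL2 F) (Rf M α (thv θ)) := by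
  haveI : Fintype (CM M) := Fintype.ofFinite _
  intro g h
  unfold Rf
  rw [st1_class g h, pi1_class α g h,
    isClassFunction_of_isCharacter (isCharacter_indFun (CM M) (thv_isChar θ)) g h]

theorem R_gen : IsGeneralizedCharacter (SL2 F) (Rf M α (thv θ)) := by
  haveI : Fintype (CM M) := Fintype.ofFinite _
  refine ⟨fun g => (st1 : SL2 F → ℂ) g * (pi1 α : SL2 F → ℂ) g, fun g => (pi1 α : SL2 F → ℂ) g + indFun (CM M) (thv θ) g,
    isCharacter_mul st1_isCharacter (pi1_isCharacter α),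
    isCharacter_add (pi1_isCharacter α) (isCharacter_indFun (CM M) (thv_isChar θ)), ?_⟩
  funext g
  simp only [Rf, Pi.sub_apply]
  ring

theorem S_unip (a : Fˣ) (ha : (a : F) ^ 2 = 1) {x : F} (hx : x ≠ 0) : (st1 : SL2 F → ℂ) (bm a x) = 0 := by
  have h1 : (a : F) = (a : F)⁻¹ := (sq_inv_eq ha).symm
  exact (st1_values (bm a x)).2.2 (by rw [b1Mk_coe]; simp) (by rw [b1Mk_coe]; simpa using h1)
    (by rw [b1Mk_coe]; simpa using hx)

variable {α θ}

include hA hodd

theorem one_ne_neg_one_units : (1 : Fˣ) ≠ -1 := by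
  intro h
  have h1 := congrArg (fun u : Fˣ => (u : F)) h
  simp only [Units.val_one, Units.val_neg] at h1
  apply two_ne_of_odd hodd
  linear_combination h1

theorem sum_units (f : Fˣ → ℂ) (hf : ∀ a : Fˣ, (a : F) ^ 2 ≠ 1 → f a = 0) : ∑ a : Fˣ, f a = f 1 + f (-1) := by
  classical
  apply Finset.sum_eq_add (1 : Fˣ) (-1 : Fˣ) (one_ne_neg_one_units hA hodd)
  · rintro c - ⟨h1, h2⟩
    apply hf
    intro h3
    have h4 : ((c : F) - 1) * ((c : F) + 1) = 0 := by linear_combination h3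
    rcases mul_eq_zero.1 h4 with h5 | h5
    · exact h1 (Units.ext (sub_eq_zero.1 h5))
    · apply h2
      apply Units.ext
      simp only [Units.val_neg, Units.val_one]
      linear_combination h5
  · simp
  · simp

theorem inner_pi_R (β : MulChar F ℂ) (hc : Compat α θ) : classInner (pi1 β : SL2 F → ℂ) (Rf M α (thv θ)) = 0 := by
  rw [inner_pi1_class β _ (R_class α θ), Finset.sum_eq_zero, mul_zero]
  intro a _
  by_cases ha : (a : F) ^ 2 = 1
  · have hm : bm a 0 ∈ CM M := center_le hA hodd (b1Mk_center a ha)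
    rw [sum_add_const _ (β (a : F) * conj (- α (a : F)))]
    · have h1 := R_central hA hodd α (thv θ) a ha hm (hc a ha hm)
      rw [show ((b1Mk a 0 : B1 F) : SL2 F) = bm a 0 from rfl, h1, cast_card_sub_one, map_mul, map_neg, map_sub, Complex.conj_natCast, map_one]
      ring
    · intro x hx
      rw [show ((b1Mk a x : B1 F) : SL2 F) = bm a x from rfl, R_unip hA hodd α (thv θ) a ha hx]
  · apply Finset.sum_eq_zero
    intro x _
    rw [show ((b1Mk a x : B1 F) : SL2 F) = bm a x from rfl, R_split hA hodd α (thv θ) ha x]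
    simp

theorem inner_SP_R (hc : Compat α θ) :
    classInner (fun g => (st1 : SL2 F → ℂ) g * (pi1 α : SL2 F → ℂ) g) (Rf M α (thv θ)) = 2 := by
  have h1 : classInner (fun g => (st1 : SL2 F → ℂ) g * (pi1 α : SL2 F → ℂ) g) (Rf M α (thv θ)) =
      classInner (pi1 α : SL2 F → ℂ) (fun g => conj ((st1 : SL2 F → ℂ) g) * Rf M α (thv θ) g) := by
    unfold classInner
    congr 1
    apply Finset.sum_congr rfl
    intro g _
    rw [map_mul, Complex.conj_conj]
    ring
  have hF : IsClassFunction (SL2 F) (fun g => conj ((st1 : SL2 F → ℂ) g) * Rf M α (thv θ) g) := by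
    intro g h
    simp only
    rw [st1_class g h, R_class α θ g h]
  rw [h1, inner_pi1_class α _ hF]
  have hterm : ∀ a : Fˣ, (a : F) ^ 2 = 1 → ∑ x : F, α (a : F) * conj (conj ((st1 : SL2 F → ℂ) ((b1Mk a x : B1 F) : SL2 F)) * Rf M α (thv θ) ((b1Mk a x : B1 F) : SL2 F)) =
      (Fintype.card F : ℂ) * ((Fintype.card F : ℂ) - 1) := by
    intro a ha
    have hm : bm a 0 ∈ CM M := center_le hA hodd (b1Mk_center a ha)
    rw [sum_add_const _ 0]
    · have h2 := R_central hA hodd α (thv θ) a ha hm (hc a ha hm)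
      rw [show ((b1Mk a 0 : B1 F) : SL2 F) = bm a 0 from rfl, h2, st1_central a ha, map_mul, Complex.conj_conj, map_mul, map_sub,
        Complex.conj_natCast, map_one, mul_zero, add_zero]
      have h3 := mulChar_unit_conj α a
      linear_combination (Fintype.card F : ℂ) * ((Fintype.card F : ℂ) - 1) * h3
    · intro x hx
      rw [show ((b1Mk a x : B1 F) : SL2 F) = bm a x from rfl, S_unip a ha hx]
      simp
  have hzero : ∀ a : Fˣ, (a : F) ^ 2 ≠ 1 → ∑ x : F, α (a : F) * conj (conj ((st1 : SL2 F → ℂ) ((b1Mk a x : B1 F) : SL2 F)) * Rf M α (thv θ) ((b1Mk a x : B1 F) : SL2 F)) = 0 := by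
    intro a ha
    apply Finset.sum_eq_zero
    intro x _
    rw [show ((b1Mk a x : B1 F) : SL2 F) = bm a x from rfl, R_split hA hodd α (thv θ) ha x]
    simp
  rw [sum_units hA hodd _ hzero, hterm 1 (by simp), hterm (-1) (by simp)]
  have hq : (Fintype.card F : ℂ) ≠ 0 := by
    exact_mod_cast Fintype.card_ne_zero
  have hq1 : (Fintype.card F : ℂ) - 1 ≠ 0 := by
    rw [← cast_card_sub_one]
    exact q_sub_one_ne_zero
  rw [Nat.cast_mul, cast_card_sub_one]
  field_simp
  ring

theorem center_bm {z : SL2 F} (hz : z ∈ Subgroup.center (SL2 F)) : ∃ a : Fˣ, (a : F) ^ 2 = 1 ∧ z = bm a 0 := by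
  rw [mem_center_iff_scalar] at hz
  unfold NS at hz
  rw [not_not] at hz
  obtain ⟨r, hr⟩ := hz
  have h10 : (z : M2 F) 1 0 = 0 := by rw [hr]; simp
  have h01 : (z : M2 F) 0 1 = 0 := by rw [hr]; simp
  obtain ⟨a, ha, e⟩ := b1Mk_of_entries z h10
  rw [h01] at e
  refine ⟨a, ?_, e⟩
  have h1 : (z : M2 F).det = 1 := z.2
  rw [hr] at h1
  have h3 : (a : F) = r := by
    rw [ha, hr]
    simp
  rw [h3]
  simpa [Matrix.det_smul] using h1

theorem count_center [Fintype (CM M)] (K : ℂ) :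
    (∑ c : CM M, if (c : SL2 F) ∈ Subgroup.center (SL2 F) then K else 0) = 2 * K := by
  rw [Finset.sum_ite, Finset.sum_const_zero, add_zero, Finset.sum_const, nsmul_eq_mul]
  congr 1
  have h1 : (Finset.univ.filter (fun c : CM M => (c : SL2 F) ∈ Subgroup.center (SL2 F))).card =
      Nat.card (Subgroup.center (SL2 F)) := by
    rw [← Fintype.card_subtype, ← Nat.card_eq_fintype_card]
    apply Nat.card_congr
    exact { toFun := fun c => ⟨c.1.1, c.2⟩
            invFun := fun z => ⟨⟨z.1, center_le hA hodd z.2⟩, z.2⟩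
            left_inv := fun c => rfl
            right_inv := fun z => rfl }
  rw [h1, Cfsg.Agent.Lead.card_center_SL, Fintype.card_fin, gcd_eq_of_two_ne (two_ne_of_odd hodd)]
  norm_num

theorem pointwise_C (hc : Compat α θ) (c : CM M) :
    thv θ c * conj (Rf M α (thv θ) (c : SL2 F)) =
      -1 - (thv θ c) ^ 2 + (if (c : SL2 F) ∈ Subgroup.center (SL2 F) then (Fintype.card F : ℂ) + 1 else 0) := by
  have hne := thv_ne θ c
  by_cases hz : (c : SL2 F) ∈ Subgroup.center (SL2 F)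
  · rw [if_pos hz]
    obtain ⟨a, ha, e⟩ := center_bm hA hodd hz
    have hm : bm a 0 ∈ CM M := center_le hA hodd (b1Mk_center a ha)
    have h1 : c = ⟨bm a 0, hm⟩ := Subtype.ext e
    have h2 := R_central hA hodd α (thv θ) a ha hm (hc a ha hm)
    have h3 : thv θ c = α (a : F) := by
      rw [h1]
      exact hc a ha hm
    have h4 : (thv θ c) ^ 2 = 1 := by
      rw [h3, ← map_pow, ha, map_one]
    have h5 := thv_conj θ c
    rw [e, h2, ← h3, map_mul, map_sub, Complex.conj_natCast, map_one, h5]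
    have h6 : thv θ c * (((Fintype.card F : ℂ) - 1) * (thv θ c)⁻¹) = (Fintype.card F : ℂ) - 1 := by
      field_simp
    rw [h6, h4]
    ring
  · rw [if_neg hz, R_ell hA hodd α (thv θ) c.2 hz, add_zero]
    have h1 : thv θ ⟨(c : SL2 F), c.2⟩ = thv θ c := rfl
    have h2 : thv θ ⟨(c : SL2 F)⁻¹, Subgroup.inv_mem _ c.2⟩ = (thv θ c)⁻¹ := thv_inv θ c
    rw [h1, h2, map_sub, map_neg, thv_conj, map_inv₀, thv_conj, inv_inv]
    field_simp

theorem inner_I_R [Fintype (CM M)] (hc : Compat α θ) :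
    classInner (indFun (CM M) (thv θ)) (Rf M α (thv θ)) =
      1 - (Nat.card (CM M) : ℂ)⁻¹ * ∑ c : CM M, (thv θ c) ^ 2 := by
  rw [frobenius_reciprocity (CM M) (thv θ) _ (R_class α θ)]
  unfold classInner
  simp_rw [pointwise_C hA hodd hc]
  rw [Finset.sum_add_distrib, count_center hA hodd, Finset.sum_sub_distrib, Finset.sum_const, Finset.card_univ, nsmul_eq_mul]
  have hn : (Nat.card (CM M) : ℂ) = (Fintype.card F : ℂ) + 1 := by
    rw [card_torus hA hodd]
    push_cast
    rfl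
  have hn2 : (Fintype.card (CM M) : ℂ) = (Fintype.card F : ℂ) + 1 := by
    rw [← Nat.card_eq_fintype_card, hn]
  rw [hn, hn2]
  have h0 : ((Fintype.card F : ℂ) + 1) ≠ 0 := by
    have : ((Fintype.card F + 1 : ℕ) : ℂ) ≠ 0 := Nat.cast_ne_zero.2 (Nat.succ_ne_zero _)
    simpa using this
  field_simp
  ring

theorem norm_eq [Fintype (CM M)] (hc : Compat α θ) :
    classInner (Rf M α (thv θ)) (Rf M α (thv θ)) =
      1 + (Nat.card (CM M) : ℂ)⁻¹ * ∑ c : CM M, (thv θ c) ^ 2 := by
  have h1 : classInner (Rf M α (thv θ)) (Rf M α (thv θ)) =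
      classInner (fun g => (st1 : SL2 F → ℂ) g * (pi1 α : SL2 F → ℂ) g) (Rf M α (thv θ)) -
      classInner (pi1 α : SL2 F → ℂ) (Rf M α (thv θ)) -
      classInner (indFun (CM M) (thv θ)) (Rf M α (thv θ)) := by
    unfold classInner
    rw [← mul_sub, ← mul_sub, ← Finset.sum_sub_distrib, ← Finset.sum_sub_distrib]
    congr 1
    apply Finset.sum_congr rfl
    intro g _
    have e : Rf M α (thv θ) g = (st1 : SL2 F → ℂ) g * (pi1 α : SL2 F → ℂ) g - (pi1 α : SL2 F → ℂ) g - indFun (CM M) (thv θ) g := by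
      unfold Rf
      ring
    nth_rewrite 1 [e]
    ring
  rw [h1, inner_SP_R hA hodd hc, inner_pi_R hA hodd α hc, inner_I_R hA hodd hc]
  ring

theorem sum_sq_zero [Fintype (CM M)] (h : ∃ c : CM M, θ c ^ 2 ≠ 1) : ∑ c : CM M, (thv θ c) ^ 2 = 0 := by
  let f : CM M →* ℂ :=
    { toFun := fun c => (thv θ c) ^ 2
      map_one' := by rw [thv_one, one_pow]
      map_mul' := fun a b => by rw [thv_mul, mul_pow] }
  have hf : f ≠ 1 := by
    intro h1
    obtain ⟨c, hc⟩ := h
    apply hc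
    apply Units.ext
    have h2 := congrArg (fun k : CM M →* ℂ => k c) h1
    simpa [f, thv] using h2
  exact sum_hom_units_eq_zero f hf

theorem norm_one [Fintype (CM M)] (hc : Compat α θ) (h : ∃ c : CM M, θ c ^ 2 ≠ 1) :
    classInner (Rf M α (thv θ)) (Rf M α (thv θ)) = 1 := by
  rw [norm_eq hA hodd hc, sum_sq_zero hA hodd h]
  ring

theorem norm_two [Fintype (CM M)] (hc : Compat α θ) (h : ∀ c : CM M, θ c ^ 2 = 1) :
    classInner (Rf M α (thv θ)) (Rf M α (thv θ)) = 2 := by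
  rw [norm_eq hA hodd hc]
  have h1 : ∀ c : CM M, (thv θ c) ^ 2 = 1 := by
    intro c
    have := congrArg (fun u : ℂˣ => (u : ℂ)) (h c)
    simpa [thv] using this
  simp_rw [h1]
  rw [Finset.sum_const, Finset.card_univ, nsmul_eq_mul, mul_one, ← Nat.card_eq_fintype_card]
  have hn : (Nat.card (CM M) : ℂ) ≠ 0 := by
    exact_mod_cast (Nat.card_pos (α := CM M)).ne'
  field_simp
  norm_num

theorem exists_compat (θ : CM M →* ℂˣ) : ∃ α : MulChar F ℂ, Compat α θ := by
  have h2 := two_ne_of_odd (F := F) hodd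
  have hne : (-1 : F) ≠ 1 := by
    intro h
    apply h2
    linear_combination -h
  have hm1 : bm (-1 : Fˣ) 0 ∈ CM M := center_le hA hodd (b1Mk_center _ (by simp))
  have hone : ∀ (h : bm (1 : Fˣ) 0 ∈ CM M), thv θ ⟨bm (1 : Fˣ) 0, h⟩ = 1 := by
    intro h
    have h3 : (⟨bm (1 : Fˣ) 0, h⟩ : CM M) = 1 := Subtype.ext b1Mk_one_zero
    rw [h3, thv_one]
  have hu : (thv θ ⟨bm (-1 : Fˣ) 0, hm1⟩) ^ 2 = 1 := by
    have h3 : (⟨bm (-1 : Fˣ) 0, hm1⟩ : CM M) ^ 2 = 1 := by
      apply Subtype.ext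
      apply Subtype.ext
      simp only [Subgroup.coe_pow, Subgroup.coe_one, sq, Matrix.SpecialLinearGroup.coe_mul, b1Mk_coe, Matrix.SpecialLinearGroup.coe_one]
      ext i j
      fin_cases i <;> fin_cases j <;> simp [Matrix.mul_apply, Fin.sum_univ_two]
    have h4 : thv θ ((⟨bm (-1 : Fˣ) 0, hm1⟩ : CM M) ^ 2) = thv θ 1 := congrArg _ h3
    rw [sq, thv_mul, thv_one] at h4
    rw [sq]
    exact h4
  have hcases : ∀ a : Fˣ, (a : F) ^ 2 = 1 → a = 1 ∨ a = -1 := by
    intro a ha
    have h4 : ((a : F) - 1) * ((a : F) + 1) = 0 := by linear_combination ha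
    rcases mul_eq_zero.1 h4 with h5 | h5
    · left
      exact Units.ext (sub_eq_zero.1 h5)
    · right
      apply Units.ext
      simp only [Units.val_neg, Units.val_one]
      linear_combination h5
  have hfinal : ∃ α : MulChar F ℂ, α (-1) = thv θ ⟨bm (-1 : Fˣ) 0, hm1⟩ := by
    rcases sq_eq_one_iff_of_ne_zero_aux hu with h3 | h3
    · exact ⟨1, by rw [h3, MulChar.one_apply (by simp)]⟩
    · obtain ⟨χ, hχ⟩ := MulChar.exists_apply_ne_one_of_hasEnoughRootsOfUnity F ℂ hne
      refine ⟨χ, ?_⟩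
      rw [h3]
      have h4 : (χ (-1)) ^ 2 = 1 := by
        rw [← map_pow]
        simp
      rcases sq_eq_one_iff_of_ne_zero_aux h4 with h5 | h5
      · exact absurd h5 hχ
      · exact h5
  obtain ⟨α, hα⟩ := hfinal
  refine ⟨α, ?_⟩
  intro a ha h
  rcases hcases a ha with rfl | rfl
  · rw [hone h]
    simp
  · have h5 : ((-1 : Fˣ) : F) = -1 := by simp
    rw [h5, hα]

end Inner

end finite

end Cfsg.Agent.H11.SL2D
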