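import Mathlib
import Cfsg.Agent.Lib.H11.SL2D

/-! The discrete series of `SL₂(q)`, `q` odd: irreducibility, values and the count. -/

set_option autoImplicit false
set_option linter.unusedSectionVars false
set_option linter.unusedSimpArgs false
set_option linter.unusedVariables false

namespace Cfsg.Agent.H11.SL2D

open Matrix Cfsg.Agent.H11.SL2X Cfsg.Agent.H11.SL2T

section Twist

open Cfsg Cfsg.Agent.H21 Cfsg.Agent.H10 Cfsg.Agent.H01 Cfsg.Agent.H06
open scoped ComplexConjugate Classical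

variable {F : Type*} [Field F] [Fintype F] [Fintype (SL2 F)]

theorem ind_twist {G : Type*} [Group G] [Fintype G] (H : Subgroup G) (θ' : H → ℂ) {z : G}
    (hz : z ∈ Subgroup.center G) (hH : z ∈ H) (l : ℂ) (hl : ∀ h : H, θ' (⟨z, hH⟩ * h) = l * θ' h) (g : G) :
    indFun H θ' (z * g) = l * indFun H θ' g := by
  unfold indFun
  rw [mul_left_comm]
  congr 1
  rw [Finset.mul_sum]
  apply Finset.sum_congr rfl
  intro x _
  have h1 : x⁻¹ * (z * g) * x = z * (x⁻¹ * g * x) := by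
    have := (Subgroup.mem_center_iff.1 hz) x⁻¹
    calc x⁻¹ * (z * g) * x = (x⁻¹ * z) * g * x := by group
      _ = (z * x⁻¹) * g * x := by rw [this]
      _ = _ := by group
  rw [h1]
  by_cases h2 : x⁻¹ * g * x ∈ H
  · have h3 := extendByZero_coe H θ' ⟨x⁻¹ * g * x, h2⟩
    have h4 := extendByZero_coe H θ' (⟨z, hH⟩ * ⟨x⁻¹ * g * x, h2⟩)
    simp only [Subgroup.coe_mul] at h3 h4
    rw [h3, h4, hl]
  · have h3 : z * (x⁻¹ * g * x) ∉ H := by
      intro h4
      apply h2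
      have h5 := H.mul_mem (H.inv_mem hH) h4
      simpa using h5
    rw [extendByZero_of_not_mem _ _ h2, extendByZero_of_not_mem _ _ h3, mul_zero]

theorem bm_mem_B1 (a : Fˣ) (x : F) : bm a x ∈ B1 F := (b1Mk a x).2

theorem pi1_twist (α : MulChar F ℂ) (a : Fˣ) (ha : (a : F) ^ 2 = 1) (g : SL2 F) :
    (pi1 α : SL2 F → ℂ) (bm a 0 * g) = α (a : F) * (pi1 α : SL2 F → ℂ) g := by
  apply ind_twist (B1 F) (theta1 α) (b1Mk_center a ha) (bm_mem_B1 a 0)
  intro h
  have h1 : (⟨bm a 0, bm_mem_B1 a 0⟩ : B1 F) = b1Mk a 0 := rfl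
  rw [h1, theta1_mul]
  congr 1

theorem st1_twist (a : Fˣ) (ha : (a : F) ^ 2 = 1) (g : SL2 F) :
    (st1 : SL2 F → ℂ) (bm a 0 * g) = (st1 : SL2 F → ℂ) g := by
  have h1 : ∀ g : SL2 F, (st1 : SL2 F → ℂ) g = pi1 1 g - 1 := fun g => rfl
  rw [h1, h1, pi1_twist 1 a ha, MulChar.one_apply a.isUnit, one_mul]

variable {M : M2 F} (hA : Aniso M.trace M.det) (hodd : Odd (Fintype.card F))
  {α : MulChar F ℂ} {θ : CM M →* ℂˣ}

include hA hodd

theorem R_twist (hc : Compat α θ) (a : Fˣ) (ha : (a : F) ^ 2 = 1) (g : SL2 F) :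
    Rf M α (thv θ) (bm a 0 * g) = α (a : F) * Rf M α (thv θ) g := by
  haveI : Fintype (CM M) := Fintype.ofFinite _
  have hm : bm a 0 ∈ CM M := center_le hA hodd (b1Mk_center a ha)
  unfold Rf
  rw [st1_twist a ha, pi1_twist α a ha, ind_twist (CM M) (thv θ) (b1Mk_center a ha) hm (α (a : F)) ?_ g]
  · ring
  · intro h
    rw [thv_mul, hc a ha hm]

theorem R_one (hc : Compat α θ) : Rf M α (thv θ) 1 = (Fintype.card F : ℂ) - 1 := by
  have h1 : (1 : SL2 F) = bm 1 0 := b1Mk_one_zero.symm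
  have hm : bm (1 : Fˣ) 0 ∈ CM M := center_le hA hodd (b1Mk_center 1 (by simp))
  rw [h1, R_central hA hodd α (thv θ) 1 (by simp) hm (hc 1 (by simp) hm)]
  simp

theorem R_irr (hc : Compat α θ) (h : ∃ c : CM M, θ c ^ 2 ≠ 1) : IsIrrCharacter (SL2 F) (Rf M α (thv θ)) := by
  haveI : Fintype (CM M) := Fintype.ofFinite _
  apply isIrrCharacter_of_int_norm_one (R_class α θ)
  · intro χ
    exact gen_inner_int (R_gen α θ) (gen_of_char (isCharacter_of_irr χ.2))
  · exact norm_one hA hodd hc h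
  · rw [R_one hA hodd hc]
    have h3 := three_le_of_odd (F := F) hodd
    have h4 : (((Fintype.card F : ℂ) - 1)).re = (Fintype.card F : ℝ) - 1 := by simp
    rw [h4]
    have h5 : (3 : ℝ) ≤ (Fintype.card F : ℝ) := by exact_mod_cast h3
    linarith

theorem R_cusp (hc : Compat α θ) (h : ∃ c : CM M, θ c ^ 2 ≠ 1) :
    IsCusp1 (⟨Rf M α (thv θ), R_irr hA hodd hc h⟩ : IrrCharacter (SL2 F)) := by
  intro β
  simp only
  rw [← classInner_comm_conj, inner_pi_R hA hodd β hc, map_zero]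

end Twist

section Finale

open Cfsg Cfsg.Agent.H21 Cfsg.Agent.H10 Cfsg.Agent.H01 Cfsg.Agent.H06
open scoped ComplexConjugate Classical

variable {F : Type*} [Field F] [Fintype F] [Fintype (SL2 F)]
  {M : M2 F} (hA : Aniso M.trace M.det) (hodd : Odd (Fintype.card F))

include hA hodd

/-- first part of the statement on the discrete series -/
theorem first_part (θ : CM M →* ℂˣ) (h : ∃ c : CM M, θ c ^ 2 ≠ 1) :
    ∃ χ : SL2 F → ℂ, IsIrrCharacter (SL2 F) χ ∧ χ 1 = (Fintype.card F : ℂ) - 1 ∧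
        (∀ c : CM M, (c : SL2 F) ∉ Subgroup.center (SL2 F) → χ c = -((θ c).val + (θ c)⁻¹.val)) ∧
        (∀ c : CM M, (c : SL2 F) ∈ Subgroup.center (SL2 F) → ∀ g : SL2 F, χ ((c : SL2 F) * g) = (θ c).val * χ g) ∧
        (∀ g : SL2 F, (g : M2 F) 0 1 = 0 → (g : M2 F) 1 0 = 0 → (g : M2 F) 0 0 ^ 2 ≠ 1 → χ g = 0) ∧
        (∀ g : SL2 F, (g : M2 F) 1 0 = 0 → (g : M2 F) 0 0 = 1 → (g : M2 F) 1 1 = 1 → (g : M2 F) 0 1 ≠ 0 → χ g = -1) := by
  obtain ⟨α, hc⟩ := exists_compat hA hodd θ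
  refine ⟨Rf M α (thv θ), R_irr hA hodd hc h, R_one hA hodd hc, ?_, ?_, ?_, ?_⟩
  · intro c hn
    rw [R_ell hA hodd α (thv θ) c.2 hn]
    have h1 : thv θ ⟨(c : SL2 F), c.2⟩ = thv θ c := rfl
    have h2 : thv θ ⟨(c : SL2 F)⁻¹, Subgroup.inv_mem _ c.2⟩ = (thv θ c)⁻¹ := thv_inv θ c
    rw [h1, h2]
    simp [thv]
    ring
  · intro c hz g
    obtain ⟨a, ha, e⟩ := center_bm hA hodd hz
    have h1 := hc a ha (by rw [← e]; exact c.2)
    have h2 : (⟨bm a 0, by rw [← e]; exact c.2⟩ : CM M) = c := Subtype.ext e.symm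
    rw [h2] at h1
    rw [e, R_twist hA hodd hc a ha g, ← h1]
    rfl
  · intro g h01 h10 h00
    obtain ⟨a, ha, e⟩ := b1Mk_of_entries g h10
    rw [h01] at e
    rw [e]
    exact R_split hA hodd α (thv θ) (by rw [ha]; exact h00) 0
  · intro g h10 h00 h11 h01
    obtain ⟨a, ha, e⟩ := b1Mk_of_entries g h10
    have ha1 : a = 1 := Units.ext (by rw [ha, h00]; rfl)
    subst ha1
    rw [e]
    have := R_unip hA hodd α (thv θ) 1 (by simp) h01
    rw [this]
    simp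

end Finale

end Cfsg.Agent.H11.SL2D
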