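import Mathlib
import Cfsg.Agent.Lib.H11.SL2D2

/-! The discrete series of `SL₂(q)`, `q` odd: every cuspidal character of degree `q - 1`. -/

set_option autoImplicit false
set_option linter.unusedSectionVars false
set_option linter.unusedSimpArgs false
set_option linter.unusedVariables false

namespace Cfsg.Agent.H11.SL2D

open Matrix Cfsg.Agent.H11.SL2X Cfsg.Agent.H11.SL2T

theorem card_hom_cyclic {G : Type*} [Group G] [Finite G] [IsCyclic G] : Nat.card (G →* ℂˣ) = Nat.card G := by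
  letI : CommGroup G := IsCyclic.commGroup
  haveI : NeZero (Monoid.exponent G) := ⟨(Monoid.exponent_ne_zero_of_finite)⟩
  exact CommGroup.card_monoidHom_of_hasEnoughRootsOfUnity G ℂ

theorem hom_eq_of_gen {C : Type*} [Group C] {c₀ : C} (hg : ∀ c, c ∈ Subgroup.zpowers c₀) {θ θ' : C →* ℂˣ}
    (e : θ c₀ = θ' c₀) : θ = θ' := by
  ext c
  obtain ⟨k, rfl⟩ := Subgroup.mem_zpowers_iff.1 (hg c)
  simp [e]

section Count

open Cfsg Cfsg.Agent.H21 Cfsg.Agent.H10 Cfsg.Agent.H01 Cfsg.Agent.H06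
open scoped ComplexConjugate Classical

variable {F : Type*} [Field F] [Fintype F] [Fintype (SL2 F)]
  {M : M2 F} (hA : Aniso M.trace M.det) (hodd : Odd (Fintype.card F))

include hA hodd

theorem card_dual : Nat.card (CM M →* ℂˣ) = Fintype.card F + 1 := by
  haveI := isCyclic_CM hA
  rw [card_hom_cyclic, card_torus hA hodd]

theorem finite_dual : Finite (CM M →* ℂˣ) := by
  apply Nat.finite_of_card_ne_zero
  rw [card_dual hA hodd]
  omega

theorem R_eq_central {α α' : MulChar F ℂ} {θ θ' : CM M →* ℂˣ} (hc : Compat α θ) (hc' : Compat α' θ')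
    (e : Rf M α (thv θ) = Rf M α' (thv θ')) (c : CM M) (hz : (c : SL2 F) ∈ Subgroup.center (SL2 F)) :
    thv θ c = thv θ' c := by
  obtain ⟨a, ha, e1⟩ := center_bm hA hodd hz
  have hm : bm a 0 ∈ CM M := center_le hA hodd (b1Mk_center a ha)
  have h1 := R_central hA hodd α (thv θ) a ha hm (hc a ha hm)
  have h2 := R_central hA hodd α' (thv θ') a ha hm (hc' a ha hm)
  rw [e, h2] at h1
  have h3 : (Fintype.card F : ℂ) - 1 ≠ 0 := by
    rw [← cast_card_sub_one]
    exact q_sub_one_ne_zero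
  have h4 := mul_left_cancel₀ h3 h1
  have h5 : c = ⟨bm a 0, hm⟩ := Subtype.ext e1
  rw [h5, hc a ha hm, hc' a ha hm, h4]

theorem R_eq_sum {α α' : MulChar F ℂ} {θ θ' : CM M →* ℂˣ} (hc : Compat α θ) (hc' : Compat α' θ')
    (e : Rf M α (thv θ) = Rf M α' (thv θ')) (c : CM M) :
    thv θ c + (thv θ c)⁻¹ = thv θ' c + (thv θ' c)⁻¹ := by
  by_cases hz : (c : SL2 F) ∈ Subgroup.center (SL2 F)
  · rw [R_eq_central hA hodd hc hc' e c hz]
  · have h1 := R_ell hA hodd α (thv θ) c.2 hz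
    have h2 := R_ell hA hodd α' (thv θ') c.2 hz
    rw [e, h2] at h1
    have h3 : thv θ ⟨(c : SL2 F), c.2⟩ = thv θ c := rfl
    have h4 : thv θ' ⟨(c : SL2 F), c.2⟩ = thv θ' c := rfl
    have h5 : thv θ ⟨(c : SL2 F)⁻¹, Subgroup.inv_mem _ c.2⟩ = (thv θ c)⁻¹ := thv_inv θ c
    have h6 : thv θ' ⟨(c : SL2 F)⁻¹, Subgroup.inv_mem _ c.2⟩ = (thv θ' c)⁻¹ := thv_inv θ' c
    rw [h3, h4, h5, h6] at h1
    linear_combination h1

theorem R_fiber {α α' : MulChar F ℂ} {θ θ' : CM M →* ℂˣ} (hc : Compat α θ) (hc' : Compat α' θ')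
    (e : Rf M α (thv θ) = Rf M α' (thv θ')) : θ' = θ ∨ θ' = θ⁻¹ := by
  obtain ⟨c₀, hg⟩ := (isCyclic_CM hA).exists_generator
  have h1 := R_eq_sum hA hodd hc hc' e c₀
  have hx := thv_ne θ c₀
  have hy := thv_ne θ' c₀
  have h2 : (thv θ c₀ - thv θ' c₀) * (thv θ c₀ * thv θ' c₀ - 1) = 0 := by
    field_simp at h1
    linear_combination h1
  rcases mul_eq_zero.1 h2 with h3 | h3
  · left
    apply hom_eq_of_gen hg
    apply Units.ext
    exact (sub_eq_zero.1 h3).symm
  · right
    apply hom_eq_of_gen hg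
    apply Units.ext
    have h4 : thv θ c₀ * thv θ' c₀ = 1 := sub_eq_zero.1 h3
    have h5 : ((θ⁻¹ c₀ : ℂˣ) : ℂ) = (thv θ c₀)⁻¹ := by
      simp [thv]
    rw [h5]
    exact eq_inv_of_mul_eq_one_right h4

/-- the chosen compatible linear character -/
noncomputable def cho (θ : CM M →* ℂˣ) : MulChar F ℂ := Classical.choose (exists_compat hA hodd θ)

theorem cho_spec (θ : CM M →* ℂˣ) : Compat (cho hA hodd θ) θ := Classical.choose_spec (exists_compat hA hodd θ)

/-- the map sending a linear character of the torus to the irreducible character -/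
noncomputable def Phi (θ : CM M →* ℂˣ) : IrrCharacter (SL2 F) :=
  if h : ∃ c : CM M, θ c ^ 2 ≠ 1 then ⟨Rf M (cho hA hodd θ) (thv θ), R_irr hA hodd (cho_spec hA hodd θ) h⟩
  else ⟨one1, one1_irr⟩

theorem Phi_of {θ : CM M →* ℂˣ} (h : ∃ c : CM M, θ c ^ 2 ≠ 1) :
    (Phi hA hodd θ).1 = Rf M (cho hA hodd θ) (thv θ) := by
  unfold Phi
  rw [dif_pos h]

theorem Phi_mem (m : ℕ) (hm : Fintype.card F = 2 * m + 1) {θ : CM M →* ℂˣ} (h : ∃ c : CM M, θ c ^ 2 ≠ 1) :
    Phi hA hodd θ ∈ (CuspS F).filter (fun χ => charDegree χ.1 = 2 * m) := by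
  rw [Finset.mem_filter, mem_CuspS]
  have h1 : Phi hA hodd θ = ⟨Rf M (cho hA hodd θ) (thv θ), R_irr hA hodd (cho_spec hA hodd θ) h⟩ := by
    unfold Phi
    rw [dif_pos h]
  rw [h1]
  refine ⟨R_cusp hA hodd (cho_spec hA hodd θ) h, ?_⟩
  have h2 : (⟨Rf M (cho hA hodd θ) (thv θ), R_irr hA hodd (cho_spec hA hodd θ) h⟩ : IrrCharacter (SL2 F)).1 1 = ((2 * m : ℕ) : ℂ) := by
    change Rf M (cho hA hodd θ) (thv θ) 1 = _
    rw [R_one hA hodd (cho_spec hA hodd θ), hm]
    push_cast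
    ring
  exact degree_of_value h2

theorem card_bad [Fintype (CM M →* ℂˣ)] :
    (Finset.univ.filter (fun θ : CM M →* ℂˣ => ¬ ∃ c : CM M, θ c ^ 2 ≠ 1)).card ≤ 2 := by
  obtain ⟨c₀, hg⟩ := (isCyclic_CM hA).exists_generator
  have h1 : (Finset.univ.filter (fun θ : CM M →* ℂˣ => ¬ ∃ c : CM M, θ c ^ 2 ≠ 1)).card ≤ ({1, -1} : Finset ℂˣ).card := by
    apply Finset.card_le_card_of_injOn (fun θ => θ c₀)
    · intro θ hθ
      simp only [Finset.coe_filter, Finset.mem_univ, true_and, Set.mem_setOf_eq, not_exists, not_not] at hθ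
      have h2 := hθ c₀
      simp only [Finset.coe_insert, Finset.coe_singleton, Set.mem_insert_iff, Set.mem_singleton_iff]
      have h3 : ((θ c₀ : ℂˣ) : ℂ) ^ 2 = 1 := by
        have := congrArg (fun u : ℂˣ => (u : ℂ)) h2
        simpa using this
      rcases sq_eq_one_iff_of_ne_zero_aux h3 with h4 | h4
      · left
        exact Units.ext h4
      · right
        exact Units.ext (by simpa using h4)
    · intro θ _ θ' _ e
      exact hom_eq_of_gen hg e
  refine h1.trans ?_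
  exact Finset.card_le_two

theorem card_good [Fintype (CM M →* ℂˣ)] (m : ℕ) (hm : Fintype.card F = 2 * m + 1) :
    2 * m ≤ (Finset.univ.filter (fun θ : CM M →* ℂˣ => ∃ c : CM M, θ c ^ 2 ≠ 1)).card := by
  have h1 := Finset.card_filter_add_card_filter_not (s := (Finset.univ : Finset (CM M →* ℂˣ))) (fun θ : CM M →* ℂˣ => ∃ c : CM M, θ c ^ 2 ≠ 1)
  have h2 := card_bad hA hodd
  have h3 : (Finset.univ : Finset (CM M →* ℂˣ)).card = 2 * m + 2 := by
    rw [Finset.card_univ, ← Nat.card_eq_fintype_card, card_dual hA hodd, hm]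
  omega

theorem cusp_is_R (m : ℕ) (hm : Fintype.card F = 2 * m + 1) {χ₁ χ₂ : IrrCharacter (SL2 F)} (hp : HalfPair χ₁ χ₂)
    (χ : IrrCharacter (SL2 F)) (hc : IsCusp1 χ) (hd : charDegree χ.1 = 2 * m) :
    ∃ (θ : CM M →* ℂˣ) (α : MulChar F ℂ), (∃ c : CM M, θ c ^ 2 ≠ 1) ∧ Compat α θ ∧ χ.1 = Rf M α (thv θ) := by
  haveI := finite_dual hA hodd
  letI : Fintype (CM M →* ℂˣ) := Fintype.ofFinite _
  set S := (CuspS F).filter (fun χ : IrrCharacter (SL2 F) => charDegree χ.1 = 2 * m) with hS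
  set Good := Finset.univ.filter (fun θ : CM M →* ℂˣ => ∃ c : CM M, θ c ^ 2 ≠ 1) with hGood
  have hcard : S.card = m := (card_cusp_half_full hodd m hm hp).2
  have hfib : ∀ b ∈ S, (Good.filter (fun θ => Phi hA hodd θ = b)).card ≤ 2 := by
    intro b _
    by_cases hne : (Good.filter (fun θ => Phi hA hodd θ = b)).Nonempty
    · obtain ⟨θ₀, hθ₀⟩ := hne
      rw [Finset.mem_filter] at hθ₀
      have h1 : Good.filter (fun θ => Phi hA hodd θ = b) ⊆ {θ₀, θ₀⁻¹} := by
        intro θ hθ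
        rw [Finset.mem_filter] at hθ
        have hg : ∃ c : CM M, θ c ^ 2 ≠ 1 := (Finset.mem_filter.1 hθ.1).2
        have hg₀ : ∃ c : CM M, θ₀ c ^ 2 ≠ 1 := (Finset.mem_filter.1 hθ₀.1).2
        have e : Rf M (cho hA hodd θ₀) (thv θ₀) = Rf M (cho hA hodd θ) (thv θ) := by
          rw [← Phi_of hA hodd hg, ← Phi_of hA hodd hg₀, hθ.2, hθ₀.2]
        rcases R_fiber hA hodd (cho_spec hA hodd θ₀) (cho_spec hA hodd θ) e with h | h
        · simp [h]
        · simp [h]
      exact (Finset.card_le_card h1).trans Finset.card_le_two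
    · rw [Finset.not_nonempty_iff_eq_empty] at hne
      rw [hne]
      simp
  have hmaps : ∀ θ ∈ Good, Phi hA hodd θ ∈ S := fun θ hθ => Phi_mem hA hodd m hm (Finset.mem_filter.1 hθ).2
  have hle := Finset.card_le_mul_card_image_of_maps_to hmaps 2 hfib
  have hgood : 2 * m ≤ Good.card := card_good hA hodd m hm
  have himg : S ⊆ Good.image (Phi hA hodd) := by
    by_contra hns
    obtain ⟨x, hx, hx2⟩ := Finset.not_subset.1 hns
    have h1 : Good.image (Phi hA hodd) ⊂ S := by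
      refine Finset.ssubset_iff_subset_ne.2 ⟨?_, ?_⟩
      · intro y hy
        obtain ⟨θ, hθ, rfl⟩ := Finset.mem_image.1 hy
        exact hmaps θ hθ
      · intro h
        apply hx2
        rw [h]
        exact hx
    have h2 := Finset.card_lt_card h1
    have h3 := Finset.card_le_mul_card_image (f := Phi hA hodd) Good 2 (fun b hb => by
      obtain ⟨θ, hθ, rfl⟩ := Finset.mem_image.1 hb
      exact hfib _ (hmaps θ hθ))
    omega
  have hχ : χ ∈ S := by
    rw [hS, Finset.mem_filter, mem_CuspS]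
    exact ⟨hc, hd⟩
  obtain ⟨θ, hθ, rfl⟩ := Finset.mem_image.1 (himg hχ)
  have hg : ∃ c : CM M, θ c ^ 2 ≠ 1 := (Finset.mem_filter.1 hθ).2
  exact ⟨θ, cho hA hodd θ, hg, cho_spec hA hodd θ, Phi_of hA hodd hg⟩

/-- the converse in the statement on the discrete series -/
theorem second_part (χ : SL2 F → ℂ) (hχ : IsIrrCharacter (SL2 F) χ) (h1 : χ 1 = (Fintype.card F : ℂ) - 1) :
    ∃ θ : CM M →* ℂˣ, (∃ c : CM M, θ c ^ 2 ≠ 1) ∧
      ∀ c : CM M, (c : SL2 F) ∉ Subgroup.center (SL2 F) → χ c = -((θ c).val + (θ c)⁻¹.val) := by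
  obtain ⟨m, hm⟩ := id hodd
  have hq3 := three_le_of_odd (F := F) hodd
  have hm1 : 1 ≤ m := by omega
  obtain ⟨χ₁, χ₂, hp⟩ := exists_halfPair (F := F)
  have hirr := irr_cases_odd hodd m hm hp ⟨χ, hχ⟩
  simp only at hirr
  have hdeg : charDegree χ = 2 * m := by
    apply degree_of_value (χ := ⟨χ, hχ⟩)
    change χ 1 = _
    rw [h1, hm]
    push_cast
    ring
  by_cases hm2 : 2 ≤ m
  · have hc : IsCusp1 (⟨χ, hχ⟩ : IrrCharacter (SL2 F)) := by
      rcases hirr with h | h | h | h | h | h | h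
      · omega
      · omega
      · omega
      · omega
      · omega
      · exact h.1
      · exact h.1
    obtain ⟨θ, α, hg, hcomp, e⟩ := cusp_is_R hA hodd m hm hp ⟨χ, hχ⟩ hc hdeg
    refine ⟨θ, hg, ?_⟩
    intro c hn
    simp only at e
    rw [e, R_ell hA hodd α (thv θ) c.2 hn]
    have h3 : thv θ ⟨(c : SL2 F), c.2⟩ = thv θ c := rfl
    have h5 : thv θ ⟨(c : SL2 F)⁻¹, Subgroup.inv_mem _ c.2⟩ = (thv θ c)⁻¹ := thv_inv θ c
    rw [h3, h5]
    simp [thv]
    ring
  · have hm3 : m = 1 := by omega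
    have h3 : Fintype.card F = 3 := by omega
    haveI := finite_dual hA hodd
    letI : Fintype (CM M →* ℂˣ) := Fintype.ofFinite _
    have hgood := card_good hA hodd m hm
    have hne : (Finset.univ.filter (fun θ : CM M →* ℂˣ => ∃ c : CM M, θ c ^ 2 ≠ 1)).Nonempty := by
      rw [← Finset.card_pos]
      omega
    obtain ⟨θ, hθ⟩ := hne
    have hg : ∃ c : CM M, θ c ^ 2 ≠ 1 := (Finset.mem_filter.1 hθ).2
    refine ⟨θ, hg, ?_⟩
    intro c hn
    have hNE : NE (c : SL2 F) := ne_of_mem hA c.2 hn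
    have hval : χ c = 0 := by
      rcases hirr with h | h | h | h | h | h | h
      · omega
      · omega
      · omega
      · have := half_no_eig hodd hp c hNE
        rw [← h.1] at this
        exact this
      · have := half_no_eig hodd hp.symm c hNE
        rw [← h.1] at this
        exact this
      · omega
      · exact cusp_two_three h3 ⟨χ, hχ⟩ h.1 (by change charDegree χ = 2; omega) c hNE
    rw [hval]
    -- the nonzero values are of order 4
    have hcard : Nat.card (CM M) = 4 := by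
      rw [card_torus hA hodd, h3]
    have h2F := two_ne_of_odd (F := F) hodd
    have hsq : c ^ 2 ≠ 1 := by
      intro h4
      have h5 : (c : SL2 F) ^ 2 = 1 := by
        have := congrArg (fun y : CM M => (y : SL2 F)) h4
        simpa using this
      obtain ⟨r, hr⟩ := scalar_of_sq_eq_one h2F h5
      apply hn
      rw [mem_center_iff_scalar]
      unfold NS
      rw [not_not]
      exact ⟨r, hr⟩
    have h4 : c ^ 4 = 1 := by
      rw [← hcard]
      exact pow_card_eq_one'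
    have hord : orderOf c = 4 := by
      have h5 : orderOf c ∣ 4 := orderOf_dvd_of_pow_eq_one h4
      have h6 : ¬ orderOf c ∣ 2 := fun h7 => hsq (orderOf_dvd_iff_pow_eq_one.1 h7)
      have h7 : orderOf c ≤ 4 := Nat.le_of_dvd (by norm_num) h5
      interval_cases h8 : orderOf c
      · simp at h5
      · simp at h6
      · simp at h6
      · omega
      · rfl
    have hgen : ∀ y : CM M, y ∈ Subgroup.zpowers c := by
      intro y
      have h5 : Subgroup.zpowers c = ⊤ := by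
        apply Subgroup.eq_top_of_card_eq
        rw [Nat.card_zpowers, hord, hcard]
      rw [h5]
      exact Subgroup.mem_top y
    have hθc : (θ c) ^ 2 ≠ 1 := by
      intro h5
      obtain ⟨y, hy⟩ := hg
      apply hy
      obtain ⟨k, rfl⟩ := Subgroup.mem_zpowers_iff.1 (hgen y)
      rw [map_zpow, ← zpow_natCast, ← _root_.zpow_mul, mul_comm, _root_.zpow_mul, zpow_natCast, h5, _root_.one_zpow]
    have h5 : ((θ c : ℂˣ) : ℂ) ^ 2 ≠ 1 := by
      intro h6
      apply hθc
      apply Units.ext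
      simpa using h6
    have h6 : ((θ c : ℂˣ) : ℂ) ^ 4 = 1 := by
      have h7 : (θ c) ^ 4 = 1 := by rw [← map_pow, h4, map_one]
      have := congrArg (fun u : ℂˣ => (u : ℂ)) h7
      simpa using this
    have h7 : ((θ c : ℂˣ) : ℂ) ^ 2 = -1 := by
      have h8 : (((θ c : ℂˣ) : ℂ) ^ 2 - 1) * (((θ c : ℂˣ) : ℂ) ^ 2 + 1) = 0 := by
        linear_combination h6
      rcases mul_eq_zero.1 h8 with h9 | h9
      · exact absurd (sub_eq_zero.1 h9) h5
      · linear_combination h9
    have h8 := (θ c).ne_zero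
    have h9 : ((θ c)⁻¹ : ℂˣ).val = ((θ c : ℂˣ) : ℂ)⁻¹ := by simp
    rw [h9]
    field_simp
    linear_combination h7

end Count

end Cfsg.Agent.H11.SL2D
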