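import Mathlib
import Cfsg.Agent.Lib.H11.SL2D3

/-! The discrete series of `SL₂(q)`, `q` odd: the characters of degree `(q - 1)/2`. -/

set_option autoImplicit false
set_option linter.unusedSectionVars false
set_option linter.unusedSimpArgs false
set_option linter.unusedVariables false

namespace Cfsg.Agent.H11.SL2D

open Matrix Cfsg.Agent.H11.SL2X Cfsg.Agent.H11.SL2T

section Quad

open Cfsg Cfsg.Agent.H21 Cfsg.Agent.H10 Cfsg.Agent.H01 Cfsg.Agent.H06
open scoped ComplexConjugate Classical

variable {F : Type*} [Field F] [Fintype F] [Fintype (SL2 F)]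

theorem st1_real (g : SL2 F) : conj ((st1 : SL2 F → ℂ) g) = (st1 : SL2 F → ℂ) g := by
  have h : ∀ x : F, conj ((1 : MulChar F ℂ) x) = (1 : MulChar F ℂ) x := by
    intro x
    by_cases hx : IsUnit x
    · rw [MulChar.one_apply hx]
      simp
    · rw [MulChar.map_nonunit _ hx]
      simp
  have h1 : ∀ g : SL2 F, (st1 : SL2 F → ℂ) g = pi1 1 g - 1 := fun g => rfl
  rw [h1, map_sub, map_one, pi1_apply, map_add, map_sum]
  congr 2
  · split_ifs
    · rw [h]
    · simp
  · apply Finset.sum_congr rfl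
    intro t _
    split_ifs
    · rw [h]
    · simp

variable {M : M2 F} (hA : Aniso M.trace M.det) (hodd : Odd (Fintype.card F))
  {α : MulChar F ℂ} {θ : CM M →* ℂˣ}

include hA hodd

theorem inner_R_pi (hc : Compat α θ) (β : MulChar F ℂ) : classInner (Rf M α (thv θ)) (pi1 β) = 0 := by
  rw [← classInner_comm_conj, inner_pi_R hA hodd β hc, map_zero]

omit hA hodd in
theorem inner_ind_one [Fintype (CM M)] (hne : θ ≠ 1) : classInner (thv θ) (fun _ : CM M => (1 : ℂ)) = 0 := by
  unfold classInner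
  have hf : (∑ c : CM M, thv θ c * conj (1 : ℂ)) = 0 := by
    simp only [map_one, mul_one]
    let f : CM M →* ℂ :=
      { toFun := fun c => thv θ c
        map_one' := thv_one θ
        map_mul' := fun a b => thv_mul θ a b }
    have hf1 : f ≠ 1 := by
      intro h1
      apply hne
      ext c
      have h2 := congrArg (fun k : CM M →* ℂ => k c) h1
      simpa [f, thv] using h2
    exact sum_hom_units_eq_zero f hf1
  rw [hf, mul_zero]

theorem inner_R_one (hc : Compat α θ) (hne : θ ≠ 1) : classInner (Rf M α (thv θ)) one1 = 0 := by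
  haveI : Fintype (CM M) := Fintype.ofFinite _
  have h1 : classInner (Rf M α (thv θ)) one1 =
      classInner (pi1 α : SL2 F → ℂ) st1 -
      classInner (pi1 α : SL2 F → ℂ) one1 -
      classInner (indFun (CM M) (thv θ)) (one1 : SL2 F → ℂ) := by
    unfold classInner
    rw [← mul_sub, ← mul_sub, ← Finset.sum_sub_distrib, ← Finset.sum_sub_distrib]
    congr 1
    apply Finset.sum_congr rfl
    intro g _
    have h1' : (one1 : SL2 F → ℂ) g = 1 := rfl
    rw [st1_real, h1', map_one]
    unfold Rf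
    ring
  rw [h1, frobenius_reciprocity (CM M) (thv θ) _ one1_class]
  have h2 : classInner (thv θ) (fun h : CM M => (one1 : SL2 F → ℂ) h) = 0 := inner_ind_one hne
  rw [h2, sub_zero]
  by_cases hα : α = 1
  · subst hα
    rw [inner_pi1_one, if_pos rfl, ← classInner_comm_conj, inner_st1_pi1_one]
    simp
  · rw [inner_pi1_one, if_neg hα, inner_pi1_st1 α hα]
    simp

theorem inner_R_st (hc : Compat α θ) (hne : θ ≠ 1) : classInner (Rf M α (thv θ)) st1 = 0 := by
  have h1 := inner_R_pi hA hodd hc 1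
  rw [pi1_one_eq, classInner_add_right, inner_R_one hA hodd hc hne, zero_add] at h1
  exact h1

omit hA hodd in
theorem inner_decomp {R : SL2 F → ℂ} {x y : IrrCharacter (SL2 F)} {s₁ s₂ : ℂ}
    (hR : R = s₁ • x.1 + s₂ • y.1) (hxy : x ≠ y) : classInner R x.1 = s₁ := by
  have h : y.1 ≠ x.1 := fun h => hxy (Subtype.ext h).symm
  rw [hR, classInner_add_left, classInner_smul_left, classInner_smul_left, classInner_irr_self x.2,
    classInner_irr_ne y.2 x.2 h]
  ring

omit hA in
theorem half_case {R : SL2 F → ℂ} {x y χ₂ : IrrCharacter (SL2 F)} {s₁ s₂ : ℂ} (hp : HalfPair x χ₂)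
    (hR : R = s₁ • x.1 + s₂ • y.1) (hxy : x ≠ y) (hperp : classInner R (pi1 (qc F)) = 0) (h1 : R 1 ≠ 0)
    (hs₁ : s₁ ≠ 0) : False := by
  have h2 := inner_decomp hR hxy
  rw [hp.2, classInner_add_right, h2] at hperp
  have hne : x.1 ≠ χ₂.1 := fun h => hp.1 (Subtype.ext h)
  have hy : y = χ₂ := by
    by_contra hy
    have h3 : classInner R χ₂.1 = 0 := by
      have hne2 : y.1 ≠ χ₂.1 := fun h => hy (Subtype.ext h)
      rw [hR, classInner_add_left, classInner_smul_left, classInner_smul_left,
        classInner_irr_ne x.2 χ₂.2 hne, classInner_irr_ne y.2 χ₂.2 hne2]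
      ring
    rw [h3, add_zero] at hperp
    exact hs₁ hperp
  subst hy
  have h3 := inner_decomp (x := y) (y := x) (s₁ := s₂) (s₂ := s₁) (R := R) (by rw [hR, add_comm]) hxy.symm
  rw [h3] at hperp
  have h4 : s₂ = -s₁ := by linear_combination hperp
  apply h1
  have hd1 := half_degree (F := F) hodd hp
  have hd2 := half_degree (F := F) hodd hp.symm
  have hd : charDegree x.1 = charDegree y.1 := by omega
  rw [hR, Pi.add_apply, Pi.smul_apply, Pi.smul_apply, one_eq_charDegree (isCharacter_of_irr x.2),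
    one_eq_charDegree (isCharacter_of_irr y.2), ← hd, h4]
  simp

theorem cusp_of_decomp (hc : Compat α θ) (hne : θ ≠ 1) {x y : IrrCharacter (SL2 F)} {s₁ s₂ : ℂ}
    (hs₁ : s₁ ≠ 0) (hR : Rf M α (thv θ) = s₁ • x.1 + s₂ • y.1) (hxy : x ≠ y) : IsCusp1 x := by
  obtain ⟨m, hm⟩ := id hodd
  obtain ⟨χ₁, χ₂, hp⟩ := exists_halfPair (F := F)
  have h0 := inner_decomp hR hxy
  have hR1 : Rf M α (thv θ) 1 ≠ 0 := by
    rw [R_one hA hodd hc, ← cast_card_sub_one]
    exact q_sub_one_ne_zero
  rcases irr_classify_odd hodd m hm hp x with h | h | h | h | h | ⟨h, -⟩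
  · exfalso
    rw [h] at h0
    change classInner _ one1 = _ at h0
    rw [inner_R_one hA hodd hc hne] at h0
    exact hs₁ h0.symm
  · exfalso
    rw [h] at h0
    change classInner _ st1 = _ at h0
    rw [inner_R_st hA hodd hc hne] at h0
    exact hs₁ h0.symm
  · exfalso
    obtain ⟨β, -, e⟩ := mem_Tset.mp h
    rw [e, inner_R_pi hA hodd hc β] at h0
    exact hs₁ h0.symm
  · exfalso
    subst h
    exact half_case hodd hp hR hxy (inner_R_pi hA hodd hc _) hR1 hs₁
  · exfalso
    subst h
    exact half_case hodd hp.symm hR hxy (inner_R_pi hA hodd hc _) hR1 hs₁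
  · exact h

/-- The decomposition of the quadratic discrete series. -/
theorem two_cusp (hc : Compat α θ) (hne : θ ≠ 1) (hq : ∀ c : CM M, θ c ^ 2 = 1) (m : ℕ)
    (hm : Fintype.card F = 2 * m + 1) :
    ∃ ξ₁ ξ₂ : IrrCharacter (SL2 F), IsCusp1 ξ₁ ∧ IsCusp1 ξ₂ ∧ charDegree ξ₁.1 = m ∧ charDegree ξ₂.1 = m ∧
      ξ₁ ≠ ξ₂ ∧ Rf M α (thv θ) = ξ₁.1 + ξ₂.1 := by
  haveI : Fintype (CM M) := Fintype.ofFinite _
  have hq3 := three_le_of_odd (F := F) hodd
  have hm1 : 1 ≤ m := by omega
  obtain ⟨a, b, ha, hb, hab, hR⟩ := exists_of_norm_two (R_gen α θ) (norm_two hA hodd hc hq)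
  have hsgn : ∀ a : SL2 F → ℂ, SignedIrr a → ∃ (x : IrrCharacter (SL2 F)) (s : ℂ), (s = 1 ∨ s = -1) ∧ a = s • x.1 := by
    intro a ha
    rcases ha with h | h
    · exact ⟨⟨a, h⟩, 1, Or.inl rfl, by simp⟩
    · exact ⟨⟨-a, h⟩, -1, Or.inr rfl, by simp⟩
  obtain ⟨x, s₁, hs₁, rfl⟩ := hsgn a ha
  obtain ⟨y, s₂, hs₂, rfl⟩ := hsgn b hb
  have hs₁0 : s₁ ≠ 0 := by
    rcases hs₁ with h | h <;> rw [h] <;> norm_num
  have hs₂0 : s₂ ≠ 0 := by
    rcases hs₂ with h | h <;> rw [h] <;> norm_num
  have hxy : x ≠ y := by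
    rintro rfl
    rw [classInner_smul_left, classInner_smul_right, classInner_irr_self x.2] at hab
    have h3 : conj s₂ ≠ 0 := by
      rcases hs₂ with h | h <;> rw [h] <;> simp
    simp [hs₁0, h3] at hab
  have hx := cusp_of_decomp hA hodd hc hne hs₁0 hR hxy
  have hy := cusp_of_decomp hA hodd hc hne hs₂0 (by rw [hR, add_comm]) hxy.symm
  have h1 := R_one hA hodd hc
  rw [hR, Pi.add_apply, Pi.smul_apply, Pi.smul_apply, one_eq_charDegree (isCharacter_of_irr x.2),
    one_eq_charDegree (isCharacter_of_irr y.2), hm] at h1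
  have hdx := cusp_degree_odd hodd m hm x hx
  have hdy := cusp_degree_odd hodd m hm y hy
  push_cast at h1
  have h2 : s₁ = 1 ∧ s₂ = 1 ∧ charDegree x.1 = m ∧ charDegree y.1 = m := by
    rcases hs₁ with rfl | rfl <;> rcases hs₂ with rfl | rfl
    · have h3 : charDegree x.1 + charDegree y.1 = 2 * m := by
        have : (charDegree x.1 : ℂ) + charDegree y.1 = 2 * m := by
          simp only [smul_eq_mul] at h1
          linear_combination h1
        exact_mod_cast this
      refine ⟨rfl, rfl, ?_, ?_⟩ <;> omega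
    · exfalso
      have h3 : charDegree x.1 = 2 * m + charDegree y.1 := by
        have : (charDegree x.1 : ℂ) = 2 * m + charDegree y.1 := by
          simp only [smul_eq_mul] at h1
          linear_combination h1
        exact_mod_cast this
      omega
    · exfalso
      have h3 : charDegree y.1 = 2 * m + charDegree x.1 := by
        have : (charDegree y.1 : ℂ) = 2 * m + charDegree x.1 := by
          simp only [smul_eq_mul] at h1
          linear_combination h1
        exact_mod_cast this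
      omega
    · exfalso
      have h3 : charDegree x.1 + charDegree y.1 + 2 * m = 0 := by
        have : (charDegree x.1 : ℂ) + charDegree y.1 + 2 * m = 0 := by
          simp only [smul_eq_mul] at h1
          linear_combination -h1
        exact_mod_cast this
      omega
  obtain ⟨rfl, rfl, hd1, hd2⟩ := h2
  refine ⟨x, y, hx, hy, hd1, hd2, hxy, ?_⟩
  rw [hR]
  simp

end Quad

end Cfsg.Agent.H11.SL2D
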