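import Mathlib
import Cfsg.Agent.Lib.H11.SL2D4

/-! The discrete series of `SL₂(q)`, `q` odd: values of the half-degree characters. -/

set_option autoImplicit false
set_option linter.unusedSectionVars false
set_option linter.unusedSimpArgs false
set_option linter.unusedVariables false

namespace Cfsg.Agent.H11.SL2D

open Matrix Cfsg.Agent.H11.SL2X Cfsg.Agent.H11.SL2T

section Vals

open Cfsg Cfsg.Agent.H21 Cfsg.Agent.H10 Cfsg.Agent.H01 Cfsg.Agent.H06
open scoped ComplexConjugate Classical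

variable {F : Type*} [Field F] [Fintype F] [Fintype (SL2 F)]

theorem exists_quad {M : M2 F} (hA : Aniso M.trace M.det) (hodd : Odd (Fintype.card F)) (m : ℕ)
    (hm : Fintype.card F = 2 * m + 1) :
    ∃ θ : CM M →* ℂˣ, (∀ c : CM M, c ^ (m + 1) = 1 → θ c = 1) ∧ (∀ c : CM M, c ^ (m + 1) ≠ 1 → θ c = -1) ∧ θ ≠ 1 := by
  haveI hcyc := isCyclic_CM hA
  have hcomm : ∀ a b : CM M, a * b = b * a := by
    intro a b
    letI : CommGroup (CM M) := IsCyclic.commGroup
    exact mul_comm a b
  have h2F := two_ne_of_odd (F := F) hodd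
  let z : CM M := ⟨bm (-1 : Fˣ) 0, center_le hA hodd (b1Mk_center (-1 : Fˣ) (by simp))⟩
  have hz1 : z ≠ 1 := by
    intro h
    have h1 := congrArg (fun y : CM M => (((y : SL2 F) : M2 F)) 0 0) h
    simp [z] at h1
    apply h2F
    linear_combination -h1
  have hzz : z * z = 1 := by
    apply Subtype.ext
    apply Subtype.ext
    simp only [z, Subgroup.coe_mul, Subgroup.coe_one, Matrix.SpecialLinearGroup.coe_mul, b1Mk_coe, Matrix.SpecialLinearGroup.coe_one]
    ext i j
    fin_cases i <;> fin_cases j <;> simp [Matrix.mul_apply, Fin.sum_univ_two]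
  have hu : ∀ u : CM M, u ^ 2 = 1 → u = 1 ∨ u = z := by
    intro u hu
    have h5 : (u : SL2 F) ^ 2 = 1 := by
      have := congrArg (fun y : CM M => (y : SL2 F)) hu
      simpa using this
    obtain ⟨r, hr⟩ := scalar_of_sq_eq_one h2F h5
    have h6 : r * r = 1 := by
      have h7 : ((u : SL2 F) : M2 F).det = 1 := (u : SL2 F).2
      rw [hr] at h7
      simpa [Matrix.det_smul, sq] using h7
    have h8 : (r - 1) * (r + 1) = 0 := by linear_combination h6
    rcases mul_eq_zero.1 h8 with h9 | h9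
    · left
      apply Subtype.ext
      apply Subtype.ext
      rw [hr, sub_eq_zero.1 h9]
      simp
    · right
      apply Subtype.ext
      apply Subtype.ext
      have h10 : r = -1 := by linear_combination h9
      rw [hr, h10]
      simp only [z, b1Mk_coe]
      ext i j
      fin_cases i <;> fin_cases j <;> simp
  have hcard : Nat.card (CM M) = 2 * m + 2 := by
    rw [card_torus hA hodd, hm]
  have hc2 : ∀ c : CM M, (c ^ (m + 1)) ^ 2 = 1 := by
    intro c
    rw [← pow_mul, show (m + 1) * 2 = Nat.card (CM M) by rw [hcard]; ring]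
    exact pow_card_eq_one'
  let f : CM M → ℂˣ := fun c => if c ^ (m + 1) = 1 then 1 else -1
  have hf : ∀ a b : CM M, f (a * b) = f a * f b := by
    intro a b
    have h1 : (a * b) ^ (m + 1) = a ^ (m + 1) * b ^ (m + 1) := Commute.mul_pow (hcomm a b) _
    simp only [f, h1]
    rcases hu _ (hc2 a) with ha | ha <;> rcases hu _ (hc2 b) with hb | hb <;> rw [ha, hb]
    · simp
    · simp [hz1]
    · simp [hz1]
    · simp [hz1, hzz]
  refine ⟨MonoidHom.mk' f hf, ?_, ?_, ?_⟩
  · intro c hc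
    simp [f, hc]
  · intro c hc
    simp [f, hc]
  · intro h
    obtain ⟨c₀, hg⟩ := hcyc.exists_generator
    have hord : orderOf c₀ = 2 * m + 2 := by
      rw [orderOf_eq_card_of_forall_mem_zpowers hg, hcard]
    have h1 : c₀ ^ (m + 1) ≠ 1 := by
      intro h2
      have h3 := orderOf_dvd_of_pow_eq_one h2
      rw [hord] at h3
      have h4 := Nat.le_of_dvd (by omega) h3
      omega
    have h2 : (MonoidHom.mk' f hf) c₀ = -1 := by
      simp [f, h1]
    rw [h] at h2
    have h3 := congrArg (fun u : ℂˣ => (u : ℂ)) h2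
    simp at h3
    norm_num at h3

theorem aniso_of_ne {g : SL2 F} (hg : NE g) : Aniso (g : M2 F).trace (g : M2 F).det := by
  have h1 : (g : M2 F).det = 1 := g.2
  rw [h1, aniso_iff_no_root]
  intro l hl
  have hd : ((g : M2 F) - l • 1).det = 0 := by
    have h2 := h1
    rw [Matrix.det_fin_two] at h2 ⊢
    rw [Matrix.trace_fin_two] at hl
    simp [Matrix.sub_apply, Matrix.smul_apply, Matrix.one_apply]
    linear_combination hl + h2
  obtain ⟨v, hv, h3⟩ := Matrix.exists_mulVec_eq_zero_iff.2 hd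
  apply hg l v hv
  rw [Matrix.sub_mulVec, Matrix.smul_mulVec, Matrix.one_mulVec] at h3
  exact sub_eq_zero.1 h3

theorem not_center_of_ne {g : SL2 F} (hg : NE g) : g ∉ Subgroup.center (SL2 F) := by
  rw [mem_center_iff_scalar, not_not]
  rintro ⟨r, hr⟩
  apply hg r ![1, 0]
  · intro h0
    have := congrFun h0 0
    simp at this
  · rw [hr, Matrix.smul_mulVec, Matrix.one_mulVec]

/-- values of a cuspidal character of degree `(q - 1)/2` -/
theorem half_cusp_value (hodd : Odd (Fintype.card F)) (m : ℕ) (hm : Fintype.card F = 2 * m + 1) {g : SL2 F}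
    (hg : NE g) (χ : IrrCharacter (SL2 F)) (hc : IsCusp1 χ) (hd : charDegree χ.1 = m) :
    (g ^ (m + 1) = 1 → χ.1 g = -1) ∧ (g ^ (m + 1) ≠ 1 → χ.1 g = 1) := by
  have hA := aniso_of_ne hg
  set M : M2 F := (g : M2 F) with hM
  have hmem : g ∈ CM M := rfl
  have hn := not_center_of_ne hg
  obtain ⟨θ, h1, h2, hne⟩ := exists_quad hA hodd m hm
  have hq : ∀ c : CM M, θ c ^ 2 = 1 := by
    intro c
    by_cases h : c ^ (m + 1) = 1
    · rw [h1 c h, one_pow]
    · rw [h2 c h]
      simp
  obtain ⟨α, hcomp⟩ := exists_compat hA hodd θ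
  obtain ⟨ξ₁, ξ₂, c1, c2, d1, d2, hne12, hR⟩ := two_cusp hA hodd hcomp hne hq m hm
  obtain ⟨χ₁, χ₂, hp⟩ := exists_halfPair (F := F)
  have hcard := (card_cusp_half_full hodd m hm hp).1
  have hS : (CuspS F).filter (fun χ : IrrCharacter (SL2 F) => charDegree χ.1 = m) = {ξ₁, ξ₂} := by
    symm
    apply Finset.eq_of_subset_of_card_le
    · intro x hx
      simp only [Finset.mem_insert, Finset.mem_singleton] at hx
      rw [Finset.mem_filter, mem_CuspS]
      rcases hx with rfl | rfl
      · exact ⟨c1, d1⟩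
      · exact ⟨c2, d2⟩
    · rw [hcard, Finset.card_pair hne12]
  have hχ : χ = ξ₁ ∨ χ = ξ₂ := by
    have h3 : χ ∈ (CuspS F).filter (fun χ : IrrCharacter (SL2 F) => charDegree χ.1 = m) := by
      rw [Finset.mem_filter, mem_CuspS]
      exact ⟨hc, hd⟩
    rw [hS] at h3
    simpa using h3
  obtain ⟨ν, hν⟩ := FiniteField.exists_nonsquare (S2325.char_ne_two hodd)
  have hν0 : ν ≠ 0 := by
    rintro rfl
    exact hν (IsSquare.zero)
  have hsw := halfcusp_swap hodd m hm ξ₁ ξ₂ c1 c2 d1 d2 hne12 (Units.mk0 ν hν0) (by simpa using hν)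
  have heq : ξ₂.1 g = ξ₁.1 g := by
    rw [← hsw, tauIrr_apply]
    exact class_eq_of_isConj (isClassFunction_of_isCharacter (isCharacter_of_irr ξ₁.2)) (elliptic_conj hodd _ g hg)
  have hRg := R_ell hA hodd α (thv θ) hmem hn
  rw [hR, Pi.add_apply, heq] at hRg
  have h3 : thv θ ⟨g⁻¹, Subgroup.inv_mem _ hmem⟩ = (thv θ ⟨g, hmem⟩)⁻¹ := thv_inv θ ⟨g, hmem⟩
  rw [h3] at hRg
  have hcase : χ.1 g = ξ₁.1 g := by
    rcases hχ with rfl | rfl
    · rfl
    · exact heq
  rw [hcase]
  have hiff : (⟨g, hmem⟩ : CM M) ^ (m + 1) = 1 ↔ g ^ (m + 1) = 1 := by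
    constructor
    · intro h
      have := congrArg (fun y : CM M => (y : SL2 F)) h
      simpa using this
    · intro h
      apply Subtype.ext
      simpa using h
  constructor
  · intro h
    have h4 := h1 ⟨g, hmem⟩ (hiff.2 h)
    have h5 : thv θ ⟨g, hmem⟩ = 1 := by
      unfold thv
      rw [h4]
      rfl
    rw [h5] at hRg
    norm_num at hRg
    linear_combination hRg / 2
  · intro h
    have h4 := h2 ⟨g, hmem⟩ (fun h' => h (hiff.1 h'))
    have h5 : thv θ ⟨g, hmem⟩ = -1 := by
      unfold thv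
      rw [h4]
      simp
    rw [h5] at hRg
    norm_num at hRg
    linear_combination hRg / 2

/-- values of a half principal series character -/
theorem half_value (hodd : Odd (Fintype.card F)) {χ₁ χ₂ : IrrCharacter (SL2 F)} (hp : HalfPair χ₁ χ₂)
    (a : Fˣ) (ha : (a : F) ^ 2 ≠ 1) : χ₁.1 (bm a 0) = quadraticChar F (a : F) := by
  obtain ⟨ν, hν⟩ := FiniteField.exists_nonsquare (S2325.char_ne_two hodd)
  have hν0 : ν ≠ 0 := by
    rintro rfl
    exact hν (IsSquare.zero)
  have hsw := half_swap hodd hp (Units.mk0 ν hν0) (by simpa using hν)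
  have hfix : conjSL (dg (Units.mk0 ν hν0)) (bm a 0) = bm a 0 := by
    apply Subtype.ext
    change ((dg (Units.mk0 ν hν0))⁻¹ : GL (Fin 2) F).1 * (bm a 0).1 * (dg (Units.mk0 ν hν0)).1 = _
    have h0 : ((dg (Units.mk0 ν hν0))⁻¹ : GL (Fin 2) F).1 = !![ν⁻¹, 0; 0, 1] := by
      rfl
    rw [h0]
    simp only [b1Mk_coe]
    have h1 : (dg (Units.mk0 ν hν0)).1 = !![ν, 0; 0, 1] := rfl
    rw [h1]
    ext i j
    fin_cases i <;> fin_cases j <;> simp [Matrix.mul_apply, Fin.sum_univ_two, hν0] <;> field_simp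
  have heq : χ₂.1 (bm a 0) = χ₁.1 (bm a 0) := by
    rw [← hsw, tauIrr_apply, hfix]
  have h1 := congrFun hp.2 (bm a 0)
  rw [Pi.add_apply, heq, pi1_split _ a ha] at h1
  rw [qc_apply, qc_apply] at h1
  have h2 : quadraticChar F ((a : F)⁻¹) = quadraticChar F (a : F) := by
    have h3 : quadraticChar F ((a : F)⁻¹) * quadraticChar F (a : F) = 1 := by
      rw [← map_mul, inv_mul_cancel₀ a.ne_zero, map_one]
    have h4 := quadraticChar_sq_one a.ne_zero
    have h5 : quadraticChar F ((a : F)⁻¹) = quadraticChar F ((a : F)⁻¹) * (quadraticChar F (a : F)) ^ 2 := by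
      rw [h4, mul_one]
    rw [h5, sq, ← mul_assoc, h3, one_mul]
  rw [h2] at h1
  linear_combination -h1 / 2

end Vals

end Cfsg.Agent.H11.SL2D
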