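import Cfsg.Agent.Lib.H11.SpC1

/-! Every monic palindromic polynomial of degree `2n` is realised by a semisimple symplectic element. -/

set_option autoImplicit false
set_option linter.unusedSectionVars false
set_option linter.unusedVariables false

namespace Cfsg.Agent.H11.SpC

open Polynomial Module Matrix Cfsg.Agent.H11.PSpG

universe u

variable {F : Type u} [Field F] [Fintype F]

/-- inverse and reversal -/
theorem charpoly_inv_lin {V : Type*} [AddCommGroup V] [Module F V] [FiniteDimensional F V] (τ τ' : V →ₗ[F] V)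
    (h : τ * τ' = 1) : ∃ u : F, u ≠ 0 ∧ τ'.charpoly = C u * τ.charpoly.reverse := by
  classical
  let b := Module.finBasis F V
  let M := LinearMap.toMatrix b b τ
  let M' := LinearMap.toMatrix b b τ'
  have hMM : M * M' = 1 := by
    have := (LinearMap.toMatrixAlgEquiv b).map_mul τ τ'
    rw [h, map_one] at this
    exact this.symm
  have hM' : M' = M⁻¹ := (Matrix.inv_eq_right_inv hMM).symm
  have hunit : IsUnit M := IsUnit.of_mul_eq_one M' hMM
  have h1 := Matrix.charpoly_inv M hunit
  have hdet : IsUnit M.det := (Matrix.isUnit_iff_isUnit_det _).1 hunit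
  have e1 : M.charpoly = τ.charpoly := LinearMap.charpoly_toMatrix _ _
  have e2 : M'.charpoly = τ'.charpoly := LinearMap.charpoly_toMatrix _ _
  refine ⟨(-1) ^ Fintype.card (Fin (finrank F V)) * Ring.inverse M.det, ?_, ?_⟩
  · apply mul_ne_zero
    · exact pow_ne_zero _ (neg_ne_zero.2 one_ne_zero)
    · rw [Ring.inverse_eq_inv']
      exact inv_ne_zero hdet.ne_zero
  · rw [← e1, ← e2, hM', h1, Matrix.reverse_charpoly]
    simp

/-- monic factors of the reversal -/
theorem palin_coeff_zero {f : F[X]} (hf : f.Monic) (hr : f.reverse = f) : f.coeff 0 = 1 := by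
  rw [← hr, coeff_zero_reverse, hf.leadingCoeff]

/-- odd degree palindromes vanish at `ε` -/
theorem palin_eval (ε : F) (hε : ε ^ 2 = 1) (n : ℕ) (g : F[X]) (hd : g.natDegree + 1 = 2 * n)
    (hg : g = C (-ε) * g.reverse) : g.eval ε = 0 := by
  have hcoef : ∀ i, i < 2 * n → g.coeff i = -ε * g.coeff (2 * n - 1 - i) := by
    intro i hi
    conv_lhs => rw [hg, coeff_C_mul, coeff_reverse, revAt_le (by omega)]
    congr 2
    omega
  rw [Polynomial.eval_eq_sum_range' (n := 2 * n) (by omega), two_mul, Finset.sum_range_add]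
  rw [← Finset.sum_range_reflect (fun x => g.coeff (n + x) * ε ^ (n + x)) n, ← Finset.sum_add_distrib]
  apply Finset.sum_eq_zero
  intro i hi
  have hi' : i < n := Finset.mem_range.1 hi
  have e1 : n + (n - 1 - i) = 2 * n - 1 - i := by omega
  rw [e1, hcoef i (by omega)]
  have e2 : ε ^ (2 * n - 1 - i) * ε ^ (i + 1) = 1 := by
    rw [← pow_add]
    have : 2 * n - 1 - i + (i + 1) = 2 * n := by omega
    rw [this, pow_mul, hε, one_pow]
  have e3 : ε ^ (i + 1) * ε ^ (i + 1) = 1 := by
    rw [← pow_add, ← two_mul, pow_mul, hε, one_pow]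
  have e4 : ε ^ (2 * n - 1 - i) = ε ^ (i + 1) := by
    calc ε ^ (2 * n - 1 - i) = ε ^ (2 * n - 1 - i) * (ε ^ (i + 1) * ε ^ (i + 1)) := by rw [e3, mul_one]
      _ = (ε ^ (2 * n - 1 - i) * ε ^ (i + 1)) * ε ^ (i + 1) := by ring
      _ = _ := by rw [e2, one_mul]
  rw [e4, pow_succ]
  have : -ε * g.coeff (2 * n - 1 - i) * ε ^ i + g.coeff (2 * n - 1 - i) * (ε ^ i * ε) = 0 := by ring
  exact this

/-- a linear factor at `±1` occurs to even multiplicity -/
theorem sq_dvd_of_palin (ε : F) (hε : ε ^ 2 = 1) (n : ℕ) (f : F[X]) (hf : f.Monic) (hd : f.natDegree = 2 * n) (hr : f.reverse = f)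
    (hdvd : (X - C ε) ∣ f) : (X - C ε) * (X - C ε) ∣ f := by
  obtain ⟨g, hg⟩ := hdvd
  have hne : (X - C ε : F[X]) ≠ 0 := X_sub_C_ne_zero ε
  have hgm : g.Monic := by
    rw [hg] at hf
    exact (monic_X_sub_C ε).of_mul_monic_left hf
  have hdg : g.natDegree + 1 = 2 * n := by
    have := (monic_X_sub_C ε).natDegree_mul hgm
    rw [← hg, hd, natDegree_X_sub_C] at this
    omega
  have hrev : (X - C ε : F[X]).reverse = (X - C ε) * C (-ε) := by
    have e : (X - C ε : F[X]) = X + C (-ε) := by
      rw [map_neg, sub_eq_add_neg]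
    rw [e, reverse_add_C]
    have h2 : (X : F[X]).reverse = 1 := by
      have h4 := reverse_X_mul (1 : F[X])
      have h5 := reverse_C (1 : F)
      rw [C_1] at h5
      rw [mul_one, h5] at h4
      exact h4
    rw [h2, natDegree_X, pow_one]
    have h3 : (C (-ε) * C (-ε) : F[X]) = 1 := by
      rw [← C_mul, neg_mul_neg, ← pow_two, hε, C_1]
    linear_combination (-1 : F[X]) * h3
  have hg2 : g = C (-ε) * g.reverse := by
    apply mul_left_cancel₀ hne
    calc (X - C ε) * g = f := hg.symm
      _ = f.reverse := hr.symm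
      _ = (X - C ε).reverse * g.reverse := by rw [hg, reverse_mul_of_domain]
      _ = _ := by rw [hrev]; ring
  have h0 := palin_eval ε hε n g hdg hg2
  obtain ⟨g', hg'⟩ := dvd_iff_isRoot.2 h0
  exact ⟨g', by rw [hg, hg', mul_assoc]⟩

/-- one step: a realisable factor -/
theorem rl_step (n : ℕ) (hn : 0 < n) (f : F[X]) (hf : f.Monic) (hd : f.natDegree = 2 * n) (hr : f.reverse = f) :
    ∃ (d : ℕ) (χ h : F[X]), 0 < d ∧ Rl F d χ ∧ f = χ * h := by
  classical
  have hf0 : f.coeff 0 = 1 := palin_coeff_zero hf hr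
  obtain ⟨π, hm, hirr, hπf⟩ := Cfsg.Agent.H10.exists_monic_irreducible_dvd hf.ne_zero (by omega : f.natDegree ≠ 0)
  haveI : Fact (Irreducible π) := ⟨hirr⟩
  letI : Module.Finite F (AdjoinRoot π) := (AdjoinRoot.powerBasis' hm).finite
  letI : Finite (AdjoinRoot π) := Module.finite_of_finite F
  letI : Fintype (AdjoinRoot π) := Fintype.ofFinite _
  set θ := AdjoinRoot.root π with hθ
  have hθ0 : θ ≠ 0 := by
    intro h
    have h1 : AdjoinRoot.mk π X = 0 := h
    rw [AdjoinRoot.mk_eq_zero] at h1
    have h2 : X ∣ π := hirr.dvd_symm irreducible_X h1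
    have h3 : X ∣ f := h2.trans hπf
    rw [X_dvd_iff, hf0] at h3
    exact one_ne_zero h3
  have hχ : (LinearMap.mulLeft F θ).charpoly = π := Cfsg.Agent.H10.charpoly_mul_root hm
  have hfr : finrank F (AdjoinRoot π) = π.natDegree := by
    rw [(AdjoinRoot.powerBasis hm.ne_zero).finrank]
    simp
  have hdeg0 : 0 < π.natDegree := hirr.natDegree_pos
  set π' := (LinearMap.mulLeft F θ⁻¹).charpoly with hπ'
  have hm' : π'.Monic := LinearMap.charpoly_monic _
  have hdeg' : π'.natDegree = π.natDegree := by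
    rw [hπ', LinearMap.charpoly_natDegree, hfr]
  obtain ⟨u, hu0, hu⟩ := charpoly_inv_lin (LinearMap.mulLeft F θ) (LinearMap.mulLeft F θ⁻¹) (by
    apply LinearMap.ext
    intro x
    rw [Module.End.mul_apply, LinearMap.mulLeft_apply, LinearMap.mulLeft_apply, mul_inv_cancel_left₀ hθ0]
    rfl)
  rw [hχ, ← hπ'] at hu
  have hπ'f : π' ∣ f := by
    obtain ⟨k, hk⟩ := hπf
    refine ⟨C u⁻¹ * k.reverse, ?_⟩
    rw [← hr, hk, reverse_mul_of_domain, hu]
    have : C u * C u⁻¹ = (1 : F[X]) := by rw [← C_mul, mul_inv_cancel₀ hu0, C_1]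
    linear_combination (-(π.reverse * k.reverse)) * this
  have hpair : Rl F π.natDegree (π * π') := by
    have := rl_pair (F := F) θ hθ0
    rwa [hχ, ← hπ', hfr] at this
  by_cases hdvd : π ∣ π'
  · have heq : π = π' := by
      obtain ⟨k, hk⟩ := hdvd
      have hk0 : k ≠ 0 := by
        rintro rfl
        rw [mul_zero] at hk
        exact hm'.ne_zero hk
      have hkm : k.Monic := by
        rw [hk] at hm'
        exact hm.of_mul_monic_left hm'
      have hk1 : k.natDegree = 0 := by
        have := hm.natDegree_mul hkm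
        rw [← hk, hdeg'] at this
        omega
      have : k = 1 := hkm.natDegree_eq_zero.1 hk1
      rw [hk, this, mul_one]
    -- `θ⁻¹` is a root
    have hroot : eval₂ (algebraMap F (AdjoinRoot π)) θ⁻¹ π = 0 := by
      have h1 : aeval (LinearMap.mulLeft F θ⁻¹) π = 0 := by
        rw [congrArg (aeval (LinearMap.mulLeft F θ⁻¹)) heq]
        exact LinearMap.aeval_self_charpoly _
      have h2 : aeval (Algebra.lmul F (AdjoinRoot π) θ⁻¹) π = 0 := h1
      rw [aeval_algHom_apply] at h2
      have h3 : (Algebra.lmul F (AdjoinRoot π)) (aeval θ⁻¹ π) 1 = 0 := by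
        rw [h2]
        rfl
      have h4 : aeval θ⁻¹ π * 1 = 0 := h3
      rw [mul_one] at h4
      exact h4
    by_cases hsq : θ * θ = 1
    · -- the involutive case
      have hπ1 : π ∣ X ^ 2 - 1 := by
        rw [← AdjoinRoot.mk_eq_zero, map_sub, map_pow, map_one, AdjoinRoot.mk_X]
        rw [← hθ, pow_two, hsq, sub_self]
      have hfact : (X ^ 2 - 1 : F[X]) = (X - C 1) * (X - C (-1)) := by
        simp only [map_one, map_neg]
        ring
      obtain ⟨ε, hε, hπε⟩ : ∃ ε : F, ε ^ 2 = 1 ∧ π = X - C ε := by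
        rw [hfact] at hπ1
        rcases hirr.prime.2.2 _ _ hπ1 with h1 | h1
        · refine ⟨1, by simp, ?_⟩
          have hmon := monic_X_sub_C (1 : F)
          obtain ⟨k, hk⟩ := h1
          have hkm : k.Monic := by
            rw [hk] at hmon
            exact hm.of_mul_monic_left hmon
          have hk1 : k.natDegree = 0 := by
            have := hm.natDegree_mul hkm
            rw [← hk, natDegree_X_sub_C] at this
            omega
          have : k = 1 := hkm.natDegree_eq_zero.1 hk1
          rw [hk, this, mul_one]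
        · refine ⟨-1, by simp, ?_⟩
          have hmon := monic_X_sub_C (-1 : F)
          obtain ⟨k, hk⟩ := h1
          have hkm : k.Monic := by
            rw [hk] at hmon
            exact hm.of_mul_monic_left hmon
          have hk1 : k.natDegree = 0 := by
            have := hm.natDegree_mul hkm
            rw [← hk, natDegree_X_sub_C] at this
            omega
          have : k = 1 := hkm.natDegree_eq_zero.1 hk1
          rw [hk, this, mul_one]
      have h2 := sq_dvd_of_palin ε hε n f hf hd hr (by rw [← hπε]; exact hπf)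
      rw [← hπε] at h2
      obtain ⟨k, hk⟩ := h2
      refine ⟨π.natDegree, π * π', k, hdeg0, hpair, ?_⟩
      rw [← heq]
      exact hk
    · -- the anisotropic case
      let σ₀ : AdjoinRoot π →ₐ[F] AdjoinRoot π := AdjoinRoot.liftAlgHom π (Algebra.ofId F (AdjoinRoot π)) θ⁻¹ hroot
      have hσ₀ : σ₀ θ = θ⁻¹ := AdjoinRoot.liftAlgHom_root π _ _ _
      have hσσ : σ₀.comp σ₀ = AlgHom.id F (AdjoinRoot π) := by
        apply AdjoinRoot.algHom_ext
        rw [AlgHom.comp_apply, ← hθ, hσ₀, map_inv₀, hσ₀, inv_inv]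
        rfl
      let σ : AdjoinRoot π ≃ₐ[F] AdjoinRoot π := AlgEquiv.ofAlgHom σ₀ σ₀ hσσ hσσ
      have hσ : ∀ x, σ x = σ₀ x := fun _ => rfl
      have hσ2 : ∀ x, σ (σ x) = x := fun x => by
        rw [hσ, hσ]
        exact AlgHom.congr_fun hσσ x
      have hσne : ∃ e, σ e ≠ e := by
        refine ⟨θ, ?_⟩
        rw [hσ, hσ₀]
        intro h
        apply hsq
        nth_rw 1 [← h]
        exact inv_mul_cancel₀ hθ0
      obtain ⟨J, hJ, hJ1, hJQ⟩ := invol_frob σ hσ2 hσne
      have := rl_self J hJ σ hσ2 hJQ hJ1 θ (by rw [hσ, hσ₀]; exact mul_inv_cancel₀ hθ0)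
      rw [hχ] at this
      obtain ⟨k, hk⟩ := hπf
      exact ⟨J, π, k, hJ1, this, hk⟩
  · have hco : IsCoprime π π' := (hirr.coprime_iff_not_dvd).2 hdvd
    obtain ⟨k, hk⟩ := hco.mul_dvd hπf hπ'f
    exact ⟨π.natDegree, π * π', k, hdeg0, hpair, hk⟩

/-- realisation -/
theorem rl_all : ∀ (n : ℕ) (f : F[X]), f.Monic → f.natDegree = 2 * n → f.reverse = f → Rl F n f := by
  intro n
  induction n using Nat.strong_induction_on with
  | _ n ih =>
    intro f hf hd hr
    by_cases hn : n = 0
    · subst hn
      have : f = 1 := hf.natDegree_eq_zero.1 (by simpa using hd)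
      rw [this]
      exact rl_zero
    · obtain ⟨d, χ, h, hd0, hR, hfac⟩ := rl_step n (Nat.pos_of_ne_zero hn) f hf hd hr
      have hR' := hR
      obtain ⟨g, N, hN0, hgN, hc⟩ := hR'
      have hχm : χ.Monic := by
        rw [← hc]
        exact Matrix.charpoly_monic _
      have hχd : χ.natDegree = 2 * d := by
        rw [← hc, Matrix.charpoly_natDegree_eq_dim, Fintype.card_sum, Fintype.card_fin]
        ring
      have hχr : χ.reverse = χ := by
        rw [← hc]
        exact charpoly_sp_reverse g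
      have hhm : h.Monic := by
        rw [hfac] at hf
        exact hχm.of_mul_monic_left hf
      have hdeg : 2 * d + h.natDegree = 2 * n := by
        have := hχm.natDegree_mul hhm
        rw [← hfac, hd, hχd] at this
        omega
      obtain ⟨k, hk⟩ : ∃ k, n = d + k := ⟨n - d, by omega⟩
      have hhr : h.reverse = h := by
        apply mul_left_cancel₀ hχm.ne_zero
        calc χ * h.reverse = χ.reverse * h.reverse := by rw [hχr]
          _ = (χ * h).reverse := (reverse_mul_of_domain _ _).symm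
          _ = χ * h := by rw [← hfac, hr]
      have hh := ih k (by omega) h hhm (by omega) hhr
      rw [hk, hfac]
      exact rl_prod hR hh

end Cfsg.Agent.H11.SpC
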