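import Cfsg.Agent.Lib.H11.WallSU
import Cfsg.Agent.Lib.H11.SpC2

/-! Characteristic polynomials of semisimple unitary elements: realisation by blocks. -/

set_option autoImplicit false
set_option linter.unusedSectionVars false
set_option linter.unusedVariables false

namespace Cfsg.Agent.H11.SUC

open Polynomial Module Matrix Cfsg.Agent.H11.Wall

universe u

variable {F : Type u} [Field F] [Fintype F] {q : ℕ}

/-- realisable polynomials in the general unitary group -/
def RlU (F : Type u) [Field F] [Fintype F] (q d : ℕ) (f : F[X]) : Prop :=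
  ∃ (τ : (Fin d → F) →ₗ[F] (Fin d → F)) (N : ℕ), (N : F) ≠ 0 ∧ τ ^ N = 1 ∧
    (∀ x y, Cfsg.hermForm d F q (τ x) (τ y) = Cfsg.hermForm d F q x y) ∧ τ.charpoly = f

section

variable (ρ : F →+* F) (hsf : ∀ n, Sf ρ 1 (Cfsg.hermForm n F q)) (hρne : ∃ c, ρ c ≠ c)

include hsf hρne

theorem rlU_of_form {V : Type u} [AddCommGroup V] [Module F V] [FiniteDimensional F V] (B : V → V → F) (hB : Sf ρ 1 B)
    (d : ℕ) (hd : finrank F V = d) (τ : V →ₗ[F] V)
    (hiso : ∀ x y, B (τ x) (τ y) = B x y) (N : ℕ) (hN0 : (N : F) ≠ 0) (hτ : τ ^ N = 1) : RlU F q d τ.charpoly := by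
  classical
  have hfr : finrank F (Fin d → F) = d := by simp
  have hchar : (1 : V →ₗ[F] V).charpoly = (1 : (Fin d → F) →ₗ[F] (Fin d → F)).charpoly := by
    rw [LinearMap.charpoly_one, LinearMap.charpoly_one, hd, hfr]
  obtain ⟨φ, hφA, hφB⟩ := core (ρ := ρ) (ε := 1) d V (Fin d → F) B (Cfsg.hermForm d F q) hB (hsf d) 1 1 1 one_pos (by simp)
    (by simp) (by simp) (by simp) (by simp)
    (by
      intro h
      obtain ⟨c, hc⟩ := hρne
      exact absurd (h c) hc)
    (by
      intro h
      obtain ⟨c, hc⟩ := hρne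
      exact absurd (h c) hc) hd hchar
  let τ' : (Fin d → F) →ₗ[F] (Fin d → F) := φ.conj τ
  have hτ' : ∀ x, τ' x = φ (τ (φ.symm x)) := fun x => by simp [τ', LinearEquiv.conj_apply]
  have hpow : ∀ (m : ℕ) (x : Fin d → F), (τ' ^ m) x = φ ((τ ^ m) (φ.symm x)) := by
    intro m
    induction m with
    | zero => intro x; simp
    | succ m ih =>
      intro x
      rw [pow_succ, Module.End.mul_apply, hτ', ih, pow_succ, Module.End.mul_apply]
      simp
  refine ⟨τ', N, hN0, ?_, ?_, ?_⟩
  · apply LinearMap.ext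
    intro x
    rw [hpow, hτ]
    simp
  · intro x y
    rw [hτ', hτ', hφB, hiso]
    have := hφB (φ.symm x) (φ.symm y)
    simpa using this.symm
  · exact LinearEquiv.charpoly_conj _ _

theorem rlU_prod {d₁ d₂ : ℕ} {f₁ f₂ : F[X]} (h₁ : RlU F q d₁ f₁) (h₂ : RlU F q d₂ f₂) : RlU F q (d₁ + d₂) (f₁ * f₂) := by
  classical
  obtain ⟨τ₁, N₁, hN₁, hτ₁, hi₁, hc₁⟩ := h₁
  obtain ⟨τ₂, N₂, hN₂, hτ₂, hi₂, hc₂⟩ := h₂
  let V₁ := Fin d₁ → F
  let V₂ := Fin d₂ → F
  let B : (V₁ × V₂) → (V₁ × V₂) → F := fun x y => Cfsg.hermForm d₁ F q x.1 y.1 + Cfsg.hermForm d₂ F q x.2 y.2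
  have hB : ∀ x y, B x y = Cfsg.hermForm d₁ F q x.1 y.1 + Cfsg.hermForm d₂ F q x.2 y.2 := fun _ _ => rfl
  have hS₁ := hsf d₁
  have hS₂ := hsf d₂
  have hSf : Sf ρ 1 B :=
    { rho2 := hS₁.rho2
      eps := hS₁.eps
      add_left := fun x x' y => by
        simp only [hB, Prod.fst_add, Prod.snd_add, hS₁.add_left, hS₂.add_left]
        ring
      smul_left := fun c x y => by
        simp only [hB, Prod.smul_fst, Prod.smul_snd, hS₁.smul_left, hS₂.smul_left]
        ring
      symm := fun x y => by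
        simp only [hB]
        rw [hS₁.symm x.1 y.1, hS₂.symm x.2 y.2, map_add]
        ring
      nd := fun x hx => by
        apply Prod.ext
        · apply hS₁.nd
          intro y
          have := hx (y, 0)
          rw [hB, hS₂.zero_right, add_zero] at this
          exact this
        · apply hS₂.nd
          intro y
          have := hx (0, y)
          rw [hB, hS₁.zero_right, zero_add] at this
          exact this }
  let τ : (V₁ × V₂) →ₗ[F] (V₁ × V₂) := τ₁.prodMap τ₂
  have hτ : ∀ x, τ x = (τ₁ x.1, τ₂ x.2) := fun _ => rfl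
  have hpow : ∀ (m : ℕ) (x : V₁ × V₂), (τ ^ m) x = ((τ₁ ^ m) x.1, (τ₂ ^ m) x.2) := by
    intro m
    induction m with
    | zero => intro x; simp
    | succ m ih =>
      intro x
      rw [pow_succ, Module.End.mul_apply, ih, hτ, pow_succ, pow_succ]
      simp
  have hχ : τ.charpoly = f₁ * f₂ := by
    rw [LinearMap.charpoly_prodMap, hc₁, hc₂]
  rw [← hχ]
  refine rlU_of_form ρ hsf hρne B hSf (d₁ + d₂) (by simp [V₁, V₂]) τ ?_ (N₁ * N₂)
    (by rw [Nat.cast_mul]; exact mul_ne_zero hN₁ hN₂) ?_
  · intro x y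
    rw [hτ, hτ, hB, hB]
    exact congrArg₂ (· + ·) (hi₁ _ _) (hi₂ _ _)
  · have e1 : τ₁ ^ (N₁ * N₂) = 1 := by rw [pow_mul, hτ₁, one_pow]
    have e2 : τ₂ ^ (N₁ * N₂) = 1 := by rw [mul_comm, pow_mul, hτ₂, one_pow]
    apply LinearMap.ext
    intro x
    rw [hpow, e1, e2]
    rfl

/-- the hyperbolic block attached to a matrix and its inverse -/
theorem rlU_pair_matrix (d : ℕ) (T T' : Matrix (Fin d) (Fin d) F) (hTT : T' * T = 1)
    (hρq : ∀ x, ρ x = x ^ q) (N : ℕ) (hN0 : (N : F) ≠ 0) (hT : T ^ N = 1) :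
    RlU F q (d + d) (T.charpoly * T'.charpoly.map ρ) := by
  classical
  have hS := hsf d
  let H := Cfsg.hermForm d F q
  have hH : ∀ u v, H u v = u ⬝ᵥ (fun i => ρ (v i)) := by
    intro u v
    simp only [H, Cfsg.hermForm, dotProduct, hρq]
  have hT'T : T * T' = 1 := mul_eq_one_comm.1 hTT
  have hT'N : T' ^ N = 1 := by
    have h1 : T' ^ N * T ^ N = 1 := by
      have hc : Commute T' T := by
        rw [Commute, SemiconjBy, hTT, hT'T]
      rw [← hc.mul_pow, hTT, one_pow]
    rwa [hT, mul_one] at h1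
  let S : Matrix (Fin d) (Fin d) F := (T'ᵀ).map ρ
  have hSρ : S.map ρ = T'ᵀ := by
    ext i j
    simp [S, hS.rho2]
  have hk1 : ∀ x y, H (T *ᵥ x) (S *ᵥ y) = H x y := by
    intro x y
    rw [hH, hH]
    have e : (fun i => ρ ((S *ᵥ y) i)) = T'ᵀ *ᵥ (fun i => ρ (y i)) := by
      rw [← hSρ]
      funext i
      exact RingHom.map_mulVec ρ S y i
    rw [e, Matrix.dotProduct_mulVec, Matrix.vecMul_mulVec]
    have e3 : Tᵀ * T'ᵀ = 1 := by
      rw [← Matrix.transpose_mul, hTT, Matrix.transpose_one]
    rw [e3, Matrix.vecMul_one]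
  have hk2 : ∀ x y, H (S *ᵥ y) (T *ᵥ x) = H y x := by
    intro x y
    rw [hH, hH]
    have e : (fun i => ρ ((T *ᵥ x) i)) = T.map ρ *ᵥ (fun i => ρ (x i)) := by
      funext i
      exact RingHom.map_mulVec ρ T x i
    rw [e, Matrix.dotProduct_mulVec, Matrix.vecMul_mulVec]
    have e3 : Sᵀ * T.map ρ = 1 := by
      have e4 : Sᵀ = T'.map ρ := by
        ext i j
        simp [S]
      rw [e4, ← Matrix.map_mul, hTT, Matrix.map_one _ (map_zero ρ) (map_one ρ)]
    rw [e3, Matrix.vecMul_one]
  let V := Fin d → F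
  let B : (V × V) → (V × V) → F := fun x y => H x.1 y.2 + H x.2 y.1
  have hB : ∀ x y, B x y = H x.1 y.2 + H x.2 y.1 := fun _ _ => rfl
  have hSf : Sf ρ 1 B :=
    { rho2 := hS.rho2
      eps := hS.eps
      add_left := fun x x' y => by
        simp only [hB, Prod.fst_add, Prod.snd_add, H, hS.add_left]
        ring
      smul_left := fun c x y => by
        simp only [hB, Prod.smul_fst, Prod.smul_snd, H, hS.smul_left]
        ring
      symm := fun x y => by
        simp only [hB, H]
        rw [hS.symm x.1 y.2, hS.symm x.2 y.1, map_add]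
        ring
      nd := fun x hx => by
        apply Prod.ext
        · apply hS.nd
          intro y
          have := hx (0, y)
          rw [hB] at this
          simp only [H] at this
          rw [hS.zero_right, add_zero] at this
          exact this
        · apply hS.nd
          intro y
          have := hx (y, 0)
          rw [hB] at this
          simp only [H] at this
          rw [hS.zero_right, zero_add] at this
          exact this }
  let τ : (V × V) →ₗ[F] (V × V) := (Matrix.toLin' T).prodMap (Matrix.toLin' S)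
  have hτ : ∀ x, τ x = (T *ᵥ x.1, S *ᵥ x.2) := fun _ => rfl
  have hpow : ∀ (m : ℕ) (x : V × V), (τ ^ m) x = (((Matrix.toLin' T) ^ m) x.1, ((Matrix.toLin' S) ^ m) x.2) := by
    intro m
    induction m with
    | zero => intro x; simp
    | succ m ih =>
      intro x
      rw [pow_succ, Module.End.mul_apply, ih, hτ, pow_succ, pow_succ]
      simp
  have hχ : τ.charpoly = T.charpoly * T'.charpoly.map ρ := by
    rw [LinearMap.charpoly_prodMap, charpoly_toLin_eq, charpoly_toLin_eq]
    congr 1
    change ((T'ᵀ).map ρ).charpoly = _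
    rw [Matrix.charpoly_map, Matrix.charpoly_transpose]
  rw [← hχ]
  refine rlU_of_form ρ hsf hρne B hSf (d + d) (by simp [V]) τ ?_ N hN0 ?_
  · intro x y
    rw [hτ, hτ, hB, hB]
    exact congrArg₂ (· + ·) (hk1 _ _) (hk2 _ _)
  · have e1 : (Matrix.toLin' T) ^ N = 1 := by
      have h3 := (Matrix.toLinAlgEquiv' (R := F) (n := Fin d)).map_pow T N
      rw [hT, map_one] at h3
      exact h3.symm
    have hSN : S ^ N = 1 := by
      have h4 : S = ρ.mapMatrix (T'ᵀ) := rfl
      rw [h4, ← map_pow, ← Matrix.transpose_pow, hT'N, Matrix.transpose_one, map_one]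
    have e2 : (Matrix.toLin' S) ^ N = 1 := by
      have h3 := (Matrix.toLinAlgEquiv' (R := F) (n := Fin d)).map_pow S N
      rw [hSN, map_one] at h3
      exact h3.symm
    apply LinearMap.ext
    intro x
    rw [hpow, e1, e2]
    rfl

section field

variable {E : Type u} [Field E] [Fintype E] [Algebra F E]

omit hsf hρne in
theorem trace_sig (σ : E →+* E) (hσ : ∀ c, σ (algebraMap F E c) = algebraMap F E (ρ c)) (a : E) :
    Algebra.trace F E (σ a) = ρ (Algebra.trace F E a) := by
  apply (algebraMap F E).injective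
  rw [FiniteField.algebraMap_trace_eq_sum_pow, ← hσ, FiniteField.algebraMap_trace_eq_sum_pow, map_sum]
  simp only [map_pow]

/-- the anisotropic block -/
theorem rlU_self [FiniteDimensional F E] (σ : E →+* E) (hσ : ∀ c, σ (algebraMap F E c) = algebraMap F E (ρ c))
    (hσσ : ∀ x, σ (σ x) = x) (z : E) (hz : z * σ z = 1) :
    RlU F q (finrank F E) (LinearMap.mulLeft F z).charpoly := by
  classical
  have hz0 : z ≠ 0 := by
    rintro rfl
    rw [zero_mul] at hz
    exact zero_ne_one hz
  let Tr := Algebra.trace F E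
  let B : E → E → F := fun x y => Tr (x * σ y)
  have hB : ∀ x y, B x y = Tr (x * σ y) := fun _ _ => rfl
  have hS := hsf 0
  have hSf : Sf ρ 1 B :=
    { rho2 := hS.rho2
      eps := hS.eps
      add_left := fun x x' y => by
        simp only [hB, add_mul, map_add]
      smul_left := fun c x y => by
        simp only [hB, smul_mul_assoc, map_smul, smul_eq_mul]
      symm := fun x y => by
        rw [one_mul, hB, hB]
        have := trace_sig ρ σ hσ (x * σ y)
        rw [map_mul, hσσ, mul_comm] at this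
        exact this
      nd := fun x hx => by
        by_contra h
        obtain ⟨b, hb⟩ := Cfsg.Agent.H11.SpC.trace_nd (F := F) x h
        apply hb
        have := hx (σ b)
        rwa [hB, hσσ] at this }
  let τ : E →ₗ[F] E := LinearMap.mulLeft F z
  have hpow : ∀ (m : ℕ) (x : E), (τ ^ m) x = z ^ m * x := by
    intro m
    induction m with
    | zero => intro x; simp
    | succ m ih =>
      intro x
      rw [pow_succ, Module.End.mul_apply, ih, pow_succ]
      change z ^ m * (z * x) = _
      ring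
  refine rlU_of_form ρ hsf hρne B hSf _ rfl τ ?_ (Fintype.card E - 1) Cfsg.Agent.H11.SpC.exp_cast_ne ?_
  · intro x y
    rw [hB, hB]
    congr 1
    change z * x * σ (z * y) = _
    rw [map_mul]
    calc z * x * (σ z * σ y) = (z * σ z) * (x * σ y) := by ring
      _ = _ := by rw [hz, one_mul]
  · apply LinearMap.ext
    intro x
    rw [hpow, Cfsg.Agent.H11.SpC.mul_pow_card hz0]
    simp

end field

end

end Cfsg.Agent.H11.SUC
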