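import Cfsg.Agent.Lib.H11.SUC1

/-! Every monic self-dual polynomial is the characteristic polynomial of a semisimple element of `GU_n(q)`. -/

set_option autoImplicit false
set_option linter.unusedSectionVars false
set_option linter.unusedVariables false

namespace Cfsg.Agent.H11.SUC

open Polynomial Module Matrix Cfsg.Agent.H11.Wall

universe u

variable {F : Type u} [Field F] [Fintype F] {q : ℕ}

/-- self-dual monic polynomials -/
def SD (ρ : F →+* F) (f : F[X]) : Prop := f.Monic ∧ f.coeff 0 ≠ 0 ∧ ∃ u : F, u ≠ 0 ∧ f.map ρ = C u * f.reverse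

theorem charpoly_dual {n : ℕ} (ρ : F →+* F) (M : Matrix (Fin n) (Fin n) F) (h : Mᵀ * M.map ρ = 1) :
    M.det ≠ 0 ∧ M.charpoly.map ρ = C ((-1) ^ n * M.det⁻¹) * M.charpoly.reverse := by
  have h2 : (Mᵀ)⁻¹ = M.map ρ := Matrix.inv_eq_right_inv h
  have hunit : IsUnit Mᵀ := IsUnit.of_mul_eq_one _ h
  have hdet : IsUnit M.det := by
    have := (Matrix.isUnit_iff_isUnit_det _).1 hunit
    rwa [Matrix.det_transpose] at this
  refine ⟨hdet.ne_zero, ?_⟩
  have h3 := Matrix.charpoly_inv Mᵀ hunit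
  rw [h2, Matrix.charpoly_map, ← Matrix.reverse_charpoly, Matrix.charpoly_transpose, Matrix.det_transpose, Ring.inverse_eq_inv',
    Fintype.card_fin] at h3
  rw [h3]
  simp

theorem sd_charpoly {n : ℕ} (ρ : F →+* F) (M : Matrix (Fin n) (Fin n) F) (h : Mᵀ * M.map ρ = 1) : SD ρ M.charpoly := by
  obtain ⟨h1, h2⟩ := charpoly_dual ρ M h
  refine ⟨Matrix.charpoly_monic _, ?_, _, ?_, h2⟩
  · intro h0
    have h3 := Matrix.det_eq_sign_charpoly_coeff M
    rw [h0, mul_zero] at h3
    exact h1 h3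
  · exact mul_ne_zero (pow_ne_zero _ (neg_ne_zero.2 one_ne_zero)) (inv_ne_zero h1)

/-- the matrix of an isometry -/
theorem matrix_of_iso {d : ℕ} (ρ : F →+* F) (hρq : ∀ x, ρ x = x ^ q) (hq0 : q ≠ 0) (τ : (Fin d → F) →ₗ[F] (Fin d → F))
    (h : ∀ x y, Cfsg.hermForm d F q (τ x) (τ y) = Cfsg.hermForm d F q x y) :
    (LinearMap.toMatrix' τ)ᵀ * (LinearMap.toMatrix' τ).map ρ = 1 := by
  classical
  set M := LinearMap.toMatrix' τ with hM
  have hτ : ∀ a i, τ (Pi.single a 1) i = M i a := by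
    intro a i
    have h1 : τ = Matrix.toLin' M := by rw [hM, Matrix.toLin'_toMatrix']
    rw [h1, Matrix.toLin'_apply, Matrix.mulVec_single_one]
    rfl
  ext a b
  have h1 := h (Pi.single a 1) (Pi.single b 1)
  rw [Matrix.mul_apply]
  simp only [Matrix.transpose_apply, Matrix.map_apply, hρq]
  simp only [Cfsg.hermForm, hτ] at h1
  rw [h1, Matrix.one_apply]
  rw [Finset.sum_eq_single a]
  · rw [Pi.single_eq_same, one_mul]
    by_cases hab : a = b
    · subst hab
      simp
    · rw [Pi.single_eq_of_ne hab, zero_pow hq0, if_neg hab]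
  · intro j _ hj
    rw [Pi.single_eq_of_ne hj, zero_mul]
  · intro hi
    exact absurd (Finset.mem_univ a) hi

theorem rlU_sd {d : ℕ} (ρ : F →+* F) (hρq : ∀ x, ρ x = x ^ q) (hq0 : q ≠ 0) {f : F[X]} (h : RlU F q d f) :
    SD ρ f ∧ f.natDegree = d := by
  classical
  obtain ⟨τ, N, hN0, hτ, hi, hc⟩ := h
  have h1 := matrix_of_iso ρ hρq hq0 τ hi
  have h2 := sd_charpoly ρ _ h1
  have h3 : (LinearMap.toMatrix' τ).charpoly = f := by
    rw [← hc, ← LinearMap.charpoly_toMatrix τ (Pi.basisFun F (Fin d)), LinearMap.toMatrix_eq_toMatrix']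
  rw [h3] at h2
  refine ⟨h2, ?_⟩
  rw [← h3, Matrix.charpoly_natDegree_eq_dim, Fintype.card_fin]

section

variable (ρ : F →+* F) (hsf : ∀ n, Sf ρ 1 (Cfsg.hermForm n F q)) (hρne : ∃ c, ρ c ≠ c) (hρq : ∀ x, ρ x = x ^ q)

include hsf hρne hρq

/-- one step: a realisable factor -/
theorem rlU_step (n : ℕ) (hn : 0 < n) (f : F[X]) (hf : SD ρ f) (hd : f.natDegree = n) :
    ∃ (d : ℕ) (χ h : F[X]), 0 < d ∧ RlU F q d χ ∧ f = χ * h := by
  classical
  obtain ⟨hfm, hf0, w, hw0, hw⟩ := hf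
  have hρρ : ∀ x, ρ (ρ x) = x := (hsf 0).rho2
  have hρcomp : ρ.comp ρ = RingHom.id F := by
    ext x
    exact hρρ x
  obtain ⟨π, hm, hirr, hπf⟩ := Cfsg.Agent.H10.exists_monic_irreducible_dvd hfm.ne_zero (by omega : f.natDegree ≠ 0)
  haveI : Fact (Irreducible π) := ⟨hirr⟩
  letI : Module.Finite F (AdjoinRoot π) := (AdjoinRoot.powerBasis' hm).finite
  letI : Finite (AdjoinRoot π) := Module.finite_of_finite F
  letI : Fintype (AdjoinRoot π) := Fintype.ofFinite _
  set θ := AdjoinRoot.root π with hθ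
  have hθ0 : θ ≠ 0 := by
    intro h
    have h1 : AdjoinRoot.mk π X = 0 := h
    rw [AdjoinRoot.mk_eq_zero] at h1
    have h2 : X ∣ π := hirr.dvd_symm irreducible_X h1
    have h3 : X ∣ f := h2.trans hπf
    rw [X_dvd_iff] at h3
    exact hf0 h3
  have hχ : (LinearMap.mulLeft F θ).charpoly = π := Cfsg.Agent.H10.charpoly_mul_root hm
  have hfr : finrank F (AdjoinRoot π) = π.natDegree := by
    rw [(AdjoinRoot.powerBasis hm.ne_zero).finrank]
    simp
  have hdeg0 : 0 < π.natDegree := hirr.natDegree_pos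
  set π₁ := (LinearMap.mulLeft F θ⁻¹).charpoly with hπ₁
  have hm₁ : π₁.Monic := LinearMap.charpoly_monic _
  have hdeg₁ : π₁.natDegree = π.natDegree := by
    rw [hπ₁, LinearMap.charpoly_natDegree, hfr]
  obtain ⟨v, hv0, hv⟩ := Cfsg.Agent.H11.SpC.charpoly_inv_lin (LinearMap.mulLeft F θ) (LinearMap.mulLeft F θ⁻¹) (by
    apply LinearMap.ext
    intro x
    rw [Module.End.mul_apply, LinearMap.mulLeft_apply, LinearMap.mulLeft_apply, mul_inv_cancel_left₀ hθ0]
    rfl)
  rw [hχ, ← hπ₁] at hv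
  set π₂ := π₁.map ρ with hπ₂
  have hm₂ : π₂.Monic := hm₁.map ρ
  have hdeg₂ : π₂.natDegree = π.natDegree := by
    rw [hπ₂, natDegree_map, hdeg₁]
  have hπ₂f : π₂ ∣ f := by
    obtain ⟨k, hk⟩ := hπf
    have e1 : f = (f.map ρ).map ρ := by
      rw [Polynomial.map_map, hρcomp, Polynomial.map_id]
    have hρu : ρ w ≠ 0 := fun h => hw0 (by rw [← hρρ w, h, map_zero])
    have hρv : ρ v ≠ 0 := fun h => hv0 (by rw [← hρρ v, h, map_zero])
    refine ⟨C (ρ w * (ρ v)⁻¹) * k.reverse.map ρ, ?_⟩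
    rw [hπ₂, hv, e1, hw, hk, reverse_mul_of_domain]
    simp only [Polynomial.map_mul, Polynomial.map_C]
    have e2 : (C (ρ w) : F[X]) = C (ρ v) * C (ρ w * (ρ v)⁻¹) := by
      rw [← C_mul]
      congr 1
      field_simp
    rw [e2]
    ring
  -- the hyperbolic block
  have hpair : RlU F q (π.natDegree + π.natDegree) (π * π₂) := by
    let b : Basis (Fin π.natDegree) F (AdjoinRoot π) := Module.finBasisOfFinrankEq F _ hfr
    let T := LinearMap.toMatrix b b (LinearMap.mulLeft F θ)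
    let T' := LinearMap.toMatrix b b (LinearMap.mulLeft F θ⁻¹)
    have hT'T : T' * T = 1 := by
      have := (LinearMap.toMatrixAlgEquiv b).map_mul (LinearMap.mulLeft F θ⁻¹) (LinearMap.mulLeft F θ)
      have e : (LinearMap.mulLeft F θ⁻¹) * (LinearMap.mulLeft F θ) = 1 := by
        apply LinearMap.ext
        intro x
        rw [Module.End.mul_apply, LinearMap.mulLeft_apply, LinearMap.mulLeft_apply, inv_mul_cancel_left₀ hθ0]
        rfl
      rw [e, map_one] at this
      exact this.symm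
    have hTN : T ^ (Fintype.card (AdjoinRoot π) - 1) = 1 := by
      have h1 := (LinearMap.toMatrixAlgEquiv b).map_pow (LinearMap.mulLeft F θ) (Fintype.card (AdjoinRoot π) - 1)
      have h2 : (LinearMap.mulLeft F θ) ^ (Fintype.card (AdjoinRoot π) - 1) = 1 := by
        have h3 := (Algebra.lmul F (AdjoinRoot π)).map_pow θ (Fintype.card (AdjoinRoot π) - 1)
        rw [Cfsg.Agent.H11.SpC.mul_pow_card hθ0, map_one] at h3
        exact h3.symm
      rw [h2, map_one] at h1
      exact h1.symm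
    have e1 : T.charpoly = π := (LinearMap.charpoly_toMatrix _ _).trans hχ
    have e2 : T'.charpoly = π₁ := LinearMap.charpoly_toMatrix _ _
    have := rlU_pair_matrix ρ hsf hρne _ T T' hT'T hρq _ (Cfsg.Agent.H11.SpC.exp_cast_ne (F := F) (E := AdjoinRoot π)) hTN
    rwa [e1, e2] at this
  by_cases hdvd : π ∣ π₂
  · have heq : π = π₂ := by
      obtain ⟨k, hk⟩ := hdvd
      have hkm : k.Monic := by
        rw [hk] at hm₂
        exact hm.of_mul_monic_left hm₂
      have hk1 : k.natDegree = 0 := by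
        have := hm.natDegree_mul hkm
        rw [← hk, hdeg₂] at this
        omega
      have : k = 1 := hkm.natDegree_eq_zero.1 hk1
      rw [hk, this, mul_one]
    have hmapπ : π.map ρ = π₁ := by
      rw [congrArg (Polynomial.map ρ) heq, hπ₂, Polynomial.map_map, hρcomp, Polynomial.map_id]
    have hD : aeval (θ⁻¹ : AdjoinRoot π) (π.map ρ) = 0 := by
      rw [hmapπ]
      have h1 : aeval (LinearMap.mulLeft F θ⁻¹) π₁ = 0 := LinearMap.aeval_self_charpoly _
      have h2 : aeval (Algebra.lmul F (AdjoinRoot π) θ⁻¹) π₁ = 0 := h1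
      rw [aeval_algHom_apply] at h2
      have h3 : (Algebra.lmul F (AdjoinRoot π)) (aeval θ⁻¹ π₁) 1 = 0 := by
        rw [h2]
        rfl
      have h4 : aeval θ⁻¹ π₁ * 1 = 0 := h3
      rw [mul_one] at h4
      exact h4
    set σ := sig hD with hσ
    have hσ1 : ∀ c, σ (algebraMap F (AdjoinRoot π) c) = algebraMap F (AdjoinRoot π) (ρ c) := sig_algebraMap hD
    have hσθ : σ θ = θ⁻¹ := sig_root hD
    have hσσ : σ.comp σ = RingHom.id (AdjoinRoot π) := by
      apply Ideal.Quotient.ringHom_ext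
      apply Polynomial.ringHom_ext
      · intro a
        change σ (σ (algebraMap F (AdjoinRoot π) a)) = algebraMap F (AdjoinRoot π) a
        rw [hσ1, hσ1, hρρ]
      · change σ (σ θ) = θ
        rw [hσθ, map_inv₀, hσθ, inv_inv]
    have hσσ' : ∀ x, σ (σ x) = x := fun x => RingHom.congr_fun hσσ x
    have h5 := rlU_self ρ hsf hρne σ hσ1 hσσ' θ (by rw [hσθ]; exact mul_inv_cancel₀ hθ0)
    rw [hχ, hfr] at h5
    obtain ⟨k, hk⟩ := hπf
    exact ⟨π.natDegree, π, k, hdeg0, h5, hk⟩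
  · have hco : IsCoprime π π₂ := (hirr.coprime_iff_not_dvd).2 hdvd
    obtain ⟨k, hk⟩ := hco.mul_dvd hπf hπ₂f
    exact ⟨_, π * π₂, k, by omega, hpair, hk⟩

/-- realisation -/
theorem rlU_all (hq0 : q ≠ 0) : ∀ (n : ℕ) (f : F[X]), SD ρ f → f.natDegree = n → RlU F q n f := by
  intro n
  induction n using Nat.strong_induction_on with
  | _ n ih =>
    intro f hf hd
    by_cases hn : n = 0
    · subst hn
      have h1 : f = 1 := hf.1.natDegree_eq_zero.1 hd
      rw [h1]
      refine ⟨1, 1, by simp, by simp, fun x y => by simp, ?_⟩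
      rw [LinearMap.charpoly_one]
      simp
    · obtain ⟨d, χ, h, hd0, hR, hfac⟩ := rlU_step ρ hsf hρne hρq n (Nat.pos_of_ne_zero hn) f hf hd
      obtain ⟨⟨hχm, hχ0, u₁, hu₁0, hu₁⟩, hχd⟩ := rlU_sd ρ hρq hq0 hR
      obtain ⟨hfm, hf0, w, hw0, hw⟩ := hf
      have hhm : h.Monic := by
        rw [hfac] at hfm
        exact hχm.of_mul_monic_left hfm
      have hdeg : d + h.natDegree = n := by
        have := hχm.natDegree_mul hhm
        rw [← hfac, hd, hχd] at this
        omega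
      have hh0 : h.coeff 0 ≠ 0 := by
        intro h0
        apply hf0
        rw [hfac, mul_coeff_zero, h0, mul_zero]
      have hrevχ : χ.reverse ≠ 0 := by
        rw [Ne, reverse_eq_zero]
        exact hχm.ne_zero
      have hSD : SD ρ h := by
        refine ⟨hhm, hh0, w * u₁⁻¹, mul_ne_zero hw0 (inv_ne_zero hu₁0), ?_⟩
        have e1 : C u₁ * χ.reverse ≠ 0 := mul_ne_zero (by simpa using hu₁0) hrevχ
        apply mul_left_cancel₀ e1
        have e2 := hw
        rw [hfac, Polynomial.map_mul, reverse_mul_of_domain] at e2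
        have e3 : (C (w * u₁⁻¹) : F[X]) * C u₁ = C w := by
          rw [← C_mul, mul_assoc, inv_mul_cancel₀ hu₁0, mul_one]
        calc C u₁ * χ.reverse * h.map ρ = χ.map ρ * h.map ρ := by rw [hu₁]
          _ = C w * (χ.reverse * h.reverse) := e2
          _ = C u₁ * χ.reverse * (C (w * u₁⁻¹) * h.reverse) := by
            rw [← e3]
            ring
      obtain ⟨k, hk⟩ : ∃ k, n = d + k := ⟨n - d, by omega⟩
      have hh := ih k (by omega) h hSD (by omega)
      rw [hk, hfac]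
      exact rlU_prod ρ hsf hρne hR hh

end

end Cfsg.Agent.H11.SUC
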