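import Cfsg.Agent.Lib.H11.SUC2

/-! Count of self-dual polynomials; the number of semisimple classes of `SU_n(q)`. -/

set_option autoImplicit false
set_option linter.unusedSectionVars false
set_option linter.unusedVariables false

namespace Cfsg.Agent.H11.SUC

open Polynomial Module Matrix Cfsg.Agent.H11.Wall

universe u

variable {F : Type u} [Field F] [Fintype F] {q : ℕ}

/-- the fixed points of a semilinear involution -/
theorem card_fix_sq {V : Type*} [AddCommGroup V] [Module F V] [Finite V] (ρ : F →+* F) (hρ2 : ∀ x, ρ (ρ x) = x) (hρne : ∃ c, ρ c ≠ c)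
    (J : V → V) (hadd : ∀ x y, J (x + y) = J x + J y) (hsmul : ∀ (c : F) x, J (c • x) = ρ c • J x) (hJJ : ∀ x, J (J x) = x) :
    (Nat.card {a // J a = a}) ^ 2 = Nat.card V := by
  classical
  obtain ⟨s, hs0, hs⟩ := hilbert90 ρ hρ2 hρne (-1) (by simp)
  have hρs : ρ s = -s := by
    linear_combination hs
  obtain ⟨c, hc⟩ : ∃ c, c + ρ c = 1 := by
    obtain ⟨w, hw⟩ : ∃ w, w + ρ w ≠ 0 := by
      by_contra hcon
      push Not at hcon
      have h2 : (2 : F) = 0 := by
        have := hcon 1
        rw [map_one] at this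
        linear_combination this
      obtain ⟨e, he⟩ := hρne
      apply he
      have h3 := hcon e
      have h4 : e + e = 0 := by
        have : (2 : F) * e = 0 := by rw [h2, zero_mul]
        linear_combination this
      linear_combination h3 - h4
    refine ⟨w * (w + ρ w)⁻¹, ?_⟩
    rw [map_mul, map_inv₀, map_add, hρ2]
    have e : ρ w + w = w + ρ w := add_comm _ _
    rw [e]
    field_simp
  let S : V →+ V := AddMonoidHom.mk' (fun x => x + J x) (by
    intro a b
    simp only [hadd]
    abel)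
  have hS : ∀ x, S x = x + J x := fun _ => rfl
  have hrange : ∀ a, a ∈ S.range ↔ J a = a := by
    intro a
    constructor
    · rintro ⟨x, rfl⟩
      rw [hS, hadd, hJJ, add_comm]
    · intro ha
      refine ⟨c • a, ?_⟩
      rw [hS, hsmul, ha, ← add_smul, hc, one_smul]
  have hker : ∀ a, a ∈ S.ker ↔ J a = -a := by
    intro a
    rw [AddMonoidHom.mem_ker, hS]
    exact ⟨fun h => eq_neg_of_add_eq_zero_right h, fun h => by rw [h]; abel⟩
  have e₁ : Nat.card S.range = Nat.card {a // J a = a} := Nat.card_congr (Equiv.subtypeEquivRight hrange)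
  have e₂ : Nat.card {a // J a = a} = Nat.card S.ker := by
    apply Nat.card_congr
    exact
      { toFun := fun a => ⟨s • a.1, by
          rw [hker, hsmul, a.2, hρs, neg_smul]⟩
        invFun := fun b => ⟨s⁻¹ • b.1, by
          have h1 := (hker b.1).1 b.2
          rw [hsmul, h1, map_inv₀, hρs, smul_neg, inv_neg, neg_smul, neg_neg]⟩
        left_inv := fun a => Subtype.ext (by simp [smul_smul, hs0])
        right_inv := fun b => Subtype.ext (by simp [smul_smul, hs0]) }
  have h1 := AddSubgroup.card_mul_index S.ker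
  rw [AddSubgroup.index_ker, e₁, ← e₂] at h1
  rw [pow_two]
  exact h1

/-- the coefficient pattern -/
noncomputable def cfU {m : ℕ} (ι : F) (a : Fin m → F) (k : ℕ) : F :=
  if h0 : k = 0 then ι else if h : k ≤ m then a ⟨k - 1, by omega⟩ else if k = m + 1 then 1 else 0

noncomputable def polU {m : ℕ} (ι : F) (a : Fin m → F) : F[X] := ∑ k ∈ Finset.range (m + 2), C (cfU ι a k) * X ^ k

theorem cfU_large {m : ℕ} (ι : F) (a : Fin m → F) (k : ℕ) (hk : m + 1 < k) : cfU ι a k = 0 := by
  unfold cfU
  rw [dif_neg (by omega), dif_neg (by omega), if_neg (by omega)]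

theorem cfU_succ {m : ℕ} (ι : F) (a : Fin m → F) (i : Fin m) : cfU ι a ((i : ℕ) + 1) = a i := by
  have hi := i.2
  unfold cfU
  rw [dif_neg (by omega), dif_pos (by omega)]
  rfl

theorem cfU_zero {m : ℕ} (ι : F) (a : Fin m → F) : cfU ι a 0 = ι := by
  unfold cfU
  rw [dif_pos rfl]

theorem cfU_top {m : ℕ} (ι : F) (a : Fin m → F) : cfU ι a (m + 1) = 1 := by
  unfold cfU
  rw [dif_neg (by omega), dif_neg (by omega), if_pos rfl]

theorem polU_coeff {m : ℕ} (ι : F) (a : Fin m → F) (k : ℕ) : (polU ι a).coeff k = cfU ι a k := by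
  unfold polU
  rw [finsetSum_coeff]
  simp only [coeff_C_mul_X_pow]
  by_cases hk : k ∈ Finset.range (m + 2)
  · rw [Finset.sum_eq_single k]
    · simp
    · intro b _ hb
      rw [if_neg (Ne.symm hb)]
    · intro h
      exact absurd hk h
  · rw [Finset.sum_eq_zero, cfU_large]
    · have := Finset.mem_range.not.1 hk
      omega
    · intro b hb
      rw [if_neg]
      rintro rfl
      exact hk hb

theorem polU_natDegree {m : ℕ} (ι : F) (a : Fin m → F) : (polU ι a).natDegree = m + 1 := by
  apply le_antisymm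
  · rw [natDegree_le_iff_coeff_eq_zero]
    intro N hN
    rw [polU_coeff, cfU_large ι a N hN]
  · apply le_natDegree_of_ne_zero
    rw [polU_coeff, cfU_top]
    exact one_ne_zero

theorem polU_monic {m : ℕ} (ι : F) (a : Fin m → F) : (polU ι a).Monic := by
  rw [Monic, leadingCoeff, polU_natDegree, polU_coeff, cfU_top]

section count

variable (ρ : F →+* F) (hρ2 : ∀ x, ρ (ρ x) = x)

/-- the coefficient relation -/
theorem rel_coeff {m : ℕ} (ι : F) (f : F[X]) (hd : f.natDegree = m + 1) (h : f.map ρ = C ι * f.reverse) (k : ℕ) (hk : k ≤ m + 1) :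
    ρ (f.coeff k) = ι * f.coeff (m + 1 - k) := by
  have := congrArg (fun g => g.coeff k) h
  simp only [coeff_map, coeff_C_mul, coeff_reverse, hd, revAt_le hk] at this
  exact this

theorem rel_of_coeff {m : ℕ} (ι : F) (f : F[X]) (hd : f.natDegree = m + 1)
    (h : ∀ k, k ≤ m + 1 → ρ (f.coeff k) = ι * f.coeff (m + 1 - k)) : f.map ρ = C ι * f.reverse := by
  ext k
  rw [coeff_map, coeff_C_mul, coeff_reverse, hd]
  by_cases hk : k ≤ m + 1
  · rw [revAt_le hk]
    exact h k hk
  · rw [revAt_eq_self_of_lt (by omega), coeff_eq_zero_of_natDegree_lt (by omega), map_zero, mul_zero]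

include hρ2

/-- the number of self-dual polynomials with prescribed constant term -/
theorem card_sd (hρne : ∃ c, ρ c ≠ c) (hF : Fintype.card F = q ^ 2) (m : ℕ) :
    Nat.card {f : F[X] // f.Monic ∧ f.natDegree = m + 1 ∧ f.map ρ = C ((-1) ^ (m + 1)) * f.reverse} = q ^ m := by
  classical
  set ι : F := (-1) ^ (m + 1) with hι
  have hρι : ρ ι = ι := by rw [hι, map_pow, map_neg, map_one]
  have hιι : ι * ι = 1 := by
    rw [hι, ← mul_pow]
    simp
  let J : (Fin m → F) → (Fin m → F) := fun a i => ι * ρ (a (Fin.rev i))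
  have hJ : ∀ a i, J a i = ι * ρ (a (Fin.rev i)) := fun _ _ => rfl
  have hfix := card_fix_sq ρ hρ2 hρne J
    (by
      intro x y
      funext i
      simp only [hJ, Pi.add_apply, map_add, mul_add])
    (by
      intro c x
      funext i
      simp only [hJ, Pi.smul_apply, smul_eq_mul, map_mul]
      ring)
    (by
      intro x
      funext i
      simp only [hJ, map_mul, hρι, hρ2, Fin.rev_rev]
      rw [← mul_assoc, hιι, one_mul])
  have hcardV : Nat.card (Fin m → F) = (q ^ 2) ^ m := by
    rw [Nat.card_fun, Nat.card_eq_fintype_card, Nat.card_eq_fintype_card, hF]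
    simp
  have hcard : Nat.card {a // J a = a} = q ^ m := by
    rw [hcardV] at hfix
    have e : (q ^ 2) ^ m = (q ^ m) ^ 2 := by ring
    rw [e] at hfix
    exact Nat.pow_left_injective (n := 2) (by omega) hfix
  rw [← hcard]
  symm
  apply Nat.card_congr
  refine Equiv.ofBijective (fun a => ⟨polU ι a.1, polU_monic _ _, polU_natDegree _ _, ?_⟩) ⟨?_, ?_⟩
  · apply rel_of_coeff ρ ι _ (polU_natDegree _ _)
    intro k hk
    rw [polU_coeff, polU_coeff]
    rcases Nat.eq_zero_or_pos k with rfl | hk0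
    · rw [cfU_zero, Nat.sub_zero, cfU_top, hρι, mul_one]
    · by_cases hkt : k = m + 1
      · subst hkt
        rw [cfU_top, Nat.sub_self, cfU_zero, map_one, hιι]
      · have h1 : k - 1 < m := by omega
        have h2 : m - k < m := by omega
        have e1 : cfU ι a.1 k = a.1 ⟨k - 1, h1⟩ := by
          have := cfU_succ ι a.1 ⟨k - 1, h1⟩
          rw [← this]
          congr 1
          simp only
          omega
        have e2 : cfU ι a.1 (m + 1 - k) = a.1 ⟨m - k, h2⟩ := by
          have := cfU_succ ι a.1 ⟨m - k, h2⟩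
          rw [← this]
          congr 1
          simp only
          omega
        rw [e1, e2]
        have h3 := congrFun a.2 ⟨m - k, h2⟩
        rw [hJ] at h3
        have e3 : Fin.rev (⟨m - k, h2⟩ : Fin m) = ⟨k - 1, h1⟩ := by
          apply Fin.ext
          simp only [Fin.val_rev]
          omega
        rw [e3] at h3
        rw [← h3, ← mul_assoc, hιι, one_mul]
  · intro a b hab
    apply Subtype.ext
    funext i
    have h1 : polU ι a.1 = polU ι b.1 := congrArg Subtype.val hab
    have h2 := congrArg (fun f => f.coeff ((i : ℕ) + 1)) h1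
    simp only [polU_coeff, cfU_succ] at h2
    exact h2
  · rintro ⟨f, hm, hd, hr⟩
    have hrel := rel_coeff ρ ι f hd hr
    have hf0 : f.coeff 0 = ι := by
      have h1 := hrel (m + 1) le_rfl
      have h2 : f.coeff (m + 1) = 1 := by
        rw [← hd]
        exact hm.coeff_natDegree
      rw [h2, map_one, Nat.sub_self] at h1
      calc f.coeff 0 = ι * (ι * f.coeff 0) := by rw [← mul_assoc, hιι, one_mul]
        _ = ι := by rw [← h1, mul_one]
    refine ⟨⟨fun i => f.coeff ((i : ℕ) + 1), ?_⟩, ?_⟩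
    · funext i
      change ι * ρ (f.coeff ((Fin.rev i : ℕ) + 1)) = f.coeff ((i : ℕ) + 1)
      have hi := i.2
      have h1 := hrel ((Fin.rev i : ℕ) + 1) (by simp only [Fin.val_rev]; omega)
      rw [h1, ← mul_assoc, hιι, one_mul]
      congr 1
      simp only [Fin.val_rev]
      omega
    · apply Subtype.ext
      change polU ι _ = f
      ext k
      rw [polU_coeff]
      rcases Nat.eq_zero_or_pos k with rfl | hk0
      · rw [cfU_zero, hf0]
      · by_cases hkle : k ≤ m
        · have h1 : k - 1 < m := by omega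
          have := cfU_succ ι (fun i : Fin m => f.coeff ((i : ℕ) + 1)) ⟨k - 1, h1⟩
          simp only at this
          have e : k - 1 + 1 = k := by omega
          rwa [e] at this
        · by_cases hkt : k = m + 1
          · subst hkt
            rw [cfU_top, ← hd]
            exact hm.coeff_natDegree.symm
          · rw [cfU_large _ _ _ (by omega), coeff_eq_zero_of_natDegree_lt (by omega)]

end count

/-- the number of semisimple classes of `SU_n(q)` -/
theorem card_ss_SU {p : ℕ} [Fact p.Prime] [CharP F p] (hF : Fintype.card F = q ^ 2) (n : ℕ) (hn : 1 ≤ n) :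
    Nat.card {c : ConjClasses (Cfsg.SU n F q) //
      ∃ g : Cfsg.SU n F q, ConjClasses.mk g = c ∧ (orderOf g).Coprime p} = q ^ (n - 1) := by
  classical
  have hpP : p.Prime := Fact.out
  obtain ⟨j, hj0, hq⟩ := PSU3.q_eq (F := F) (p := p) (q := q) hF
  have hq2 : 2 ≤ q := by
    rw [hq]
    calc 2 ≤ p := hpP.two_le
      _ = p ^ 1 := (pow_one p).symm
      _ ≤ p ^ j := Nat.pow_le_pow_right hpP.pos hj0
  have hq0 : q ≠ 0 := by omega
  obtain ⟨ρ, hρ'⟩ := PSU3.exists_rh (p := p) F hq 1
  have hρ : ∀ x, ρ x = x ^ q := fun x => by rw [hρ', pow_one]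
  have hsf : ∀ n, Sf ρ 1 (Cfsg.hermForm n F q) := fun n => herm_sf (p := p) hF hq0 ρ hρ n
  have hρ2 : ∀ x, ρ (ρ x) = x := (hsf 0).rho2
  have hρne : ∃ c, ρ c ≠ c := by
    obtain ⟨c, hc⟩ := exists_not_fixed hF hq2
    exact ⟨c, by rwa [hρ]⟩
  obtain ⟨m, rfl⟩ : ∃ m, n = m + 1 := ⟨n - 1, by omega⟩
  rw [Nat.add_sub_cancel, ← card_sd ρ hρ2 hρne hF m]
  symm
  set ι : F := (-1) ^ (m + 1) with hι
  have hιι : ι * ι = 1 := by
    rw [hι, ← mul_pow]
    simp
  have hι0 : ι ≠ 0 := left_ne_zero_of_mul_eq_one hιι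
  have hcopr : ∀ N : ℕ, (N : F) ≠ 0 → N.Coprime p := by
    intro N hN
    rw [Ne, CharP.cast_eq_zero_iff F p] at hN
    exact ((Nat.Prime.coprime_iff_not_dvd hpP).2 hN).symm
  have hex : ∀ f : {f : F[X] // f.Monic ∧ f.natDegree = m + 1 ∧ f.map ρ = C ι * f.reverse},
      ∃ g : Cfsg.SU (m + 1) F q, (orderOf g).Coprime p ∧
        ((g : SpecialLinearGroup (Fin (m + 1)) F) : Matrix (Fin (m + 1)) (Fin (m + 1)) F).charpoly = f.1 := by
    rintro ⟨f, hfm, hfd, hfr⟩
    have hrel := rel_coeff ρ ι f hfd hfr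
    have hf0 : f.coeff 0 = ι := by
      have h1 := hrel (m + 1) le_rfl
      have h2 : f.coeff (m + 1) = 1 := by
        rw [← hfd]
        exact hfm.coeff_natDegree
      rw [h2, map_one, Nat.sub_self] at h1
      calc f.coeff 0 = ι * (ι * f.coeff 0) := by rw [← mul_assoc, hιι, one_mul]
        _ = ι := by rw [← h1, mul_one]
    have hSD : SD ρ f := ⟨hfm, by rw [hf0]; exact hι0, ι, hι0, hfr⟩
    obtain ⟨τ, N, hN0, hτ, hi, hc⟩ := rlU_all ρ hsf hρne hρ hq0 (m + 1) f hSD hfd
    have hdet : LinearMap.det τ = 1 := by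
      have h1 := LinearMap.det_eq_sign_charpoly_coeff τ
      rw [hc, hf0] at h1
      simp only [finrank_fin_fun] at h1
      rw [h1]
      exact hιι
    obtain ⟨c, hcτ⟩ := su_of_lin (q := q) (m + 1) τ hi hdet
    have hlin : Matrix.toLin' ((c : SpecialLinearGroup (Fin (m + 1)) F) : Matrix (Fin (m + 1)) (Fin (m + 1)) F) = τ := by
      apply LinearMap.ext
      intro u
      rw [Matrix.toLin'_apply]
      exact hcτ u
    refine ⟨c, ?_, ?_⟩
    · have hcN : c ^ N = 1 := by
        apply Subtype.ext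
        apply Subtype.ext
        have h5 : ((c : SpecialLinearGroup (Fin (m + 1)) F) : Matrix (Fin (m + 1)) (Fin (m + 1)) F) ^ N = 1 := by
          apply (Matrix.toLinAlgEquiv' (R := F) (n := Fin (m + 1))).injective
          rw [map_one, map_pow]
          change (Matrix.toLin' _) ^ N = 1
          rw [hlin, hτ]
        simpa using h5
      exact Nat.Coprime.coprime_dvd_left (orderOf_dvd_of_pow_eq_one hcN) (hcopr N hN0)
    · rw [← charpoly_toLin_eq, hlin, hc]
  choose G hG1 hG2 using hex
  apply Nat.card_congr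
  refine Equiv.ofBijective (fun f => ⟨ConjClasses.mk (G f), G f, rfl, hG1 f⟩) ⟨?_, ?_⟩
  · intro f f' h
    have h1 : ConjClasses.mk (G f) = ConjClasses.mk (G f') := congrArg Subtype.val h
    rw [ConjClasses.mk_eq_mk_iff_isConj, isConj_iff] at h1
    obtain ⟨c, hc⟩ := h1
    apply Subtype.ext
    rw [← hG2 f, ← hG2 f', ← hc]
    have e : ((c * G f * c⁻¹ : Cfsg.SU (m + 1) F q) : SpecialLinearGroup (Fin (m + 1)) F) =
        (c : SpecialLinearGroup (Fin (m + 1)) F) * (G f : SpecialLinearGroup (Fin (m + 1)) F) * (c : SpecialLinearGroup (Fin (m + 1)) F)⁻¹ := rfl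
    rw [e]
    let u : (Matrix (Fin (m + 1)) (Fin (m + 1)) F)ˣ := Matrix.SpecialLinearGroup.toGL (c : SpecialLinearGroup (Fin (m + 1)) F)
    have hu : (((c : SpecialLinearGroup (Fin (m + 1)) F) * (G f : SpecialLinearGroup (Fin (m + 1)) F) * (c : SpecialLinearGroup (Fin (m + 1)) F)⁻¹ : SpecialLinearGroup (Fin (m + 1)) F) : Matrix (Fin (m + 1)) (Fin (m + 1)) F) =
        u.val * ((G f : SpecialLinearGroup (Fin (m + 1)) F) : Matrix (Fin (m + 1)) (Fin (m + 1)) F) * (u.val)⁻¹ := by
      rw [← Matrix.coe_units_inv]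
      rfl
    rw [hu, Matrix.charpoly_units_conj]
  · rintro ⟨c, g, rfl, hg⟩
    set Mg := ((g : SpecialLinearGroup (Fin (m + 1)) F) : Matrix (Fin (m + 1)) (Fin (m + 1)) F) with hMg
    have hmat := matrix_of_iso ρ hρ hq0 (Matrix.toLin' Mg) (su_iso (m + 1) g)
    rw [LinearMap.toMatrix'_toLin'] at hmat
    obtain ⟨-, hdual⟩ := charpoly_dual ρ Mg hmat
    have hdetg : Mg.det = 1 := (g : SpecialLinearGroup (Fin (m + 1)) F).2
    rw [hdetg, inv_one, mul_one] at hdual
    have hmon : Mg.charpoly.Monic := Matrix.charpoly_monic _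
    have hdeg : Mg.charpoly.natDegree = m + 1 := by
      rw [Matrix.charpoly_natDegree_eq_dim, Fintype.card_fin]
    let f : {f : F[X] // f.Monic ∧ f.natDegree = m + 1 ∧ f.map ρ = C ι * f.reverse} := ⟨_, hmon, hdeg, hdual⟩
    refine ⟨f, ?_⟩
    apply Subtype.ext
    change ConjClasses.mk (G f) = ConjClasses.mk g
    rw [ConjClasses.mk_eq_mk_iff_isConj]
    exact su_conj hF (m + 1) (G f) g (hG1 f) hg (hG2 f)

end Cfsg.Agent.H11.SUC
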