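import Mathlib

set_option autoImplicit false
set_option linter.unusedSectionVars false

namespace Cfsg.Agent.H11.Sharp

open scoped LinearAlgebra.Projectivization

variable {F : Type*} [Field F] [Finite F] {n : ℕ}

/-- the points of a subspace -/
def pts (W : Submodule F (Fin n → F)) : Set (ℙ F (Fin n → F)) := {p | p.submodule ≤ W}

lemma mk_mem_pts {W : Submodule F (Fin n → F)} {v : Fin n → F} (hv : v ≠ 0) :
    Projectivization.mk F v hv ∈ pts W ↔ v ∈ W := by
  simp [pts, Projectivization.submodule_mk, Submodule.span_singleton_le_iff_mem]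

lemma mem_pts_inf {A B : Submodule F (Fin n → F)} {p : ℙ F (Fin n → F)} :
    p ∈ pts (A ⊓ B) ↔ p ∈ pts A ∧ p ∈ pts B := by
  change p.submodule ≤ A ⊓ B ↔ p.submodule ≤ A ∧ p.submodule ≤ B
  exact le_inf_iff

lemma mem_pts_iff {W : Submodule F (Fin n → F)} {p : ℙ F (Fin n → F)} :
    p ∈ pts W ↔ p.rep ∈ W := by
  conv_lhs => rw [← p.mk_rep]
  exact mk_mem_pts p.rep_nonzero

/-- the geometric sum -/
def G (q k : ℕ) : ℕ := ∑ i ∈ Finset.range k, q ^ i

lemma G_succ (q k : ℕ) : G q (k + 1) = G q k + q ^ k := Finset.sum_range_succ _ _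

lemma G_succ' (q k : ℕ) : G q (k + 1) = q * G q k + 1 := by
  rw [G, Finset.sum_range_succ', G, Finset.mul_sum]
  simp [pow_succ, mul_comm]

lemma G_mul (q k : ℕ) (hq : 1 ≤ q) : G q k * (q - 1) + 1 = q ^ k := by
  induction k with
  | zero => simp [G]
  | succ k ih =>
    rw [G_succ, add_mul, pow_succ, ← ih]
    obtain ⟨r, rfl⟩ : ∃ r, q = r + 1 := ⟨q - 1, by omega⟩
    simp only [Nat.add_sub_cancel]
    ring

lemma card_pts (W : Submodule F (Fin n → F)) :
    Nat.card (pts W) * (Nat.card F - 1) = Nat.card W - 1 := by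
  classical
  rw [Projectivization.card F W]
  congr 1
  let g : ℙ F W → pts W := fun p =>
    ⟨Projectivization.map W.subtype W.injective_subtype p, by
      induction p using Projectivization.ind with
      | h v hv =>
        rw [Projectivization.map_mk, mk_mem_pts]
        exact v.2⟩
  have hg : Function.Bijective g := by
    constructor
    · intro p p' h
      exact Projectivization.map_injective W.subtype W.injective_subtype
        (congrArg Subtype.val h)
    · rintro ⟨p, hp⟩
      have h1 : p.rep ∈ W := mem_pts_iff.1 hp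
      refine ⟨Projectivization.mk F (⟨p.rep, h1⟩ : W) (by
        intro h
        exact p.rep_nonzero (congrArg Subtype.val h)), ?_⟩
      apply Subtype.ext
      simp only [g]
      rw [Projectivization.map_mk]
      exact p.mk_rep
  exact (Nat.card_congr (Equiv.ofBijective g hg)).symm

lemma card_pts_eq (W : Submodule F (Fin n → F)) {k : ℕ} (hW : Nat.card W = Nat.card F ^ k) :
    Nat.card (pts W) = G (Nat.card F) k := by
  have hq : 2 ≤ Nat.card F := Finite.one_lt_card
  have h1 := card_pts W
  have h2 := G_mul (Nat.card F) k (by omega)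
  rw [hW] at h1
  have h3 : Nat.card (pts W) * (Nat.card F - 1) = G (Nat.card F) k * (Nat.card F - 1) := by
    rw [h1]
    omega
  exact Nat.eq_of_mul_eq_mul_right (by omega) h3

/-- the standard hyperplane -/
def H0 (m : ℕ) (F : Type*) [Field F] : Submodule F (Fin (m + 2) → F) :=
  LinearMap.ker (LinearMap.proj (0 : Fin (m + 2)))

lemma mem_H0 {m : ℕ} {v : Fin (m + 2) → F} : v ∈ H0 m F ↔ v 0 = 0 := by
  simp [H0]

lemma finrank_H0 (m : ℕ) : Module.finrank F (H0 m F) = m + 1 := by
  have h1 := LinearMap.finrank_range_add_finrank_ker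
    (LinearMap.proj (0 : Fin (m + 2)) : (Fin (m + 2) → F) →ₗ[F] F)
  have h2 : LinearMap.range (LinearMap.proj (0 : Fin (m + 2)) : (Fin (m + 2) → F) →ₗ[F] F) = ⊤ := by
    apply LinearMap.range_eq_top.2
    exact fun c => ⟨fun _ => c, rfl⟩
  rw [h2, finrank_top, Module.finrank_self, Module.finrank_fin_fun] at h1
  have h3 : Module.finrank F (H0 m F) = Module.finrank F
    (LinearMap.ker (LinearMap.proj (0 : Fin (m + 2)) : (Fin (m + 2) → F) →ₗ[F] F)) := rfl
  omega

/-- main counting theorem -/
theorem no_sharp (m : ℕ) (hm : 1 ≤ m) (S : Set (Equiv.Perm (ℙ F (Fin (m + 2) → F))))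
    (hS : ∀ s ∈ S, ∃ (σ : F ≃+* F) (f : (Fin (m + 2) → F) →ₛₗ[(σ : F →+* F)] (Fin (m + 2) → F))
      (hf : Function.Injective f), ∀ x, s x = Projectivization.map f hf x)
    (hs : ∀ a b c d : ℙ F (Fin (m + 2) → F), a ≠ b → c ≠ d → ∃! s, s ∈ S ∧ s a = c ∧ s b = d) :
    False := by
  classical
  set q := Nat.card F with hq
  have hq2 : 2 ≤ q := Finite.one_lt_card
  have : Fintype (ℙ F (Fin (m + 2) → F)) := Fintype.ofFinite _
  have : Fintype (Equiv.Perm (ℙ F (Fin (m + 2) → F))) := Fintype.ofFinite _
  -- base points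
  let e0 : Fin (m + 2) → F := Pi.single 0 1
  have he0 : e0 ≠ 0 := by
    intro h
    have := congrFun h 0
    simp [e0] at this
  let x0 : ℙ F (Fin (m + 2) → F) := Projectivization.mk F e0 he0
  have hx0 : x0 ∉ pts (H0 m F) := by
    rw [mk_mem_pts, mem_H0]
    simp [e0]
  let T : Finset (Equiv.Perm (ℙ F (Fin (m + 2) → F))) :=
    Finset.univ.filter (fun s => s ∈ S ∧ s x0 = x0)
  let H : Finset (ℙ F (Fin (m + 2) → F)) := Finset.univ.filter (fun p => p ∈ pts (H0 m F))
  have hHx : ∀ p ∈ H, p ≠ x0 := by
    intro p hp h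
    rw [h] at hp
    exact hx0 (Finset.mem_filter.1 hp).2
  -- counting lemma
  have key : ∀ a : ℙ F (Fin (m + 2) → F), a ≠ x0 → ∀ B : Finset (ℙ F (Fin (m + 2) → F)),
      (∀ p ∈ B, p ≠ x0) → (T.filter (fun s => s a ∈ B)).card = B.card := by
    intro a ha B hB
    apply Finset.card_bij (fun s _ => s a)
    · intro s hs'
      exact (Finset.mem_filter.1 hs').2
    · intro s hs' s' hs'' h
      obtain ⟨hs1, hs2⟩ := Finset.mem_filter.1 hs'
      obtain ⟨hs3, hs4⟩ := Finset.mem_filter.1 hs''
      obtain ⟨hs5, hs6⟩ := (Finset.mem_filter.1 hs1).2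
      obtain ⟨hs7, hs8⟩ := (Finset.mem_filter.1 hs3).2
      obtain ⟨u, _, hu⟩ := hs x0 a x0 (s a) ha.symm (hB _ hs2).symm
      rw [hu s ⟨hs5, hs6, rfl⟩, hu s' ⟨hs7, hs8, h.symm⟩]
    · intro b hb
      obtain ⟨u, ⟨hu1, hu2, hu3⟩, _⟩ := hs x0 a x0 b ha.symm (hB _ hb).symm
      refine ⟨u, ?_, hu3⟩
      refine Finset.mem_filter.2 ⟨Finset.mem_filter.2 ⟨Finset.mem_univ _, hu1, hu2⟩, ?_⟩
      rw [hu3]
      exact hb
  -- cardinalities
  have hcardH0 : Nat.card (H0 m F) = q ^ (m + 1) := by
    rw [Module.natCard_eq_pow_finrank (K := F), finrank_H0]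
  have hcardH : H.card = G q (m + 1) := by
    have h1 := card_pts_eq (H0 m F) hcardH0
    rw [← h1, Nat.card_eq_fintype_card, Fintype.card_subtype]
  have hcardP : Fintype.card (ℙ F (Fin (m + 2) → F)) = G q (m + 2) := by
    have h1 := card_pts_eq (⊤ : Submodule F (Fin (m + 2) → F)) (k := m + 2) (by
      rw [Module.natCard_eq_pow_finrank (K := F), finrank_top, Module.finrank_fin_fun])
    rw [← h1, Nat.card_eq_fintype_card]
    apply Fintype.card_congr
    exact (Equiv.subtypeUnivEquiv (fun p => by simp [pts])).symm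
  -- a point of `H`
  obtain ⟨y0, hy0⟩ : H.Nonempty := by
    rw [← Finset.card_pos, hcardH, G_succ']
    omega
  have hy0x : y0 ≠ x0 := hHx y0 hy0
  have hcardT : T.card = q * G q (m + 1) := by
    have h1 := key y0 hy0x (Finset.univ.erase x0) (fun p hp => (Finset.mem_erase.1 hp).1)
    have h2 : T.filter (fun s => s y0 ∈ Finset.univ.erase x0) = T := by
      apply Finset.filter_true_of_mem
      intro s hs'
      refine Finset.mem_erase.2 ⟨?_, Finset.mem_univ _⟩
      intro h
      have h3 := (Finset.mem_filter.1 hs').2.2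
      exact hy0x (s.injective (h.trans h3.symm))
    rw [h2, Finset.card_erase_of_mem (Finset.mem_univ _), Finset.card_univ, hcardP, G_succ'] at h1
    rw [h1]
    omega
  -- double count
  have hdouble : ∑ s ∈ T, (H.filter (fun a => s a ∈ H)).card = H.card * H.card := by
    have h1 := Finset.sum_card_bipartiteAbove_eq_sum_card_bipartiteBelow
      (s := T) (t := H) (fun s a => s a ∈ H)
    have h2 : ∀ s ∈ T, (H.filter (fun a => s a ∈ H)).card = (Finset.bipartiteAbove (fun s a => s a ∈ H) H s).card :=
      fun s _ => rfl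
    rw [Finset.sum_congr rfl h2, h1]
    rw [Finset.sum_congr rfl (g := fun _ => H.card) (fun a ha => by
      exact key a (hHx a ha) H hHx)]
    simp
  -- value of each term
  have hterm : ∀ s ∈ T, (H.filter (fun a => s a ∈ H)).card = G q (m + 1) ∨
      (H.filter (fun a => s a ∈ H)).card = G q m := by
    intro s hs'
    obtain ⟨σ, f, hf, hsf⟩ := hS s (Finset.mem_filter.1 hs').2.1
    let W : Submodule F (Fin (m + 2) → F) := (H0 m F).map f
    have hW : ∀ v, v ∈ W ↔ ∃ w ∈ H0 m F, f w = v := fun v => Iff.rfl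
    have hcardW : Nat.card W = q ^ (m + 1) := by
      rw [← hcardH0]
      have h1 : (W : Set (Fin (m + 2) → F)) = f '' (H0 m F : Set (Fin (m + 2) → F)) := rfl
      change Nat.card (W : Set (Fin (m + 2) → F)) = Nat.card (H0 m F : Set (Fin (m + 2) → F))
      rw [h1]
      exact Nat.card_image_of_injective hf _
    have hfW : Module.finrank F W = m + 1 := by
      rw [Module.natCard_eq_pow_finrank (K := F)] at hcardW
      exact Nat.pow_right_injective hq2 hcardW
    -- the bijection
    have hsW : ∀ a, s a ∈ pts W ↔ a ∈ pts (H0 m F) := by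
      intro a
      induction a using Projectivization.ind with
      | h v hv =>
        rw [hsf, Projectivization.map_mk, mk_mem_pts, mk_mem_pts]
        constructor
        · rintro ⟨w, hw, hfw⟩
          rw [hf hfw] at hw
          exact hw
        · intro hv'
          exact ⟨v, hv', rfl⟩
    have hcount : (H.filter (fun a => s a ∈ H)).card = Nat.card (pts (H0 m F ⊓ W)) := by
      rw [Nat.card_eq_fintype_card, Fintype.card_subtype]
      apply Finset.card_bij (fun a _ => s a)
      · intro a ha
        obtain ⟨ha1, ha2⟩ := Finset.mem_filter.1 ha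
        refine Finset.mem_filter.2 ⟨Finset.mem_univ _, ?_⟩
        have h2 : s a ∈ pts (H0 m F) := (Finset.mem_filter.1 ha2).2
        have h3 : s a ∈ pts W := (hsW a).2 (Finset.mem_filter.1 ha1).2
        exact mem_pts_inf.2 ⟨h2, h3⟩
      · intro a _ b _ h
        exact s.injective h
      · intro b hb
        have hb2 : b ∈ pts (H0 m F ⊓ W) := (Finset.mem_filter.1 hb).2
        have hb3 : b ∈ pts (H0 m F) := (mem_pts_inf.1 hb2).1
        have hb4 : b ∈ pts W := (mem_pts_inf.1 hb2).2
        refine ⟨s⁻¹ b, ?_, by simp⟩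
        have h5 : s⁻¹ b ∈ pts (H0 m F) := by
          rw [← hsW]
          simpa using hb4
        refine Finset.mem_filter.2 ⟨Finset.mem_filter.2 ⟨Finset.mem_univ _, h5⟩, ?_⟩
        have h6 : s (s⁻¹ b) = b := by simp
        rw [h6]
        exact Finset.mem_filter.2 ⟨Finset.mem_univ _, hb3⟩
    rw [hcount]
    by_cases hWH : W = H0 m F
    · left
      rw [hWH, inf_idem]
      exact card_pts_eq _ hcardH0
    · right
      apply card_pts_eq
      rw [Module.natCard_eq_pow_finrank (K := F)]
      congr 1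
      have h1 := Submodule.finrank_sup_add_finrank_inf_eq (H0 m F) W
      rw [finrank_H0, hfW] at h1
      have h2 : Module.finrank F ↥(H0 m F ⊔ W) ≤ m + 2 := by
        have := Submodule.finrank_le (H0 m F ⊔ W)
        rwa [Module.finrank_fin_fun] at this
      have h3 : m + 1 < Module.finrank F ↥(H0 m F ⊔ W) := by
        rw [← finrank_H0 (F := F) m]
        apply Submodule.finrank_lt_finrank_of_lt
        apply lt_of_le_of_ne le_sup_left
        intro h
        apply hWH
        have h4 : W ≤ H0 m F := by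
          rw [h]
          exact le_sup_right
        exact Submodule.eq_of_le_of_finrank_eq h4 (by rw [hfW, finrank_H0])
      omega
  -- arithmetic
  set A := G q (m + 1) with hA
  set B := G q m with hB
  let c : Equiv.Perm (ℙ F (Fin (m + 2) → F)) → ℕ := fun s => (H.filter (fun a => s a ∈ H)).card
  have hsplit := Finset.sum_filter_add_sum_filter_not T (fun s => c s = A) c
  have h1 : ∑ s ∈ T.filter (fun s => c s = A), c s = (T.filter (fun s => c s = A)).card * A := by
    rw [Finset.sum_congr rfl (g := fun _ => A) (fun s hs' => (Finset.mem_filter.1 hs').2)]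
    simp
  have h2 : ∑ s ∈ T.filter (fun s => ¬ c s = A), c s =
      (T.filter (fun s => ¬ c s = A)).card * B := by
    rw [Finset.sum_congr rfl (g := fun _ => B) (fun s hs' => by
      obtain ⟨h3, h4⟩ := Finset.mem_filter.1 hs'
      exact (hterm s h3).resolve_left h4)]
    simp
  have h3 := Finset.card_filter_add_card_filter_not (s := T) (fun s => c s = A)
  set z := (T.filter (fun s => c s = A)).card with hz
  set z' := (T.filter (fun s => ¬ c s = A)).card with hz'
  have h4 : z * A + z' * B = A * A := by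
    rw [← h1, ← h2, hsplit, hcardH] at *
    exact hdouble
  rw [hcardT] at h3
  have hA1 : A = B + q ^ m := G_succ q m
  have hA2 : A = q * B + 1 := G_succ' q m
  -- `z q^m = A`
  have h5 : (z : ℤ) * (q : ℤ) ^ m = A := by
    have h6 : (z : ℤ) + z' = q * A := by exact_mod_cast h3
    have h7 : (z : ℤ) * A + z' * B = A * A := by exact_mod_cast h4
    have h8 : (A : ℤ) = B + (q : ℤ) ^ m := by exact_mod_cast hA1
    have h9 : (A : ℤ) = q * B + 1 := by exact_mod_cast hA2
    have h10 : (z' : ℤ) = q * A - z := by linarith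
    rw [h10] at h7
    have h11 : (z : ℤ) * (A - B) = A * (A - q * B) := by linarith
    have h12 : (A : ℤ) - B = (q : ℤ) ^ m := by linarith
    have h13 : (A : ℤ) - q * B = 1 := by linarith
    rw [h12, h13] at h11
    linarith
  have h6 : (q : ℤ) ∣ A := by
    rw [← h5]
    exact Dvd.dvd.mul_left (dvd_pow_self _ (by omega)) _
  have h7 : (q : ℤ) ∣ 1 := by
    have h8 : ((A : ℤ) - q * B) = 1 := by
      have : (A : ℤ) = q * B + 1 := by exact_mod_cast hA2
      linarith
    rw [← h8]
    exact dvd_sub h6 (Dvd.intro _ rfl)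
  have h8 : q ∣ 1 := by exact_mod_cast h7
  have h9 := Nat.le_of_dvd (by norm_num) h8
  omega

end Cfsg.Agent.H11.Sharp
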