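import Cfsg.Agent.Lib.H11.WallSp
import Cfsg.Agent.Lib.H10.SS2

/-! Characteristic polynomials of semisimple symplectic elements: realisation by blocks. -/

set_option autoImplicit false
set_option linter.unusedSectionVars false
set_option linter.unusedVariables false

namespace Cfsg.Agent.H11.SpC

open Polynomial Module Matrix Cfsg.Agent.H11.PSpG

universe u

variable {F : Type u} [Field F] [Fintype F]

theorem charpoly_sp_reverse {n : ℕ} (g : symplecticGroup (Fin n) F) :
    (g : Matrix (Fin n ⊕ Fin n) (Fin n ⊕ Fin n) F).charpoly.reverse = (g : Matrix (Fin n ⊕ Fin n) (Fin n ⊕ Fin n) F).charpoly := by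
  classical
  set M : Matrix (Fin n ⊕ Fin n) (Fin n ⊕ Fin n) F := g.val with hM
  have hdet : M.det = 1 := SymplecticGroup.det_eq_one g.2
  have hunit : IsUnit M := by
    rw [Matrix.isUnit_iff_isUnit_det, hdet]
    exact isUnit_one
  have h1 := Matrix.charpoly_inv M hunit
  have h2 : M⁻¹ = (-J (Fin n) F) * Mᵀ * J (Fin n) F := by
    rw [← SymplecticGroup.coe_inv' g]
    exact SymplecticGroup.coe_inv g
  have h3 : M⁻¹.charpoly = M.charpoly := by
    rw [h2, Matrix.charpoly_mul_comm, ← Matrix.mul_assoc]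
    have : J (Fin n) F * -J (Fin n) F = 1 := by
      rw [Matrix.mul_neg, Matrix.J_squared, neg_neg]
    rw [this, Matrix.one_mul, Matrix.charpoly_transpose]
  rw [h3, ← Matrix.reverse_charpoly, hdet] at h1
  have h4 : ((-1 : F[X])) ^ Fintype.card (Fin n ⊕ Fin n) = 1 := by
    rw [Fintype.card_sum, ← two_mul, pow_mul]
    simp
  rw [h4, one_mul, Ring.inverse_one, map_one, one_mul] at h1
  exact h1.symm

/-- realisable polynomials -/
def Rl (F : Type u) [Field F] [Fintype F] (d : ℕ) (f : F[X]) : Prop :=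
  ∃ (g : symplecticGroup (Fin d) F) (N : ℕ), (N : F) ≠ 0 ∧ g ^ N = 1 ∧
    (g : Matrix (Fin d ⊕ Fin d) (Fin d ⊕ Fin d) F).charpoly = f

theorem rl_of_form {V : Type*} [AddCommGroup V] [Module F V] [FiniteDimensional F V] (ω : V →ₗ[F] V →ₗ[F] F)
    (halt : ∀ v, ω v v = 0) (hnd : Cfsg.Agent.H29.NondegOn ω ⊤) (d : ℕ) (hd : finrank F V = 2 * d) (τ : V →ₗ[F] V)
    (hiso : ∀ x y, ω (τ x) (τ y) = ω x y) (N : ℕ) (hN0 : (N : F) ≠ 0) (hN : τ ^ N = 1) : Rl F d τ.charpoly := by
  classical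
  obtain ⟨Λ, hΛ⟩ := darboux ω halt hnd d hd
  let A : Matrix (Fin d ⊕ Fin d) (Fin d ⊕ Fin d) F :=
    LinearMap.toMatrix' (Λ.symm.toLinearMap ∘ₗ τ ∘ₗ Λ.toLinearMap)
  have hA : ∀ u, A *ᵥ u = Λ.symm (τ (Λ u)) := by
    intro u
    rw [← Matrix.toLin'_apply, Matrix.toLin'_toMatrix']
    simp
  have hmem : A ∈ symplecticGroup (Fin d) F := by
    apply mem_of_form
    intro u v
    rw [hA, hA, ← hΛ, ← hΛ u v]
    simp [hiso]
  have hpow : ∀ (m : ℕ) (u : Fin d ⊕ Fin d → F), A ^ m *ᵥ u = Λ.symm ((τ ^ m) (Λ u)) := by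
    intro m
    induction m with
    | zero => intro u; simp
    | succ m ih =>
      intro u
      rw [pow_succ, ← Matrix.mulVec_mulVec, hA, ih, pow_succ, Module.End.mul_apply]
      simp
  refine ⟨⟨A, hmem⟩, N, hN0, ?_, ?_⟩
  · apply Subtype.ext
    have h1 : A ^ N = 1 := by
      apply Cfsg.Agent.Lead.mat_ext_mulVec
      intro u
      rw [hpow, hN]
      simp
    simpa using h1
  · change A.charpoly = _
    have h1 : (Matrix.toLin' A) = Λ.symm.conj τ := by
      apply LinearMap.ext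
      intro u
      rw [Matrix.toLin'_apply, hA]
      simp [LinearEquiv.conj_apply]
    rw [← Wall.charpoly_toLin_eq, h1, LinearEquiv.charpoly_conj]

theorem rl_zero : Rl F 0 (1 : F[X]) := by
  classical
  refine ⟨1, 1, by simp, by simp, ?_⟩
  have h0 : Matrix.charpoly (1 : Matrix (Fin 0 ⊕ Fin 0) (Fin 0 ⊕ Fin 0) F) = 1 := by
    rw [Matrix.charpoly, Matrix.det_isEmpty]
  exact h0

theorem rl_prod {d₁ d₂ : ℕ} {f₁ f₂ : F[X]} (h₁ : Rl F d₁ f₁) (h₂ : Rl F d₂ f₂) : Rl F (d₁ + d₂) (f₁ * f₂) := by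
  classical
  obtain ⟨g₁, N₁, hN₁, hg₁, hc₁⟩ := h₁
  obtain ⟨g₂, N₂, hN₂, hg₂, hc₂⟩ := h₂
  let V₁ := Fin d₁ ⊕ Fin d₁ → F
  let V₂ := Fin d₂ ⊕ Fin d₂ → F
  let L₁ : V₁ →ₗ[F] V₁ := Matrix.toLin' (g₁ : Matrix (Fin d₁ ⊕ Fin d₁) (Fin d₁ ⊕ Fin d₁) F)
  let L₂ : V₂ →ₗ[F] V₂ := Matrix.toLin' (g₂ : Matrix (Fin d₂ ⊕ Fin d₂) (Fin d₂ ⊕ Fin d₂) F)
  let ω : (V₁ × V₂) →ₗ[F] (V₁ × V₂) →ₗ[F] F :=
    LinearMap.mk₂ F (fun x y => lsf d₁ F x.1 y.1 + lsf d₂ F x.2 y.2)
      (fun a b c => by simp only [Prod.fst_add, Prod.snd_add, map_add, LinearMap.add_apply]; ring)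
      (fun c a b => by simp only [Prod.smul_fst, Prod.smul_snd, map_smul, LinearMap.smul_apply, smul_eq_mul]; ring)
      (fun a b c => by simp only [Prod.fst_add, Prod.snd_add, map_add]; ring)
      (fun c a b => by simp only [Prod.smul_fst, Prod.smul_snd, map_smul, smul_eq_mul]; ring)
  have hω : ∀ x y, ω x y = lsf d₁ F x.1 y.1 + lsf d₂ F x.2 y.2 := fun _ _ => rfl
  let τ : (V₁ × V₂) →ₗ[F] (V₁ × V₂) := L₁.prodMap L₂
  have hτ : ∀ x, τ x = (L₁ x.1, L₂ x.2) := fun _ => rfl
  have hpow : ∀ (m : ℕ) (x : V₁ × V₂), (τ ^ m) x = ((L₁ ^ m) x.1, (L₂ ^ m) x.2) := by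
    intro m
    induction m with
    | zero => intro x; simp
    | succ m ih =>
      intro x
      rw [pow_succ, Module.End.mul_apply, ih, hτ, pow_succ, pow_succ]
      simp
  have hχ : τ.charpoly = f₁ * f₂ := by
    rw [LinearMap.charpoly_prodMap, Wall.charpoly_toLin_eq, Wall.charpoly_toLin_eq, hc₁, hc₂]
  rw [← hχ]
  refine rl_of_form ω ?_ ?_ (d₁ + d₂) ?_ τ ?_ (N₁ * N₂) (by rw [Nat.cast_mul]; exact mul_ne_zero hN₁ hN₂) ?_
  · intro v
    rw [hω, lsf_alt, lsf_alt, add_zero]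
  · rintro ⟨x₁, x₂⟩ _ hx
    by_cases h1 : x₁ = 0
    · have h2 : x₂ ≠ 0 := by
        rintro rfl
        exact hx (by rw [h1]; rfl)
      obtain ⟨z, -, hz⟩ := lsf_nd d₂ (F := F) x₂ Submodule.mem_top h2
      refine ⟨(0, z), Submodule.mem_top, ?_⟩
      rw [hω]
      simpa [h1] using hz
    · obtain ⟨z, -, hz⟩ := lsf_nd d₁ (F := F) x₁ Submodule.mem_top h1
      refine ⟨(z, 0), Submodule.mem_top, ?_⟩
      rw [hω]
      change lsf d₁ F x₁ z + lsf d₂ F x₂ 0 ≠ 0
      rw [map_zero, add_zero]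
      exact hz
  · rw [Module.finrank_prod, finrank_std, finrank_std]
    ring
  · intro x y
    rw [hτ, hτ, hω, hω]
    exact congrArg₂ (· + ·) (toLin_iso g₁ _ _) (toLin_iso g₂ _ _)
  · have e1 : L₁ ^ (N₁ * N₂) = 1 := by
      have h5 : L₁ ^ N₁ = 1 := (toLin_pow_eq_one g₁ N₁).2 hg₁
      rw [pow_mul, h5, one_pow]
    have e2 : L₂ ^ (N₁ * N₂) = 1 := by
      have h5 : L₂ ^ N₂ = 1 := (toLin_pow_eq_one g₂ N₂).2 hg₂
      rw [mul_comm, pow_mul, h5, one_pow]
    apply LinearMap.ext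
    intro x
    rw [hpow, e1, e2]
    rfl

section field

variable {E : Type*} [Field E] [Fintype E] [Algebra F E]

/-- the exponent kills units and is a unit of the base -/
theorem exp_cast_ne : (((Fintype.card E - 1 : ℕ)) : F) ≠ 0 := by
  obtain ⟨p, hp⟩ := CharP.exists F
  haveI hpf : Fact p.Prime := ⟨CharP.char_is_prime F p⟩
  haveI : CharP E p := (RingHom.charP_iff (algebraMap F E) (algebraMap F E).injective p).1 hp
  obtain ⟨m, hm, hm'⟩ := FiniteField.card E p
  have hc : Fintype.card E = p ^ (m : ℕ) := hm'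
  intro h
  rw [CharP.cast_eq_zero_iff F p] at h
  have h1 : 2 ≤ Fintype.card E := Fintype.one_lt_card
  have h2 : p ∣ Fintype.card E := by
    rw [hc]
    exact dvd_pow_self p m.2.ne'
  have h3 : p ∣ 1 := by
    have h4 : Fintype.card E = (Fintype.card E - 1) + 1 := by omega
    rw [h4] at h2
    exact (Nat.dvd_add_right h).1 h2
  exact hpf.out.one_lt.ne' (Nat.dvd_one.1 h3)

theorem mul_pow_card {z : E} (hz : z ≠ 0) : z ^ (Fintype.card E - 1) = 1 :=
  FiniteField.pow_card_sub_one_eq_one z hz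

theorem trace_nd [FiniteDimensional F E] (a : E) (ha : a ≠ 0) : ∃ b : E, Algebra.trace F E (a * b) ≠ 0 := by
  by_contra hcon
  push Not at hcon
  apply ha
  apply (traceForm_nondegenerate F E).1 a
  intro b
  simpa [Algebra.traceForm_apply] using hcon b

/-- the hyperbolic block -/
theorem rl_pair [FiniteDimensional F E] (z : E) (hz0 : z ≠ 0) :
    Rl F (finrank F E) ((LinearMap.mulLeft F z).charpoly * (LinearMap.mulLeft F z⁻¹).charpoly) := by
  classical
  let Tr := Algebra.trace F E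
  let ω : (E × E) →ₗ[F] (E × E) →ₗ[F] F :=
    LinearMap.mk₂ F (fun x y => Tr (x.1 * y.2 - x.2 * y.1))
      (fun a b c => by
        simp only [Prod.fst_add, Prod.snd_add, ← map_add]
        congr 1
        ring)
      (fun c a b => by
        rw [← map_smul Tr]
        congr 1
        simp only [Prod.smul_fst, Prod.smul_snd, smul_sub, smul_mul_assoc])
      (fun a b c => by
        simp only [Prod.fst_add, Prod.snd_add, ← map_add]
        congr 1
        ring)
      (fun c a b => by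
        rw [← map_smul Tr]
        congr 1
        simp only [Prod.smul_fst, Prod.smul_snd, smul_sub, mul_smul_comm])
  have hω : ∀ x y, ω x y = Tr (x.1 * y.2 - x.2 * y.1) := fun _ _ => rfl
  let τ : (E × E) →ₗ[F] (E × E) := (LinearMap.mulLeft F z).prodMap (LinearMap.mulLeft F z⁻¹)
  have hτ : ∀ x, τ x = (z * x.1, z⁻¹ * x.2) := fun _ => rfl
  have hpow : ∀ (m : ℕ) (x : E × E), (τ ^ m) x = (z ^ m * x.1, z⁻¹ ^ m * x.2) := by
    intro m
    induction m with
    | zero => intro x; simp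
    | succ m ih =>
      intro x
      rw [pow_succ, Module.End.mul_apply, ih, hτ, pow_succ, pow_succ]
      ext <;> simp <;> ring
  have htr := trace_nd (F := F) (E := E)
  have hχ : τ.charpoly = (LinearMap.mulLeft F z).charpoly * (LinearMap.mulLeft F z⁻¹).charpoly :=
    LinearMap.charpoly_prodMap _ _
  rw [← hχ]
  refine rl_of_form ω ?_ ?_ (finrank F E) ?_ τ ?_ (Fintype.card E - 1) exp_cast_ne ?_
  · intro v
    rw [hω, mul_comm, sub_self, map_zero]
  · rintro ⟨x₁, x₂⟩ _ hx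
    by_cases h1 : x₁ = 0
    · have h2 : x₂ ≠ 0 := by
        rintro rfl
        exact hx (by rw [h1]; rfl)
      obtain ⟨b, hb⟩ := htr x₂ h2
      refine ⟨(-b, 0), Submodule.mem_top, ?_⟩
      rw [hω]
      simpa [h1] using hb
    · obtain ⟨b, hb⟩ := htr x₁ h1
      refine ⟨(0, b), Submodule.mem_top, ?_⟩
      rw [hω]
      simpa using hb
  · rw [Module.finrank_prod]
    ring
  · intro x y
    rw [hτ, hτ, hω, hω]
    congr 1
    simp only
    field_simp
  · apply LinearMap.ext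
    intro x
    rw [hpow, mul_pow_card hz0, mul_pow_card (inv_ne_zero hz0)]
    simp

/-- an involution of a field extension is a power of the Frobenius -/
theorem invol_frob [FiniteDimensional F E] (σ : E ≃ₐ[F] E) (hσ2 : ∀ x, σ (σ x) = x) (hσ : ∃ e, σ e ≠ e) :
    ∃ J : ℕ, finrank F E = 2 * J ∧ 1 ≤ J ∧ ∀ x, σ x = x ^ Fintype.card F ^ J := by
  classical
  let Fr := FiniteField.frobeniusAlgEquivOfAlgebraic F E
  have hbij := FiniteField.bijective_frobeniusAlgEquivOfAlgebraic_pow F E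
  obtain ⟨j, hj⟩ := hbij.2 σ
  obtain ⟨J, hJlt, hj'⟩ : ∃ J : ℕ, J < finrank F E ∧ Fr ^ J = σ := ⟨j.1, j.2, hj⟩
  have hfrob : ∀ (i : ℕ) (x : E), (Fr ^ i) x = x ^ Fintype.card F ^ i := fun i x => frob_pow i x
  have hσp : ∀ x, σ x = x ^ Fintype.card F ^ J := by
    intro x
    rw [← hfrob, hj']
  have hcard : Fintype.card E = Fintype.card F ^ finrank F E := Module.card_eq_pow_finrank
  have hm1 : Fr ^ finrank F E = 1 := by
    ext x
    rw [hfrob, ← hcard, FiniteField.pow_card]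
    rfl
  have hj0 : J ≠ 0 := by
    intro h
    obtain ⟨e, he⟩ := hσ
    apply he
    rw [hσp, h]
    simp
  have h2j : Fr ^ (2 * J) = 1 := by
    ext x
    rw [hfrob, two_mul, pow_add, pow_mul, ← hσp, ← hσp, hσ2]
    rfl
  have hinjF := hbij.1
  have hm_eq : 2 * J = finrank F E := by
    by_contra hne
    rcases lt_or_gt_of_ne hne with hlt | hgt
    · have : (⟨2 * J, hlt⟩ : Fin (finrank F E)) = ⟨0, by omega⟩ := by
        apply hinjF
        change Fr ^ (2 * J) = Fr ^ 0
        rw [h2j, pow_zero]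
      have h5 : 2 * J = 0 := congrArg Fin.val this
      omega
    · have hsub : 2 * J - finrank F E < finrank F E := by omega
      have h3 : Fr ^ (2 * J - finrank F E) = 1 := by
        have h4 : Fr ^ (2 * J) = Fr ^ (2 * J - finrank F E) * Fr ^ finrank F E := by
          rw [← pow_add, Nat.sub_add_cancel hgt.le]
        rw [h2j, hm1, mul_one] at h4
        exact h4.symm
      have : (⟨2 * J - finrank F E, hsub⟩ : Fin (finrank F E)) = ⟨0, by omega⟩ := by
        apply hinjF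
        change Fr ^ (2 * J - finrank F E) = Fr ^ 0
        rw [h3, pow_zero]
      have h5 : 2 * J - finrank F E = 0 := congrArg Fin.val this
      omega
  exact ⟨J, hm_eq.symm, by omega, hσp⟩

/-- the anisotropic block -/
theorem rl_self [FiniteDimensional F E] (e : ℕ) (hfr : finrank F E = 2 * e) (φ : E ≃ₐ[F] E) (hφφ : ∀ x, φ (φ x) = x)
    (hφQ : ∀ x, φ x = x ^ Fintype.card F ^ e) (he : 1 ≤ e) (z : E) (hz : z * φ z = 1) :
    Rl F e (LinearMap.mulLeft F z).charpoly := by
  classical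
  have hz0 : z ≠ 0 := by
    rintro rfl
    rw [zero_mul] at hz
    exact zero_ne_one hz
  have hne : ∃ w, φ w ≠ w := by
    by_contra hcon
    push Not at hcon
    have hle : ∀ x : E, x ^ Fintype.card F ^ e = x := fun x => by rw [← hφQ, hcon]
    have hbij := FiniteField.bijective_frobeniusAlgEquivOfAlgebraic_pow F E
    have h1 : (⟨e, by rw [hfr]; omega⟩ : Fin (finrank F E)) = ⟨0, by rw [hfr]; omega⟩ := by
      apply hbij.1
      change FiniteField.frobeniusAlgEquivOfAlgebraic F E ^ e = FiniteField.frobeniusAlgEquivOfAlgebraic F E ^ 0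
      rw [pow_zero]
      ext x
      rw [frob_pow, hle]
      rfl
    have h2 : e = 0 := congrArg Fin.val h1
    omega
  obtain ⟨w, hw⟩ := hne
  set δ := φ w - w with hδ
  have hδ0 : δ ≠ 0 := sub_ne_zero.2 hw
  have hφδ : φ δ = -δ := by
    rw [hδ, map_sub, hφφ]
    ring
  let Tr := Algebra.trace F E
  let ω : E →ₗ[F] E →ₗ[F] F :=
    LinearMap.mk₂ F (fun x y => Tr (δ * x * φ y))
      (fun a b c => by
        simp only [← map_add]
        congr 1
        ring)
      (fun c a b => by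
        rw [← map_smul Tr]
        congr 1
        simp only [mul_smul_comm, smul_mul_assoc])
      (fun a b c => by
        rw [map_add φ, ← map_add Tr]
        congr 1
        ring)
      (fun c a b => by
        rw [← map_smul Tr, map_smul φ]
        congr 1
        simp only [mul_smul_comm])
  have hω : ∀ x y, ω x y = Tr (δ * x * φ y) := fun _ _ => rfl
  let τ : E →ₗ[F] E := LinearMap.mulLeft F z
  have hτ : ∀ x, τ x = z * x := fun _ => rfl
  have hpow : ∀ (m : ℕ) (x : E), (τ ^ m) x = z ^ m * x := by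
    intro m
    induction m with
    | zero => intro x; simp
    | succ m ih =>
      intro x
      rw [pow_succ, Module.End.mul_apply, ih, hτ, pow_succ]
      ring
  have htr := trace_nd (F := F) (E := E)
  refine rl_of_form ω ?_ ?_ e hfr τ ?_ (Fintype.card E - 1) exp_cast_ne ?_
  · intro v
    rw [hω]
    apply trace_skew e hfr
    rw [← hφQ, map_mul, map_mul, hφδ, hφφ]
    ring
  · rintro x - hx
    obtain ⟨b, hb⟩ := htr (δ * x) (mul_ne_zero hδ0 hx)
    refine ⟨φ b, Submodule.mem_top, ?_⟩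
    rw [hω, hφφ]
    exact hb
  · intro x y
    rw [hτ, hτ, hω, hω, map_mul φ]
    congr 1
    calc δ * (z * x) * (φ z * φ y) = (z * φ z) * (δ * x * φ y) := by ring
      _ = _ := by rw [hz, one_mul]
  · apply LinearMap.ext
    intro x
    rw [hpow, mul_pow_card hz0]
    simp

end field

end Cfsg.Agent.H11.SpC
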