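import Cfsg.Agent.Lib.H11.SpC2

/-! Count of monic palindromic polynomials; the number of semisimple classes of `Sp_{2n}(q)`. -/

set_option autoImplicit false
set_option linter.unusedSectionVars false
set_option linter.unusedVariables false

namespace Cfsg.Agent.H11.SpC

open Polynomial Module Matrix Cfsg.Agent.H11.PSpG

universe u

variable {F : Type u} [Field F] [Fintype F]

/-- the coefficient pattern -/
noncomputable def cf {n : ℕ} (a : Fin n → F) (k : ℕ) : F :=
  if k = 0 ∨ k = 2 * n then 1 else
    if h : k ≤ n then (if h0 : k = 0 then 1 else a ⟨k - 1, by omega⟩) else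
      if h2 : k < 2 * n then a ⟨2 * n - k - 1, by omega⟩ else 0

theorem cf_symm {n : ℕ} (a : Fin n → F) (k : ℕ) (hk : k ≤ 2 * n) : cf a (2 * n - k) = cf a k := by
  unfold cf
  by_cases h1 : k = 0 ∨ k = 2 * n
  · have h2 : 2 * n - k = 0 ∨ 2 * n - k = 2 * n := by omega
    rw [if_pos h1, if_pos h2]
  · have h2 : ¬ (2 * n - k = 0 ∨ 2 * n - k = 2 * n) := by omega
    rw [if_neg h1, if_neg h2]
    by_cases h3 : k ≤ n
    · have h0 : ¬ k = 0 := by omega
      rw [dif_pos h3, dif_neg h0]
      by_cases h4 : 2 * n - k ≤ n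
      · have hk' : k = n := by omega
        rw [dif_pos h4, dif_neg (by omega)]
        congr 2
        omega
      · rw [dif_neg h4, dif_pos (by omega)]
        congr 2
        omega
    · have h0 : 2 * n - k ≤ n := by omega
      have h5 : ¬ 2 * n - k = 0 := by omega
      rw [dif_pos h0, dif_neg h5, dif_neg h3, dif_pos (by omega)]

/-- the polynomial with these coefficients -/
noncomputable def pal {n : ℕ} (a : Fin n → F) : F[X] := ∑ k ∈ Finset.range (2 * n + 1), C (cf a k) * X ^ k

theorem cf_large {n : ℕ} (a : Fin n → F) (k : ℕ) (hk : 2 * n < k) : cf a k = 0 := by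
  unfold cf
  rw [if_neg (by omega), dif_neg (by omega), dif_neg (by omega)]

theorem pal_coeff {n : ℕ} (a : Fin n → F) (k : ℕ) : (pal a).coeff k = cf a k := by
  unfold pal
  rw [finsetSum_coeff]
  simp only [coeff_C_mul_X_pow]
  by_cases hk : k ∈ Finset.range (2 * n + 1)
  · rw [Finset.sum_eq_single k]
    · simp
    · intro b _ hb
      rw [if_neg (Ne.symm hb)]
    · intro h
      exact absurd hk h
  · rw [Finset.sum_eq_zero, cf_large]
    · have := Finset.mem_range.not.1 hk
      omega
    · intro b hb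
      rw [if_neg]
      rintro rfl
      exact hk hb

theorem cf_succ {n : ℕ} (a : Fin n → F) (i : Fin n) : cf a ((i : ℕ) + 1) = a i := by
  have hi := i.2
  unfold cf
  rw [if_neg (by omega), dif_pos (by omega), dif_neg (by omega)]
  rfl

theorem pal_natDegree {n : ℕ} (a : Fin n → F) : (pal a).natDegree = 2 * n := by
  apply le_antisymm
  · rw [natDegree_le_iff_coeff_eq_zero]
    intro N hN
    rw [pal_coeff, cf_large a N hN]
  · apply le_natDegree_of_ne_zero
    rw [pal_coeff]
    unfold cf
    rw [if_pos (Or.inr rfl)]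
    exact one_ne_zero

theorem pal_monic {n : ℕ} (a : Fin n → F) : (pal a).Monic := by
  rw [Monic, leadingCoeff, pal_natDegree, pal_coeff]
  unfold cf
  rw [if_pos (Or.inr rfl)]

theorem pal_reverse {n : ℕ} (a : Fin n → F) : (pal a).reverse = pal a := by
  ext k
  rw [coeff_reverse, pal_natDegree, pal_coeff, pal_coeff]
  by_cases hk : k ≤ 2 * n
  · rw [revAt_le hk, cf_symm a k hk]
  · rw [revAt_eq_self_of_lt (by omega)]

/-- the number of palindromes -/
theorem card_pal (n : ℕ) :
    Nat.card {f : F[X] // f.Monic ∧ f.natDegree = 2 * n ∧ f.reverse = f} = Fintype.card F ^ n := by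
  classical
  have hb : Function.Bijective (fun a : Fin n → F =>
      (⟨pal a, pal_monic a, pal_natDegree a, pal_reverse a⟩ : {f : F[X] // f.Monic ∧ f.natDegree = 2 * n ∧ f.reverse = f})) := by
    constructor
    · intro a b hab
      funext i
      have h1 : pal a = pal b := congrArg Subtype.val hab
      have h2 := congrArg (fun f => f.coeff ((i : ℕ) + 1)) h1
      simp only [pal_coeff] at h2
      rw [cf_succ, cf_succ] at h2
      exact h2
    · rintro ⟨f, hm, hd, hr⟩
      refine ⟨fun i => f.coeff ((i : ℕ) + 1), ?_⟩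
      apply Subtype.ext
      change pal _ = f
      ext k
      rw [pal_coeff]
      have h0 : f.coeff 0 = 1 := palin_coeff_zero hm hr
      have hfs : ∀ j, j ≤ 2 * n → f.coeff (2 * n - j) = f.coeff j := by
        intro j hj
        conv_rhs => rw [← hr, coeff_reverse, hd, revAt_le hj]
      unfold cf
      by_cases h1 : k = 0 ∨ k = 2 * n
      · rw [if_pos h1]
        rcases h1 with rfl | rfl
        · exact h0.symm
        · have := hfs 0 (by omega)
          rw [Nat.sub_zero, h0] at this
          exact this.symm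
      · rw [if_neg h1]
        by_cases h2 : k ≤ n
        · have hk0 : k ≠ 0 := by omega
          rw [dif_pos h2, dif_neg hk0]
          change f.coeff (k - 1 + 1) = _
          rw [Nat.sub_add_cancel (by omega)]
        · rw [dif_neg h2]
          by_cases h3 : k < 2 * n
          · rw [dif_pos h3]
            change f.coeff (2 * n - k - 1 + 1) = _
            have e : 2 * n - k - 1 + 1 = 2 * n - k := by omega
            rw [e, hfs k (by omega)]
          · rw [dif_neg h3]
            symm
            apply coeff_eq_zero_of_natDegree_lt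
            omega
  rw [← Nat.card_congr (Equiv.ofBijective _ hb), Nat.card_fun, Nat.card_eq_fintype_card, Nat.card_eq_fintype_card]
  simp

/-- the number of semisimple classes -/
theorem card_ss_Sp {q : ℕ} (hq : Fintype.card F = q) (p : ℕ) [Fact p.Prime] [CharP F p] (n : ℕ) :
    Nat.card {c : ConjClasses (symplecticGroup (Fin n) F) //
      ∃ g : symplecticGroup (Fin n) F, ConjClasses.mk g = c ∧ (orderOf g).Coprime p} = q ^ n := by
  classical
  have hpP : p.Prime := Fact.out
  rw [← hq, ← card_pal (F := F) n]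
  symm
  have hcopr : ∀ N : ℕ, (N : F) ≠ 0 → N.Coprime p := by
    intro N hN
    rw [Ne, CharP.cast_eq_zero_iff F p] at hN
    exact ((Nat.Prime.coprime_iff_not_dvd hpP).2 hN).symm
  have hcast : ∀ N : ℕ, N.Coprime p → (N : F) ≠ 0 := by
    intro N hN h
    rw [CharP.cast_eq_zero_iff F p] at h
    exact hpP.one_lt.ne' (Nat.Coprime.eq_one_of_dvd hN.symm h)
  have hex : ∀ f : {f : F[X] // f.Monic ∧ f.natDegree = 2 * n ∧ f.reverse = f},
      ∃ g : symplecticGroup (Fin n) F, (orderOf g).Coprime p ∧ (g : Matrix (Fin n ⊕ Fin n) (Fin n ⊕ Fin n) F).charpoly = f.1 := by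
    intro f
    obtain ⟨g, N, hN0, hgN, hc⟩ := rl_all n f.1 f.2.1 f.2.2.1 f.2.2.2
    exact ⟨g, Nat.Coprime.coprime_dvd_left (orderOf_dvd_of_pow_eq_one hgN) (hcopr N hN0), hc⟩
  choose G hG1 hG2 using hex
  apply Nat.card_congr
  refine Equiv.ofBijective (fun f => ⟨ConjClasses.mk (G f), G f, rfl, hG1 f⟩) ⟨?_, ?_⟩
  · intro f f' h
    have h1 : ConjClasses.mk (G f) = ConjClasses.mk (G f') := congrArg Subtype.val h
    rw [ConjClasses.mk_eq_mk_iff_isConj] at h1
    have h2 := (Wall.sp_conj_of_matrix p (G f) (G f') (hG1 f)).1 h1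
    obtain ⟨c, hc⟩ := h2
    apply Subtype.ext
    rw [← hG2 f, ← hG2 f']
    have hc' : ((G f' : symplecticGroup (Fin n) F) : Matrix (Fin n ⊕ Fin n) (Fin n ⊕ Fin n) F) =
        c.val * (G f : symplecticGroup (Fin n) F).val * c.val⁻¹ := by
      have h3 : c.val * (G f).val = (G f').val * c.val := hc.eq
      rw [h3, Matrix.mul_assoc, Matrix.mul_nonsing_inv _ ((Matrix.isUnit_iff_isUnit_det _).1 c.isUnit), Matrix.mul_one]
    rw [hc', Matrix.charpoly_units_conj]
  · rintro ⟨c, g, rfl, hg⟩
    have hmon : (g : Matrix (Fin n ⊕ Fin n) (Fin n ⊕ Fin n) F).charpoly.Monic := Matrix.charpoly_monic _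
    have hdeg : (g : Matrix (Fin n ⊕ Fin n) (Fin n ⊕ Fin n) F).charpoly.natDegree = 2 * n := by
      rw [Matrix.charpoly_natDegree_eq_dim, Fintype.card_sum, Fintype.card_fin]
      ring
    let f : {f : F[X] // f.Monic ∧ f.natDegree = 2 * n ∧ f.reverse = f} := ⟨_, hmon, hdeg, charpoly_sp_reverse g⟩
    refine ⟨f, ?_⟩
    apply Subtype.ext
    change ConjClasses.mk (G f) = ConjClasses.mk g
    rw [ConjClasses.mk_eq_mk_iff_isConj]
    refine Wall.sp_conj (G f) g (orderOf (G f) * orderOf g) (hcast _ (Nat.Coprime.mul_left (hG1 f) hg)) ?_ ?_ (hG2 f)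
    · rw [pow_mul, pow_orderOf_eq_one, one_pow]
    · rw [mul_comm, pow_mul, pow_orderOf_eq_one, one_pow]

end Cfsg.Agent.H11.SpC
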