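import Cfsg.Agent.Lib.H11.Transv2
import Cfsg.Agent.Lib.Lead.SpOrder
import Cfsg.Agent.Lib.Lead.SpGen

set_option autoImplicit false
set_option linter.unusedSectionVars false

namespace Cfsg.Agent.H11.SpTr

open Matrix Module Cfsg.Agent.Lead

variable {F : Type*} [Field F] {l : Type} [Fintype l] [DecidableEq l]

/-- rank one decomposition, without any other assumption -/
lemma exists_decomp' {ι : Type} [Fintype ι] [DecidableEq ι] (N : Matrix ι ι F) (hN : N.rank = 1) :
    ∃ (v w : ι → F), v ≠ 0 ∧ w ≠ 0 ∧ N = vecMulVec v w := by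
  classical
  have hN' := hN
  rw [Matrix.rank, finrank_eq_one_iff'] at hN'
  obtain ⟨⟨v, hv0⟩, hv, hv2⟩ := hN'
  have hv' : v ≠ 0 := fun h => hv (Subtype.ext h)
  have hc : ∀ j, ∃ c : F, c • v = N *ᵥ Pi.single j 1 := by
    intro j
    obtain ⟨c, hc⟩ := hv2 ⟨N *ᵥ Pi.single j 1, ⟨_, rfl⟩⟩
    exact ⟨c, congrArg Subtype.val hc⟩
  choose w hw using hc
  have hdec : N = vecMulVec v w := by
    ext i j
    have := congrFun (hw j) i
    simp only [Pi.smul_apply, smul_eq_mul, Matrix.mulVec_single_one, Matrix.col_apply] at this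
    rw [← this, Matrix.vecMulVec_apply, mul_comm]
  have hw0 : w ≠ 0 := by
    rintro rfl
    apply hv
    have h0 : N = 0 := by
      rw [hdec]
      ext i j
      simp [Matrix.vecMulVec_apply]
    obtain ⟨x, hx⟩ := hv0
    apply Subtype.ext
    change v = 0
    rw [← hx, h0]
    simp
  exact ⟨v, w, hv', hw0, hdec⟩


section char2

variable [Fintype F] (hc : (2 : F) = 0)

/-- the transvection in `u`, value one -/
noncomputable abbrev tau (u : l ⊕ l → F) : symplecticGroup l F := sympT u 1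

lemma tau_mulVec (u x : l ⊕ l → F) :
    (tau u : Matrix (l ⊕ l) (l ⊕ l) F) *ᵥ x = x + (Lead.sympForm x u) • u := by
  rw [tau, sympT_coe, sympTmat_mulVec, one_mul]

lemma mat_ext {A B : Matrix (l ⊕ l) (l ⊕ l) F} (h : ∀ x, A *ᵥ x = B *ᵥ x) : A = B := by
  apply Matrix.toLin'.injective
  apply LinearMap.ext
  intro x
  simpa [Matrix.toLin'_apply] using h x

include hc in
lemma isSquare_char2' (x : F) : IsSquare x := by
  have hchar : ringChar F = 2 := by
    have h1 : ringChar F ∣ 2 := (CharP.cast_eq_zero_iff F (ringChar F) 2).1 (by exact_mod_cast hc)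
    have h2 := (Nat.dvd_prime Nat.prime_two).1 h1
    rcases h2 with h2 | h2
    · exact absurd h2 (CharP.char_ne_one F (ringChar F))
    · exact h2
  exact FiniteField.isSquare_of_char_two hchar x

include hc in
/-- elements with `rank (t - 1) = 1` are the `τ_u`. -/
lemma exists_tau (t : symplecticGroup l F) (ht : ((t : Matrix (l ⊕ l) (l ⊕ l) F) - 1).rank = 1) :
    ∃ u : l ⊕ l → F, u ≠ 0 ∧ t = tau u := by
  obtain ⟨v, w, hv, hw, hdec⟩ := exists_decomp' _ ht
  have ht' : ∀ x, (t : Matrix (l ⊕ l) (l ⊕ l) F) *ᵥ x = x + (w ⬝ᵥ x) • v := by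
    intro x
    have : (t : Matrix (l ⊕ l) (l ⊕ l) F) = 1 + vecMulVec v w := by rw [← hdec]; abel
    rw [this, Matrix.add_mulVec, Matrix.one_mulVec, Matrix.vecMulVec_mulVec]
    funext k
    simp [mul_comm]
  have hform : ∀ x y, (w ⬝ᵥ y) * Lead.sympForm x v + (w ⬝ᵥ x) * Lead.sympForm v y = 0 := by
    intro x y
    have h1 := sympForm_mulVec t.2 x y
    rw [ht', ht', sympForm_add_left, sympForm_add_right, sympForm_add_right, sympForm_smul_left,
      sympForm_smul_left, sympForm_smul_right, sympForm_smul_right, sympForm_self] at h1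
    linear_combination h1
  obtain ⟨z, hz⟩ := sympForm_nondeg hv
  have hz' : Lead.sympForm z v ≠ 0 := by
    rw [sympForm_swap]
    exact neg_ne_zero.2 hz
  set c := (w ⬝ᵥ z) * (Lead.sympForm z v)⁻¹ with hcdef
  have hw_eq : ∀ y, w ⬝ᵥ y = c * Lead.sympForm y v := by
    intro y
    have h1 := hform z y
    rw [sympForm_swap v y] at h1
    rw [hcdef]
    field_simp
    linear_combination h1
  have hc0 : c ≠ 0 := by
    intro h0
    apply hw
    funext k
    have := hw_eq (Pi.single k 1)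
    rw [h0, zero_mul, dotProduct_single, mul_one] at this
    exact this
  obtain ⟨a, ha⟩ := isSquare_char2' hc c
  have ha0 : a ≠ 0 := by
    rintro rfl
    apply hc0
    rw [ha, mul_zero]
  refine ⟨a • v, smul_ne_zero ha0 hv, ?_⟩
  apply Subtype.ext
  apply mat_ext
  intro x
  rw [ht', tau_mulVec, hw_eq, sympForm_smul_right, smul_smul, ha]
  congr 2
  ring

include hc in
lemma tau_injective {u u' : l ⊕ l → F} (hu : u ≠ 0) (h : (tau u : symplecticGroup l F) = tau u') : u = u' := by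
  have h1 : ∀ x : l ⊕ l → F, (Lead.sympForm x u) • u = (Lead.sympForm x u') • u' := by
    intro x
    have := congrArg (fun A : symplecticGroup l F => (A : Matrix (l ⊕ l) (l ⊕ l) F) *ᵥ x) h
    simp only [tau_mulVec] at this
    exact add_left_cancel this
  obtain ⟨z, hz⟩ := sympForm_nondeg hu
  have hz' : Lead.sympForm z u ≠ 0 := by
    rw [sympForm_swap]
    exact neg_ne_zero.2 hz
  set y := (Lead.sympForm z u)⁻¹ • z with hy
  have hy1 : Lead.sympForm y u = 1 := by
    rw [hy, sympForm_smul_left, inv_mul_cancel₀ hz']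
  have h2 := h1 y
  rw [hy1, one_smul] at h2
  set b := Lead.sympForm y u' with hb
  have h3 : Lead.sympForm y u = b * Lead.sympForm y u' := by
    rw [h2, sympForm_smul_right]
  rw [hy1, ← hb] at h3
  have h4 : (b - 1) * (b - 1) = 0 := by
    have : (b - 1) * (b - 1) = b * b - 1 - 2 * (b - 1) := by ring
    rw [this, hc, zero_mul, ← h3]
    ring
  have hb1 : b = 1 := by
    have := mul_self_eq_zero.1 h4
    exact sub_eq_zero.1 this
  rw [h2, hb1, one_smul]

/-- conjugates of `τ_u` -/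
lemma conj_tau (g : symplecticGroup l F) (u : l ⊕ l → F) :
    g * tau u * g⁻¹ = tau ((g : Matrix (l ⊕ l) (l ⊕ l) F) *ᵥ u) := by
  rw [mul_inv_eq_iff_eq_mul]
  apply Subtype.ext
  apply mat_ext
  intro x
  change ((g : Matrix (l ⊕ l) (l ⊕ l) F) * ((tau u : symplecticGroup l F) : Matrix (l ⊕ l) (l ⊕ l) F)) *ᵥ x =
    (((tau ((g : Matrix (l ⊕ l) (l ⊕ l) F) *ᵥ u) : symplecticGroup l F) : Matrix (l ⊕ l) (l ⊕ l) F) * (g : Matrix (l ⊕ l) (l ⊕ l) F)) *ᵥ x
  rw [← Matrix.mulVec_mulVec, ← Matrix.mulVec_mulVec, tau_mulVec, tau_mulVec, Matrix.mulVec_add, Matrix.mulVec_smul,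
    sympForm_mulVec g.2]

include hc in
lemma card_carrier_tau (t : symplecticGroup l F) (ht : ((t : Matrix (l ⊕ l) (l ⊕ l) F) - 1).rank = 1) :
    Nat.card (ConjClasses.mk t).carrier + 1 = Fintype.card F ^ (2 * Fintype.card l) := by
  classical
  obtain ⟨u₀, hu₀, rfl⟩ := exists_tau hc t ht
  have h1 : Nat.card {u : l ⊕ l → F // u ≠ 0} + 1 = Fintype.card F ^ (2 * Fintype.card l) := by
    rw [Transv.card_ne_add_one (0 : l ⊕ l → F), Nat.card_eq_fintype_card, Fintype.card_fun]
    congr 1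
    simp [two_mul]
  rw [← h1]
  congr 1
  symm
  apply Nat.card_congr
  refine Equiv.ofBijective (fun u => ⟨tau u.1, ?_⟩) ⟨?_, ?_⟩
  · obtain ⟨g, hg⟩ := sp_transitive u.2 hu₀
    rw [ConjClasses.mem_carrier_iff_mk_eq, ConjClasses.mk_eq_mk_iff_isConj]
    refine isConj_iff.2 ⟨g, ?_⟩
    rw [conj_tau, hg]
  · rintro ⟨u, hu⟩ ⟨u', hu'⟩ h
    have h2 : (tau u : symplecticGroup l F) = tau u' := congrArg Subtype.val h
    exact Subtype.ext (tau_injective hc hu h2)
  · rintro ⟨g, hg⟩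
    rw [ConjClasses.mem_carrier_iff_mk_eq, ConjClasses.mk_eq_mk_iff_isConj] at hg
    obtain ⟨c, rfl⟩ := isConj_iff.1 hg.symm
    have hne : (c : Matrix (l ⊕ l) (l ⊕ l) F) *ᵥ u₀ ≠ 0 := by
      intro h0
      have h2 := congrArg (fun z => ((c⁻¹ : symplecticGroup l F) : Matrix (l ⊕ l) (l ⊕ l) F) *ᵥ z) h0
      simp only [Matrix.mulVec_mulVec, Matrix.mulVec_zero] at h2
      have h3 : ((c⁻¹ : symplecticGroup l F) : Matrix (l ⊕ l) (l ⊕ l) F) * (c : Matrix (l ⊕ l) (l ⊕ l) F) = 1 := by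
        rw [← Submonoid.coe_mul, inv_mul_cancel]
        rfl
      rw [h3, Matrix.one_mulVec] at h2
      exact hu₀ h2
    exact ⟨⟨_, hne⟩, Subtype.ext (conj_tau c u₀).symm⟩

end char2

end Cfsg.Agent.H11.SpTr
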