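import Cfsg.Agent.Lib.H11.Spec23
import Cfsg.Agent.Lib.H11.Spec17
import Cfsg.Agent.Lib.Lead.SUOrder

/-! Commuting elements in `SU_n`: a prime order element commuting with a unipotent one. -/

set_option autoImplicit false
set_option linter.unusedSectionVars false
set_option linter.unusedVariables false

namespace Cfsg.Agent.H11.Spec

open Polynomial Matrix Module Cfsg.Agent.H11.GUC

variable {F : Type*} [Field F] [Fintype F]

/-- the kernel of a polynomial in a matrix -/
noncomputable abbrev KK {n : ℕ} (σ : Matrix (Fin n) (Fin n) F) (h : F[X]) : Submodule F (Fin n → F) :=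
  LinearMap.ker (aeval σ h).mulVecLin

theorem mem_KK {n : ℕ} (σ : Matrix (Fin n) (Fin n) F) (h : F[X]) (v : Fin n → F) : v ∈ KK σ h ↔ aeval σ h *ᵥ v = 0 := by
  rw [LinearMap.mem_ker, Matrix.mulVecLin_apply]

theorem rank_bound_ker {n : ℕ} (σ N : Matrix (Fin n) (Fin n) F) (hσN : Commute σ N) {P : F[X]} (hP : Irreducible P) (k : ℕ)
    (hnil : IsNilpotent N) (v : Fin n → F) (hv : aeval σ P *ᵥ v = 0) (hk : (N ^ k) *ᵥ v ≠ 0) :
    (k + 1) * P.natDegree ≤ finrank F (KK σ P) := by
  classical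
  let W := KK σ P
  have hcP : ∀ X : Matrix (Fin n) (Fin n) F, Commute X σ → X * aeval σ P = aeval σ P * X := fun X hX =>
    (aeval_commute_of (F := F) hX P).eq
  have hinv : ∀ (X : Matrix (Fin n) (Fin n) F), Commute X σ → ∀ v ∈ W, X.mulVecLin v ∈ W := by
    intro X hX v hv
    rw [mem_KK] at hv ⊢
    rw [Matrix.mulVecLin_apply, Matrix.mulVec_mulVec, ← hcP X hX, ← Matrix.mulVec_mulVec, hv, Matrix.mulVec_zero]
  let T : W →ₗ[F] W := σ.mulVecLin.restrict (hinv σ (Commute.refl σ))
  let N' : W →ₗ[F] W := N.mulVecLin.restrict (hinv N hσN.symm)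
  have hT : ∀ v : W, (T v : Fin n → F) = σ.mulVecLin v := fun v => rfl
  have hN' : ∀ v : W, (N' v : Fin n → F) = N.mulVecLin v := fun v => rfl
  have hcomm : Commute T N' := by
    apply LinearMap.ext
    intro v
    apply Subtype.ext
    change σ.mulVecLin (N.mulVecLin v) = N.mulVecLin (σ.mulVecLin v)
    simp only [Matrix.mulVecLin_apply, Matrix.mulVec_mulVec]
    rw [hσN.eq]
  have hann' : aeval T P = 0 := by
    apply LinearMap.ext
    intro v
    apply Subtype.ext
    rw [Cfsg.Agent.H11.PSpG.aeval_restr T σ.mulVecLin hT, aeval_mulVecLin]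
    have := (mem_KK σ P _).1 v.2
    simpa [Matrix.mulVecLin_apply] using this
  have hpow : ∀ (j : ℕ) (v : W), ((N' ^ j) v : Fin n → F) = (N ^ j) *ᵥ (v : Fin n → F) := by
    intro j v
    rw [Cfsg.Agent.H11.PSpG.pow_on N' N.mulVecLin hN', ← Cfsg.Agent.H11.mulVecLin_pow']
    rfl
  obtain ⟨m, hm⟩ := hnil
  have hnil' : IsNilpotent N' := by
    refine ⟨m, ?_⟩
    apply LinearMap.ext
    intro v
    apply Subtype.ext
    rw [hpow, hm]
    simp
  have hk' : N' ^ k ≠ 0 := by
    intro h0
    apply hk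
    have h1 := hpow k ⟨v, (mem_KK σ P v).2 hv⟩
    rw [h0] at h1
    exact h1.symm
  exact (rank_bound T N' hcomm hP hann' k hnil' hk').1

/-- descending to an irreducible factor -/
theorem exists_factor_nonzero {n : ℕ} (σ N : Matrix (Fin n) (Fin n) F) :
    ∀ (d : ℕ) (h : F[X]), h.natDegree = d → h ≠ 0 → h.Separable → ∀ v : Fin n → F, aeval σ h *ᵥ v = 0 → N *ᵥ v ≠ 0 →
      ∃ R : F[X], R.Monic ∧ Irreducible R ∧ R ∣ h ∧ ∃ v' : Fin n → F, aeval σ R *ᵥ v' = 0 ∧ N *ᵥ v' ≠ 0 := by
  intro d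
  induction d using Nat.strong_induction_on with
  | _ d ih =>
    intro h hd h0 hsep v hv hNv
    have hu : ¬ IsUnit h := by
      intro hu
      obtain ⟨c, hc⟩ := hu.exists_right_inv
      have h1 : aeval σ (h * c) *ᵥ v = v := by
        rw [hc, map_one, Matrix.one_mulVec]
      rw [mul_comm, map_mul, ← Matrix.mulVec_mulVec, hv, Matrix.mulVec_zero] at h1
      apply hNv
      rw [← h1, Matrix.mulVec_zero]
    rcases irreducible_or_factor hu with hirr | ⟨h₁, h₂, hh₁, hh₂, hh⟩
    · have hlc : h.leadingCoeff⁻¹ ≠ 0 := inv_ne_zero (leadingCoeff_ne_zero.2 h0)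
      have hU : IsUnit (C (h.leadingCoeff)⁻¹ : F[X]) := isUnit_C.2 (IsUnit.mk0 _ hlc)
      refine ⟨h * C (h.leadingCoeff)⁻¹, monic_mul_leadingCoeff_inv h0, (irreducible_mul_isUnit hU).2 hirr, ?_, v, ?_, hNv⟩
      · exact hU.mul_right_dvd.2 dvd_rfl
      · have e : aeval σ (h * C (h.leadingCoeff)⁻¹) = aeval σ (C (h.leadingCoeff)⁻¹ : F[X]) * aeval σ h := by
          rw [mul_comm, map_mul]
        rw [e, ← Matrix.mulVec_mulVec, hv, Matrix.mulVec_zero]
    · have h₁0 : h₁ ≠ 0 := by
        rintro rfl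
        rw [zero_mul] at hh
        exact h0 hh
      have h₂0 : h₂ ≠ 0 := by
        rintro rfl
        rw [mul_zero] at hh
        exact h0 hh
      have hco : IsCoprime h₁ h₂ := by
        rw [hh] at hsep
        exact hsep.isCoprime
      have hdeg : h.natDegree = h₁.natDegree + h₂.natDegree := by
        rw [hh, natDegree_mul h₁0 h₂0]
      have hd₁ : 0 < h₁.natDegree := Polynomial.natDegree_pos_iff_degree_pos.2
        (Polynomial.degree_pos_of_ne_zero_of_nonunit h₁0 hh₁)
      have hd₂ : 0 < h₂.natDegree := Polynomial.natDegree_pos_iff_degree_pos.2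
        (Polynomial.degree_pos_of_ne_zero_of_nonunit h₂0 hh₂)
      obtain ⟨a, b, hab⟩ := hco
      have hsplit : v = (aeval σ b * aeval σ h₂) *ᵥ v + (aeval σ a * aeval σ h₁) *ᵥ v := by
        have h1 : aeval σ (a * h₁ + b * h₂) *ᵥ v = v := by
          rw [hab, map_one, Matrix.one_mulVec]
        rw [map_add, map_mul, map_mul, Matrix.add_mulVec, add_comm] at h1
        exact h1.symm
      set v₁ := (aeval σ b * aeval σ h₂) *ᵥ v with hv₁
      set v₂ := (aeval σ a * aeval σ h₁) *ᵥ v with hv₂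
      have hk1 : aeval σ h₁ *ᵥ v₁ = 0 := by
        rw [hv₁, Matrix.mulVec_mulVec]
        have : aeval σ h₁ * (aeval σ b * aeval σ h₂) = aeval σ b * aeval σ h := by
          rw [hh, map_mul]
          have e : aeval σ h₁ * aeval σ b = aeval σ b * aeval σ h₁ := by
            rw [← map_mul, ← map_mul, mul_comm]
          rw [← mul_assoc, e, mul_assoc]
        rw [this, ← Matrix.mulVec_mulVec, hv, Matrix.mulVec_zero]
      have hk2 : aeval σ h₂ *ᵥ v₂ = 0 := by
        rw [hv₂, Matrix.mulVec_mulVec]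
        have : aeval σ h₂ * (aeval σ a * aeval σ h₁) = aeval σ a * aeval σ h := by
          rw [hh, map_mul]
          have e : aeval σ h₂ * aeval σ a = aeval σ a * aeval σ h₂ := by
            rw [← map_mul, ← map_mul, mul_comm]
          have e2 : aeval σ h₁ * aeval σ h₂ = aeval σ h₂ * aeval σ h₁ := by
            rw [← map_mul, ← map_mul, mul_comm]
          rw [← mul_assoc, e, mul_assoc, e2]
        rw [this, ← Matrix.mulVec_mulVec, hv, Matrix.mulVec_zero]
      have hor : N *ᵥ v₁ ≠ 0 ∨ N *ᵥ v₂ ≠ 0 := by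
        by_contra hcon
        push Not at hcon
        apply hNv
        rw [hsplit, Matrix.mulVec_add, hcon.1, hcon.2, add_zero]
      rcases hor with hN1 | hN2
      · obtain ⟨R, hRm, hRi, hRd, hrest⟩ := ih h₁.natDegree (by omega) h₁ rfl h₁0
          (by
            rw [hh] at hsep
            exact hsep.of_mul_left) v₁ hk1 hN1
        exact ⟨R, hRm, hRi, hRd.trans (Dvd.intro _ hh.symm), hrest⟩
      · obtain ⟨R, hRm, hRi, hRd, hrest⟩ := ih h₂.natDegree (by omega) h₂ rfl h₂0
          (by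
            rw [hh] at hsep
            exact hsep.of_mul_right) v₂ hk2 hN2
        exact ⟨R, hRm, hRi, hRd.trans (Dvd.intro_left _ hh.symm), hrest⟩

/-- disjointness of kernels -/
theorem finrank_KK_add {n : ℕ} (σ : Matrix (Fin n) (Fin n) F) {A B : F[X]} (h : IsCoprime A B) :
    finrank F (KK σ A) + finrank F (KK σ B) ≤ finrank F (KK σ (A * B)) := by
  have hd : KK σ A ⊓ KK σ B = ⊥ := by
    rw [eq_bot_iff]
    intro v hv
    rw [Submodule.mem_inf, mem_KK, mem_KK] at hv
    exact eq_zero_of_coprime σ h v hv.1 hv.2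
  have h1 := Submodule.finrank_sup_add_finrank_inf_eq (KK σ A) (KK σ B)
  rw [hd, finrank_bot, add_zero] at h1
  rw [← h1]
  apply Submodule.finrank_mono
  apply sup_le
  · intro v hv
    rw [mem_KK] at hv ⊢
    have e : aeval σ (A * B) = aeval σ B * aeval σ A := by rw [mul_comm, map_mul]
    rw [e, ← Matrix.mulVec_mulVec, hv, Matrix.mulVec_zero]
  · intro v hv
    rw [mem_KK] at hv ⊢
    rw [map_mul, ← Matrix.mulVec_mulVec, hv, Matrix.mulVec_zero]

theorem finrank_KK_le {n : ℕ} (σ : Matrix (Fin n) (Fin n) F) (h : F[X]) : finrank F (KK σ h) ≤ n := by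
  have := Submodule.finrank_le (KK σ h)
  simpa using this

/-- an irreducible factor of the minimal polynomial has a nonzero kernel -/
theorem exists_ker_of_dvd_minpoly {n : ℕ} (σ : Matrix (Fin n) (Fin n) F) {R : F[X]} (hR : Irreducible R) (hd : R ∣ minpoly F σ) :
    ∃ v : Fin n → F, v ≠ 0 ∧ aeval σ R *ᵥ v = 0 := by
  obtain ⟨Q, hQ⟩ := hd
  have hint : IsIntegral F σ := Algebra.IsIntegral.isIntegral σ
  have hM0 : minpoly F σ ≠ 0 := minpoly.ne_zero hint
  have hQ0 : Q ≠ 0 := by
    rintro rfl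
    rw [mul_zero] at hQ
    exact hM0 hQ
  have hQσ : aeval σ Q ≠ 0 := by
    intro h0
    have h1 : minpoly F σ ∣ Q := minpoly.dvd F σ h0
    have h2 := natDegree_le_of_dvd h1 hQ0
    rw [hQ, natDegree_mul hR.ne_zero hQ0] at h2
    have := hR.natDegree_pos
    omega
  obtain ⟨w, hw⟩ := exists_ne_mulVec _ hQσ
  refine ⟨_, hw, ?_⟩
  rw [Matrix.mulVec_mulVec, ← map_mul, ← hQ, minpoly.aeval, Matrix.zero_mulVec]

/-- the degree of an irreducible factor of `X ^ r - 1` -/
theorem r_dvd_card_of_factor {r : ℕ} (hr : r.Prime) {R : F[X]} (hR : Irreducible R) (h1 : R ∣ X ^ r - 1) (h2 : ¬ R ∣ (X - 1 : F[X])) :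
    r ∣ Fintype.card F ^ R.natDegree - 1 := by
  classical
  haveI : Fact (Irreducible R) := ⟨hR⟩
  let K := AdjoinRoot R
  have hR0 : R ≠ 0 := hR.ne_zero
  let pb := AdjoinRoot.powerBasis hR0
  haveI : Module.Finite F K := pb.finite
  have hfin : Module.finrank F K = R.natDegree := by
    rw [pb.finrank]
    exact AdjoinRoot.powerBasis_dim hR0
  haveI : Finite K := Module.finite_of_finite F
  haveI : Fintype K := Fintype.ofFinite K
  have hcard : Fintype.card K = Fintype.card F ^ R.natDegree := by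
    rw [← hfin]
    exact Module.card_eq_pow_finrank (K := F) (V := K)
  let x : K := AdjoinRoot.root R
  have hx0 : x ≠ 0 := by
    intro h0
    have h3 := AdjoinRoot.mk_eq_zero.2 h1
    rw [map_sub, map_pow, AdjoinRoot.mk_X, map_one] at h3
    change x ^ r - 1 = 0 at h3
    rw [h0, zero_pow hr.ne_zero, zero_sub] at h3
    exact one_ne_zero (neg_eq_zero.1 h3)
  have h3 : R ∣ X ^ (Fintype.card K - 1) - 1 := by
    apply AdjoinRoot.mk_eq_zero.1
    rw [map_sub, map_pow, AdjoinRoot.mk_X, map_one]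
    change x ^ (Fintype.card K - 1) - 1 = 0
    rw [FiniteField.pow_card_sub_one_eq_one x hx0, sub_self]
  have := r_dvd_of_dvd hr h1 h2 h3
  rwa [hcard] at this

theorem dag_X_sub_one {ρ : F →+* F} : dag ρ (X - 1 : F[X]) = X - 1 := by
  unfold dag
  have h1 : (X - 1 : F[X]).map ρ = X - 1 := by simp
  have h2 : (X - 1 : F[X]).coeff 0 = -1 := by simp
  rw [h1, h2, map_neg, map_one]
  have h3 : (X - 1 : F[X]).reverse = 1 - X := by
    ext i
    rw [Polynomial.coeff_reverse]
    have hd : (X - 1 : F[X]).natDegree = 1 := by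
      simpa using natDegree_X_sub_C (1 : F)
    rw [hd]
    rcases i with _ | _ | i
    · have : Polynomial.revAt 1 0 = 1 := by
        rw [Polynomial.revAt_le (by norm_num)]
      rw [this]
      simp [coeff_X, coeff_one]
    · have : Polynomial.revAt 1 (0 + 1) = 0 := by
        rw [Polynomial.revAt_le (by norm_num)]
      rw [this]
      simp [coeff_X, coeff_one]
    · have : Polynomial.revAt 1 (i + 1 + 1) = i + 1 + 1 := by
        change (if i + 1 + 1 ≤ 1 then 1 - (i + 1 + 1) else i + 1 + 1) = i + 1 + 1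
        rw [if_neg (by omega)]
      rw [this]
      simp [coeff_X, coeff_one]
  rw [h3]
  simp

end Cfsg.Agent.H11.Spec
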