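import Cfsg.Agent.Lib.H11.Spec24

/-! Commuting elements in `PSU_n`. -/

set_option autoImplicit false
set_option linter.unusedSectionVars false
set_option linter.unusedVariables false

namespace Cfsg.Agent.H11.Spec

open Polynomial Matrix Module Cfsg.Agent.H11.GUC

variable {F : Type*} [Field F] [Fintype F]

/-- the core: a unitary element of prime order commuting with a nontrivial unipotent element -/
theorem su_commuting_core {p a q m r e : ℕ} [hpf : Fact p.Prime] [CharP F p] {ρ : F →+* F} (hρq : ∀ x, ρ x = x ^ q)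
    (hρ : ∀ x, ρ (ρ x) = x) (hne : ∃ c, ρ c ≠ c) (hF : Fintype.card F = q ^ 2) (hq : q = p ^ a) (ha : 1 ≤ a) (hm : 4 ≤ m)
    (σ u : Matrix (Fin m) (Fin m) F) (hσ : dg ρ σ * σ = 1) (hr : r.Prime) (hrF : (r : F) ≠ 0) (hσr : σ ^ r = 1) (hσ1 : σ ≠ 1)
    (hU : u ^ (p ^ e) = 1) (hU1 : u ≠ 1) (hc : Commute σ u) :
    r ∣ q + 1 ∨ ∃ j, 2 ≤ j ∧ j ≤ m - 2 ∧ r ∣ (if Even j then q ^ j - 1 else q ^ j + 1) := by
  classical
  have hp : p.Prime := Fact.out
  haveI : Nonempty (Fin m) := ⟨⟨0, by omega⟩⟩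
  haveI : CharP (Matrix (Fin m) (Fin m) F) p := inferInstance
  set N : Matrix (Fin m) (Fin m) F := u - 1 with hN
  have hσN : Commute σ N := hc.sub_right (Commute.one_right _)
  have hNnil : IsNilpotent N := by
    refine ⟨p ^ e, ?_⟩
    rw [hN, sub_pow_char_pow_of_commute p e (Commute.one_right _), hU, one_pow, sub_self]
  have hN0 : N ≠ 0 := fun h => hU1 (sub_eq_zero.1 h)
  obtain ⟨v, hv⟩ := exists_ne_mulVec N hN0
  set M := minpoly F σ with hM
  have hint : IsIntegral F σ := Algebra.IsIntegral.isIntegral σ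
  have hMm : M.Monic := minpoly.monic hint
  have hMa : aeval σ M = 0 := minpoly.aeval F σ
  have hsep : (X ^ r - C (1 : F)).Separable := separable_X_pow_sub_C (1 : F) hrF one_ne_zero
  rw [C_1] at hsep
  have hMd : M ∣ X ^ r - 1 := by
    apply minpoly.dvd
    simp [hσr]
  have hMsep : M.Separable := hsep.of_dvd hMd
  have hM0 : M.coeff 0 ≠ 0 := by
    intro h0
    obtain ⟨g', hg'⟩ := Polynomial.X_dvd_iff.2 h0
    have hg0 : g' ≠ 0 := by
      rintro rfl
      rw [mul_zero] at hg'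
      exact hMm.ne_zero hg'
    have h3' : aeval σ g' = 0 := by
      rw [hg', map_mul, aeval_X] at hMa
      have := congrArg (fun m => dg ρ σ * m) hMa
      simpa only [← mul_assoc, hσ, one_mul, mul_zero] using this
    have h4' : M ∣ g' := minpoly.dvd F _ h3'
    have h5 := natDegree_le_of_dvd h4' hg0
    rw [hg', natDegree_X_mul hg0] at h5
    omega
  have hMg : GoodP M := ⟨hMm, hM0⟩
  have hdM : dag ρ M = M := by
    have h5 : M ∣ dag ρ M := minpoly.dvd F _ (aeval_dag hρ σ hσ hMa)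
    exact (eq_of_monic_of_dvd_of_natDegree_le hMm (dag_monic hMg) h5 (dag_natDegree hMg).le)
  have hdagdvd : ∀ R : F[X], R ∣ M → dag ρ R ∣ M := by
    rintro R ⟨Q, hQ⟩
    have h5 : dag ρ M = dag ρ R * dag ρ Q := by rw [hQ, dag_mul]
    rw [← hdM, h5]
    exact Dvd.intro _ rfl
  -- bounds for kernels
  have hker : ∀ R : F[X], Irreducible R → R ∣ M → R.natDegree ≤ finrank F (KK σ R) := by
    intro R hRi hRd
    obtain ⟨w, hw0, hw⟩ := exists_ker_of_dvd_minpoly σ hRi hRd
    have := rank_bound_ker σ N hσN hRi 0 hNnil w hw (by simpa using hw0)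
    simpa using this
  -- the final alternative, for a self-dual or non-self-dual factor
  have hfinal : ∀ R : F[X], R.Monic → Irreducible R → R ∣ M → ¬ R ∣ (X - 1 : F[X]) →
      (dag ρ R = R → 2 * R.natDegree ≤ m ∨ R.natDegree + 2 ≤ m) →
      (dag ρ R ≠ R → 3 * R.natDegree ≤ m ∨ 2 * R.natDegree + 2 ≤ m) →
      r ∣ q + 1 ∨ ∃ j, 2 ≤ j ∧ j ≤ m - 2 ∧ r ∣ (if Even j then q ^ j - 1 else q ^ j + 1) := by
    intro R hRm hRi hRd hR1 hA hB
    have hRg : GoodP R := good_of_dvd hMg hRm hRd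
    have hR0 : 0 < R.natDegree := hRi.natDegree_pos
    by_cases hdag : dag ρ R = R
    · obtain ⟨h5, h6⟩ := selfdual_facts hρq hρ hne hF hq ha hRi hRg hdag
      have h7 : r ∣ q ^ R.natDegree + 1 := r_dvd_of_dvd hr (hRd.trans hMd) hR1 h6
      by_cases hd1 : R.natDegree = 1
      · left
        rw [hd1, pow_one] at h7
        exact h7
      · right
        have h8 := hA hdag
        have hd3 : 3 ≤ R.natDegree := by
          obtain ⟨w, hw⟩ := h5
          omega
        refine ⟨R.natDegree, by omega, by omega, ?_⟩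
        rw [if_neg (Nat.not_even_iff_odd.2 h5)]
        exact h7
    · right
      have h8 := hB hdag
      refine ⟨2 * R.natDegree, by omega, by omega, ?_⟩
      rw [if_pos (even_two_mul _)]
      have h9 := r_dvd_card_of_factor hr hRi (hRd.trans hMd) hR1
      rw [hF, ← pow_mul] at h9
      exact h9
  obtain ⟨R, hRm, hRi, hRd, v', hv', hNv'⟩ := exists_factor_nonzero σ N _ M rfl hMm.ne_zero hMsep v
    (by rw [hMa, Matrix.zero_mulVec]) hv
  have hRrank : 2 * R.natDegree ≤ finrank F (KK σ R) := by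
    have := rank_bound_ker σ N hσN hRi 1 hNnil v' hv' (by simpa using hNv')
    simpa using this
  have hRn : finrank F (KK σ R) ≤ m := finrank_KK_le σ R
  by_cases hR1 : R ∣ (X - 1 : F[X])
  · -- `N` is nonzero on the fixed space
    have hRdeg : R.natDegree = 1 := by
      have h5 := natDegree_le_of_dvd hR1 (X_sub_C_ne_zero (1 : F) |> (by simpa using ·))
      have h6 : (X - 1 : F[X]).natDegree = 1 := by simpa using natDegree_X_sub_C (1 : F)
      have := hRi.natDegree_pos
      omega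
    obtain ⟨R', hR'm, hR'i, hR'd, hR'r, hR'N⟩ := exists_irr_factor_monic hr hrF σ hσr hσ1
    have hR'1 : ¬ R' ∣ (X - 1 : F[X]) := by
      intro h
      have h5 : R' ∣ X ^ 1 - 1 := by rwa [pow_one]
      have h6 := hR'N 1 h5
      exact hr.one_lt.ne' (Nat.dvd_one.1 h6)
    have hcop1 : IsCoprime R' R := (hR'i.coprime_iff_not_dvd).2 (fun h => hR'1 (h.trans hR1))
    refine hfinal R' hR'm hR'i hR'd hR'1 ?_ ?_
    · intro _
      right
      have h5 := finrank_KK_add σ hcop1
      have h6 := finrank_KK_le σ (R' * R)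
      have h7 := hker R' hR'i hR'd
      omega
    · intro hdag
      right
      have hR'g : GoodP R' := good_of_dvd hMg hR'm hR'd
      have hi' : Irreducible (dag ρ R') := dag_irreducible hρ hR'i hR'g
      have hnd : ¬ R' ∣ dag ρ R' := by
        intro hd
        have h5 : Associated R' (dag ρ R') := hR'i.associated_of_dvd hi' hd
        exact hdag (eq_of_monic_of_associated hR'm (dag_monic hR'g) h5).symm
      have hco2 : IsCoprime R' (dag ρ R') := (hR'i.coprime_iff_not_dvd).2 hnd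
      have hnd2 : ¬ dag ρ R' ∣ R := by
        intro hd
        have h5 : dag ρ R' ∣ (X - 1 : F[X]) := hd.trans hR1
        obtain ⟨Q, hQ⟩ := h5
        have h6 : dag ρ (X - 1 : F[X]) = dag ρ (dag ρ R') * dag ρ Q := by
          rw [hQ, dag_mul]
        rw [dag_X_sub_one, dag_dag hρ hR'g] at h6
        exact hR'1 (Dvd.intro _ h6.symm)
      have hco3 : IsCoprime (dag ρ R') R := (hi'.coprime_iff_not_dvd).2 hnd2
      have h5 := finrank_KK_add σ hco2
      have h6 := finrank_KK_add σ (IsCoprime.mul_left hcop1 hco3)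
      have h7 := finrank_KK_le σ (R' * dag ρ R' * R)
      have h8 := hker R' hR'i hR'd
      have h9 := hker (dag ρ R') hi' (hdagdvd _ hR'd)
      rw [dag_natDegree hR'g] at h9
      omega
  · refine hfinal R hRm hRi hRd hR1 ?_ ?_
    · intro _
      left
      omega
    · intro hdag
      left
      have hRg : GoodP R := good_of_dvd hMg hRm hRd
      have hi' : Irreducible (dag ρ R) := dag_irreducible hρ hRi hRg
      have hnd : ¬ R ∣ dag ρ R := by
        intro hd
        have h5 : Associated R (dag ρ R) := hRi.associated_of_dvd hi' hd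
        exact hdag (eq_of_monic_of_associated hRm (dag_monic hRg) h5).symm
      have hco2 : IsCoprime R (dag ρ R) := (hRi.coprime_iff_not_dvd).2 hnd
      have h5 := finrank_KK_add σ hco2
      have h6 := finrank_KK_le σ (R * dag ρ R)
      have h9 := hker (dag ρ R) hi' (hdagdvd _ hRd)
      rw [dag_natDegree hRg] at h9
      omega

/-- the divisors of `|SU_k(q)|` -/
theorem dvd_card_SU {q k : ℕ} (hF : Fintype.card F = q ^ 2) (hq : 1 < q) (hk : 2 ≤ k) {j : ℕ} (hj2 : 2 ≤ j) (hjk : j ≤ k) :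
    (if Even j then q ^ j - 1 else q ^ j + 1) ∣ Nat.card (Cfsg.SU k F q) := by
  have h1 := Cfsg.Agent.Lead.card_GU_eq (n := k) hF (by omega)
  rw [Cfsg.Agent.Lead.card_GU hF] at h1
  obtain ⟨k', rfl⟩ : ∃ k', k = k' + 1 := ⟨k - 1, by omega⟩
  rw [Finset.prod_range_succ'] at h1
  simp only [Even.zero, if_true, zero_add, pow_one] at h1
  have h2 : q ^ ((k' + 1) * (k' + 1 - 1) / 2) * ∏ i ∈ Finset.range k', (if Even (i + 1) then q ^ (i + 1 + 1) + 1 else q ^ (i + 1 + 1) - 1) =
      Nat.card (Cfsg.SU (k' + 1) F q) := by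
    have h3 : (q + 1) * (q ^ ((k' + 1) * (k' + 1 - 1) / 2) * ∏ i ∈ Finset.range k', (if Even (i + 1) then q ^ (i + 1 + 1) + 1 else q ^ (i + 1 + 1) - 1)) =
        (q + 1) * Nat.card (Cfsg.SU (k' + 1) F q) := by
      rw [← h1]
      ring
    exact Nat.eq_of_mul_eq_mul_left (by omega) h3
  rw [← h2]
  apply Dvd.dvd.mul_left
  obtain ⟨i, rfl⟩ : ∃ i, j = i + 1 + 1 := ⟨j - 2, by omega⟩
  have h3 : i ∈ Finset.range k' := Finset.mem_range.2 (by omega)
  have h4 := Finset.dvd_prod_of_mem (fun i => (if Even (i + 1) then q ^ (i + 1 + 1) + 1 else q ^ (i + 1 + 1) - 1)) h3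
  refine Dvd.dvd.trans ?_ h4
  by_cases he : Even (i + 1)
  · have : ¬ Even (i + 1 + 1) := by
      rw [Nat.not_even_iff_odd]
      exact he.add_one
    simp [he, this]
  · have : Even (i + 1 + 1) := (Nat.not_even_iff_odd.1 he).add_one
    simp [he, this]

/-- the main statement -/
theorem psu_commuting (p : ℕ) [hpf : Fact p.Prime] [CharP F p] (m q : ℕ) (hm : 4 ≤ m) (hF : Fintype.card F = q ^ 2)
    (a b : Cfsg.PSU m F q) (ha : orderOf a = p) (hab : Commute a b) :
    (orderOf b).primeFactors ⊆ (Nat.card ↥(Cfsg.SU (m - 2) F q)).primeFactors := by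
  classical
  have hp : p.Prime := Fact.out
  intro r hr'
  rw [Nat.mem_primeFactors] at hr' ⊢
  obtain ⟨hr, hrb, -⟩ := hr'
  refine ⟨hr, ?_, Nat.card_pos.ne'⟩
  have hcardF : 1 < Fintype.card F := Fintype.one_lt_card
  have hq1 : 1 < q := by
    by_contra hlt
    push Not at hlt
    have : q ^ 2 ≤ 1 := by
      calc q ^ 2 ≤ 1 ^ 2 := Nat.pow_le_pow_left hlt 2
        _ = 1 := by norm_num
    omega
  obtain ⟨k, hp2, hqk⟩ := FiniteField.card F p
  obtain ⟨a', -, hq⟩ : ∃ a', a' ≤ (k : ℕ) ∧ q = p ^ a' := by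
    have h1 : q ∣ p ^ (k : ℕ) := by
      rw [← hqk, hF]
      exact dvd_pow_self _ (by norm_num)
    exact (Nat.dvd_prime_pow hp).1 h1
  have ha' : 1 ≤ a' := by
    rcases Nat.eq_zero_or_pos a' with h | h
    · rw [h, pow_zero] at hq
      omega
    · exact h
  obtain ⟨ρ, hρq, hρ, hne⟩ := Cfsg.Agent.H11.GUC.setup (q := q) hF
  have hm2 : 2 ≤ m - 2 := by omega
  have hq2 : (q + 1) ∣ Nat.card (Cfsg.SU (m - 2) F q) := by
    have h1 := dvd_card_SU (k := m - 2) hF hq1 hm2 (j := 2) (by omega) hm2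
    rw [if_pos (by decide)] at h1
    refine Dvd.dvd.trans ?_ h1
    have h10 : q ^ 2 - 1 = (q + 1) * (q - 1) := by
      obtain ⟨u, rfl⟩ : ∃ u, q = u + 1 := ⟨q - 1, by omega⟩
      simp only [Nat.add_sub_cancel]
      have : (u + 1) ^ 2 = (u + 1 + 1) * u + 1 := by ring
      omega
    rw [h10]
    exact Dvd.intro _ rfl
  by_cases hrp : r = p
  · -- the characteristic
    subst hrp
    have h1 := Cfsg.Agent.Lead.card_GU_eq (n := m - 2) hF (by omega)
    rw [Cfsg.Agent.Lead.card_GU hF] at h1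
    obtain ⟨k', hk'⟩ : ∃ k', m - 2 = k' + 1 := ⟨m - 3, by omega⟩
    rw [hk', Finset.prod_range_succ'] at h1
    simp only [Even.zero, if_true, zero_add, pow_one] at h1
    have h2 : q ^ ((k' + 1) * (k' + 1 - 1) / 2) * ∏ i ∈ Finset.range k', (if Even (i + 1) then q ^ (i + 1 + 1) + 1 else q ^ (i + 1 + 1) - 1) =
        Nat.card (Cfsg.SU (k' + 1) F q) := by
      have h3 : (q + 1) * (q ^ ((k' + 1) * (k' + 1 - 1) / 2) * ∏ i ∈ Finset.range k', (if Even (i + 1) then q ^ (i + 1 + 1) + 1 else q ^ (i + 1 + 1) - 1)) =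
          (q + 1) * Nat.card (Cfsg.SU (k' + 1) F q) := by
        rw [← h1]
        ring
      exact Nat.eq_of_mul_eq_mul_left (by omega) h3
    rw [hk', ← h2]
    apply Dvd.dvd.mul_right
    have hk1 : 1 ≤ k' := by omega
    have h5 : 0 < (k' + 1) * (k' + 1 - 1) / 2 := by
      apply Nat.div_pos _ (by norm_num)
      have : (k' + 1) * (k' + 1 - 1) = (k' + 1) * k' := by simp
      rw [this]
      nlinarith
    rw [hq]
    exact Dvd.dvd.pow (dvd_pow_self _ (by omega)) (by omega)
  have hrp2 : ¬ p ∣ r := fun h => hrp ((Nat.prime_dvd_prime_iff_eq hp hr).1 h).symm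
  have hrF : (r : F) ≠ 0 := fun h0 => hrp2 ((CharP.cast_eq_zero_iff F p r).1 h0)
  -- lifts
  have hm0 : 2 ≤ m := by omega
  obtain ⟨a₁, rfl⟩ := QuotientGroup.mk_surjective a
  obtain ⟨b₁, rfl⟩ := QuotientGroup.mk_surjective b
  have hoa : orderOf a₁ ≠ 0 := (orderOf_pos_iff.2 (isOfFinOrder_of_finite a₁)).ne'
  obtain ⟨e, m₁, hm₁, hom⟩ := Nat.exists_eq_pow_mul_and_not_dvd hoa p hp.ne_one
  have hcop : Nat.Coprime m₁ p := ((Nat.Prime.coprime_iff_not_dvd hp).2 hm₁).symm
  obtain ⟨s, -, hs⟩ := Nat.exists_mul_mod_eq_one_of_coprime hcop hp.one_lt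
  let u := a₁ ^ (m₁ * s)
  have hupow : u ^ (p ^ e) = 1 := by
    simp only [u]
    rw [← pow_mul, show m₁ * s * p ^ e = orderOf a₁ * s by rw [hom]; ring, pow_mul, pow_orderOf_eq_one, one_pow]
  have humk : (QuotientGroup.mk u : Cfsg.PSU m F q) = QuotientGroup.mk a₁ := by
    simp only [u]
    rw [QuotientGroup.mk_pow]
    have := pow_mod_orderOf (QuotientGroup.mk a₁ : Cfsg.PSU m F q) (m₁ * s)
    rw [ha, hs, pow_one] at this
    exact this.symm
  have hu1 : u ≠ 1 := by
    intro h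
    rw [h] at humk
    have h2 : (QuotientGroup.mk a₁ : Cfsg.PSU m F q) = 1 := humk.symm
    rw [h2, orderOf_one] at ha
    exact hp.ne_one ha.symm
  -- `b₁` commutes with `u`
  let c := b₁ * u * b₁⁻¹ * u⁻¹
  have hcZ : c ∈ Subgroup.center (Cfsg.SU m F q) := by
    rw [← QuotientGroup.eq_one_iff]
    simp only [c]
    rw [QuotientGroup.mk_mul, QuotientGroup.mk_mul, QuotientGroup.mk_mul, QuotientGroup.mk_inv, QuotientGroup.mk_inv,
      humk]
    have := hab.eq
    rw [mul_inv_eq_one, mul_inv_eq_iff_eq_mul]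
    exact this.symm
  have hcu : b₁ * u * b₁⁻¹ = c * u := by
    simp [c]
  have hcpow : c ^ (p ^ e) = 1 := by
    have h1 : (b₁ * u * b₁⁻¹) ^ (p ^ e) = 1 := by
      rw [conj_pow, hupow]
      simp
    rw [hcu] at h1
    have hcomm : Commute c u := (Subgroup.mem_center_iff.1 hcZ u).symm
    rw [hcomm.mul_pow, hupow, mul_one] at h1
    exact h1
  have hc1 : c = 1 := by
    have h0 : piU m F q c = 1 := by
      rw [← MonoidHom.mem_ker, QuotientGroup.ker_mk']
      exact hcZ
    obtain ⟨ζ, hζ⟩ := (piU_eq_one_iff hF hm0 c).1 h0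
    have h1 : matS (c ^ (p ^ e)) = 1 := by rw [hcpow]; rfl
    rw [matS_pow, hζ, _root_.smul_pow, one_pow] at h1
    have i₀ : Fin m := ⟨0, by omega⟩
    have h2 : ζ ^ (p ^ e) = 1 := by
      have := congrFun (congrFun h1 i₀) i₀
      simpa using this
    have h3 : (ζ - 1) ^ (p ^ e) = 0 := by
      rw [sub_pow_char_pow, h2, one_pow, sub_self]
    have h4 : ζ = 1 := sub_eq_zero.1 (pow_eq_zero_iff (pow_ne_zero _ hp.ne_zero) |>.1 h3)
    apply Subtype.ext
    apply Subtype.ext
    change matS c = 1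
    rw [hζ, h4, one_smul]
  have hcomm : b₁ * u = u * b₁ := by
    have h1 : b₁ * u * b₁⁻¹ = u := by rw [hcu, hc1, one_mul]
    rw [mul_inv_eq_iff_eq_mul] at h1
    exact h1
  -- the `r`-part
  have hob : orderOf b₁ ≠ 0 := (orderOf_pos_iff.2 (isOfFinOrder_of_finite b₁)).ne'
  obtain ⟨f, m', hm', hom'⟩ := Nat.exists_eq_pow_mul_and_not_dvd hob r hr.ne_one
  let y := b₁ ^ m'
  have hypow : y ^ (r ^ f) = 1 := by
    simp only [y]
    rw [← pow_mul, show m' * r ^ f = orderOf b₁ by rw [hom']; ring, pow_orderOf_eq_one]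
  have hy1 : y ≠ 1 := by
    intro h
    apply hm'
    have h1 : (QuotientGroup.mk b₁ : Cfsg.PSU m F q) ^ m' = 1 := by
      rw [← QuotientGroup.mk_pow]
      change QuotientGroup.mk y = 1
      rw [h]
      rfl
    exact hrb.trans (orderOf_dvd_of_pow_eq_one h1)
  -- an element of order `r`
  obtain ⟨f', hf', hyo⟩ := (Nat.dvd_prime_pow hr).1 (orderOf_dvd_of_pow_eq_one hypow)
  have hf'0 : f' ≠ 0 := by
    rintro rfl
    rw [pow_zero, orderOf_eq_one_iff] at hyo
    exact hy1 hyo
  let z := y ^ (r ^ (f' - 1))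
  have hzo : orderOf z = r := by
    have h1 : r ∣ orderOf y := by
      rw [hyo]
      exact dvd_pow_self r hf'0
    have h2 := orderOf_pow_orderOf_div (orderOf_pos y).ne' h1
    have h3 : orderOf y / r = r ^ (f' - 1) := by
      rw [hyo]
      obtain ⟨w, hw⟩ : ∃ w, f' = w + 1 := ⟨f' - 1, by omega⟩
      rw [hw]
      simp only [Nat.add_sub_cancel]
      rw [pow_succ]
      exact Nat.mul_div_cancel _ hr.pos
    rw [h3] at h2
    exact h2
  have hzr : z ^ r = 1 := by
    rw [← hzo]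
    exact pow_orderOf_eq_one z
  have hz1 : z ≠ 1 := by
    intro h
    rw [h, orderOf_one] at hzo
    exact hr.ne_one hzo.symm
  have hzu : Commute z u := (((show Commute b₁ u from hcomm).pow_left m').pow_left _)
  have hres := su_commuting_core hρq hρ hne hF hq ha' hm (matS z) (matS u) (su_dg ρ hρq hρ z) hr hrF
    (by
      rw [← matS_pow, hzr]
      rfl)
    (fun h => hz1 (Subtype.ext (Subtype.ext h)))
    (by
      rw [← matS_pow, hupow]
      rfl)
    (fun h => hu1 (Subtype.ext (Subtype.ext h)))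
    (by
      have h5 : z * u = u * z := hzu.eq
      have h6 := congrArg (fun g : Cfsg.SU m F q => matS g) h5
      simp only [matS_mul] at h6
      exact h6)
  rcases hres with h | ⟨j, hj2, hjm, hjr⟩
  · exact h.trans hq2
  · exact hjr.trans (dvd_card_SU hF hq1 hm2 hj2 hjm)

end Cfsg.Agent.H11.Spec
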