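import Mathlib

/-! The rank one Steinberg presentation: calculations in a group with root elements `x t`, `y t`. -/

set_option autoImplicit false
set_option linter.unusedSectionVars false
set_option linter.unusedVariables false

namespace Cfsg.Agent.H11.StA1

variable {K : Type*} [Field K] {G : Type*} [Group G]

/-- the rank one Steinberg relations -/
structure Rel (x y : K → G) : Prop where
  xadd : ∀ t u, x t * x u = x (t + u)
  yadd : ∀ t u, y t * y u = y (t + u)
  wx : ∀ t u, t ≠ 0 → (x t * y (-t⁻¹) * x t) * x u * (x t * y (-t⁻¹) * x t)⁻¹ = y (-(t⁻¹ ^ 2 * u))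
  wy : ∀ t u, t ≠ 0 → (y t * x (-t⁻¹) * y t) * y u * (y t * x (-t⁻¹) * y t)⁻¹ = x (-(t⁻¹ ^ 2 * u))

variable {x y : K → G} (R : Rel x y)

/-- the Weyl elements -/
def w (x y : K → G) (t : K) : G := x t * y (-t⁻¹) * x t

/-- the torus elements -/
def h (x y : K → G) (t : K) : G := w x y t * w x y (-1)

include R

lemma x_zero : x 0 = 1 := by
  have h1 := R.xadd 0 0
  rw [add_zero] at h1
  exact mul_left_cancel (a := x 0) (by rw [h1, mul_one])

lemma y_zero : y 0 = 1 := by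
  have h1 := R.yadd 0 0
  rw [add_zero] at h1
  exact mul_left_cancel (a := y 0) (by rw [h1, mul_one])

lemma x_neg (t : K) : x (-t) = (x t)⁻¹ := by
  apply eq_inv_of_mul_eq_one_left
  rw [R.xadd, neg_add_cancel, x_zero R]

lemma y_neg (t : K) : y (-t) = (y t)⁻¹ := by
  apply eq_inv_of_mul_eq_one_left
  rw [R.yadd, neg_add_cancel, y_zero R]

lemma wx' {t : K} (ht : t ≠ 0) (u : K) : w x y t * x u = y (-(t⁻¹ ^ 2 * u)) * w x y t := by
  rw [← R.wx t u ht, w]
  group

lemma braid {t : K} (ht : t ≠ 0) : w x y t = y (-t⁻¹) * x t * y (-t⁻¹) := by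
  have h1 := wx' R ht t
  have e : t⁻¹ ^ 2 * t = t⁻¹ := by field_simp
  rw [e] at h1
  have h2 : w x y t * x t = (y (-t⁻¹) * x t * y (-t⁻¹)) * x t := by
    rw [h1, w]
    group
  exact mul_right_cancel h2

lemma wy' {t : K} (ht : t ≠ 0) (v : K) : w x y t * y v = x (-(t ^ 2 * v)) * w x y t := by
  have hs : -t⁻¹ ≠ 0 := neg_ne_zero.2 (inv_ne_zero ht)
  have h1 := R.wy (-t⁻¹) v hs
  have e1 : -(-t⁻¹)⁻¹ = t := by simp
  have e2 : (-t⁻¹)⁻¹ ^ 2 = t ^ 2 := by simp
  rw [e1, e2] at h1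
  rw [← h1, braid R ht]
  group

lemma w_inv {t : K} (ht : t ≠ 0) : (w x y t)⁻¹ = w x y (-t) := by
  apply inv_eq_of_mul_eq_one_right
  have e1 : - (-t)⁻¹ = t⁻¹ := by simp
  unfold w
  rw [e1, x_neg R, y_neg R]
  group

lemma w_mul_neg {t : K} (ht : t ≠ 0) : w x y t * w x y (-t) = 1 := by
  rw [← w_inv R ht, mul_inv_cancel]

lemma w_neg_mul {t : K} (ht : t ≠ 0) : w x y (-t) * w x y t = 1 := by
  rw [← w_inv R ht, inv_mul_cancel]

lemma w_w {t u : K} (ht : t ≠ 0) (hu : u ≠ 0) : w x y t * w x y u = w x y (t ^ 2 * u⁻¹) * w x y t := by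
  have hb : t ^ 2 * u⁻¹ ≠ 0 := mul_ne_zero (pow_ne_zero 2 ht) (inv_ne_zero hu)
  have e0 : -(t ^ 2 * u⁻¹)⁻¹ = -(t⁻¹ ^ 2 * u) := by
    field_simp
  calc w x y t * w x y u = w x y t * (x u * y (-u⁻¹) * x u) := rfl
    _ = (w x y t * x u) * y (-u⁻¹) * x u := by group
    _ = y (-(t⁻¹ ^ 2 * u)) * (w x y t * y (-u⁻¹)) * x u := by rw [wx' R ht]; group
    _ = y (-(t⁻¹ ^ 2 * u)) * x (t ^ 2 * u⁻¹) * (w x y t * x u) := by
        rw [wy' R ht]
        have e : -(t ^ 2 * -u⁻¹) = t ^ 2 * u⁻¹ := by ring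
        rw [e]
        group
    _ = y (-(t⁻¹ ^ 2 * u)) * x (t ^ 2 * u⁻¹) * y (-(t⁻¹ ^ 2 * u)) * w x y t := by
        rw [wx' R ht]
        group
    _ = w x y (t ^ 2 * u⁻¹) * w x y t := by
        rw [braid R hb, e0]

lemma h_x {t : K} (ht : t ≠ 0) (u : K) : h x y t * x u = x (t ^ 2 * u) * h x y t := by
  have h1 : (-1 : K) ≠ 0 := neg_ne_zero.2 one_ne_zero
  unfold h
  calc w x y t * w x y (-1) * x u = w x y t * (w x y (-1) * x u) := by group
    _ = w x y t * (y (-u) * w x y (-1)) := by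
        rw [wx' R h1]
        simp
    _ = (w x y t * y (-u)) * w x y (-1) := by group
    _ = x (t ^ 2 * u) * (w x y t * w x y (-1)) := by
        rw [wy' R ht]
        have e : -(t ^ 2 * -u) = t ^ 2 * u := by ring
        rw [e]
        group

lemma h_y {t : K} (ht : t ≠ 0) (v : K) : h x y t * y v = y (t⁻¹ ^ 2 * v) * h x y t := by
  have h1 : (-1 : K) ≠ 0 := neg_ne_zero.2 one_ne_zero
  unfold h
  calc w x y t * w x y (-1) * y v = w x y t * (w x y (-1) * y v) := by group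
    _ = w x y t * (x (-v) * w x y (-1)) := by
        rw [wy' R h1]
        simp
    _ = (w x y t * x (-v)) * w x y (-1) := by group
    _ = y (t⁻¹ ^ 2 * v) * (w x y t * w x y (-1)) := by
        rw [wx' R ht]
        have e : -(t⁻¹ ^ 2 * -v) = t⁻¹ ^ 2 * v := by ring
        rw [e]
        group

lemma h_one : h x y 1 = 1 := by
  unfold h
  exact w_mul_neg R one_ne_zero

lemma w_eq {t : K} : w x y t = h x y t * w x y 1 := by
  unfold h
  rw [mul_assoc, w_neg_mul R one_ne_zero, mul_one]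

lemma w1_h {b : K} (hb : b ≠ 0) : w x y 1 * h x y b = h x y b⁻¹ * w x y 1 := by
  have h1 : (-1 : K) ≠ 0 := neg_ne_zero.2 one_ne_zero
  unfold h
  have e1 := w_w R one_ne_zero hb
  have e2 := w_w R one_ne_zero h1
  simp only [one_pow, one_mul] at e1 e2
  have e3 : (-1 : K)⁻¹ = -1 := by simp
  rw [e3] at e2
  calc w x y 1 * (w x y b * w x y (-1)) = (w x y 1 * w x y b) * w x y (-1) := by group
    _ = w x y b⁻¹ * (w x y 1 * w x y (-1)) := by rw [e1]; group
    _ = w x y b⁻¹ * w x y (-1) * w x y 1 := by rw [e2]; group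

/-- the relation among the torus elements coming from conjugation of Weyl elements -/
lemma h_h {t v : K} (ht : t ≠ 0) (hv : v ≠ 0) : h x y t * h x y v = h x y (t ^ 2 * v) * h x y t⁻¹ := by
  have e := w_w R ht (inv_ne_zero hv)
  rw [inv_inv] at e
  have e1 : w x y t * w x y v⁻¹ = h x y t * h x y v * (w x y 1 * w x y 1) := by
    rw [w_eq R (t := t), w_eq R (t := v⁻¹)]
    have := w1_h R (inv_ne_zero hv)
    rw [inv_inv] at this
    calc h x y t * w x y 1 * (h x y v⁻¹ * w x y 1) = h x y t * (w x y 1 * h x y v⁻¹) * w x y 1 := by group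
      _ = _ := by rw [this]; group
  have e2 : w x y (t ^ 2 * v) * w x y t = h x y (t ^ 2 * v) * h x y t⁻¹ * (w x y 1 * w x y 1) := by
    rw [w_eq R (t := t ^ 2 * v), w_eq R (t := t)]
    have := w1_h R ht
    calc h x y (t ^ 2 * v) * w x y 1 * (h x y t * w x y 1) = h x y (t ^ 2 * v) * (w x y 1 * h x y t) * w x y 1 := by group
      _ = _ := by rw [this]; group
  rw [e1, e2] at e
  exact mul_right_cancel e

/-- cocycle values commute with the generators -/
def Cen (x y : K → G) (e : G) : Prop := ∀ u, e * x u = x u * e ∧ e * y u = y u * e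

omit R in
lemma Cen.mul {e f : G} (he : Cen x y e) (hf : Cen x y f) : Cen x y (e * f) := by
  intro u
  constructor
  · rw [mul_assoc, (hf u).1, ← mul_assoc, (he u).1, mul_assoc]
  · rw [mul_assoc, (hf u).2, ← mul_assoc, (he u).2, mul_assoc]

omit R in
lemma Cen.inv {e : G} (he : Cen x y e) : Cen x y e⁻¹ := by
  intro u
  constructor
  · have := (he u).1
    rw [inv_mul_eq_iff_eq_mul, ← mul_assoc, this, mul_assoc, mul_inv_cancel, mul_one]
  · have := (he u).2
    rw [inv_mul_eq_iff_eq_mul, ← mul_assoc, this, mul_assoc, mul_inv_cancel, mul_one]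

omit R in
lemma Cen.comm_w {e : G} (he : Cen x y e) (t : K) : e * w x y t = w x y t * e := by
  unfold Cen at he
  unfold w
  calc e * (x t * y (-t⁻¹) * x t) = (e * x t) * y (-t⁻¹) * x t := by group
    _ = x t * (e * y (-t⁻¹)) * x t := by rw [(he t).1]; group
    _ = x t * y (-t⁻¹) * (e * x t) := by rw [(he _).2]; group
    _ = _ := by rw [(he t).1]; group

omit R in
lemma Cen.comm_h {e : G} (he : Cen x y e) (t : K) : e * h x y t = h x y t * e := by
  unfold h
  calc e * (w x y t * w x y (-1)) = (e * w x y t) * w x y (-1) := by group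
    _ = w x y t * (e * w x y (-1)) := by rw [he.comm_w]; group
    _ = _ := by rw [he.comm_w]; group

lemma cen_cocycle {a b : K} (ha : a ≠ 0) (hb : b ≠ 0) : Cen x y (h x y a * h x y b * (h x y (a * b))⁻¹) := by
  have hab : a * b ≠ 0 := mul_ne_zero ha hb
  intro u
  constructor
  · have e1 : (h x y (a * b))⁻¹ * x u = x ((a * b)⁻¹ ^ 2 * u) * (h x y (a * b))⁻¹ := by
      have := h_x R hab ((a * b)⁻¹ ^ 2 * u)
      have e : (a * b) ^ 2 * ((a * b)⁻¹ ^ 2 * u) = u := by field_simp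
      rw [e] at this
      rw [inv_mul_eq_iff_eq_mul, ← mul_assoc, this, mul_assoc, mul_inv_cancel, mul_one]
    have e2 : a ^ 2 * (b ^ 2 * ((a * b)⁻¹ ^ 2 * u)) = u := by field_simp
    calc h x y a * h x y b * (h x y (a * b))⁻¹ * x u = h x y a * h x y b * ((h x y (a * b))⁻¹ * x u) := by group
      _ = h x y a * (h x y b * x ((a * b)⁻¹ ^ 2 * u)) * (h x y (a * b))⁻¹ := by rw [e1]; group
      _ = (h x y a * x (b ^ 2 * ((a * b)⁻¹ ^ 2 * u))) * h x y b * (h x y (a * b))⁻¹ := by rw [h_x R hb]; group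
      _ = x u * (h x y a * h x y b * (h x y (a * b))⁻¹) := by rw [h_x R ha, e2]; group
  · have e1 : (h x y (a * b))⁻¹ * y u = y ((a * b) ^ 2 * u) * (h x y (a * b))⁻¹ := by
      have := h_y R hab ((a * b) ^ 2 * u)
      have e : (a * b)⁻¹ ^ 2 * ((a * b) ^ 2 * u) = u := by field_simp
      rw [e] at this
      rw [inv_mul_eq_iff_eq_mul, ← mul_assoc, this, mul_assoc, mul_inv_cancel, mul_one]
    have e2 : a⁻¹ ^ 2 * (b⁻¹ ^ 2 * ((a * b) ^ 2 * u)) = u := by field_simp
    calc h x y a * h x y b * (h x y (a * b))⁻¹ * y u = h x y a * h x y b * ((h x y (a * b))⁻¹ * y u) := by group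
      _ = h x y a * (h x y b * y ((a * b) ^ 2 * u)) * (h x y (a * b))⁻¹ := by rw [e1]; group
      _ = (h x y a * y (b⁻¹ ^ 2 * ((a * b) ^ 2 * u))) * h x y b * (h x y (a * b))⁻¹ := by rw [h_y R hb]; group
      _ = y u * (h x y a * h x y b * (h x y (a * b))⁻¹) := by rw [h_y R ha, e2]; group

lemma y_eq {u : K} (hu : u ≠ 0) : y u = x u⁻¹ * w x y (-u⁻¹) * x u⁻¹ := by
  have e : -(-u⁻¹)⁻¹ = u := by simp
  unfold w
  rw [e, x_neg R]
  group

lemma star {a b : K} (ha : a ≠ 0) (hb : b ≠ 0) (hab : a + b ≠ 0) :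
    w x y a * x (-a - b) * w x y b = x (a ^ 2 / (a + b)) * w x y (a * b / (a + b)) * x (b ^ 2 / (a + b)) := by
  have hu : -a⁻¹ ≠ 0 := neg_ne_zero.2 (inv_ne_zero ha)
  have hv : -b⁻¹ ≠ 0 := neg_ne_zero.2 (inv_ne_zero hb)
  have huv : -a⁻¹ + -b⁻¹ ≠ 0 := by
    intro h0
    apply hab
    field_simp at h0
    linear_combination -h0
  have h1 := R.yadd (-a⁻¹) (-b⁻¹)
  rw [y_eq R hu, y_eq R hv, y_eq R huv] at h1
  have e1 : (-a⁻¹)⁻¹ = -a := by simp
  have e2 : (-b⁻¹)⁻¹ = -b := by simp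
  have e3 : (-a⁻¹ + -b⁻¹)⁻¹ = -(a * b / (a + b)) := by
    have : -a⁻¹ + -b⁻¹ = -((a + b) / (a * b)) := by
      field_simp
      ring
    rw [this, inv_neg, inv_div]
  rw [e1, e2, e3] at h1
  simp only [neg_neg] at h1
  set c := a * b / (a + b) with hc
  have e4 : a ^ 2 / (a + b) = a + -c := by
    rw [hc]
    field_simp
    ring
  have e5 : b ^ 2 / (a + b) = -c + b := by
    rw [hc]
    field_simp
    ring
  rw [e4, e5, ← R.xadd, ← R.xadd]
  have e6 : x (-a - b) = x (-a) * x (-b) := by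
    rw [R.xadd]
    congr 1
    ring
  rw [e6]
  have e7 : x (-a) = (x a)⁻¹ := x_neg R a
  have e8 : x (-b) = (x b)⁻¹ := x_neg R b
  rw [e7, e8] at h1 ⊢
  calc w x y a * ((x a)⁻¹ * (x b)⁻¹) * w x y b
      = x a * ((x a)⁻¹ * w x y a * (x a)⁻¹ * ((x b)⁻¹ * w x y b * (x b)⁻¹)) * x b := by group
    _ = _ := by rw [h1]; group

lemma key1 {t : K} (ht : t ≠ 0) : w x y t * x (-t) * w x y t = x t * w x y t * x t := by
  have h1 := wx' R ht t
  have e : t⁻¹ ^ 2 * t = t⁻¹ := by field_simp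
  rw [e] at h1
  have h2 : y (-t⁻¹) = w x y t * x t * (w x y t)⁻¹ := by
    rw [h1]
    group
  have h3 : w x y t = x t * (w x y t * x t * (w x y t)⁻¹) * x t := by
    rw [← h2]
    rfl
  rw [x_neg R]
  nth_rewrite 1 [h3]
  group

lemma pair_x {p q : K} (hp : p ≠ 0) (hq : q ≠ 0) (v : K) :
    (w x y p * w x y q) * x v = x ((p / q) ^ 2 * v) * (w x y p * w x y q) := by
  calc (w x y p * w x y q) * x v = w x y p * (w x y q * x v) := by group
    _ = (w x y p * y (-(q⁻¹ ^ 2 * v))) * w x y q := by rw [wx' R hq]; group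
    _ = x ((p / q) ^ 2 * v) * (w x y p * w x y q) := by
        rw [wy' R hp]
        have e : -(p ^ 2 * -(q⁻¹ ^ 2 * v)) = (p / q) ^ 2 * v := by
          field_simp
        rw [e]
        group

lemma lemma_E {a s c : K} (ha : a ≠ 0) (hs : s ≠ 0) (hc : c ≠ 0) :
    w x y a * x s * w x y c = x (-(a ^ 2 / s)) * (w x y a * w x y s * w x y c) * x (-(c ^ 2 / s)) := by
  have h1 := key1 R (neg_ne_zero.2 hs)
  rw [neg_neg] at h1
  have h2 := pair_x R ha hs (-s)
  have h3 := pair_x R hs hc (-(c ^ 2 / s))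
  have e1 : (a / s) ^ 2 * -s = -(a ^ 2 / s) := by field_simp
  have e2 : (s / c) ^ 2 * -(c ^ 2 / s) = -s := by field_simp
  rw [e1] at h2
  rw [e2] at h3
  have h4 := w_neg_mul R hs
  have h5 := w_mul_neg R hs
  calc w x y a * x s * w x y c
      = (w x y a * w x y s) * (w x y (-s) * x s * w x y (-s)) * (w x y s * w x y c) := by
        calc w x y a * x s * w x y c = w x y a * (w x y s * w x y (-s)) * x s * (w x y (-s) * w x y s) * w x y c := by
              rw [h4, h5]; group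
          _ = _ := by group
    _ = (w x y a * w x y s) * (x (-s) * w x y (-s) * x (-s)) * (w x y s * w x y c) := by rw [h1]
    _ = ((w x y a * w x y s) * x (-s)) * w x y (-s) * (x (-s) * (w x y s * w x y c)) := by group
    _ = x (-(a ^ 2 / s)) * (w x y a * w x y s) * w x y (-s) * ((w x y s * w x y c) * x (-(c ^ 2 / s))) := by
        rw [h2, h3]
    _ = x (-(a ^ 2 / s)) * w x y a * (w x y s * w x y (-s)) * w x y s * w x y c * x (-(c ^ 2 / s)) := by group
    _ = _ := by rw [h5]; group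

lemma rel {a s : K} (ha : a ≠ 0) (hs : s ≠ 0) (has : a + s ≠ 0) :
    w x y a * w x y s = w x y (a * (a + s) / s) * w x y (a + s) := by
  have hb : -a - s ≠ 0 := by
    intro h0
    apply has
    linear_combination -h0
  have hab : a + (-a - s) ≠ 0 := by
    have : a + (-a - s) = -s := by ring
    rw [this]
    exact neg_ne_zero.2 hs
  have h1 := star R ha hb hab
  have h2 := lemma_E R ha hs hb
  have e1 : -a - (-a - s) = s := by ring
  have e2 : a + (-a - s) = -s := by ring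
  rw [e1, e2] at h1
  rw [h1] at h2
  have e3 : a ^ 2 / -s = -(a ^ 2 / s) := by rw [div_neg]
  have e4 : (-a - s) ^ 2 / -s = -((-a - s) ^ 2 / s) := by rw [div_neg]
  have e5 : a * (-a - s) / -s = a * (a + s) / s := by
    field_simp
    ring
  rw [e3, e4, e5] at h2
  have h3 : w x y (a * (a + s) / s) = w x y a * w x y s * w x y (-a - s) :=
    mul_left_cancel (mul_right_cancel h2)
  have e6 : -a - s = -(a + s) := by ring
  rw [h3, e6, mul_assoc, w_neg_mul R has, mul_one]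

lemma w_w_eq {u v : K} (hv : v ≠ 0) : w x y u * w x y v = h x y u * h x y v⁻¹ * (w x y 1 * w x y 1) := by
  rw [w_eq R (t := u), w_eq R (t := v)]
  have := w1_h R hv
  calc h x y u * w x y 1 * (h x y v * w x y 1) = h x y u * (w x y 1 * h x y v) * w x y 1 := by group
    _ = _ := by rw [this]; group

lemma rel_h {a u : K} (ha : a ≠ 0) (hu : u ≠ 0) (hau : 1 + a * u ≠ 0) :
    h x y a * h x y u = h x y (a * (1 + a * u)) * h x y (u / (1 + a * u)) := by
  have hs : u⁻¹ ≠ 0 := inv_ne_zero hu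
  have has : a + u⁻¹ ≠ 0 := by
    intro h0
    apply hau
    field_simp at h0
    linear_combination h0
  have h1 := rel R ha hs has
  rw [w_w_eq R hs, w_w_eq R has, inv_inv] at h1
  have h2 := mul_right_cancel h1
  have e1 : a * (a + u⁻¹) / u⁻¹ = a * (1 + a * u) := by
    field_simp
    ring
  have e2 : (a + u⁻¹)⁻¹ = u / (1 + a * u) := by
    have e : a + u⁻¹ = (1 + a * u) / u := by
      field_simp
      ring
    rw [e, inv_div]
  rw [e1, e2] at h2
  exact h2

section Finite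

variable [Finite K] (hZ : ∀ e, Cen x y e → ∀ g : G, e * g = g * e)

include hZ

lemma h_comm {a b : K} (ha : a ≠ 0) (hb : b ≠ 0) : h x y a * h x y b = h x y b * h x y a := by
  obtain ⟨g, hg⟩ := IsCyclic.exists_generator (α := Kˣ)
  have hg0 : (g : K) ≠ 0 := g.ne_zero
  have key : ∀ n : ℕ, ∃ e, Cen x y e ∧ h x y ((g : K) ^ n) = e * (h x y g) ^ n := by
    intro n
    induction n with
    | zero =>
      refine ⟨1, fun u => by simp, ?_⟩
      simp [h_one R]
    | succ n ih =>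
      obtain ⟨e, he, e1⟩ := ih
      have hc := cen_cocycle R (pow_ne_zero n hg0) hg0
      refine ⟨(h x y ((g : K) ^ n) * h x y g * (h x y ((g : K) ^ n * g))⁻¹)⁻¹ * e, hc.inv.mul he, ?_⟩
      rw [pow_succ (g : K), pow_succ (h x y g)]
      rw [mul_inv_rev, mul_inv_rev, inv_inv]
      rw [e1]
      group
  have hex : ∀ a : K, a ≠ 0 → ∃ n : ℕ, a = (g : K) ^ n := by
    intro a ha
    have h1 : Units.mk0 a ha ∈ Subgroup.zpowers g := hg _
    have h2 := (mem_powers_iff_mem_zpowers).2 h1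
    obtain ⟨n, hn⟩ := Submonoid.mem_powers_iff _ _ |>.1 h2
    refine ⟨n, ?_⟩
    have := congrArg (fun u : Kˣ => (u : K)) hn
    simpa using this.symm
  obtain ⟨i, rfl⟩ := hex a ha
  obtain ⟨j, rfl⟩ := hex b hb
  obtain ⟨e₁, he₁, e1⟩ := key i
  obtain ⟨e₂, he₂, e2⟩ := key j
  rw [e1, e2]
  have c1 := hZ e₂ he₂ e₁
  have c2 := hZ e₂ he₂ ((h x y g) ^ i)
  have c3 := hZ e₁ he₁ ((h x y g) ^ j)
  calc e₁ * h x y ↑g ^ i * (e₂ * h x y ↑g ^ j) = e₁ * (h x y ↑g ^ i * e₂) * h x y ↑g ^ j := by group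
    _ = e₁ * e₂ * (h x y ↑g ^ i * h x y ↑g ^ j) := by rw [← c2]; group
    _ = e₂ * e₁ * (h x y ↑g ^ j * h x y ↑g ^ i) := by
        rw [c1, ← pow_add, ← pow_add, add_comm]
    _ = e₂ * (e₁ * h x y ↑g ^ j) * h x y ↑g ^ i := by group
    _ = _ := by rw [c3]; group

lemma h_sq_mul {t v : K} (ht : t ≠ 0) (hv : v ≠ 0) : h x y (t ^ 2 * v) = h x y (t ^ 2) * h x y v := by
  have h1 := h_h R ht hv
  have h2 := h_h R ht (one_ne_zero (α := K))
  rw [h_one R, mul_one, mul_one] at h2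
  have hinv : t⁻¹ ≠ 0 := inv_ne_zero ht
  have htv : t ^ 2 * v ≠ 0 := mul_ne_zero (pow_ne_zero 2 ht) hv
  apply mul_right_cancel (b := h x y t⁻¹)
  rw [← h1]
  nth_rewrite 1 [h2]
  rw [mul_assoc, h_comm R hZ hinv hv, ← mul_assoc]

lemma h_mul_of_sq {a b : K} (ha : IsSquare a) (ha0 : a ≠ 0) (hb : b ≠ 0) : h x y (a * b) = h x y a * h x y b := by
  obtain ⟨t, rfl⟩ := ha
  have ht : t ≠ 0 := by
    rintro rfl
    simp at ha0
  rw [← _root_.sq]
  exact h_sq_mul R hZ ht hb

/-- the map `t ↦ h t` is multiplicative -/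
theorem h_mul {a b : K} (ha : a ≠ 0) (hb : b ≠ 0) : h x y (a * b) = h x y a * h x y b := by
  classical
  by_cases hsa : IsSquare a
  · exact h_mul_of_sq R hZ hsa ha hb
  by_cases hsb : IsSquare b
  · rw [mul_comm, h_comm R hZ ha hb]
    exact h_mul_of_sq R hZ hsb hb ha
  haveI : Fintype K := Fintype.ofFinite K
  have hchar : ringChar K ≠ 2 := fun h2 => hsa (FiniteField.isSquare_of_char_two h2 a)
  have hcard := FiniteField.odd_card_of_char_ne_two hchar
  have hprod : ∀ c d : K, c ≠ 0 → d ≠ 0 → ¬ IsSquare c → ¬ IsSquare d → IsSquare (c * d) := by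
    intro c d hc hd h1 h2
    rw [← quadraticChar_one_iff_isSquare (mul_ne_zero hc hd), map_mul,
      quadraticChar_neg_one_iff_not_isSquare.2 h1, quadraticChar_neg_one_iff_not_isSquare.2 h2]
    norm_num
  have hnot : ∀ c d : K, c ≠ 0 → d ≠ 0 → IsSquare c → ¬ IsSquare d → ¬ IsSquare (c * d) := by
    intro c d hc hd h1 h2
    rw [← quadraticChar_neg_one_iff_not_isSquare, map_mul,
      (quadraticChar_one_iff_isSquare hc).2 h1, quadraticChar_neg_one_iff_not_isSquare.2 h2]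
    norm_num
  have hinvN : ∀ c : K, c ≠ 0 → ¬ IsSquare c → ¬ IsSquare c⁻¹ := by
    intro c hc h1 h2
    apply h1
    have := h2.inv
    simpa using this
  -- a sum of two squares
  obtain ⟨r, s, hrs⟩ : ∃ r s : K, r ^ 2 + s ^ 2 = a := by
    have h1 : (Polynomial.X ^ 2 : Polynomial K).degree = 2 := Polynomial.degree_X_pow 2
    have h2 : (Polynomial.X ^ 2 - Polynomial.C a : Polynomial K).degree = 2 :=
      Polynomial.degree_X_pow_sub_C (by norm_num) a
    obtain ⟨r, s, e⟩ := FiniteField.exists_root_sum_quadratic h1 h2 hcard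
    refine ⟨r, s, ?_⟩
    simp at e
    linear_combination e
  have hs0 : s ≠ 0 := by
    rintro rfl
    apply hsa
    rw [← hrs]
    exact ⟨r, by ring⟩
  have hr0 : r ≠ 0 := by
    rintro rfl
    apply hsa
    rw [← hrs]
    exact ⟨s, by ring⟩
  set p := (r / s) ^ 2 with hp
  have hp0 : p ≠ 0 := pow_ne_zero 2 (div_ne_zero hr0 hs0)
  have hpS : IsSquare p := ⟨r / s, by rw [hp]; ring⟩
  have e1 : 1 + p = a * (s⁻¹) ^ 2 := by
    rw [hp, ← hrs]
    field_simp
    ring
  have hp1 : 1 + p ≠ 0 := by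
    rw [e1]
    exact mul_ne_zero ha (pow_ne_zero 2 (inv_ne_zero hs0))
  have hp1N : ¬ IsSquare (1 + p) := by
    rw [e1, mul_comm]
    exact hnot _ _ (pow_ne_zero 2 (inv_ne_zero hs0)) ha ⟨s⁻¹, by ring⟩ hsa
  set u := p * a⁻¹ with hu
  have hu0 : u ≠ 0 := mul_ne_zero hp0 (inv_ne_zero ha)
  have huN : ¬ IsSquare u := hnot _ _ hp0 (inv_ne_zero ha) hpS (hinvN a ha hsa)
  have hau : a * u = p := by
    rw [hu]
    field_simp
  have h1 := rel_h R ha hu0 (by rw [hau]; exact hp1)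
  rw [hau] at h1
  have hA : IsSquare (a * (1 + p)) := hprod _ _ ha hp1 hsa hp1N
  have hB0 : u / (1 + p) ≠ 0 := div_ne_zero hu0 hp1
  have h2 : h x y a * h x y u = h x y p := by
    rw [h1, ← h_mul_of_sq R hZ hA (mul_ne_zero ha hp1) hB0]
    congr 1
    rw [hu]
    field_simp
  have hS : IsSquare (b * u⁻¹) := hprod _ _ hb (inv_ne_zero hu0) hsb (hinvN u hu0 huN)
  have hS0 : b * u⁻¹ ≠ 0 := mul_ne_zero hb (inv_ne_zero hu0)
  have e3 : b = (b * u⁻¹) * u := by
    field_simp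
  have e4 : a * b = (b * u⁻¹) * p := by
    rw [← hau]
    field_simp
  have e5 : h x y b = h x y (b * u⁻¹) * h x y u := by
    rw [← h_mul_of_sq R hZ hS hS0 hu0, ← e3]
  rw [e4, h_mul_of_sq R hZ hS hS0 hp0, ← h2, e5]
  calc h x y (b * u⁻¹) * (h x y a * h x y u) = (h x y (b * u⁻¹) * h x y a) * h x y u := by group
    _ = (h x y a * h x y (b * u⁻¹)) * h x y u := by rw [h_comm R hZ hS0 ha]
    _ = _ := by group

end Finite

end Cfsg.Agent.H11.StA1
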