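import Mathlib
import Cfsg.Agent.Lib.H11.StA1

/-! The rank one Steinberg presentation: normal forms, and `SL₂` over a finite field. -/

set_option autoImplicit false
set_option linter.unusedSectionVars false
set_option linter.unusedVariables false

namespace Cfsg.Agent.H11.StA1

variable {K : Type*} [Field K] {G : Type*} [Group G]
variable {x y : K → G} (R : Rel x y)

section NF

variable [Finite K] (hZ : ∀ e, Cen x y e → ∀ g : G, e * g = g * e)

include R hZ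

lemma hm1_sq : h x y (-1) * h x y (-1) = 1 := by
  have h1 : (-1 : K) ≠ 0 := neg_ne_zero.2 one_ne_zero
  rw [← h_mul R hZ h1 h1]
  simp [h_one R]

lemma w1w1 : w x y 1 * w x y 1 = h x y (-1) := by
  have h1 : h x y (-1) * (w x y 1 * w x y 1) = 1 := by
    rw [← mul_assoc, ← w_eq R, w_neg_mul R one_ne_zero]
  apply mul_left_cancel (a := h x y (-1))
  rw [h1, hm1_sq R hZ]

lemma w_mul_w {u v : K} (hu : u ≠ 0) (hv : v ≠ 0) : w x y u * w x y v = h x y (-(u * v⁻¹)) := by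
  have h1 : (-1 : K) ≠ 0 := neg_ne_zero.2 one_ne_zero
  rw [w_w_eq R hv, w1w1 R hZ, ← h_mul R hZ hu (inv_ne_zero hv),
    ← h_mul R hZ (mul_ne_zero hu (inv_ne_zero hv)) h1]
  congr 1
  ring

lemma w_mul_h {s t : K} (hs : s ≠ 0) (ht : t ≠ 0) : w x y s * h x y t = w x y (s * t⁻¹) := by
  rw [w_eq R (t := s), w_eq R (t := s * t⁻¹), h_mul R hZ hs (inv_ne_zero ht)]
  have := w1_h R ht
  calc h x y s * w x y 1 * h x y t = h x y s * (w x y 1 * h x y t) := by group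
    _ = _ := by rw [this]; group

lemma w_three {u v r : K} (hu : u ≠ 0) (hv : v ≠ 0) (hr : r ≠ 0) :
    w x y u * w x y v * w x y r = w x y (-(u * v⁻¹ * r)) := by
  have h0 : -(u * v⁻¹) ≠ 0 := neg_ne_zero.2 (mul_ne_zero hu (inv_ne_zero hv))
  rw [w_mul_w R hZ hu hv, w_eq R (t := r), ← mul_assoc, ← h_mul R hZ h0 hr, w_eq R (t := -(u * v⁻¹ * r))]
  congr 2
  ring

omit R hZ in
/-- the normal forms -/
def IsNF (x y : K → G) (g : G) : Prop :=
  (∃ a t, t ≠ 0 ∧ g = x a * h x y t) ∨ (∃ a t b, t ≠ 0 ∧ g = x a * w x y t * x b)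

lemma nf_one : IsNF x y 1 := by
  left
  exact ⟨0, 1, one_ne_zero, by rw [x_zero R, h_one R, one_mul]⟩

lemma nf_x (u : K) {g : G} (hg : IsNF x y g) : IsNF x y (x u * g) := by
  rcases hg with ⟨a, t, ht, rfl⟩ | ⟨a, t, b, ht, rfl⟩
  · left
    exact ⟨u + a, t, ht, by rw [← R.xadd]; group⟩
  · right
    exact ⟨u + a, t, b, ht, by rw [← R.xadd]; group⟩

lemma nf_y (u : K) {g : G} (hg : IsNF x y g) : IsNF x y (y u * g) := by
  by_cases hu : u = 0
  · subst hu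
    rwa [y_zero R, one_mul]
  have hp : -u⁻¹ ≠ 0 := neg_ne_zero.2 (inv_ne_zero hu)
  rw [y_eq R hu]
  set p := -u⁻¹ with hpdef
  rcases hg with ⟨a, t, ht, rfl⟩ | ⟨a, t, b, ht, rfl⟩
  · right
    refine ⟨u⁻¹, p * t⁻¹, t⁻¹ ^ 2 * (u⁻¹ + a), mul_ne_zero hp (inv_ne_zero ht), ?_⟩
    have h1 := h_x R ht (t⁻¹ ^ 2 * (u⁻¹ + a))
    have e : t ^ 2 * (t⁻¹ ^ 2 * (u⁻¹ + a)) = u⁻¹ + a := by field_simp
    rw [e] at h1
    rw [← w_mul_h R hZ hp ht]
    calc x u⁻¹ * w x y p * x u⁻¹ * (x a * h x y t) = x u⁻¹ * w x y p * (x u⁻¹ * x a) * h x y t := by group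
      _ = x u⁻¹ * w x y p * (x (u⁻¹ + a) * h x y t) := by rw [R.xadd]; group
      _ = _ := by rw [← h1]; group
  · by_cases hr : u⁻¹ + a = 0
    · left
      have h0 : -(p * t⁻¹) ≠ 0 := neg_ne_zero.2 (mul_ne_zero hp (inv_ne_zero ht))
      refine ⟨u⁻¹ + (-(p * t⁻¹)) ^ 2 * b, -(p * t⁻¹), h0, ?_⟩
      rw [← R.xadd, mul_assoc (x u⁻¹) _ (h x y _), ← h_x R h0, ← w_mul_w R hZ hp ht]
      calc x u⁻¹ * w x y p * x u⁻¹ * (x a * w x y t * x b)
          = x u⁻¹ * w x y p * (x u⁻¹ * x a) * w x y t * x b := by group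
        _ = x u⁻¹ * w x y p * x (u⁻¹ + a) * w x y t * x b := by rw [R.xadd]
        _ = _ := by rw [hr, x_zero R]; group
    · right
      have h0 : -(p * (u⁻¹ + a)⁻¹ * t) ≠ 0 :=
        neg_ne_zero.2 (mul_ne_zero (mul_ne_zero hp (inv_ne_zero hr)) ht)
      refine ⟨u⁻¹ + -(p ^ 2 / (u⁻¹ + a)), -(p * (u⁻¹ + a)⁻¹ * t), -(t ^ 2 / (u⁻¹ + a)) + b, h0, ?_⟩
      rw [← R.xadd, ← R.xadd, ← w_three R hZ hp hr ht]
      have h1 := lemma_E R hp hr ht
      calc x u⁻¹ * w x y p * x u⁻¹ * (x a * w x y t * x b)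
          = x u⁻¹ * w x y p * (x u⁻¹ * x a) * w x y t * x b := by group
        _ = x u⁻¹ * (w x y p * x (u⁻¹ + a) * w x y t) * x b := by rw [R.xadd]; group
        _ = _ := by rw [h1]; group

end NF

section SL2

/-- upper root elements -/
def X (t : K) : Matrix.SpecialLinearGroup (Fin 2) K := ⟨!![1, t; 0, 1], by simp [Matrix.det_fin_two]⟩

/-- lower root elements -/
def Y (t : K) : Matrix.SpecialLinearGroup (Fin 2) K := ⟨!![1, 0; t, 1], by simp [Matrix.det_fin_two]⟩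

lemma X_coe (t : K) : ((X t : Matrix.SpecialLinearGroup (Fin 2) K) : Matrix (Fin 2) (Fin 2) K) = !![1, t; 0, 1] := rfl

lemma Y_coe (t : K) : ((Y t : Matrix.SpecialLinearGroup (Fin 2) K) : Matrix (Fin 2) (Fin 2) K) = !![1, 0; t, 1] := rfl

lemma sl_ext {A B : Matrix.SpecialLinearGroup (Fin 2) K}
    (h : (A : Matrix (Fin 2) (Fin 2) K) = B) : A = B := Subtype.ext h

lemma w_coe {t : K} (ht : t ≠ 0) :
    ((w X Y t : Matrix.SpecialLinearGroup (Fin 2) K) : Matrix (Fin 2) (Fin 2) K) = !![0, t; -t⁻¹, 0] := by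
  unfold w
  simp only [Matrix.SpecialLinearGroup.coe_mul, X_coe, Y_coe]
  ext i j
  fin_cases i <;> fin_cases j <;> simp [Matrix.mul_apply, Fin.sum_univ_two, ht]

lemma wy_coe {t : K} (ht : t ≠ 0) :
    ((Y t * X (-t⁻¹) * Y t : Matrix.SpecialLinearGroup (Fin 2) K) : Matrix (Fin 2) (Fin 2) K) = !![0, -t⁻¹; t, 0] := by
  simp only [Matrix.SpecialLinearGroup.coe_mul, X_coe, Y_coe]
  ext i j
  fin_cases i <;> fin_cases j <;> simp [Matrix.mul_apply, Fin.sum_univ_two, ht]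

lemma rel_XY : Rel (X : K → Matrix.SpecialLinearGroup (Fin 2) K) Y where
  xadd := by
    intro t u
    apply sl_ext
    simp only [Matrix.SpecialLinearGroup.coe_mul, X_coe]
    ext i j
    fin_cases i <;> fin_cases j <;> simp [Matrix.mul_apply, Fin.sum_univ_two, add_comm]
  yadd := by
    intro t u
    apply sl_ext
    simp only [Matrix.SpecialLinearGroup.coe_mul, Y_coe]
    ext i j
    fin_cases i <;> fin_cases j <;> simp [Matrix.mul_apply, Fin.sum_univ_two]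
  wx := by
    intro t u ht
    rw [mul_inv_eq_iff_eq_mul]
    apply sl_ext
    have h1 := w_coe ht
    unfold w at h1
    simp only [Matrix.SpecialLinearGroup.coe_mul] at h1 ⊢
    rw [h1, X_coe, Y_coe]
    ext i j
    fin_cases i <;> fin_cases j <;> simp [Matrix.mul_apply, Fin.sum_univ_two, ht]
    field_simp
  wy := by
    intro t u ht
    rw [mul_inv_eq_iff_eq_mul]
    apply sl_ext
    have h1 := wy_coe ht
    simp only [Matrix.SpecialLinearGroup.coe_mul] at h1 ⊢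
    rw [h1, X_coe, Y_coe]
    ext i j
    fin_cases i <;> fin_cases j <;> simp [Matrix.mul_apply, Fin.sum_univ_two, ht]
    field_simp

lemma h_coe {t : K} (ht : t ≠ 0) :
    ((h X Y t : Matrix.SpecialLinearGroup (Fin 2) K) : Matrix (Fin 2) (Fin 2) K) = !![t, 0; 0, t⁻¹] := by
  unfold h
  have h1 : (-1 : K) ≠ 0 := neg_ne_zero.2 one_ne_zero
  rw [Matrix.SpecialLinearGroup.coe_mul, w_coe ht, w_coe h1]
  ext i j
  fin_cases i <;> fin_cases j <;> simp [Matrix.mul_apply, Fin.sum_univ_two]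

end SL2

end Cfsg.Agent.H11.StA1
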