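import Mathlib

set_option autoImplicit false

namespace Cfsg.Agent.H11

open Polynomial Module Matrix

section

variable {F : Type*} [Field F]

/-- a non-degenerate form with `X` self-adjoint -/
def HasSelfDualForm (F : Type*) [Field F] (N : Type*) [AddCommGroup N] [Module F N] [Module F[X] N] : Prop :=
  ∃ B : N →ₗ[F] N →ₗ[F] F, (∀ x y, B ((X : F[X]) • x) y = B x ((X : F[X]) • y)) ∧
    ∀ x, (∀ y, B x y = 0) → x = 0

lemma HasSelfDualForm.of_equiv {N N' : Type*} [AddCommGroup N] [Module F N] [Module F[X] N] [IsScalarTower F F[X] N]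
    [AddCommGroup N'] [Module F N'] [Module F[X] N'] [IsScalarTower F F[X] N'] (e : N ≃ₗ[F[X]] N')
    (h : HasSelfDualForm F N') : HasSelfDualForm F N := by
  obtain ⟨B, h1, h2⟩ := h
  let e' : N →ₗ[F] N' := (e.toLinearMap).restrictScalars F
  refine ⟨B.compl₁₂ e' e', ?_, ?_⟩
  · intro x y
    simp only [LinearMap.compl₁₂_apply]
    have hx : ∀ z, e' ((X : F[X]) • z) = (X : F[X]) • e' z := fun z => e.map_smul _ z
    rw [hx, hx, h1]
  · intro x hx
    have : e' x = 0 := by
      apply h2
      intro y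
      have := hx (e.symm y)
      simp only [LinearMap.compl₁₂_apply] at this
      have h3 : e' (e.symm y) = y := e.apply_symm_apply y
      rwa [h3] at this
    have h4 : e x = 0 := this
    simpa using h4

lemma HasSelfDualForm.pi {ι : Type*} [Fintype ι] [DecidableEq ι] {M : ι → Type*} [∀ i, AddCommGroup (M i)]
    [∀ i, Module F (M i)] [∀ i, Module F[X] (M i)]
    (h : ∀ i, HasSelfDualForm F (M i)) : HasSelfDualForm F (∀ i, M i) := by
  choose B h1 h2 using h
  let C : (∀ i, M i) →ₗ[F] (∀ i, M i) →ₗ[F] F :=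
    LinearMap.mk₂ F (fun a b => ∑ i, B i (a i) (b i))
      (fun a a' b => by simp [Finset.sum_add_distrib])
      (fun c a b => by simp [Finset.mul_sum])
      (fun a b b' => by simp [Finset.sum_add_distrib])
      (fun c a b => by simp [Finset.mul_sum])
  refine ⟨C, ?_, ?_⟩
  · intro a b
    simp only [C, LinearMap.mk₂_apply, Pi.smul_apply, h1]
  · intro a ha
    funext i
    apply h2 i
    intro y
    have := ha (Pi.single i y)
    simp only [C, LinearMap.mk₂_apply] at this
    rw [Finset.sum_eq_single i] at this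
    · simpa using this
    · intro j _ hj
      simp [Pi.single_eq_of_ne hj]
    · simp

lemma hasSelfDualForm_cyclic (g : F[X]) (hg : g ≠ 0) : HasSelfDualForm F (F[X] ⧸ (Submodule.span F[X] {g})) := by
  classical
  -- the monic associate
  let g' : F[X] := g * C (g.leadingCoeff)⁻¹
  have hmon : g'.Monic := Polynomial.monic_mul_leadingCoeff_inv hg
  have hdvd : ∀ f, g' ∣ f ↔ g ∣ f := by
    intro f
    have hu : IsUnit (C (g.leadingCoeff)⁻¹ : F[X]) :=
      Polynomial.isUnit_C.2 (IsUnit.mk0 _ (inv_ne_zero (leadingCoeff_ne_zero.2 hg)))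
    exact hu.mul_right_dvd
  let d := g'.natDegree
  let τ : F[X] →ₗ[F] F := (Polynomial.lcoeff F (d - 1)) ∘ₗ (Polynomial.modByMonicHom g')
  have hτ : ∀ f, τ f = (f %ₘ g').coeff (d - 1) := fun f => rfl
  have hτ0 : ∀ f, g ∣ f → τ f = 0 := by
    intro f hf
    rw [hτ, (Polynomial.modByMonic_eq_zero_iff_dvd hmon).2 ((hdvd f).2 hf)]
    simp
  have hnd : ∀ f, ¬ g ∣ f → ∃ h, τ (f * h) ≠ 0 := by
    intro f hf
    set r := f %ₘ g' with hr
    have hr0 : r ≠ 0 := by
      intro h0
      exact hf ((hdvd f).1 ((Polynomial.modByMonic_eq_zero_iff_dvd hmon).1 h0))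
    have hdeg : r.natDegree < d := by
      apply Polynomial.natDegree_modByMonic_lt f hmon
      intro h1
      rw [h1] at hr
      rw [hr, Polynomial.modByMonic_one] at hr0
      exact hr0 rfl
    refine ⟨X ^ (d - 1 - r.natDegree), ?_⟩
    have hfr : f * X ^ (d - 1 - r.natDegree) = g' * ((f /ₘ g') * X ^ (d - 1 - r.natDegree)) + r * X ^ (d - 1 - r.natDegree) := by
      conv_lhs => rw [← Polynomial.modByMonic_add_div f g']
      ring
    have hkdeg : (r * X ^ (d - 1 - r.natDegree)).natDegree = d - 1 := by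
      rw [Polynomial.natDegree_mul_X_pow _ hr0]
      omega
    have hd0 : 0 < d := by omega
    have hlt : (r * X ^ (d - 1 - r.natDegree)).degree < g'.degree := by
      apply Polynomial.degree_lt_degree
      rw [hkdeg]
      omega
    rw [hτ, hfr, Polynomial.add_modByMonic, ((Polynomial.modByMonic_eq_self_iff hmon).2 hlt)]
    have h6 : (g' * ((f /ₘ g') * X ^ (d - 1 - r.natDegree))) %ₘ g' = 0 :=
      (Polynomial.modByMonic_eq_zero_iff_dvd hmon).2 (dvd_mul_right _ _)
    rw [h6, zero_add, Polynomial.coeff_mul_X_pow']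
    have h7 : d - 1 - r.natDegree ≤ d - 1 := by omega
    rw [if_pos h7]
    have h8 : d - 1 - (d - 1 - r.natDegree) = r.natDegree := by omega
    rw [h8]
    exact Polynomial.leadingCoeff_ne_zero.2 hr0
  let mk : F[X] → (F[X] ⧸ (Submodule.span F[X] {g})) := Submodule.Quotient.mk
  have hmk : Function.Surjective mk := Submodule.Quotient.mk_surjective _
  have hmkeq : ∀ a b, mk a = mk b ↔ g ∣ a - b := by
    intro a b
    simp only [mk]
    rw [Submodule.Quotient.eq]
    exact Ideal.mem_span_singleton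
  let rep := Function.surjInv hmk
  have hrep : ∀ a, mk (rep a) = a := Function.surjInv_eq hmk
  have hτcongr : ∀ u v, g ∣ u - v → τ u = τ v := by
    intro u v h
    have := hτ0 _ h
    rw [map_sub] at this
    exact sub_eq_zero.1 this
  let B0 : (F[X] ⧸ (Submodule.span F[X] {g})) → (F[X] ⧸ (Submodule.span F[X] {g})) → F :=
    fun x y => τ (rep x * rep y)
  have hB0 : ∀ a b, B0 (mk a) (mk b) = τ (a * b) := by
    intro a b
    apply hτcongr
    have h1 : g ∣ rep (mk a) - a := (hmkeq _ _).1 (hrep _)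
    have h2 : g ∣ rep (mk b) - b := (hmkeq _ _).1 (hrep _)
    have : rep (mk a) * rep (mk b) - a * b = (rep (mk a) - a) * rep (mk b) + a * (rep (mk b) - b) := by ring
    rw [this]
    exact dvd_add (h1.mul_right _) (h2.mul_left _)
  have hadd : ∀ a b, mk (a + b) = mk a + mk b := fun a b => rfl
  have hsmul : ∀ (c : F) a, mk (c • a) = c • mk a := fun c a => rfl
  have hX : ∀ a, (X : F[X]) • mk a = mk (X * a) := fun a => rfl
  let B : (F[X] ⧸ (Submodule.span F[X] {g})) →ₗ[F] (F[X] ⧸ (Submodule.span F[X] {g})) →ₗ[F] F :=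
    LinearMap.mk₂ F B0
      (fun x x' y => by
        obtain ⟨a, rfl⟩ := hmk x
        obtain ⟨a', rfl⟩ := hmk x'
        obtain ⟨b, rfl⟩ := hmk y
        rw [← hadd, hB0, hB0, hB0, add_mul, map_add])
      (fun c x y => by
        obtain ⟨a, rfl⟩ := hmk x
        obtain ⟨b, rfl⟩ := hmk y
        rw [← hsmul, hB0, hB0, smul_mul_assoc, map_smul])
      (fun x y y' => by
        obtain ⟨a, rfl⟩ := hmk x
        obtain ⟨b, rfl⟩ := hmk y
        obtain ⟨b', rfl⟩ := hmk y'
        rw [← hadd, hB0, hB0, hB0, mul_add, map_add])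
      (fun c x y => by
        obtain ⟨a, rfl⟩ := hmk x
        obtain ⟨b, rfl⟩ := hmk y
        rw [← hsmul, hB0, hB0, mul_smul_comm, map_smul])
  refine ⟨B, ?_, ?_⟩
  · intro x y
    obtain ⟨a, rfl⟩ := hmk x
    obtain ⟨b, rfl⟩ := hmk y
    change B0 _ _ = B0 _ _
    rw [hX, hX, hB0, hB0]
    congr 1
    ring
  · intro x hx
    obtain ⟨a, rfl⟩ := hmk x
    by_contra hne
    have hga : ¬ g ∣ a := by
      intro hdv
      apply hne
      have : mk a = mk 0 := (hmkeq _ _).2 (by simpa using hdv)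
      rw [this]
      rfl
    obtain ⟨h, hh⟩ := hnd a hga
    apply hh
    have := hx (mk h)
    change B0 _ _ = 0 at this
    rwa [hB0] at this

/-- the form exists on the module attached to any endomorphism of a finite-dimensional space -/
lemma hasSelfDualForm_aeval {n : Type*} [Fintype n] (φ : Module.End F (n → F)) :
    HasSelfDualForm F (Module.AEval' φ) := by
  have hT : Module.IsTorsion F[X] (Module.AEval' φ) := by
    intro x
    refine ⟨⟨φ.charpoly, mem_nonZeroDivisors_of_ne_zero (LinearMap.charpoly_monic φ).ne_zero⟩, ?_⟩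
    obtain ⟨m, rfl⟩ := (Module.AEval'.of φ).surjective x
    change φ.charpoly • (Module.AEval'.of φ) m = 0
    rw [← Module.AEval.of_aeval_smul, LinearMap.aeval_self_charpoly]
    simp
  obtain ⟨ι, _, p, hp, e, ⟨E⟩⟩ := Module.equiv_directSum_of_isTorsion hT
  classical
  have hF : HasSelfDualForm F (∀ i, F[X] ⧸ (Submodule.span F[X] {p i ^ e i})) :=
    HasSelfDualForm.pi (fun i => hasSelfDualForm_cyclic _ (pow_ne_zero _ (hp i).ne_zero))
  exact HasSelfDualForm.of_equiv (E.trans (DirectSum.linearEquivFunOnFintype F[X] ι _)) hF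

end

/-- Every square matrix over a field is similar to its transpose. -/
theorem isConj_transpose {F : Type*} [Field F] {n : Type*} [Fintype n] [DecidableEq n] (A : Matrix n n F) : IsConj A A.transpose := by
  classical
  obtain ⟨B, h1, h2⟩ := hasSelfDualForm_aeval (F := F) (A.mulVecLin)
  let o := Module.AEval'.of (R := F) (A.mulVecLin)
  let P : Matrix n n F := Matrix.of fun i j => B (o (Pi.single i 1)) (o (Pi.single j 1))
  have hb : ∀ x y, B (o x) (o y) = x ⬝ᵥ (P *ᵥ y) := by
    intro x y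
    have h3 : (B.compl₁₂ (o.toLinearMap) (o.toLinearMap) : LinearMap.BilinForm F (n → F)) = Matrix.toBilin' P := by
      apply LinearMap.BilinForm.ext_basis (Pi.basisFun F n)
      intro i j
      simp only [Pi.basisFun_apply, Matrix.toBilin'_single, LinearMap.compl₁₂_apply]
      rfl
    have h4 := LinearMap.congr_fun₂ h3 x y
    simp only [LinearMap.compl₁₂_apply, Matrix.toBilin'_apply'] at h4
    exact h4
  have hX : ∀ v, (Polynomial.X : F[X]) • o v = o (A *ᵥ v) := fun v => Module.AEval'.X_smul_of (A.mulVecLin) v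
  have key : ∀ x y, x ⬝ᵥ ((Aᵀ * P) *ᵥ y) = x ⬝ᵥ ((P * A) *ᵥ y) := by
    intro x y
    calc x ⬝ᵥ ((Aᵀ * P) *ᵥ y) = (A *ᵥ x) ⬝ᵥ (P *ᵥ y) := by
          rw [← Matrix.mulVec_mulVec, Matrix.dotProduct_mulVec x, Matrix.vecMul_transpose]
      _ = B (o (A *ᵥ x)) (o y) := (hb _ _).symm
      _ = B (o x) (o (A *ᵥ y)) := by rw [← hX, ← hX, h1]
      _ = x ⬝ᵥ (P *ᵥ (A *ᵥ y)) := hb _ _
      _ = x ⬝ᵥ ((P * A) *ᵥ y) := by rw [Matrix.mulVec_mulVec]
  have hcomm : Aᵀ * P = P * A := by
    ext i j
    have := key (Pi.single i 1) (Pi.single j 1)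
    simpa [Matrix.mulVec_single_one] using this
  have hdet : P.det ≠ 0 := by
    intro h0
    obtain ⟨v, hv, hv0⟩ := Matrix.exists_vecMul_eq_zero_iff.2 h0
    apply hv
    have : o v = 0 := by
      apply h2
      intro y
      obtain ⟨y', rfl⟩ := o.surjective y
      rw [hb, Matrix.dotProduct_mulVec, hv0, zero_dotProduct]
    simpa using this
  have hu : IsUnit P := (Matrix.isUnit_iff_isUnit_det P).2 (IsUnit.mk0 _ hdet)
  exact ⟨hu.unit, hcomm.symm⟩

end Cfsg.Agent.H11
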