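import Cfsg.Agent.Lib.H11.Transv

set_option autoImplicit false
set_option linter.unusedSectionVars false

namespace Cfsg.Agent.H11.Transv

open Matrix Module Cfsg

variable {F : Type*} [Field F] {ι : Type} [Fintype ι] [DecidableEq ι]

lemma vecMulVec_sq {v w : ι → F} (h : w ⬝ᵥ v = 0) : vecMulVec v w * vecMulVec v w = 0 := by
  rw [Matrix.vecMulVec_mul_vecMulVec, h]
  simp

lemma isTransvection_of {v w : ι → F} (hv : v ≠ 0) (hw : w ≠ 0) (h : w ⬝ᵥ v = 0) :
    IsTransvection (1 + vecMulVec v w) := by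
  have e : (1 + vecMulVec v w) - 1 = vecMulVec v w := by abel
  unfold IsTransvection
  rw [e]
  refine ⟨?_, vecMulVec_sq h⟩
  obtain ⟨i, hi⟩ := Function.ne_iff.1 hv
  obtain ⟨j, hj⟩ := Function.ne_iff.1 hw
  apply le_antisymm (Matrix.rank_vecMulVec_le v w)
  rw [Nat.one_le_iff_ne_zero]
  intro h0
  have h1 : LinearMap.range (vecMulVec v w).mulVecLin = ⊥ := Submodule.finrank_eq_zero.1 h0
  have h2 : (vecMulVec v w).mulVecLin (Pi.single j 1) = 0 := by
    have : (vecMulVec v w).mulVecLin (Pi.single j 1) ∈ LinearMap.range (vecMulVec v w).mulVecLin := ⟨_, rfl⟩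
    rw [h1] at this
    exact this
  have h3 := congrFun h2 i
  rw [Matrix.mulVecLin_apply, Matrix.mulVec_single_one] at h3
  have h4 : vecMulVec v w i j = 0 := h3
  rw [Matrix.vecMulVec_apply] at h4
  exact (mul_ne_zero hi hj) h4

/-- uniqueness of the rank-one decomposition -/
lemma exists_scale_of_eq {v w v' w' : ι → F} (hv : v ≠ 0) (hw : w ≠ 0) (hv' : v' ≠ 0) (hw' : w' ≠ 0)
    (h : vecMulVec v w = vecMulVec v' w') : ∃ c : Fˣ, v' = (c : F) • v ∧ w' = ((c⁻¹ : Fˣ) : F) • w := by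
  obtain ⟨j, hj⟩ := Function.ne_iff.1 hw
  obtain ⟨i', hi'⟩ := Function.ne_iff.1 hv'
  have h1 : ∀ i k, v i * w k = v' i * w' k := fun i k => by
    have := congrFun (congrFun h i) k
    simpa [Matrix.vecMulVec_apply] using this
  have hw'j : w' j ≠ 0 := by
    intro h0
    obtain ⟨i, hi⟩ := Function.ne_iff.1 hv
    have := h1 i j
    rw [h0, mul_zero] at this
    exact (mul_ne_zero hi hj) this
  have hw'j' : w j / w' j ≠ 0 := div_ne_zero hj hw'j
  refine ⟨Units.mk0 (w j / w' j) hw'j', ?_, ?_⟩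
  · funext i
    have := h1 i j
    simp only [Units.val_mk0, Pi.smul_apply, smul_eq_mul]
    field_simp
    linear_combination -this
  · funext k
    simp only [Units.val_inv_eq_inv_val, Units.val_mk0, Pi.smul_apply, smul_eq_mul]
    have h2 := h1 i' k
    have h3 := h1 i' j
    have hvi : v i' ≠ 0 := by
      intro h0
      rw [h0, zero_mul] at h3
      exact (mul_ne_zero hi' hw'j) h3.symm
    have e : v i' * (w k * w' j) = v i' * (w j * w' k) := by
      linear_combination (w' j) * h2 - (w' k) * h3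
    have e2 := mul_left_cancel₀ hvi e
    have hj' : w j ≠ 0 := hj
    rw [inv_div, div_mul_eq_mul_div, eq_div_iff hj']
    linear_combination -e2

section count

/-- class equation for one element -/
lemma card_carrier {G : Type*} [Group G] (g : G) :
    Nat.card (ConjClasses.mk g).carrier * Nat.card (Subgroup.centralizer ({g} : Set G))
      = Nat.card G := by
  have h1 := (MulAction.stabilizer (ConjAct G) g).card_mul_index
  rw [MulAction.index_stabilizer, ConjAct.orbit_eq_carrier_conjClasses, ← Nat.card_coe_set_eq,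
    ← Subgroup.nat_card_centralizer_nat_card_stabilizer] at h1
  rw [mul_comm, h1]
  rfl

variable [Fintype F]

lemma card_ne_add_one {α : Type*} [Finite α] (a : α) : Nat.card {x // x ≠ a} + 1 = Nat.card α := by
  classical
  haveI := Fintype.ofFinite α
  rw [Nat.card_eq_fintype_card, Nat.card_eq_fintype_card, Fintype.card_subtype_compl, Fintype.card_subtype_eq]
  have : 1 ≤ Fintype.card α := Fintype.card_pos_iff.2 ⟨a⟩
  omega

/-- incident pairs -/
abbrev PP (ι : Type) [Fintype ι] (F : Type*) [Field F] : Type _ :=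
  {p : (ι → F) × (ι → F) // p.1 ≠ 0 ∧ p.2 ≠ 0 ∧ p.2 ⬝ᵥ p.1 = 0}

lemma card_fiber {v : ι → F} (hv : v ≠ 0) :
    Nat.card {w : ι → F // w ≠ 0 ∧ w ⬝ᵥ v = 0} + 1 = Fintype.card F ^ (Fintype.card ι - 1) := by
  classical
  have h1 := finrank_ker_ph hv
  have h2 : Nat.card (LinearMap.ker (ph v)) = Fintype.card F ^ (Fintype.card ι - 1) := by
    have h3 := Module.natCard_eq_pow_finrank (K := F) (V := LinearMap.ker (ph v))
    rw [h3, Nat.card_eq_fintype_card]
    congr 1
    omega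
  rw [← h2, ← card_ne_add_one (0 : LinearMap.ker (ph v))]
  congr 1
  apply Nat.card_congr
  refine ⟨fun x => ⟨⟨x.1, by change v ⬝ᵥ x.1 = 0; rw [dotProduct_comm]; exact x.2.2⟩, fun h => x.2.1 (congrArg Subtype.val h)⟩,
    fun y => ⟨y.1.1, fun h => y.2 (Subtype.ext h), by have := y.1.2; change v ⬝ᵥ y.1.1 = 0 at this; rw [dotProduct_comm]; exact this⟩, ?_, ?_⟩
  · intro x; rfl
  · intro y; rfl

lemma card_PP (hn : 1 ≤ Fintype.card ι) :
    Nat.card (PP ι F) = (Fintype.card F ^ Fintype.card ι - 1) * (Fintype.card F ^ (Fintype.card ι - 1) - 1) := by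
  classical
  have e : PP ι F ≃ Σ v : {v : ι → F // v ≠ 0}, {w : ι → F // w ≠ 0 ∧ w ⬝ᵥ v.1 = 0} :=
    { toFun := fun p => ⟨⟨p.1.1, p.2.1⟩, ⟨p.1.2, p.2.2⟩⟩
      invFun := fun x => ⟨(x.1.1, x.2.1), x.1.2, x.2.2⟩
      left_inv := fun _ => rfl
      right_inv := fun _ => rfl }
  rw [Nat.card_congr e, Nat.card_sigma]
  have h1 : ∀ v : {v : ι → F // v ≠ 0}, Nat.card {w : ι → F // w ≠ 0 ∧ w ⬝ᵥ v.1 = 0} =
      Fintype.card F ^ (Fintype.card ι - 1) - 1 := by
    intro v
    have := card_fiber v.2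
    omega
  simp only [h1]
  rw [Finset.sum_const, smul_eq_mul, Finset.card_univ, ← Nat.card_eq_fintype_card]
  congr 1
  have h2 := card_ne_add_one (0 : ι → F)
  have h3 : Nat.card (ι → F) = Fintype.card F ^ Fintype.card ι := by
    rw [Nat.card_eq_fintype_card, Fintype.card_fun]
  omega

/-- transvections as elements of `GL` -/
abbrev XX (ι : Type) [Fintype ι] [DecidableEq ι] (F : Type*) [Field F] : Type _ :=
  {g : GL ι F // IsTransvection (g : Matrix ι ι F)}

/-- a transvection as an element of `GL` -/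
noncomputable def mkT (v w : ι → F) (h : w ⬝ᵥ v = 0) : GL ι F :=
  ⟨1 + vecMulVec v w, 1 - vecMulVec v w, by
    rw [add_mul, mul_sub, mul_sub, one_mul, mul_one, vecMulVec_sq h]; simp, by
    rw [sub_mul, mul_add, mul_add, one_mul, mul_one, vecMulVec_sq h]; simp⟩

lemma card_XX_mul (hn : 1 ≤ Fintype.card ι) :
    Nat.card (XX ι F) * (Fintype.card F - 1) =
      (Fintype.card F ^ Fintype.card ι - 1) * (Fintype.card F ^ (Fintype.card ι - 1) - 1) := by
  classical
  rw [← card_PP hn]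
  have hrep : ∀ t : XX ι F, ∃ p : (ι → F) × (ι → F), p.1 ≠ 0 ∧ p.2 ≠ 0 ∧ p.2 ⬝ᵥ p.1 = 0 ∧
      (t.1 : Matrix ι ι F) = 1 + vecMulVec p.1 p.2 := by
    intro t
    obtain ⟨v, w, h1, h2, h3, h4⟩ := exists_decomp _ t.2
    exact ⟨(v, w), h1, h2, h3, h4⟩
  choose r hr1 hr2 hr3 hr4 using hrep
  let Ψ : Fˣ × XX ι F → PP ι F := fun x =>
    ⟨(((x.1 : Fˣ) : F) • (r x.2).1, ((x.1⁻¹ : Fˣ) : F) • (r x.2).2), by
      refine ⟨smul_ne_zero x.1.ne_zero (hr1 x.2), smul_ne_zero (x.1⁻¹).ne_zero (hr2 x.2), ?_⟩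
      simp only [smul_dotProduct, dotProduct_smul, hr3 x.2]
      simp⟩
  have hvv : ∀ (c : Fˣ) (v w : ι → F), vecMulVec ((c : F) • v) (((c⁻¹ : Fˣ) : F) • w) = vecMulVec v w := by
    intro c v w
    ext i j
    simp only [Matrix.vecMulVec_apply, Pi.smul_apply, smul_eq_mul]
    have : (c : F) * ((c⁻¹ : Fˣ) : F) = 1 := c.mul_inv
    linear_combination (v i * w j) * this
  have hΨ : Function.Bijective Ψ := by
    constructor
    · rintro ⟨c, t⟩ ⟨c', t'⟩ h
      have h1 : (((c : Fˣ) : F) • (r t).1, ((c⁻¹ : Fˣ) : F) • (r t).2) = (((c' : Fˣ) : F) • (r t').1, ((c'⁻¹ : Fˣ) : F) • (r t').2) :=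
        congrArg Subtype.val h
      have h2 : (t.1 : Matrix ι ι F) = (t'.1 : Matrix ι ι F) := by
        obtain ⟨h1a, h1b⟩ := Prod.ext_iff.1 h1
        simp only at h1a h1b
        rw [hr4 t, hr4 t', ← hvv c, ← hvv c' (r t').1, h1a, h1b]
      have h3 : t = t' := Subtype.ext (Units.ext h2)
      subst h3
      have h4 := (Prod.ext_iff.1 h1).1
      simp only at h4
      obtain ⟨i, hi⟩ := Function.ne_iff.1 (hr1 t)
      have h5 := congrFun h4 i
      simp only [Pi.smul_apply, smul_eq_mul] at h5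
      have h6 : (c : F) = c' := mul_right_cancel₀ hi h5
      rw [Units.ext h6]
    · rintro ⟨⟨v, w⟩, h1, h2, h3⟩
      simp only at h1 h2 h3
      let t : XX ι F := ⟨mkT v w h3, isTransvection_of h1 h2 h3⟩
      have h4 : vecMulVec (r t).1 (r t).2 = vecMulVec v w := by
        have h5 : (1 : Matrix ι ι F) + vecMulVec v w = 1 + vecMulVec (r t).1 (r t).2 := hr4 t
        exact (add_left_cancel h5).symm
      obtain ⟨c, hc1, hc2⟩ := exists_scale_of_eq (hr1 t) (hr2 t) h1 h2 h4
      refine ⟨(c, t), ?_⟩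
      apply Subtype.ext
      exact Prod.ext hc1.symm hc2.symm
  rw [← Nat.card_congr (Equiv.ofBijective Ψ hΨ), Nat.card_prod, mul_comm]
  congr 1
  rw [Nat.card_units, Nat.card_eq_fintype_card]

/-- the class of a transvection -/
lemma carrier_eq (t : GL ι F) (ht : IsTransvection (t : Matrix ι ι F)) :
    Nat.card (ConjClasses.mk t).carrier = Nat.card (XX ι F) := by
  classical
  apply Nat.card_congr
  have hsub : ∀ g, g ∈ (ConjClasses.mk t).carrier ↔ IsTransvection (g : Matrix ι ι F) := by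
    intro g
    rw [ConjClasses.mem_carrier_iff_mk_eq, ConjClasses.mk_eq_mk_iff_isConj]
    obtain ⟨v, w, hv, hw, hwv, hdec⟩ := exists_decomp _ ht
    constructor
    · intro hg
      obtain ⟨c, rfl⟩ := isConj_iff.1 hg.symm
      have hN : ((c * t * c⁻¹ : GL ι F) : Matrix ι ι F) - 1 =
          (c : Matrix ι ι F) * ((t : Matrix ι ι F) - 1) * ((c⁻¹ : GL ι F) : Matrix ι ι F) := by
        rw [mul_sub, sub_mul, mul_one]
        simp
      unfold IsTransvection
      rw [hN]
      constructor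
      · rw [Matrix.rank_mul_eq_left_of_isUnit_det _ _ (by
          rw [← Matrix.isUnit_iff_isUnit_det]; exact Units.isUnit _),
          Matrix.rank_mul_eq_right_of_isUnit_det _ _ (by
          rw [← Matrix.isUnit_iff_isUnit_det]; exact Units.isUnit _)]
        exact ht.1
      · have h2 := ht.2
        calc _ = (c : Matrix ι ι F) * ((t : Matrix ι ι F) - 1) * (((c⁻¹ : GL ι F) : Matrix ι ι F) * (c : Matrix ι ι F)) *
              ((t : Matrix ι ι F) - 1) * ((c⁻¹ : GL ι F) : Matrix ι ι F) := by simp only [mul_assoc]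
          _ = (c : Matrix ι ι F) * (((t : Matrix ι ι F) - 1) * ((t : Matrix ι ι F) - 1)) * ((c⁻¹ : GL ι F) : Matrix ι ι F) := by
              simp [mul_assoc]
          _ = 0 := by rw [h2]; simp
    · intro hg
      obtain ⟨v', w', hv', hw', hwv', hdec'⟩ := exists_decomp _ hg
      obtain ⟨P, hP, h⟩ := exists_conj hv' hw' hwv' hv hw hwv
      rw [← hdec, ← hdec'] at h
      refine isConj_iff.2 ⟨Matrix.GeneralLinearGroup.mk'' P hP, ?_⟩
      apply mul_right_cancel (b := Matrix.GeneralLinearGroup.mk'' P hP)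
      rw [inv_mul_cancel_right]
      apply Units.ext
      exact h
  exact Equiv.subtypeEquivRight (fun g => hsub g)

/-- arithmetic for the order of `GL` -/
lemma arith (q m : ℕ) (hq : 2 ≤ q) :
    ∏ i : Fin (m + 2), (q ^ (m + 2) - q ^ (i : ℕ)) =
      (q ^ (m + 2) - 1) * (q ^ (m + 1) - 1) * (q ^ (2 * (m + 2) - 3) * ∏ i : Fin m, (q ^ m - q ^ (i : ℕ))) := by
  rw [Fin.prod_univ_succ, Fin.prod_univ_succ]
  simp only [Fin.val_zero, pow_zero, Fin.val_succ, zero_add, pow_one]
  have h1 : q ^ (m + 2) - q = q * (q ^ (m + 1) - 1) := by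
    rw [Nat.mul_sub, mul_one]
    congr 1
    ring
  have h2 : ∀ i : Fin m, q ^ (m + 2) - q ^ ((i : ℕ) + 1 + 1) = q ^ 2 * (q ^ m - q ^ (i : ℕ)) := by
    intro i
    rw [Nat.mul_sub]
    congr 1 <;> ring
  simp only [h2]
  rw [Finset.prod_mul_distrib, h1]
  simp only [Finset.prod_const, Finset.card_univ, Fintype.card_fin]
  have h3 : 2 * (m + 2) - 3 = 2 * m + 1 := by omega
  rw [h3]
  ring

theorem card_centralizer_aux (m : ℕ) (t : GL (Fin (m + 2)) F) (ht : IsTransvection (t : Matrix (Fin (m + 2)) (Fin (m + 2)) F)) :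
    Nat.card ↥(Subgroup.centralizer ({t} : Set (GL (Fin (m + 2)) F))) =
      Fintype.card F ^ (2 * (m + 2) - 3) * (Fintype.card F - 1) *
        ∏ i : Fin m, (Fintype.card F ^ m - Fintype.card F ^ (i : ℕ)) := by
  classical
  set q := Fintype.card F with hq
  have hq2 : 2 ≤ q := Fintype.one_lt_card
  have h1 := card_carrier t
  rw [carrier_eq t ht] at h1
  have h2 := card_XX_mul (ι := Fin (m + 2)) (F := F) (by simp)
  rw [Fintype.card_fin, ← hq] at h2
  have h3 : Nat.card (GL (Fin (m + 2)) F) = ∏ i : Fin (m + 2), (q ^ (m + 2) - q ^ (i : ℕ)) :=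
    Matrix.card_GL_field (m + 2)
  rw [h3, arith q m hq2] at h1
  have hA : 0 < (q ^ (m + 2) - 1) * (q ^ (m + 1) - 1) := by
    apply Nat.mul_pos
    · exact Nat.sub_pos_of_lt (Nat.one_lt_pow (by omega) (by omega))
    · exact Nat.sub_pos_of_lt (Nat.one_lt_pow (by omega) (by omega))
  apply Nat.eq_of_mul_eq_mul_left hA
  have h2' : Nat.card (XX (Fin (m + 2)) F) * (q - 1) = (q ^ (m + 2) - 1) * (q ^ (m + 1) - 1) := h2
  set A := (q ^ (m + 2) - 1) * (q ^ (m + 1) - 1) with hAdef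
  calc A * Nat.card ↥(Subgroup.centralizer ({t} : Set (GL (Fin (m + 2)) F)))
      = (Nat.card (XX (Fin (m + 2)) F) * (q - 1)) * Nat.card ↥(Subgroup.centralizer ({t} : Set (GL (Fin (m + 2)) F))) := by rw [h2']
    _ = (q - 1) * (Nat.card (XX (Fin (m + 2)) F) * Nat.card ↥(Subgroup.centralizer ({t} : Set (GL (Fin (m + 2)) F)))) := by ring
    _ = (q - 1) * (A * (q ^ (2 * (m + 2) - 3) * ∏ i : Fin m, (q ^ m - q ^ (i : ℕ)))) := by rw [h1]
    _ = _ := by ring

theorem card_centralizer (n : ℕ) (hn : 2 ≤ n) (t : GL (Fin n) F) (ht : IsTransvection (t : Matrix (Fin n) (Fin n) F)) :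
    Nat.card ↥(Subgroup.centralizer ({t} : Set (GL (Fin n) F))) =
      Fintype.card F ^ (2 * n - 3) * (Fintype.card F - 1) *
        ∏ i : Fin (n - 2), (Fintype.card F ^ (n - 2) - Fintype.card F ^ (i : ℕ)) := by
  obtain ⟨m, rfl⟩ : ∃ m, n = m + 2 := ⟨n - 2, by omega⟩
  exact card_centralizer_aux m t ht

end count

end Cfsg.Agent.H11.Transv
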