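import Mathlib
import Cfsg.Agent.Lib.H29.Unip
import Cfsg.Agent.Lib.H29.JordanStd
import Cfsg.Agent.Lib.H10.Unipotent

/-! Classes of `GL_n(q)` of elements of order `p` are given by Jordan types. -/

set_option linter.unusedSectionVars false

namespace Cfsg.Agent.H11.UnipCl

open Module Cfsg.Agent.H29

/-- Functions on fintypes with the same multiset of values differ by a bijection. -/
theorem exists_equiv_of_map_eq {κ₁ κ₂ : Type*} [Fintype κ₁] [Fintype κ₂] (a₁ : κ₁ → ℕ) (a₂ : κ₂ → ℕ)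
    (h : Finset.univ.val.map a₁ = Finset.univ.val.map a₂) :
    ∃ σ : κ₁ ≃ κ₂, ∀ j, a₂ (σ j) = a₁ j := by
  classical
  have hc : ∀ c : ℕ, Fintype.card {j // a₁ j = c} = Fintype.card {j // a₂ j = c} := by
    intro c
    have h1 := congrArg (Multiset.count c) h
    rw [Multiset.count_map, Multiset.count_map] at h1
    rw [Fintype.card_subtype, Fintype.card_subtype]
    have e1 : (Finset.univ.filter (fun j => a₁ j = c)).card =
        (Multiset.filter (fun a => c = a₁ a) Finset.univ.val).card := by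
      rw [Finset.card_def, Finset.filter_val]
      congr 1
      ext x
      simp [Multiset.count_filter, eq_comm]
    have e2 : (Finset.univ.filter (fun j => a₂ j = c)).card =
        (Multiset.filter (fun a => c = a₂ a) Finset.univ.val).card := by
      rw [Finset.card_def, Finset.filter_val]
      congr 1
      ext x
      simp [Multiset.count_filter, eq_comm]
    rw [e1, e2, h1]
  have hf : ∀ c : ℕ, Nonempty ({j // a₁ j = c} ≃ {j // a₂ j = c}) := fun c => Fintype.card_eq.1 (hc c)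
  let f := fun c => (hf c).some
  refine ⟨(Equiv.sigmaFiberEquiv a₁).symm.trans ((Equiv.sigmaCongrRight f).trans (Equiv.sigmaFiberEquiv a₂)), ?_⟩
  intro j
  simp only [Equiv.trans_apply]
  exact (f (a₁ j) ⟨j, rfl⟩).2

variable {F : Type*} [Field F] {n : ℕ}

theorem conj_of_type {μ : Multiset ℕ} {N₁ N₂ : (Fin n → F) →ₗ[F] (Fin n → F)}
    (h₁ : HasJType N₁ ⊤ μ) (h₂ : HasJType N₂ ⊤ μ) :
    ∃ P : GL (Fin n) F, LinearMap.toMatrix' N₁ * (P : Matrix (Fin n) (Fin n) F) =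
      (P : Matrix (Fin n) (Fin n) F) * LinearMap.toMatrix' N₂ := by
  classical
  obtain ⟨κ₁, i1, i2, a₁, v₁, hμ₁, hpos₁, hk₁, hli₁, hsp₁⟩ := h₁.exists_family
  obtain ⟨κ₂, i3, i4, a₂, v₂, hμ₂, hpos₂, hk₂, hli₂, hsp₂⟩ := h₂.exists_family
  obtain ⟨σ, hσ⟩ := exists_equiv_of_map_eq a₁ a₂ (hμ₁.trans hμ₂.symm)
  have hcard : Fintype.card (Σ j, Fin (a₁ j)) = n := by
    have h1 := finrank_span_eq_card hli₁
    rw [hsp₁, finrank_top, Module.finrank_fin_fun] at h1
    exact h1.symm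
  let e : (Σ j, Fin (a₁ j)) ≃ Fin n := Fintype.equivFinOfCardEq hcard
  obtain ⟨Q₁, -, hQ₁⟩ := exists_conj_of_family N₁ e v₁ hk₁ hli₁
  have hli' : LinearIndependent F (fun x : (Σ j, Fin (a₁ j)) => (N₂ ^ (x.2 : ℕ)) (v₂ (σ x.1))) := by
    let f : (Σ j, Fin (a₁ j)) → (Σ j, Fin (a₂ j)) := fun x => ⟨σ x.1, Fin.cast (hσ x.1).symm x.2⟩
    have hf : Function.Injective f := by
      rintro ⟨j, l⟩ ⟨j', l'⟩ hjl
      have h1 : σ j = σ j' := congrArg Sigma.fst hjl
      have h2 : j = j' := σ.injective h1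
      subst h2
      have h3 : (Fin.cast (hσ j).symm l : Fin (a₂ (σ j))) = Fin.cast (hσ j).symm l' := by
        simpa [f] using hjl
      have h4 : l = l' := by
        apply Fin.ext
        have := congrArg Fin.val h3
        simpa using this
      rw [h4]
    exact hli₂.comp f hf
  obtain ⟨Q₂, -, hQ₂⟩ := exists_conj_of_family N₂ e (fun j => v₂ (σ j))
    (fun j => by rw [← hσ j]; exact hk₂ (σ j)) hli'
  refine ⟨Q₁ * Q₂⁻¹, ?_⟩
  have hinv : ((Q₂⁻¹ : GL (Fin n) F) : Matrix (Fin n) (Fin n) F) * (Q₂ : Matrix (Fin n) (Fin n) F) = 1 := by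
    rw [← Units.val_mul, inv_mul_cancel, Units.val_one]
  have hinv' : (Q₂ : Matrix (Fin n) (Fin n) F) * ((Q₂⁻¹ : GL (Fin n) F) : Matrix (Fin n) (Fin n) F) = 1 := by
    rw [← Units.val_mul, mul_inv_cancel, Units.val_one]
  rw [Units.val_mul]
  calc LinearMap.toMatrix' N₁ * ((Q₁ : Matrix (Fin n) (Fin n) F) * ((Q₂⁻¹ : GL (Fin n) F) : Matrix (Fin n) (Fin n) F))
      = (LinearMap.toMatrix' N₁ * (Q₁ : Matrix (Fin n) (Fin n) F)) * ((Q₂⁻¹ : GL (Fin n) F) : Matrix (Fin n) (Fin n) F) := by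
        rw [Matrix.mul_assoc]
    _ = (Q₁ : Matrix (Fin n) (Fin n) F) * (stdNil e F * ((Q₂⁻¹ : GL (Fin n) F) : Matrix (Fin n) (Fin n) F)) := by
        rw [hQ₁, Matrix.mul_assoc]
    _ = (Q₁ : Matrix (Fin n) (Fin n) F) * (((Q₂⁻¹ : GL (Fin n) F) : Matrix (Fin n) (Fin n) F) *
          ((Q₂ : Matrix (Fin n) (Fin n) F) * stdNil e F) * ((Q₂⁻¹ : GL (Fin n) F) : Matrix (Fin n) (Fin n) F)) := by
        rw [← Matrix.mul_assoc ((Q₂⁻¹ : GL (Fin n) F) : Matrix (Fin n) (Fin n) F), hinv, Matrix.one_mul]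
    _ = _ := by
        rw [← hQ₂, Matrix.mul_assoc _ (LinearMap.toMatrix' N₂ * (Q₂ : Matrix (Fin n) (Fin n) F)),
          Matrix.mul_assoc (LinearMap.toMatrix' N₂), hinv', Matrix.mul_one, Matrix.mul_assoc]

theorem type_unique {μ ν : Multiset ℕ} {N₁ N₂ : (Fin n → F) →ₗ[F] (Fin n → F)}
    (h₁ : HasJType N₁ ⊤ μ) (h₂ : HasJType N₂ ⊤ ν) (Q : (Fin n → F) ≃ₗ[F] (Fin n → F))
    (h : N₂ ∘ₗ (Q : (Fin n → F) →ₗ[F] (Fin n → F)) = (Q : (Fin n → F) →ₗ[F] (Fin n → F)) ∘ₗ N₁) :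
    μ = ν := by
  apply multiset_eq_of_sub_sum _ _ h₁.pos h₂.pos
  intro t
  rw [← h₁.finrank_map_pow t, ← h₂.finrank_map_pow t]
  exact (finrank_map_of_conj N₁ N₂ Q h t).symm

section main

variable [Fintype F] {p : ℕ} [hp : Fact p.Prime] [CharP F p]

theorem toLin_pow (M : Matrix (Fin n) (Fin n) F) (k : ℕ) :
    Matrix.toLin' (M ^ k) = (Matrix.toLin' M) ^ k :=
  (Matrix.toLinAlgEquiv' (R := F) (n := Fin n)).map_pow M k

theorem jtype_of_order (g : GL (Fin n) F) (hg : orderOf g = p) :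
    ∃ μ : Multiset ℕ, HasJType (Matrix.toLin' ((g : Matrix (Fin n) (Fin n) F) - 1)) ⊤ μ ∧ (∀ a ∈ μ, a ≤ p) ∧
      μ.sum = n ∧ ∃ a ∈ μ, 2 ≤ a := by
  set N : (Fin n → F) →ₗ[F] (Fin n → F) := Matrix.toLin' ((g : Matrix (Fin n) (Fin n) F) - 1) with hN
  have hgp : (g : Matrix (Fin n) (Fin n) F) ^ p = 1 := by
    rw [← Units.val_pow_eq_pow_val, ← hg, pow_orderOf_eq_one, Units.val_one]
  have h1 : ((g : Matrix (Fin n) (Fin n) F) - 1) ^ p = 0 := by
    have := Cfsg.Agent.H10.sub_one_pow_eq_zero p (g : Matrix (Fin n) (Fin n) F) 1 (by rwa [pow_one])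
    rwa [pow_one] at this
  have hNp : N ^ p = 0 := by
    rw [hN, ← toLin_pow, h1, map_zero]
  obtain ⟨μ, hμ, hμp⟩ := exists_hasJType N p _ ⊤ rfl (tStable_top N) (fun v _ => by rw [hNp]; rfl)
  have hsum : μ.sum = n := by
    rw [← hμ.finrank_eq]
    simp
  refine ⟨μ, hμ, hμp, hsum, ?_⟩
  by_contra hcon
  push Not at hcon
  have h2 : N = 0 := by
    apply LinearMap.ext
    intro v
    have := hμ.kill (L := 1) (fun a ha => by have := hcon a ha; omega) (Submodule.mem_top (x := v))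
    simpa using this
  have h3 : (g : Matrix (Fin n) (Fin n) F) - 1 = 0 := by
    apply Matrix.toLin'.injective
    rw [← hN, h2, map_zero]
  have h4 : g = 1 := by
    apply Units.ext
    rw [Units.val_one]
    exact sub_eq_zero.1 h3
  rw [h4, orderOf_one] at hg
  exact hp.out.one_lt.ne hg

theorem elements_of_type (μ : Multiset ℕ) (h0 : ∀ a ∈ μ, 0 < a ∧ a ≤ p) (hs : μ.sum = n)
    (hne : ∃ a ∈ μ, 2 ≤ a) :
    ∃ g : GL (Fin n) F, orderOf g = p ∧ HasJType (Matrix.toLin' ((g : Matrix (Fin n) (Fin n) F) - 1)) ⊤ μ := by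
  obtain ⟨x, N, hN, hx, hxp, hxs⟩ := exists_sl_of_type (F := F) (p := p) n μ h0 hs hne
  let g : GL (Fin n) F := Matrix.SpecialLinearGroup.toGL x
  have hgv : (g : Matrix (Fin n) (Fin n) F) = x := rfl
  have h1 : g ^ p = 1 := by
    have : Matrix.SpecialLinearGroup.toGL (x ^ p) = 1 := by rw [hxp, map_one]
    rwa [map_pow] at this
  have h2 : g ≠ 1 := by
    intro h
    apply hxs 1
    rw [one_smul, ← hgv, h, Units.val_one]
  refine ⟨g, orderOf_eq_prime h1 h2, ?_⟩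
  have h3 : Matrix.toLin' ((g : Matrix (Fin n) (Fin n) F) - 1) = N := by
    rw [map_sub, hgv, hx, Matrix.toLin'_one]
    have : ((1 : (Fin n → F) →ₗ[F] (Fin n → F))) = LinearMap.id := rfl
    rw [← this]
    abel
  rw [h3]
  exact hN

theorem eq_of_conj (g₁ g₂ : GL (Fin n) F) (h : IsConj g₁ g₂) {μ ν : Multiset ℕ}
    (h₁ : HasJType (Matrix.toLin' ((g₁ : Matrix (Fin n) (Fin n) F) - 1)) ⊤ μ)
    (h₂ : HasJType (Matrix.toLin' ((g₂ : Matrix (Fin n) (Fin n) F) - 1)) ⊤ ν) : μ = ν := by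
  obtain ⟨c, hc⟩ := isConj_iff.1 h
  have hc' : c * g₁ = g₂ * c := by
    rw [← hc]
    group
  have hm : (c : Matrix (Fin n) (Fin n) F) * g₁ = g₂ * c := congrArg Units.val hc'
  have hii : ((c⁻¹ : GL (Fin n) F) : Matrix (Fin n) (Fin n) F) * (c : Matrix (Fin n) (Fin n) F) = 1 := by
    rw [← Units.val_mul, inv_mul_cancel, Units.val_one]
  have hii' : (c : Matrix (Fin n) (Fin n) F) * ((c⁻¹ : GL (Fin n) F) : Matrix (Fin n) (Fin n) F) = 1 := by
    rw [← Units.val_mul, mul_inv_cancel, Units.val_one]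
  let Q : (Fin n → F) ≃ₗ[F] (Fin n → F) :=
    LinearEquiv.ofLinearMap (Matrix.toLin' (c : Matrix (Fin n) (Fin n) F))
      (Matrix.toLin' ((c⁻¹ : GL (Fin n) F) : Matrix (Fin n) (Fin n) F))
      (by rw [← Matrix.toLin'_mul, hii', Matrix.toLin'_one])
      (by rw [← Matrix.toLin'_mul, hii, Matrix.toLin'_one])
  apply type_unique h₁ h₂ Q
  change Matrix.toLin' _ ∘ₗ Matrix.toLin' _ = Matrix.toLin' _ ∘ₗ Matrix.toLin' _
  rw [← Matrix.toLin'_mul, ← Matrix.toLin'_mul]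
  congr 1
  rw [sub_mul, mul_sub, Matrix.one_mul, Matrix.mul_one, hm]

theorem conj_of_same (g₁ g₂ : GL (Fin n) F) {μ : Multiset ℕ}
    (h₁ : HasJType (Matrix.toLin' ((g₁ : Matrix (Fin n) (Fin n) F) - 1)) ⊤ μ)
    (h₂ : HasJType (Matrix.toLin' ((g₂ : Matrix (Fin n) (Fin n) F) - 1)) ⊤ μ) : IsConj g₂ g₁ := by
  obtain ⟨P, hP⟩ := conj_of_type h₁ h₂
  rw [LinearMap.toMatrix'_toLin', LinearMap.toMatrix'_toLin', sub_mul, mul_sub, Matrix.one_mul, Matrix.mul_one] at hP
  have h : (g₁ : Matrix (Fin n) (Fin n) F) * P = P * g₂ := by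
    have := sub_left_injective hP
    exact this
  rw [isConj_iff]
  refine ⟨P, ?_⟩
  rw [mul_inv_eq_iff_eq_mul]
  exact Units.ext h.symm

theorem main (n : ℕ) :
    Nat.card {C : ConjClasses (GL (Fin n) F) // ∃ g : GL (Fin n) F, ConjClasses.mk g = C ∧ orderOf g = p} =
      (Finset.univ.filter (fun μ : Nat.Partition n => ∀ a ∈ μ.parts, a ≤ p)).card - 1 := by
  classical
  -- the all-ones partition
  let ones : Nat.Partition n := ⟨Multiset.replicate n 1, by
    intro i hi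
    rw [Multiset.eq_of_mem_replicate hi]
    exact one_pos, by simp⟩
  have hones : ones ∈ Finset.univ.filter (fun μ : Nat.Partition n => ∀ a ∈ μ.parts, a ≤ p) := by
    rw [Finset.mem_filter]
    refine ⟨Finset.mem_univ _, ?_⟩
    intro a ha
    rw [Multiset.eq_of_mem_replicate ha]
    exact hp.out.one_lt.le
  have hne_ones : ∀ μ : Nat.Partition n, μ ≠ ones ↔ ∃ a ∈ μ.parts, 2 ≤ a := by
    intro μ
    constructor
    · intro h
      by_contra hcon
      push Not at hcon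
      apply h
      have h1 : ∀ a ∈ μ.parts, a = 1 := by
        intro a ha
        have h2 := hcon a ha
        have h3 := μ.parts_pos ha
        omega
      have h2 : μ.parts = Multiset.replicate (Multiset.card μ.parts) 1 := Multiset.eq_replicate_card.2 h1
      have h3 : Multiset.card μ.parts = n := by
        have h4 := μ.parts_sum
        rw [h2] at h4
        simpa using h4
      apply Nat.Partition.ext
      rw [h2, h3]
    · rintro ⟨a, ha, ha2⟩ rfl
      rw [Multiset.eq_of_mem_replicate ha] at ha2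
      omega
  let T := {μ : Nat.Partition n // (∀ a ∈ μ.parts, a ≤ p) ∧ μ ≠ ones}
  have hT : Nat.card T = (Finset.univ.filter (fun μ : Nat.Partition n => ∀ a ∈ μ.parts, a ≤ p)).card - 1 := by
    rw [← Finset.card_erase_of_mem hones, Nat.card_eq_fintype_card, Fintype.card_subtype]
    congr 1
    ext μ
    simp only [Finset.mem_filter, Finset.mem_univ, true_and, Finset.mem_erase]
    tauto
  rw [← hT]
  have hex : ∀ μ : T, ∃ g : GL (Fin n) F, orderOf g = p ∧
      HasJType (Matrix.toLin' ((g : Matrix (Fin n) (Fin n) F) - 1)) ⊤ μ.1.parts := by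
    intro μ
    exact elements_of_type μ.1.parts (fun a ha => ⟨μ.1.parts_pos ha, μ.2.1 a ha⟩) μ.1.parts_sum
      ((hne_ones μ.1).1 μ.2.2)
  choose G hG1 hG2 using hex
  let Ψ : T → {C : ConjClasses (GL (Fin n) F) // ∃ g : GL (Fin n) F, ConjClasses.mk g = C ∧ orderOf g = p} :=
    fun μ => ⟨ConjClasses.mk (G μ), G μ, rfl, hG1 μ⟩
  have hΨ : Function.Bijective Ψ := by
    constructor
    · intro μ ν h
      have h1 : ConjClasses.mk (G μ) = ConjClasses.mk (G ν) := congrArg Subtype.val h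
      have h2 := ConjClasses.mk_eq_mk_iff_isConj.1 h1
      have h3 := eq_of_conj _ _ h2 (hG2 μ) (hG2 ν)
      apply Subtype.ext
      exact Nat.Partition.ext h3
    · rintro ⟨_, g, rfl, hg⟩
      obtain ⟨μ, h1, h2, h3, h4⟩ := jtype_of_order g hg
      let ν : Nat.Partition n := ⟨μ, fun {i} hi => h1.pos i hi, h3⟩
      have hν : ν ≠ ones := (hne_ones ν).2 h4
      refine ⟨⟨ν, h2, hν⟩, ?_⟩
      apply Subtype.ext
      apply ConjClasses.mk_eq_mk_iff_isConj.2
      exact conj_of_same g _ h1 (hG2 ⟨ν, h2, hν⟩)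
  exact (Nat.card_congr (Equiv.ofBijective Ψ hΨ)).symm

end main

end Cfsg.Agent.H11.UnipCl
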