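import Cfsg.Agent.Lib.H11.Wall7
import Cfsg.Agent.Lib.H11.WallSp
import Cfsg.Agent.S0750

/-! Semisimple elements of odd order in orthogonal groups. -/

set_option autoImplicit false
set_option linter.unusedSectionVars false
set_option linter.unusedVariables false

namespace Cfsg.Agent.H11.Wall

open Polynomial Module Matrix QuadraticMap

universe u

variable {F : Type u} [Field F] [Fintype F]

section form

variable {V : Type u} [AddCommGroup V] [Module F V] [FiniteDimensional F V]

theorem polar_sf (Q : QuadraticForm F V) (hQ : (polarBilin Q).Nondegenerate) : Sf (RingHom.id F) 1 (fun x y => polar Q x y) :=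
  { rho2 := fun _ => rfl
    eps := by simp
    add_left := fun x x' y => polar_add_left Q x x' y
    smul_left := fun c x y => by
      have := polar_smul_left (Q := Q) c x y
      simpa using this
    symm := fun x y => by
      rw [polar_comm]
      simp
    nd := fun x hx => hQ.1 x hx }

variable (Q : QuadraticForm F V) (hQ : (polarBilin Q).Nondegenerate) (T : V →ₗ[F] V) (hT : ∀ x, Q (T x) = Q x)
  (N : ℕ) (hN0 : (N : F) ≠ 0) (hTN : T ^ N = 1)

omit hQ hT in
/-- the fixed space and the commutator space are disjoint -/
theorem fix_compl (hN0 : (N : F) ≠ 0) (hTN : T ^ N = 1) :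
    IsCompl (LinearMap.range (T - 1)) (LinearMap.ker (T - 1)) := by
  classical
  rw [Submodule.isCompl_iff_disjoint]
  · rw [Submodule.disjoint_def]
    rintro x ⟨w, rfl⟩ hx
    have hfix : T ((T - 1) w) = (T - 1) w := by
      have := LinearMap.mem_ker.1 hx
      simpa [sub_eq_zero] using this
    have hpow : ∀ i : ℕ, (T ^ i) ((T - 1) w) = (T - 1) w := by
      intro i
      induction i with
      | zero => simp
      | succ i ih =>
        rw [pow_succ, Module.End.mul_apply, hfix, ih]
    have hgeom : (∑ i ∈ Finset.range N, T ^ i) * (T - 1) = 0 := by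
      rw [geom_sum_mul, hTN, sub_self]
    have h1 : (∑ i ∈ Finset.range N, T ^ i) ((T - 1) w) = 0 := by
      rw [← Module.End.mul_apply, hgeom]
      rfl
    rw [LinearMap.sum_apply] at h1
    simp only [hpow, Finset.sum_const, Finset.card_range] at h1
    rw [← Nat.cast_smul_eq_nsmul F] at h1
    exact (smul_eq_zero.1 h1).resolve_left hN0
  · exact (LinearMap.finrank_range_add_finrank_ker (T - 1)).ge

include hT

omit hQ in
theorem polar_T (x y : V) : polar Q (T x) (T y) = polar Q x y := by
  simp only [polar]
  rw [← map_add, hT, hT, hT]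

include hTN hQ in
/-- the orthogonal of the commutator space is the fixed space -/
theorem perp_range (hN : 0 < N) (y : V) : (∀ u ∈ LinearMap.range (T - 1), polar Q u y = 0) ↔ y ∈ LinearMap.ker (T - 1) := by
  have hsf := polar_sf Q hQ
  have hiso := polar_T Q T hT
  constructor
  · intro h
    have h1 : (T ^ (N - 1)) y - y = 0 := by
      apply hsf.nd_right
      intro x
      have h2 := h ((T - 1) x) ⟨x, rfl⟩
      have h3 : polar Q (T x) y = polar Q x ((T ^ (N - 1)) y) := iso_adj (B := fun x y => polar Q x y) T hiso N hN hTN x y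
      rw [LinearMap.sub_apply, Module.End.one_apply] at h2
      change polar Q (T x - x) y = 0 at h2
      rw [hsf.sub_left] at h2
      rw [hsf.sub_right]
      change polar Q (T x) y - polar Q x y = 0 at h2
      change polar Q x _ - polar Q x y = 0
      rw [← h3]
      exact h2
    have h4 : T ((T ^ (N - 1)) y) = y := by
      rw [← Module.End.mul_apply, ← pow_succ', Nat.sub_add_cancel hN, hTN]
      rfl
    rw [sub_eq_zero.1 h1] at h4
    rw [LinearMap.mem_ker, LinearMap.sub_apply, h4]
    simp
  · rintro hy _ ⟨x, rfl⟩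
    have hy' : T y = y := by
      have := LinearMap.mem_ker.1 hy
      simpa [sub_eq_zero] using this
    have e : polar Q ((T - 1) x) y = polar Q (T x) (T y) - polar Q x y := by
      rw [hy']
      change polar Q (T x - x) y = _
      exact hsf.sub_left _ _ _
    rw [e, polar_T Q T hT, sub_self]

include hN0 hTN hQ in
/-- the commutator space is non-degenerate -/
theorem range_nd (hN : 0 < N) : ∀ x ∈ LinearMap.range (T - 1), (∀ y ∈ LinearMap.range (T - 1), polar Q x y = 0) → x = 0 := by
  intro x hx h
  have h1 : x ∈ LinearMap.ker (T - 1) := by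
    rw [← perp_range Q hQ T hT N hTN hN]
    intro u hu
    rw [polar_comm]
    exact h u hu
  have h2 := (fix_compl T N hN0 hTN).disjoint
  exact (Submodule.disjoint_def.1 h2) x hx h1

omit hQ hT in
theorem range_inv (x : V) (hx : x ∈ LinearMap.range (T - 1)) : T x ∈ LinearMap.range (T - 1) := by
  obtain ⟨w, rfl⟩ := hx
  refine ⟨T w, ?_⟩
  simp

omit hQ hT in
/-- `T - 1` is onto the commutator space from within -/
theorem range_surj (hN0 : (N : F) ≠ 0) (hTN : T ^ N = 1) (u : V) (hu : u ∈ LinearMap.range (T - 1)) :
    ∃ x ∈ LinearMap.range (T - 1), (T - 1) x = u := by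
  obtain ⟨w, rfl⟩ := hu
  have h : w ∈ LinearMap.range (T - 1) ⊔ LinearMap.ker (T - 1) := by
    rw [(fix_compl T N hN0 hTN).sup_eq_top]
    exact Submodule.mem_top
  obtain ⟨a, ha, b, hb, rfl⟩ := Submodule.mem_sup.1 h
  refine ⟨a, ha, ?_⟩
  rw [map_add, LinearMap.mem_ker.1 hb, add_zero]

omit hQ hT in
/-- the characteristic polynomial splits -/
theorem charpoly_split (hN0 : (N : F) ≠ 0) (hTN : T ^ N = 1) :
    T.charpoly = (T.restrict (range_inv T)).charpoly * (X - 1) ^ finrank F (LinearMap.ker (T - 1)) := by
  classical
  have hc := fix_compl T N hN0 hTN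
  have hK : ∀ x ∈ LinearMap.ker (T - 1), T x ∈ LinearMap.ker (T - 1) := by
    intro x hx
    have hx' : T x = x := by
      have := LinearMap.mem_ker.1 hx
      simpa [sub_eq_zero] using this
    rwa [hx']
  let e := Submodule.prodEquivOfIsCompl _ _ hc
  have he : ∀ a, e a = (a.1 : V) + a.2 := fun a => rfl
  have hconj : T = e.conj (LinearMap.prodMap (T.restrict (range_inv T)) (T.restrict hK)) := by
    apply LinearMap.ext
    intro x
    obtain ⟨⟨a, w⟩, rfl⟩ := e.surjective x
    rw [LinearEquiv.conj_apply]
    simp only [LinearMap.comp_apply, LinearEquiv.coe_coe, LinearEquiv.symm_apply_apply, LinearMap.prodMap_apply]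
    rw [he, he, map_add]
    rfl
  have hone : T.restrict hK = 1 := by
    apply LinearMap.ext
    intro x
    apply Subtype.ext
    have h := LinearMap.mem_ker.1 x.2
    rw [LinearMap.sub_apply, Module.End.one_apply, sub_eq_zero] at h
    exact h
  conv_lhs => rw [hconj]
  rw [LinearEquiv.charpoly_conj, LinearMap.charpoly_prodMap, hone, LinearMap.charpoly_one]

end form

section main

variable {V : Type u} [AddCommGroup V] [Module F V] [FiniteDimensional F V]

/-- semisimple isometries of odd order with the same char poly and same fixed dimension are conjugate -/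
theorem orth_conj_core (Q : QuadraticForm F V) (hQ : (polarBilin Q).Nondegenerate) (T T' : V →ₗ[F] V)
    (hT : ∀ x, Q (T x) = Q x) (hT' : ∀ x, Q (T' x) = Q x) (N : ℕ) (hodd : Odd N) (hN0 : (N : F) ≠ 0)
    (hTN : T ^ N = 1) (hTN' : T' ^ N = 1) (hchar : T.charpoly = T'.charpoly)
    (hdim : finrank F (LinearMap.ker (T - 1)) = finrank F (LinearMap.ker (T' - 1))) :
    ∃ g : V ≃ₗ[F] V, (∀ v, Q (g v) = Q v) ∧ ∀ x, g (T x) = T' (g x) := by
  classical
  have hN : 0 < N := hodd.pos
  have hsf := polar_sf Q hQ
  set M := LinearMap.range (T - 1) with hM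
  set M' := LinearMap.range (T' - 1) with hM'
  have hMnd := range_nd Q hQ T hT N hN0 hTN hN
  have hMnd' := range_nd Q hQ T' hT' N hN0 hTN' hN
  have hSf := sf_restrict hsf M hMnd
  have hSf' := sf_restrict hsf M' hMnd'
  have hfixM : ∀ (S : V →ₗ[F] V) (hS : S ^ N = 1), ∀ v ∈ LinearMap.range (S - 1), (S v = v ∨ S v = -v) → v = 0 := by
    intro S hS v hv h
    have hfix : S v = v := by
      rcases h with h | h
      · exact h
      · have hS2 : S (S v) = v := by rw [h, map_neg, h, neg_neg]
        have hpow : ∀ i : ℕ, (S ^ (2 * i + 1)) v = -v := by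
          intro i
          induction i with
          | zero => simpa using h
          | succ i ih =>
            have e : 2 * (i + 1) + 1 = 2 + (2 * i + 1) := by ring
            rw [e, pow_add, Module.End.mul_apply, ih, pow_two, Module.End.mul_apply, map_neg, map_neg, hS2]
        obtain ⟨i, hi⟩ := hodd
        have h1 := hpow i
        rw [← hi, hS] at h1
        have h2 : v = -v := h1
        rw [h]
        exact h2.symm
    have h2 : v ∈ LinearMap.ker (S - 1) := by
      rw [LinearMap.mem_ker, LinearMap.sub_apply, hfix]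
      simp
    exact Submodule.disjoint_def.1 (fix_compl S N hN0 hS).disjoint v hv h2
  have hsplit := charpoly_split T N hN0 hTN
  have hsplit' := charpoly_split T' N hN0 hTN'
  have hcharM : (T.restrict (range_inv T)).charpoly = (T'.restrict (range_inv T')).charpoly := by
    rw [hchar, hsplit', hdim] at hsplit
    have hne : (X - 1 : F[X]) ≠ 0 := by simpa using X_sub_C_ne_zero (1 : F)
    exact (mul_right_cancel₀ (pow_ne_zero _ hne) hsplit).symm
  have hpowU : ∀ (S : V →ₗ[F] V) (U : Submodule F V) (hU : ∀ x ∈ U, S x ∈ U) (m : ℕ) (x : U), (((S.restrict hU) ^ m) x : V) = (S ^ m) x := by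
    intro S U hU m x
    exact Cfsg.Agent.H10.pow_restrict_coe S hU m x
  obtain ⟨g, hgA, hgB⟩ := core (ρ := RingHom.id F) (ε := 1) (finrank F M) M M'
    (fun a b => polar Q (a : V) (b : V)) (fun a b => polar Q (a : V) (b : V)) hSf hSf'
    (T.restrict (range_inv T)) (T'.restrict (range_inv T')) N hN hN0
    (by
      apply LinearMap.ext
      intro x
      apply Subtype.ext
      rw [hpowU, hTN]
      rfl)
    (by
      apply LinearMap.ext
      intro x
      apply Subtype.ext
      rw [hpowU, hTN']
      rfl)
    (fun x y => polar_T Q T hT x y) (fun x y => polar_T Q T' hT' x y)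
    (fun _ v hv => by
      have h0 : (v : V) = 0 := hfixM T hTN v v.2 (by
        rcases hv with h | h
        · left
          exact congrArg Subtype.val h
        · right
          exact congrArg Subtype.val h)
      simp only [h0]
      exact hsf.zero_left _)
    (fun _ v hv => by
      have h0 : (v : V) = 0 := hfixM T' hTN' v v.2 (by
        rcases hv with h | h
        · left
          exact congrArg Subtype.val h
        · right
          exact congrArg Subtype.val h)
      simp only [h0]
      exact hsf.zero_left _)
    rfl hcharM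
  have hgA' : ∀ x : M, ((g (T.restrict (range_inv T) x) : M') : V) = T' (g x) := fun x => congrArg Subtype.val (hgA x)
  -- `g` preserves `Q`
  let D : M → F := fun x => Q (g x : V) - Q (x : V)
  have hDadd : ∀ x y, D (x + y) = D x + D y := by
    intro x y
    have e1 : polar Q (g x : V) (g y : V) = polar Q (x : V) (y : V) := hgB x y
    simp only [polar] at e1
    simp only [D, map_add, Submodule.coe_add]
    linear_combination e1
  have hDT : ∀ x : M, D (T.restrict (range_inv T) x) = D x := by
    intro x
    simp only [D]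
    rw [hgA', hT']
    congr 1
    exact hT _
  have hDneg : ∀ x, D (-x) = - D x := by
    intro x
    have h1 := hDadd x (-x)
    have h2 : D 0 = 0 := by simp [D]
    rw [add_neg_cancel, h2] at h1
    linear_combination -h1
  have hD0 : ∀ u : M, D u = 0 := by
    intro u
    obtain ⟨x, hx, hxu⟩ := range_surj T N hN0 hTN u u.2
    have e : u = T.restrict (range_inv T) ⟨x, hx⟩ + (-⟨x, hx⟩) := by
      apply Subtype.ext
      rw [← hxu]
      simp only [LinearMap.sub_apply, Module.End.one_apply]
      exact sub_eq_add_neg _ _
    rw [e, hDadd, hDT, hDneg, add_neg_cancel]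
  have hQg : ∀ x : M, Q (g x : V) = Q (x : V) := fun x => sub_eq_zero.1 (hD0 x)
  obtain ⟨G, hGQ, hGg⟩ := Cfsg.Agent.S0750.result Q hQ M M' g hQg
  have hGpol : ∀ u v, polar Q (G u) (G v) = polar Q u v := by
    intro u v
    simp only [polar]
    rw [← map_add, hGQ, hGQ, hGQ]
  refine ⟨G, hGQ, ?_⟩
  -- on the two summands
  have hsum : ∀ x, x ∈ M ⊔ LinearMap.ker (T - 1) := by
    intro x
    rw [(fix_compl T N hN0 hTN).sup_eq_top]
    exact Submodule.mem_top
  intro x
  obtain ⟨a, ha, b, hb, rfl⟩ := Submodule.mem_sup.1 (hsum x)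
  have h1 : G (T a) = T' (G a) := by
    have e1 := hGg ⟨a, ha⟩
    have e2 := hGg (T.restrict (range_inv T) ⟨a, ha⟩)
    have e3 : ((T.restrict (range_inv T) ⟨a, ha⟩ : M) : V) = T a := rfl
    rw [e3] at e2
    rw [e2, hgA', ← e1]
  have h2 : G (T b) = T' (G b) := by
    have hb' : T b = b := by
      have := LinearMap.mem_ker.1 hb
      simpa [sub_eq_zero] using this
    have h3 : G b ∈ LinearMap.ker (T' - 1) := by
      rw [← perp_range Q hQ T' hT' N hTN' hN]
      intro u hu
      have e1 := hGg (g.symm ⟨u, hu⟩)
      rw [LinearEquiv.apply_symm_apply] at e1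
      change polar Q u (G b) = 0
      have e2 : u = G ((g.symm ⟨u, hu⟩ : M) : V) := e1.symm
      rw [e2, hGpol]
      exact (perp_range Q hQ T hT N hTN hN b).2 hb _ (g.symm ⟨u, hu⟩).2
    have h4 : T' (G b) = G b := by
      have := LinearMap.mem_ker.1 h3
      simpa [sub_eq_zero] using this
    rw [hb', h4]
  rw [map_add, map_add, map_add, map_add, h1, h2]

end main

end Cfsg.Agent.H11.Wall
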