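import Cfsg.Agent.Lib.H11.WallO
import Cfsg.Agent.Lib.H11.Ortho

/-! Semisimple elements of odd order in orthogonal groups: the matrix statement. -/

set_option autoImplicit false
set_option linter.unusedSectionVars false
set_option linter.unusedVariables false

namespace Cfsg.Agent.H11.Wall

open Matrix

theorem orth_odd_conj {F : Type*} [Field F] [Fintype F] {p : ℕ} [Fact p.Prime] [CharP F p] {n : ℕ} (Q : QuadraticForm F (Fin n → F)) (hQ : (QuadraticMap.polarBilin Q).Nondegenerate) (A B : ↥(Cfsg.isometryGroup F ⇑Q)) (hodd : Odd (orderOf A)) (hA : (orderOf A).Coprime p) : IsConj A B ↔ IsConj ((A : Matrix.GeneralLinearGroup (Fin n) F) : Matrix (Fin n) (Fin n) F) ((B : Matrix.GeneralLinearGroup (Fin n) F) : Matrix (Fin n) (Fin n) F) := by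
  classical
  have hpP : p.Prime := Fact.out
  constructor
  · intro h
    exact MonoidHom.map_isConj ((Units.coeHom (Matrix (Fin n) (Fin n) F)).comp (Cfsg.isometryGroup F ⇑Q).subtype) h
  · rintro ⟨c, hc⟩
    set MA : Matrix (Fin n) (Fin n) F := ((A : Matrix.GeneralLinearGroup (Fin n) F) : Matrix (Fin n) (Fin n) F) with hMA
    set MB : Matrix (Fin n) (Fin n) F := ((B : Matrix.GeneralLinearGroup (Fin n) F) : Matrix (Fin n) (Fin n) F) with hMB
    have hcAB : (c : Matrix (Fin n) (Fin n) F) * MA = MB * c := hc.eq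
    have hN0 : (((orderOf A : ℕ)) : F) ≠ 0 := by
      rw [Ne, CharP.cast_eq_zero_iff F p]
      intro h1
      exact hpP.one_lt.ne' (Nat.Coprime.eq_one_of_dvd hA.symm h1)
    have hApow : MA ^ orderOf A = 1 := by
      have h3 : ((A ^ orderOf A : ↥(Cfsg.isometryGroup F ⇑Q)) : Matrix.GeneralLinearGroup (Fin n) F) = 1 := by
        rw [pow_orderOf_eq_one]
        rfl
      exact congrArg Units.val h3
    have hMBdef : MB = (c : Matrix (Fin n) (Fin n) F) * MA * (c : Matrix (Fin n) (Fin n) F)⁻¹ := by
      rw [hcAB, Matrix.mul_assoc, Matrix.mul_nonsing_inv _ ((Matrix.isUnit_iff_isUnit_det _).1 c.isUnit), Matrix.mul_one]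
    have hBpow : MB ^ orderOf A = 1 := by
      have h4 : (c : Matrix (Fin n) (Fin n) F) * MA ^ orderOf A = MB ^ orderOf A * c := (SemiconjBy.pow_right hc (orderOf A)).eq
      rw [hApow, Matrix.mul_one] at h4
      have h6 := congrArg (fun x => x * (c : Matrix (Fin n) (Fin n) F)⁻¹) h4
      simp only [Matrix.mul_assoc] at h6
      rw [Matrix.mul_nonsing_inv _ ((Matrix.isUnit_iff_isUnit_det _).1 c.isUnit), Matrix.mul_one] at h6
      exact h6.symm
    have hlinpow : ∀ (M : Matrix (Fin n) (Fin n) F) (m : ℕ), M ^ m = 1 → (Matrix.toLin' M) ^ m = 1 := by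
      intro M m h
      have h3 := (Matrix.toLinAlgEquiv' (R := F) (n := Fin n)).map_pow M m
      rw [h, map_one] at h3
      exact h3.symm
    have hdim : Module.finrank F (LinearMap.ker (Matrix.toLin' MA - 1)) = Module.finrank F (LinearMap.ker (Matrix.toLin' MB - 1)) := by
      let C : Matrix (Fin n) (Fin n) F := c
      let C' : Matrix (Fin n) (Fin n) F := ((c⁻¹ : (Matrix (Fin n) (Fin n) F)ˣ) : Matrix (Fin n) (Fin n) F)
      have hCC' : C * C' = 1 := c.mul_inv
      have hC'C : C' * C = 1 := c.inv_mul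
      let e : (Fin n → F) ≃ₗ[F] (Fin n → F) :=
        { toFun := fun x => C *ᵥ x
          invFun := fun x => C' *ᵥ x
          map_add' := Matrix.mulVec_add C
          map_smul' := fun a x => by simpa using Matrix.mulVec_smul C a x
          left_inv := fun x => by
            change C' *ᵥ (C *ᵥ x) = x
            rw [Matrix.mulVec_mulVec, hC'C, Matrix.one_mulVec]
          right_inv := fun x => by
            change C *ᵥ (C' *ᵥ x) = x
            rw [Matrix.mulVec_mulVec, hCC', Matrix.one_mulVec] }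
      have hmap : (LinearMap.ker (Matrix.toLin' MA - 1)).map (e : (Fin n → F) →ₗ[F] (Fin n → F)) = LinearMap.ker (Matrix.toLin' MB - 1) := by
        have hfix : ∀ x, (Matrix.toLin' MB - 1) (C *ᵥ x) = C *ᵥ ((Matrix.toLin' MA - 1) x) := by
          intro x
          simp only [LinearMap.sub_apply, Module.End.one_apply, Matrix.toLin'_apply, Matrix.mulVec_sub, Matrix.mulVec_mulVec]
          change _ - _ = (C * MA) *ᵥ x - _
          rw [show C * MA = MB * C from hcAB]
        ext y
        constructor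
        · rintro ⟨x, hx, rfl⟩
          change (C *ᵥ x) ∈ _
          rw [LinearMap.mem_ker, hfix, LinearMap.mem_ker.1 hx, Matrix.mulVec_zero]
        · intro hy
          refine ⟨C' *ᵥ y, ?_, ?_⟩
          · rw [SetLike.mem_coe, LinearMap.mem_ker]
            have h1 : C *ᵥ ((Matrix.toLin' MA - 1) (C' *ᵥ y)) = 0 := by
              rw [← hfix, Matrix.mulVec_mulVec, hCC', Matrix.one_mulVec]
              exact LinearMap.mem_ker.1 hy
            have h2 := congrArg (fun v => C' *ᵥ v) h1
            simp only [Matrix.mulVec_mulVec, hC'C, Matrix.one_mulVec, Matrix.mulVec_zero] at h2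
            exact h2
          · change C *ᵥ (C' *ᵥ y) = y
            rw [Matrix.mulVec_mulVec, hCC', Matrix.one_mulVec]
      rw [← hmap]
      exact (LinearEquiv.finrank_map_eq e _).symm
    obtain ⟨G, hGQ, hG⟩ := orth_conj_core Q hQ (Matrix.toLin' MA) (Matrix.toLin' MB)
      (Cfsg.Agent.H11.mem_isometryGroup_iff.1 A.2) (Cfsg.Agent.H11.mem_isometryGroup_iff.1 B.2) (orderOf A) hodd hN0
      (hlinpow _ _ hApow) (hlinpow _ _ hBpow)
      (by
        rw [charpoly_toLin_eq, charpoly_toLin_eq, hMBdef, Matrix.charpoly_units_conj])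
      hdim
    let K : Matrix (Fin n) (Fin n) F := LinearMap.toMatrix' (G : (Fin n → F) →ₗ[F] (Fin n → F))
    let K' : Matrix (Fin n) (Fin n) F := LinearMap.toMatrix' (G.symm : (Fin n → F) →ₗ[F] (Fin n → F))
    have hK : ∀ v, K *ᵥ v = G v := fun v => by
      simp [K, LinearMap.toMatrix'_mulVec]
    have hK' : ∀ v, K' *ᵥ v = G.symm v := fun v => by
      simp [K', LinearMap.toMatrix'_mulVec]
    have hext : ∀ {X Y : Matrix (Fin n) (Fin n) F}, (∀ v, X *ᵥ v = Y *ᵥ v) → X = Y := by
      intro X Y h
      apply Matrix.toLin'.injective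
      apply LinearMap.ext
      intro v
      rw [Matrix.toLin'_apply, Matrix.toLin'_apply, h]
    have hKK' : K * K' = 1 := by
      apply hext
      intro v
      rw [← Matrix.mulVec_mulVec, hK', hK, Matrix.one_mulVec]
      simp
    have hK'K : K' * K = 1 := by
      apply hext
      intro v
      rw [← Matrix.mulVec_mulVec, hK, hK', Matrix.one_mulVec]
      simp
    let kGL : Matrix.GeneralLinearGroup (Fin n) F := ⟨K, K', hKK', hK'K⟩
    have hkmem : kGL ∈ Cfsg.isometryGroup F (⇑Q) := Cfsg.Agent.H11.mem_isometryGroup_iff.2 (fun x => by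
      change Q (K *ᵥ x) = Q x
      rw [hK, hGQ])
    let k : ↥(Cfsg.isometryGroup F (⇑Q)) := ⟨kGL, hkmem⟩
    rw [isConj_iff]
    refine ⟨k, ?_⟩
    rw [mul_inv_eq_iff_eq_mul]
    apply Subtype.ext
    apply Units.ext
    change K * MA = MB * K
    apply hext
    intro v
    rw [← Matrix.mulVec_mulVec, ← Matrix.mulVec_mulVec, hK, hK]
    exact hG v

end Cfsg.Agent.H11.Wall
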